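import Mathlib
import Cfsg.Statements.S0714
import Cfsg.Agent.Perm.Multi
import Cfsg.Agent.Perm.Homog

set_option autoImplicit false
open Cfsg

namespace Cfsg.Agent.S0714


/-- Over any field, the permutation module of the alternating group of degree at least 5 has exactly four invariant subspaces: zero, the constant functions, the functions with coordinate sum zero, and everything. -/
theorem result {α : Type*} [Fintype α] [DecidableEq α] (hα : 5 ≤ Fintype.card α) {K : Type*} [Field K] (W : Subrepresentation (Cfsg.permRep K (alternatingGroup α) α)) : W.toSubmodule = ⊥ ∨ W = Cfsg.permConstants K (alternatingGroup α) α ∨ W = Cfsg.permSumZero K (alternatingGroup α) α ∨ W.toSubmodule = ⊤ := by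
  have hc : 5 ≤ Nat.card α := by rwa [Nat.card_eq_fintype_card]
  have h3 : MulAction.IsMultiplyPretransitive (alternatingGroup α) α 3 := by
    haveI := alternatingGroup.isMultiplyPretransitive α
    exact MulAction.isMultiplyPretransitive_of_le (n := Nat.card α - 2) (by omega) (by omega)
  have happ : ∀ (g : alternatingGroup α) (f : α → K) (x : α),
      Cfsg.permRep K (alternatingGroup α) α g f x = f (g⁻¹ • x) := fun _ _ _ => rfl
  by_cases hconst : ∀ f ∈ W.toSubmodule, ∀ a b, f a = f b
  · by_cases hbot : W.toSubmodule = ⊥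
    · exact Or.inl hbot
    right; left
    obtain ⟨f, hf, hf0⟩ := (Submodule.ne_bot_iff _).mp hbot
    obtain ⟨a, ha⟩ := Function.ne_iff.mp hf0
    apply Subrepresentation.toSubmodule_injective
    apply le_antisymm
    · intro v hv
      change v ∈ Submodule.span K {fun _ => (1 : K)}
      rw [Submodule.mem_span_singleton]
      exact ⟨v a, funext fun x => by simp [hconst v hv a x]⟩
    · change Submodule.span K {fun _ => (1 : K)} ≤ _
      rw [Submodule.span_le, Set.singleton_subset_iff]
      have := W.toSubmodule.smul_mem (f a)⁻¹ hf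
      have e : (fun _ => (1 : K)) = (f a)⁻¹ • f := by
        ext x
        have ha' : f a ≠ 0 := ha
        simp [hconst f hf x a, ha']
      rw [e]; exact this
  right; right
  push Not at hconst
  obtain ⟨f, hf, a, b, hab⟩ := hconst
  have hab' : a ≠ b := fun h => hab (h ▸ rfl)
  obtain ⟨c, hca, hcb⟩ := Perm.exists_ne_ne (by omega) a b
  obtain ⟨d, hda, hdb, hdc⟩ := Perm.exists_ne_ne_ne (by omega) a b c
  obtain ⟨e, he⟩ := Perm.exists_notMem_of_card_lt ({a, b, c, d} : Finset α)
    (lt_of_le_of_lt Finset.card_le_four (by omega))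
  simp only [Finset.mem_insert, Finset.mem_singleton, not_or] at he
  obtain ⟨hea, heb, hec, hed⟩ := he
  let g : alternatingGroup α := ⟨Equiv.swap a c * Equiv.swap a b,
    (Equiv.Perm.isThreeCycle_swap_mul_swap_same hca.symm hab' hcb).mem_alternatingGroup⟩
  let s : alternatingGroup α := ⟨Equiv.swap d e * Equiv.swap d a,
    (Equiv.Perm.isThreeCycle_swap_mul_swap_same (Ne.symm hed) hda hea).mem_alternatingGroup⟩
  have hu := W.toSubmodule.sub_mem hf (W.apply_mem_toSubmodule g⁻¹ hf)
  have hv := W.toSubmodule.sub_mem hu (W.apply_mem_toSubmodule s⁻¹ hu)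
  have hv' := W.toSubmodule.smul_mem (f a - f b)⁻¹ hv
  have hne : f a - f b ≠ 0 := sub_ne_zero.mpr hab
  have had : (Pi.single a 1 - Pi.single d 1 : α → K) ∈ W.toSubmodule := by
    convert hv' using 1
    ext x
    simp only [Pi.smul_apply, Pi.sub_apply, happ, inv_inv, map_sub, smul_eq_mul]
    rw [eq_inv_mul_iff_mul_eq₀ hne]
    change _ = f x - f ((Equiv.swap a c * Equiv.swap a b) x) - (f ((Equiv.swap d e * Equiv.swap d a) x)
      - f ((Equiv.swap a c * Equiv.swap a b) ((Equiv.swap d e * Equiv.swap d a) x)))
    simp only [Equiv.Perm.mul_apply, Equiv.swap_apply_def, Pi.single_apply]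
    by_cases h1 : x = a
    · subst h1; simp [*, Ne.symm]
    by_cases h2 : x = b
    · subst h2; simp [*, Ne.symm]
    by_cases h3 : x = c
    · subst h3; simp [*, Ne.symm]
    by_cases h4 : x = d
    · subst h4; simp [*, Ne.symm]
    by_cases h5 : x = e
    · subst h5; simp [*, Ne.symm]
    simp [*]
  have hall : ∀ x, (Pi.single x 1 - Pi.single a 1 : α → K) ∈ W.toSubmodule := by
    intro x
    by_cases hx : x = a
    · simp [hx]
    have h2 : MulAction.IsMultiplyPretransitive (alternatingGroup α) α 2 :=
      MulAction.isMultiplyPretransitive_of_le (n := 3) (by omega) (by omega)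
    obtain ⟨k, hk, hk'⟩ := Perm.two_trans h2 hda.symm hx
    convert W.apply_mem_toSubmodule k had using 1
    ext y
    simp only [happ, Pi.sub_apply, Pi.single_apply, inv_smul_eq_iff, hk, hk']
  have hdec : ∀ v : α → K, v = ∑ x, v x • (Pi.single x 1 - Pi.single a 1 : α → K) +
      (∑ x, v x) • (Pi.single a 1 : α → K) := by
    intro v
    simp only [smul_sub, Finset.sum_sub_distrib, ← Finset.sum_smul, sub_add_cancel]
    ext y
    simp [Finset.sum_apply, Pi.single_apply]
  have hsum : ∀ v : α → K, ∑ x, v x • (Pi.single x 1 - Pi.single a 1 : α → K) ∈ W.toSubmodule :=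
    fun v => Submodule.sum_mem _ fun x _ => W.toSubmodule.smul_mem _ (hall x)
  by_cases hz : ∀ w ∈ W.toSubmodule, ∑ x, w x = 0
  · left
    apply Subrepresentation.toSubmodule_injective
    apply le_antisymm
    · exact hz
    · intro v hv
      have hv0 : ∑ x, v x = 0 := hv
      rw [hdec v, hv0, zero_smul, add_zero]
      exact hsum v
  · right
    push Not at hz
    obtain ⟨w, hw, hw0⟩ := hz
    have h1 : (Pi.single a 1 : α → K) ∈ W.toSubmodule := by
      rw [hdec w, Submodule.add_mem_iff_right _ (hsum w)] at hw
      exact (Submodule.smul_mem_iff _ hw0).mp hw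
    rw [eq_top_iff]
    intro v _
    rw [hdec v]
    exact W.toSubmodule.add_mem (hsum v) (W.toSubmodule.smul_mem _ h1)

end Cfsg.Agent.S0714
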