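import Mathlib
import Cfsg.Statements.S4717
import Cfsg.Agent.Block.Nilp

set_option autoImplicit false
open Cfsg

namespace Cfsg.Agent.S4717

open Cfsg.Agent.Block Cfsg.Agent.Char Subgroup

/-- Let p be a prime, M a maximal ideal of the algebraic integers containing p, and r a natural number; say that a finite group X has deficiency class r when X has no non-principal p-block of defect ≥ r. If G has deficiency class r then so does the centralizer of every p-element of G; conversely, if r > 0 and the centralizer of every element of order p has deficiency class r, then G has deficiency class r. -/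
theorem result {G : Type*} [Group G] [Finite G] (p : ℕ) [Fact p.Prime] (M : Ideal Cfsg.AlgInt) (hM : Cfsg.IsPModular p M) (r : ℕ) : ((∀ B' : Set (Cfsg.IrrCharacter G), Cfsg.IsPBlock M B' → B' ≠ Cfsg.principalBlock M G → Cfsg.blockDefect p B' < r) → ∀ y : G, (∃ k : ℕ, orderOf y = p ^ k) → (∀ B' : Set (Cfsg.IrrCharacter ↥(Subgroup.centralizer ({y} : Set G))), Cfsg.IsPBlock M B' → B' ≠ Cfsg.principalBlock M ↥(Subgroup.centralizer ({y} : Set G)) → Cfsg.blockDefect p B' < r)) ∧ (0 < r → (∀ y : G, orderOf y = p → (∀ B' : Set (Cfsg.IrrCharacter ↥(Subgroup.centralizer ({y} : Set G))), Cfsg.IsPBlock M B' → B' ≠ Cfsg.principalBlock M ↥(Subgroup.centralizer ({y} : Set G)) → Cfsg.blockDefect p B' < r)) → (∀ B' : Set (Cfsg.IrrCharacter G), Cfsg.IsPBlock M B' → B' ≠ Cfsg.principalBlock M G → Cfsg.blockDefect p B' < r)) := by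
  refine ⟨fun h y hy b hb hne => ?_, fun hr h B hB hne => ?_⟩
  · obtain ⟨B, hB⟩ := exists_induced_centralizer_singleton hM hy hb
    refine lt_of_le_of_lt ?_ (h B (induced_right hB) fun e => hne ?_)
    · obtain ⟨D, hD⟩ := exists_isDefectGroup hM hb
      obtain ⟨E, hE⟩ := exists_isDefectGroup hM (induced_right hB)
      have := card_defect_le_of_induced hM hB hD hE
      rwa [card_defectGroup hM hb hD, card_defectGroup hM (induced_right hB) hE,
        Nat.pow_le_pow_iff_right hM.1.one_lt] at this
    · exact eq_principal_of_induced hM (e ▸ hB)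
  · by_contra! hle
    obtain ⟨d, hd⟩ := exists_isMaxBP' hM hB
    have hc := card_defectGroup hM hB (hd.defect hM)
    have : Nontrivial d.1 := Finite.one_lt_card_iff_nontrivial.1
      (hc ▸ Nat.one_lt_pow (by omega) hM.1.one_lt)
    have := hd.bp.1.center_nontrivial
    obtain ⟨z, hz⟩ := exists_prime_orderOf_dvd_card' (G := center d.1) p
      ((hd.bp.1.to_subgroup _).card_eq_or_dvd.resolve_left Finite.one_lt_card.ne')
    have hzc : (z.1 : G) ∈ centralizer (d.1 : Set G) := fun g hg =>
      congrArg Subtype.val (mem_center_iff.1 z.2 ⟨g, hg⟩)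
    have h1 := hd.blockDefect_subAt_of_central hM z.1.2 hzc
    have h2 := subAt_isBPOf hM hd.of z.1.2
    have h3 := (subAt_spec hM hd.bp z.1.2).1
    have h4 := h z.1 (by rwa [orderOf_coe, orderOf_coe])
    generalize (subAt p M d z.1).a = a at h1 h2 h3
    obtain ⟨Q, f⟩ := a
    obtain rfl : Q = zpowers (z.1 : G) := h3
    rw [← centralizer_zpowers] at h4
    have h5 := h4 f h2.bp.2 fun e => hne (h2.unique hM ((isBPOf_principal_iff hM h2.bp).2 e))
    exact absurd (h1 ▸ h5) (not_lt.2 hle)

end Cfsg.Agent.S4717
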