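import Mathlib
import Cfsg.Statements.S0718
import Cfsg.Agent.Char.Expand

set_option autoImplicit false
open Cfsg

namespace Cfsg.Agent.S0718

open Module Representation

variable {G : Type*} [Group G] [Fintype G] {V : Type*} [AddCommGroup V] [Module ℂ V] [FiniteDimensional ℂ V]

theorem char_perm {Ω : Type*} [Fintype Ω] [MulAction G Ω] :
    (Cfsg.permRep ℂ G Ω).character = fun g => (Nat.card (MulAction.fixedBy Ω g) : ℂ) := by
  classical
  funext g
  rw [Representation.character, LinearMap.trace_eq_matrix_trace ℂ (Pi.basisFun ℂ Ω), Matrix.trace,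
    Nat.card_eq_fintype_card, Fintype.card_subtype, Finset.card_filter]
  push_cast
  refine Finset.sum_congr rfl fun x _ => ?_
  simp only [Matrix.diag_apply, LinearMap.toMatrix_apply, Pi.basisFun_apply, Pi.basisFun_repr]
  change (Pi.single x (1 : ℂ) : Ω → ℂ) (g⁻¹ • x) = _
  rw [Pi.single_apply]
  exact if_congr (by rw [MulAction.mem_fixedBy, inv_smul_eq_iff, eq_comm]) rfl rfl

theorem comm_of (ρ : Representation ℂ G V)
    (h : ∀ χ, IsIrrCharacter G χ → classInner ρ.character χ = 0 ∨ classInner ρ.character χ = 1)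
    (S T : ρ.IntertwiningMap ρ) : S.comp T = T.comp S := by
  rw [← sub_eq_zero]
  set D := S.comp T - T.comp S with hD
  obtain ⟨W, hW⟩ := Char.exists_isCompl D.ker
  by_contra h0
  have hW0 : W.toRepresentation.character ≠ 0 := fun e => h0 (by
    have e1 := congrFun e 1
    rw [Representation.char_one, Pi.zero_apply, Nat.cast_eq_zero, Submodule.finrank_eq_zero] at e1
    rw [e1] at hW
    ext v
    have : v ∈ D.ker.toSubmodule := by rw [eq_top_of_isCompl_bot hW]; trivial
    exact this)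
  obtain ⟨χ, ⟨n, σ, hσ, rfl⟩, h1⟩ := Char.exists_irr_inner_ne_zero (Char.isChar_classFun (Char.isChar_character _)) hW0
  rw [Char.classInner_character, Nat.cast_ne_zero] at h1
  obtain ⟨f, hf⟩ := finrank_pos_iff_exists_ne_zero.mp (Nat.pos_of_ne_zero h1)
  let ι : W.toRepresentation.IntertwiningMap ρ := ⟨W.toSubmodule.subtype, fun g => rfl⟩
  have hf' : ι.comp f ≠ 0 := fun e => hf (by
    refine DFunLike.ext _ _ fun v => ?_
    exact Subtype.ext (congrArg (fun F : σ.IntertwiningMap ρ => F v) e))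
  have h2 : finrank ℂ (σ.IntertwiningMap ρ) ≤ 1 := by
    have := h _ ⟨n, σ, hσ, rfl⟩
    rw [Char.classInner_character] at this
    norm_cast at this
    omega
  have h3 := finrank_eq_one_iff_of_nonzero' _ hf' |>.mp
    (le_antisymm h2 (finrank_pos_iff_exists_ne_zero.mpr ⟨_, hf'⟩))
  obtain ⟨a, ha⟩ := h3 (S.comp (ι.comp f))
  obtain ⟨b, hb⟩ := h3 (T.comp (ι.comp f))
  refine hf' (DFunLike.ext _ _ fun v => ?_)
  have e1 : S (ι (f v)) = a • ι (f v) := (congrArg (fun F : σ.IntertwiningMap ρ => F v) ha).symm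
  have e2 : T (ι (f v)) = b • ι (f v) := (congrArg (fun F : σ.IntertwiningMap ρ => F v) hb).symm
  have e3 : ι (f v) ∈ D.ker.toSubmodule := by
    change S (T (ι (f v))) - T (S (ι (f v))) = 0
    rw [e1, e2, map_smul, map_smul, e1, e2, smul_comm, sub_self]
  exact (Submodule.disjoint_def.mp hW.disjoint) _ e3 (f v).2

theorem of_comm (ρ : Representation ℂ G V) (h : ∀ S T : ρ.IntertwiningMap ρ, S.comp T = T.comp S)
    {χ : G → ℂ} (hχ : IsIrrCharacter G χ) : classInner ρ.character χ = 0 ∨ classInner ρ.character χ = 1 := by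
  obtain ⟨n, σ, hσ, rfl⟩ := hχ
  rw [Char.classInner_character]
  norm_cast
  by_cases h0 : finrank ℂ (σ.IntertwiningMap ρ) = 0
  · exact Or.inl h0
  right
  obtain ⟨f, hf⟩ := finrank_pos_iff_exists_ne_zero.mp (Nat.pos_of_ne_zero h0)
  refine (finrank_eq_one_iff_of_nonzero' _ hf).mpr fun f' => ?_
  have := Char.neZero_card (G := G)
  obtain ⟨p, hp⟩ := MonoidAlgebra.exists_leftInverse_of_injective (IntertwiningMap.equivLinearMapAsModule σ ρ f)
    (LinearMap.ker_eq_bot.mpr ((IsIrreducible.injective_or_eq_zero f).resolve_right hf))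
  let q := (IntertwiningMap.equivLinearMapAsModule ρ σ).symm p
  have hq : ∀ v, q (f v) = v := fun v => LinearMap.congr_fun hp v
  obtain ⟨c, hc⟩ := Char.exists_eq_smul_of_comm σ (q.comp f').toLinearMap (q.comp f').isIntertwining'
  refine ⟨c, DFunLike.ext _ _ fun v => ?_⟩
  have e1 : f (q (f' (q (f v)))) = f' (q (f (q (f v)))) :=
    congrArg (fun F : ρ.IntertwiningMap ρ => F (f v)) (h (f.comp q) (f'.comp q))
  have e2 : q (f' v) = c • v := LinearMap.congr_fun hc v
  rw [hq, hq, e2, map_smul] at e1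
  exact e1

/-- Multiplicity-freeness of the permutation character is equivalent to commutativity of the centraliser ring, i.e. of the algebra of `G`-equivariant endomorphisms of the complex permutation module. -/
theorem result {G : Type*} [Group G] [Fintype G] {Ω : Type*} [Fintype Ω] [MulAction G Ω] : (∀ χ : G → ℂ, Cfsg.IsIrrCharacter G χ → Cfsg.classInner (fun g : G => (Nat.card (MulAction.fixedBy Ω g) : ℂ)) χ = 0 ∨ Cfsg.classInner (fun g : G => (Nat.card (MulAction.fixedBy Ω g) : ℂ)) χ = 1) ↔ ∀ S T : (Ω → ℂ) →ₗ[ℂ] (Ω → ℂ), S ∈ ((Cfsg.permRep ℂ G Ω).linHom (Cfsg.permRep ℂ G Ω)).invariants → T ∈ ((Cfsg.permRep ℂ G Ω).linHom (Cfsg.permRep ℂ G Ω)).invariants → S ∘ₗ T = T ∘ₗ S := by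
  rw [← char_perm]
  refine ⟨fun h S T hS hT => ?_, fun h χ hχ => of_comm _ (fun S T => ?_) hχ⟩
  · exact congrArg IntertwiningMap.toLinearMap (comm_of _ h (invariantsEquivIntertwiningMap _ _ ⟨S, hS⟩)
      (invariantsEquivIntertwiningMap _ _ ⟨T, hT⟩))
  · exact IntertwiningMap.ext (h _ _ ((invariantsEquivIntertwiningMap _ _).symm S).2
      ((invariantsEquivIntertwiningMap _ _).symm T).2)

end Cfsg.Agent.S0718
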