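import Mathlib
import Cfsg.Statements.S2437
import Cfsg.Agent.GL2.Torus

set_option autoImplicit false
open Cfsg

namespace Cfsg.Agent.S2437

open Finset in
theorem aux {F : Type*} [Field F] [Fintype F] [DecidableEq F] (u v : F) :
    (∑ c : F, ∑ d : F, if d * u = c * v then 1 else 0) =
      Fintype.card F + if u = 0 ∧ v = 0 then Fintype.card F * (Fintype.card F - 1) else 0 := by
  by_cases hu : u = 0
  · by_cases hv : v = 0
    · simp [hu, hv, Nat.mul_sub_one, Nat.le_mul_self]
    · simp [hu, hv]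
  · simp [hu, ← eq_div_iff hu]

/-- Over a finite field F with q elements, q odd, the upper triangular subgroup of SL₂ (a Borel subgroup, of order q(q − 1)) has exactly q + 3 conjugacy classes. -/
theorem result {F : Type*} [Field F] [Fintype F] (hodd : Odd (Fintype.card F)) :
    Nat.card (ConjClasses ((Cfsg.upperTriangularGL 2 F).comap Matrix.SpecialLinearGroup.toGL)) = Fintype.card F + 3 := by
  classical
  have h2 := Classical.SL2Basic.two_ne_zero_of_odd hodd
  set B := (Cfsg.upperTriangularGL 2 F).comap Matrix.SpecialLinearGroup.toGL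
  let f : Fˣ × F → B := fun p => ⟨⟨!![(p.1 : F), p.2; 0, (p.1 : F)⁻¹], by simp⟩, GL2.mem_B.2 rfl⟩
  have hf : Function.Bijective f := ⟨fun p p' e => Prod.ext (Units.ext (congrArg (·.1.1 0 0) e))
    (congrArg (·.1.1 0 1) e), fun x => by
      have h1 : x.1.1 1 0 = 0 := GL2.mem_B.1 x.2
      refine ⟨(Units.mk0 _ (left_ne_zero_of_mul_eq_one (GL2.det_up_SL h1)), x.1.1 0 1), Subtype.ext ?_⟩
      apply Classical.SL2Basic.sl2_ext <;> simp [f, h1, eq_inv_of_mul_eq_one_right (GL2.det_up_SL h1)]⟩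
  have h1 : ∀ p p', f p * f p' = f p' * f p ↔
      p'.2 * ((p.1 : F) - (p.1 : F)⁻¹) = p.2 * ((p'.1 : F) - (p'.1 : F)⁻¹) := by
    intro p p'
    refine (Subtype.ext_iff.trans Subtype.ext_iff).trans (?_ : !![(p.1 : F), p.2; 0, (p.1 : F)⁻¹] *
      !![(p'.1 : F), p'.2; 0, (p'.1 : F)⁻¹] = !![(p'.1 : F), p'.2; 0, (p'.1 : F)⁻¹] *
      !![(p.1 : F), p.2; 0, (p.1 : F)⁻¹] ↔ _)
    simp [mul_comm]
    constructor <;> intro e <;> linear_combination e
  have h3 := GL2.card_classes_eq B
  have h4 : (∑ x : Fˣ, if (x : F) - (x : F)⁻¹ = 0 then 1 else 0) = 2 := by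
    rw [← GL2.nr_odd h2, GL2.nr, ← GL2.card_sq_units, Nat.card_eq_fintype_card, Fintype.card_subtype,
      Finset.card_filter]
    simp [sub_eq_zero, sq, mul_eq_one_iff_eq_inv, Units.ext_iff]
  rw [← Nat.card_eq_of_bijective f hf, Nat.card_prod, Nat.card_units, Nat.card_eq_fintype_card (α := F)] at h3
  simp only [← hf.sum_comp, Fintype.sum_prod_type, h1] at h3
  rw [Finset.sum_congr rfl fun x _ => Finset.sum_comm] at h3
  simp only [aux, ite_and, Finset.sum_add_distrib, Finset.sum_ite_irrel, Finset.sum_const_zero,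
    ← boole_mul _ (_ * _), ← Finset.sum_mul, h4, ← boole_mul _ 2, Finset.sum_const,
    Finset.card_univ, Fintype.card_units, smul_eq_mul] at h3
  have := Fintype.one_lt_card (α := F)
  refine Nat.eq_of_mul_eq_mul_right (Nat.mul_pos (show 0 < Fintype.card F - 1 by omega) (by omega)) (h3.trans ?_)
  obtain ⟨k, hk⟩ : ∃ k, Fintype.card F = k + 1 := ⟨Fintype.card F - 1, by omega⟩
  simp [hk]; ring

end Cfsg.Agent.S2437
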