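import Mathlib
import Cfsg.Statements.S0414
import Cfsg.Agent.Golay.CanonAut

set_option autoImplicit false
open Cfsg

namespace Cfsg.Agent.S0414

open Cfsg.Agent.Golay

/-- Aut of an S(3, 6, 22) has order 887040, is 3-transitive, and contains a simple subgroup of index 2. -/
theorem result {α : Type*} [Fintype α] [DecidableEq α] (hα : Fintype.card α = 22) {B : Set (Finset α)} (hB : Cfsg.IsSteinerSystem 3 6 B) : Nat.card (Cfsg.setSystemAut B) = 887040 ∧ MulAction.IsMultiplyPretransitive (Cfsg.setSystemAut B) α 3 ∧ ∃ H : Subgroup (Cfsg.setSystemAut B), H.index = 2 ∧ Cfsg.IsM22 H := by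
  obtain ⟨f, h⟩ := canon22 hα hB
  obtain ⟨e, he⟩ := h.aut22
  have := simple_M22
  have h1 : ∀ x, x ∉ um 8388609 → x ∈ um 8388606 := by decide +kernel
  have h2 : Nat.card (Cfsg.setSystemAut B) = 887040 :=
    (Nat.card_congr e.symm.toEquiv).trans card_M22ext
  have e' := ((Subgroup.subgroupOfEquivOfLe M22_le_ext).symm.trans
    (e.subgroupMap (Spor.M22.subgroupOf M22ext))).symm
  have h3 := (Nat.card_congr e'.toEquiv).trans card_M22
  refine ⟨h2, h.trans_of he fun x y hx hy => ?_, _, ?_, e'.isSimpleGroup, h3⟩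
  · obtain ⟨g, hg, h4⟩ := exists_emb_of_chain in_gensM22 (chainM22.take 3)
      (mk_um (by norm_num)) (fun g hg _ ha => mem_of_smul_eq (smul_M22 g hg) ha) rfl (by decide)
      (by decide +kernel) x y (fun i => h1 _ (hx i).2) fun i => h1 _ (hy i).2
    exact ⟨g, M22_le_ext hg, h4⟩
  · have := Subgroup.card_mul_index ((Spor.M22.subgroupOf M22ext).map (e : M22ext →* Cfsg.setSystemAut B))
    rw [h2, h3] at this
    omega

end Cfsg.Agent.S0414
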