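import Mathlib
import Cfsg.Statements.S2566
import Cfsg.Agent.Orth.Exc3
import Cfsg.Agent.Classical.PSL2Basic
-- import your own Cfsg.Agent.* helpers here

set_option autoImplicit false
open Cfsg

namespace Cfsg.Agent.S2566

set_option backward.isDefEq.respectTransparency false

open Orth Classical Module QuadraticMap Matrix MatrixGroups

theorem aux {G H : Type*} [Group G] [Group H] (e : H ≃* Equiv.Perm (Fin 3)) (φ : H × H →* G)
    (hφ : Function.Injective φ) (hc : Nat.card G = 72) (t : G)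
    (hs : ∀ a, t * φ (a, 1) = φ (1, a) * t) : ∃ A B : Subgroup G,
      Nonempty (A ≃* Equiv.Perm (Fin 3)) ∧ Nonempty (B ≃* Equiv.Perm (Fin 3)) ∧ A ⊓ B = ⊥ ∧
      (∀ a ∈ A, ∀ b ∈ B, a * b = b * a) ∧ (A ⊔ B).index = 2 ∧
      ∃ g : G, A.map (MulAut.conj g).toMonoidHom = B := by
  simp only [← mul_inv_eq_iff_eq_mul] at hs
  refine ⟨(φ.comp (MonoidHom.inl _ _)).range, (φ.comp (MonoidHom.inr _ _)).range,
    ⟨(MonoidHom.ofInjective (f := φ.comp (MonoidHom.inl _ _)) fun _ _ h =>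
      (Prod.mk.inj (hφ h)).1).symm.trans e⟩,
    ⟨(MonoidHom.ofInjective (f := φ.comp (MonoidHom.inr _ _)) fun _ _ h =>
      (Prod.mk.inj (hφ h)).2).symm.trans e⟩, ?_, ?_, ?_,
    t, ?_⟩
  · rw [eq_bot_iff]
    rintro _ ⟨⟨a, rfl⟩, b, hb⟩
    obtain rfl : 1 = a := congrArg Prod.fst (hφ hb)
    exact map_one _
  · rintro _ ⟨a, rfl⟩ _ ⟨b, rfl⟩
    simp [← map_mul]
  · have h1 : (φ.comp (MonoidHom.inl _ _)).range ⊔ (φ.comp (MonoidHom.inr _ _)).range = φ.range := by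
      rw [MonoidHom.range_comp, MonoidHom.range_comp, ← Subgroup.map_sup, MonoidHom.range_eq_map φ]
      congr 1
      rw [eq_top_iff]
      rintro ⟨a, b⟩ -
      simpa using Subgroup.mul_mem_sup (S := (MonoidHom.inl H H).range)
        (T := (MonoidHom.inr H H).range) ⟨a, rfl⟩ ⟨b, rfl⟩
    have h2 := φ.range.index_mul_card
    rw [hc, ← Nat.card_congr (MonoidHom.ofInjective hφ).toEquiv, Nat.card_prod,
      Nat.card_congr e.toEquiv, Nat.card_perm, Nat.card_fin] at h2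
    rw [h1]
    change _ * 36 = 72 at h2
    omega
  · ext x
    constructor
    · rintro ⟨_, ⟨a, rfl⟩, rfl⟩
      exact ⟨a, (hs a).symm⟩
    · rintro ⟨a, rfl⟩
      exact ⟨_, ⟨a, rfl⟩, hs a⟩

theorem aux2 {F : Type*} [Field F] (h2 : (2 : F) = 0) :
    ∃ (ρ : SL(2, F) × SL(2, F) →* OG (plusQ 2 F)) (t : OG (plusQ 2 F)),
      Function.Injective ρ ∧ ∀ a, t * ρ (a, 1) = ρ (1, a) * t := by
  let ρ : SL(2, F) × SL(2, F) →* OG (plusQ 2 F) :=
    ofRep ((ten F).comp ((slVal _ F).prodMap (slVal _ F))) fun g v => by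
      exact (plusQ_ten g.1.1 g.2.1 v).trans (by rw [g.1.2, g.2.2]; simp)
  have hρ : ∀ g v, m2E F ((ρ g).1 v) = g.1.1 * m2E F v * g.2.1ᵀ := fun g v =>
    m2E_ten g.1.1 g.2.1 v
  let τ' := (m2E F).trans ((transposeLinearEquiv (Fin 2) (Fin 2) F F).trans (m2E F).symm)
  have hτ' : ∀ v, m2E F (τ' v) = (m2E F v)ᵀ := fun v => (m2E _).apply_symm_apply _
  let τ : OG (plusQ 2 F) := ⟨τ', fun v => by rw [← det_m2E, ← det_m2E, hτ', det_transpose]⟩
  have hτ : ∀ v, m2E F (τ.1 v) = (m2E F v)ᵀ := hτ'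
  refine ⟨ρ, τ, (injective_iff_map_eq_one _).2 fun g hg => ?_,
    fun a => OG.ext fun v => (m2E _).injective (by simp [hτ, hρ])⟩
  have := ten_eq_one g.1.2 (ofRep_eq_one hg)
  rw [neg_one_mat h2, or_self] at this
  exact Prod.ext (Subtype.ext this.1) (Subtype.ext this.2)

/-- The full orthogonal group of the plus-type form x₁y₁ + x₂y₂ in dimension 4 over the field of two elements has order 72 and is isomorphic to the wreath product of the symmetric group of degree 3 by a group of order 2: it has a normal subgroup isomorphic to the direct product of two symmetric groups of degree 3, of index 2, whose two direct factors are interchanged by conjugation by some element. -/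
theorem result :
    Nat.card ↥(Cfsg.isometryGroup (ZMod 2) (Cfsg.quadFormPlus 2 (ZMod 2))) = 72 ∧
    ∃ (A B : Subgroup ↥(Cfsg.isometryGroup (ZMod 2) (Cfsg.quadFormPlus 2 (ZMod 2)))),
      Nonempty (↥A ≃* Equiv.Perm (Fin 3)) ∧ Nonempty (↥B ≃* Equiv.Perm (Fin 3)) ∧ A ⊓ B = ⊥ ∧ (∀ a ∈ A, ∀ b ∈ B, a * b = b * a) ∧
      (A ⊔ B).index = 2 ∧ ∃ g : ↥(Cfsg.isometryGroup (ZMod 2) (Cfsg.quadFormPlus 2 (ZMod 2))), A.map (MulAut.conj g).toMonoidHom = B := by
  have hc : Nat.card (Cfsg.isometryGroup (ZMod 2) ⇑(plusQ 2 (ZMod 2))) = 72 := by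
    rw [Nat.card_congr (toOG _).toEquiv, card_OG_plusQ, Nat.card_zmod]; decide
  obtain ⟨ρ, t, hρ, ht⟩ := aux2 (F := ZMod 2) rfl
  obtain ⟨e⟩ := PSL2Basic.psl_equiv_S3 (F := ZMod 2) (by simp)
  exact ⟨hc, aux ((PSL2Basic.slEquivPSL (F := ZMod 2) rfl).trans e)
    ((toOG (plusQ 2 _)).symm.toMonoidHom.comp ρ) ((toOG _).symm.injective.comp hρ) hc
    ((toOG _).symm t) fun a => (map_mul _ _ _).symm.trans
      ((congrArg _ (ht a)).trans (map_mul (toOG (plusQ 2 _)).symm _ _))⟩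

end Cfsg.Agent.S2566
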