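import Mathlib
import Cfsg.Statements.S0874
import Cfsg.Agent.Isaacs.Ch8
-- import your own Cfsg.Agent.* helpers here

set_option autoImplicit false
open Cfsg

namespace Cfsg.Agent.S0874

open Cfsg.Agent.Char Cfsg.Agent.Isaacs Subgroup

/-- For a finite group G and a prime p there are an integer m not divisible by p and a list of triples (E, φ, c), with E a p-elementary subgroup, φ a character of E and c an integer, such that the constant function m on G equals the sum of the c • (function induced from φ). -/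
theorem result {G : Type*} [Group G] [Fintype G] (p : ℕ) (hp : p.Prime) : ∃ (m : ℤ) (l : List ((E : Subgroup G) × ((E → ℂ) × ℤ))), ¬ (p : ℤ) ∣ m ∧ (∀ t ∈ l, Cfsg.IsElementary p t.1 ∧ Cfsg.IsCharacter t.1 t.2.1) ∧ (fun _ : G => (m : ℂ)) = (l.map fun t => (t.2.2 : ℂ) • Cfsg.indFun t.1 t.2.1).sum := by
  obtain ⟨a, m, h1, h2⟩ := Nat.exists_eq_pow_mul_and_not_dvd (Nat.card_pos (α := G)).ne' p hp.ne_one
  obtain ⟨M, hM⟩ := Block.exists_isPModular hp
  let F := fun t : (E : Subgroup G) × (E → ℂ) => indFun t.1 t.2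
  let P := fun t : (E : Subgroup G) × (E → ℂ) => IsElementary p t.1 ∧ IsCharacter t.1 t.2
  obtain ⟨l, h3, h4⟩ := mem_of_inner_int (listSpan P F) (isGenChar_intCast (G := G) m) fun θ h5 h6 h7 => by
    have h8 : ∀ E : Subgroup G, IsElementary p E → Gen E θ := fun E hE =>
      (inv_of_cf h5).gen_of fun η hη => by
        obtain ⟨n, hn⟩ := h7 _ (mem_listSpan F (t := ⟨E, fun x => η x⟩) ⟨hE, hη.chr⟩)
          (IndRep.isGenChar_indFun E hη.gen)
        change classInner (indFun E fun x => η x) θ = n at hn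
        rw [← ind_top, ← inn_top, inn_ind_left le_top (inv_of_cf h5)] at hn
        exact ⟨n, by rw [← inn_conj, hn, map_intCast]⟩
    have h9 := Block.inner_mem_V_of_mem_VC (Block.mem_VC_of_elementary hM h5 fun E hE =>
      Block.isGenChar_mem_VC (h8 E hE)) isChar_one
    obtain ⟨q, hq⟩ := h6 _ isGenChar_one
    have h10 : IsIntegral ℤ ((Nat.card G * q : ℚ) : ℂ) := by
      rw [Rat.cast_mul, Rat.cast_natCast, ← hq, classInner, mul_inv_cancel_left₀ card_ne_zero]
      exact IsIntegral.sum _ fun g _ => isIntegral_one.mul (isIntegral_conj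
        ((h8 _ (Block.isElementary_zpowers hp g)).isIntegral (mem_zpowers g)))
    obtain ⟨n, hn⟩ := GaloisAut.exists_int_of_isIntegral_rat h10
    rw [← classInner_conj_symm, hq, map_ratCast, Block.mem_V_iff] at h9
    rw [show (fun _ : G => ((m : ℤ) : ℂ)) = (m : ℂ) • fun _ => 1 by ext; simp, classInner_smul_left, hq]
    rw [Rat.cast_mul, Rat.cast_natCast, h2, Nat.cast_mul, mul_assoc] at hn
    suffices h : ((p ^ a : ℕ) : ℤ) ∣ n by
      obtain ⟨c, rfl⟩ := h
      rw [Int.cast_mul, Int.cast_natCast] at hn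
      exact ⟨c, mul_left_cancel₀ (Nat.cast_ne_zero.mpr (pow_ne_zero a hp.ne_zero)) hn⟩
    rcases eq_or_ne n 0 with rfl | h0
    · exact dvd_zero _
    have h11 : Block.val M (n.natAbs : ℂ) ≤ Block.val M ((p ^ a : ℕ) : ℂ) := by
      rw [show Block.val M (n.natAbs : ℂ) = Block.val M (n : ℂ) by
        rcases Int.natAbs_eq n with e | e
        · conv_rhs => rw [e, Int.cast_natCast]
        · conv_rhs => rw [e, Int.cast_neg, Int.cast_natCast, Valuation.map_neg], ← hn, map_mul, map_mul]
      exact mul_le_of_le_one_right' (mul_le_one' (Block.val_natCast_le_one M m) h9)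
    rw [Block.val_natCast_le_iff hM (Int.natAbs_ne_zero.mpr h0) (pow_ne_zero a hp.ne_zero),
      hp.factorization_pow, Finsupp.single_eq_same] at h11
    exact Int.natCast_dvd.mpr ((hp.pow_dvd_iff_le_factorization (Int.natAbs_ne_zero.mpr h0)).mpr h11)
  refine ⟨m, l.map fun t => ⟨t.1.1, t.1.2, t.2⟩, by rwa [Int.natCast_dvd_natCast], fun t ht => ?_,
    by rw [h4, List.map_map]; rfl⟩
  obtain ⟨u, hu, rfl⟩ := List.mem_map.mp ht
  exact h3 u hu

end Cfsg.Agent.S0874
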