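import Mathlib
import Cfsg.Statements.S0850
import Cfsg.Agent.Isaacs.Zero2
import Cfsg.Agent.Char.IndTI
-- import your own Cfsg.Agent.* helpers here

set_option autoImplicit false
open Cfsg

namespace Cfsg.Agent.S0850

open Cfsg.Agent.Char Cfsg.Agent.Isaacs Subgroup
open scoped ComplexConjugate commutatorElement

/-- Let K be a subgroup of the finite group G that meets each conjugate by an element outside its normalizer N trivially, is properly contained in N, and contains the centralizer of each of its non-identity elements (a T.I. subgroup with Frobenius normalizer). Then no element of N outside K is conjugate in G to an element of K, and for every class function ϑ of N that vanishes on N away from K and at the identity, the function induced from ϑ to G agrees with ϑ on all of N. -/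
theorem result {G : Type*} [Group G] [Fintype G] (K : Subgroup G) (hTI : ∀ g : G, g ∉ Subgroup.normalizer (K : Set G) → ∀ k ∈ K, g * k * g⁻¹ ∈ K → k = 1) (hlt : K < Subgroup.normalizer (K : Set G)) (hC : ∀ k ∈ K, k ≠ 1 → Subgroup.centralizer ({k} : Set G) ≤ K) : (∀ x ∈ Subgroup.normalizer (K : Set G), x ∉ K → ∀ g : G, g * x * g⁻¹ ∉ K) ∧ ∀ (ϑ : Subgroup.normalizer (K : Set G) → ℂ), Cfsg.IsClassFunction (Subgroup.normalizer (K : Set G)) ϑ → (∀ x : Subgroup.normalizer (K : Set G), (x : G) ∉ K → ϑ x = 0) → ϑ 1 = 0 → ∀ x : Subgroup.normalizer (K : Set G), Cfsg.indFun (Subgroup.normalizer (K : Set G)) ϑ x = ϑ x := by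
  have h1 : ∀ x ∈ normalizer (K : Set G), x ∉ K → ∀ g : G, g * x * g⁻¹ ∉ K := fun x hx hxK g hg => by
    obtain ⟨p, hp, m, hm⟩ := Nat.exists_prime_and_dvd (n := orderOf x) fun e =>
      hxK (orderOf_eq_one_iff.mp e ▸ one_mem _)
    have h0 : m ≠ 0 := fun e => (orderOf_pos x).ne' (by rw [hm, e, mul_zero])
    have h2 : orderOf (x ^ m) = p := by
      rw [orderOf_pow' _ h0, hm, Nat.gcd_mul_left_left, Nat.mul_div_cancel _ (Nat.pos_of_ne_zero h0)]
    obtain ⟨k, a, b, c⟩ := exists_fixed_of_dvd hp (k := 1) (by rw [pow_one, ← h2, pow_orderOf_eq_one])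
      (pow_mem hx m) (by
        rw [← h2, ← (MulAut.conj g).orderOf_eq, map_pow]; exact orderOf_dvd_natCard _ (pow_mem hg m))
    exact hxK (hC _ (hC k a b (mem_centralizer_singleton_iff.mpr c)) (fun e => hp.one_lt.ne' (by
      rw [← h2, e, orderOf_one])) (mem_centralizer_singleton_iff.mpr (Commute.self_pow x m)))
  refine ⟨h1, fun θ a b c x => IndTI.indFun_eq_self_of _ a x fun g hg hx => by_contra fun e => ?_⟩
  have h2 : g * x * g⁻¹ ∈ K := by_contra fun h => e (b _ h)
  have h3 := hTI g hg x (by_contra fun h => h1 x x.2 h g h2) h2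
  exact e (by rw [← c]; congr 1; exact Subtype.ext (by simp [h3]))

end Cfsg.Agent.S0850
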