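import Mathlib
import Cfsg.Statements.S0743
import Cfsg.Agent.Perm.Multi
import Cfsg.Agent.Perm.PFixed

set_option autoImplicit false
open Cfsg

namespace Cfsg.Agent.S0743

/-- If outside `s` every point is the unique fixed point outside `s` of a `p`-subgroup of `H`,
then `H` is transitive outside `s`. -/
theorem gleason_one {G α : Type*} [Group G] [MulAction G α] [Finite α] {p : ℕ} [Fact p.Prime]
    (H : Subgroup G) (S : Set α) (hS : ∀ h ∈ H, ∀ x ∈ S, h • x ∈ S)
    (h : ∀ a ∈ S, ∃ P : Subgroup G, P ≤ H ∧ IsPGroup p P ∧ ∀ x ∈ S, (∀ q ∈ P, q • x = x) ↔ x = a)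
    {a b : α} (ha : a ∈ S) (hb : b ∈ S) : ∃ g ∈ H, g • a = b := by
  have hO : ∀ x ∈ S, MulAction.orbit H x ⊆ S := by
    rintro x hx _ ⟨g, rfl⟩; exact hS g g.2 x hx
  have hinv : ∀ (P : Subgroup G), P ≤ H → ∀ x : α, ∀ q ∈ P, ∀ y ∈ MulAction.orbit H x,
      q • y ∈ MulAction.orbit H x := fun P hP x q hq y hy => by
    have := MulAction.mem_orbit_of_mem_orbit (⟨q, hP hq⟩ : H) hy
    exact this
  by_contra hno
  obtain ⟨P, hP, hPp, hPa⟩ := h a ha
  obtain ⟨Q, hQ, hQp, hQb⟩ := h b hb
  have h1 := Perm.ncard_modEq_fixed P hPp (MulAction.orbit H a) (Set.toFinite _) (hinv P hP a)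
  have e1 : {x | x ∈ MulAction.orbit H a ∧ ∀ q ∈ P, q • x = x} = {a} := by
    ext x
    constructor
    · rintro ⟨h1, h2⟩; exact (hPa x (hO a ha h1)).mp h2
    · rintro rfl; exact ⟨MulAction.mem_orbit_self _, (hPa x ha).mpr rfl⟩
  rw [e1, Set.ncard_singleton] at h1
  obtain ⟨x, hx, hx'⟩ := Perm.exists_fixed_of_not_dvd Q hQp (MulAction.orbit H a) (hinv Q hQ a) (by
    intro hd
    have := (Nat.modEq_zero_iff_dvd.mpr hd).symm.trans h1
    exact (Fact.out : p.Prime).one_lt.ne' (Nat.dvd_one.mp ((Nat.modEq_zero_iff_dvd).mp this.symm)))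
  rw [(hQb x (hO a ha hx)).mp hx'] at hx
  obtain ⟨g, hg⟩ := hx
  exact hno ⟨g, g.2, hg⟩


/-- Gleason's Lemma: let `p` be a prime and `1 ≤ k < n`; if every `k`-subset of the `n` points is exactly the fixed-point set of some `p`-subgroup of `G`, then `G` is `k`-transitive. -/
theorem result {α : Type*} [Fintype α] [DecidableEq α] (G : Subgroup (Equiv.Perm α)) {p k : ℕ} (hp : p.Prime) (hk : 1 ≤ k) (hkn : k < Fintype.card α) (h : ∀ s : Finset α, s.card = k → ∃ P : Subgroup G, IsPGroup p P ∧ MulAction.fixedPoints P α = (s : Set α)) : MulAction.IsMultiplyPretransitive G α k := by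
  haveI := Fact.mk hp
  -- the pointwise stabiliser of every `(k-1)`-set is transitive on the remaining points
  have h1 : ∀ s : Finset α, s.card + 1 = k → ∀ a b, a ∉ s → b ∉ s →
      ∃ g : G, (∀ x ∈ s, g • x = x) ∧ g • a = b := by
    intro s hs a b ha hb
    obtain ⟨g, hg, hg'⟩ := gleason_one (p := p) (fixingSubgroup G (s : Set α)) (s : Set α)ᶜ
      (fun g hg x hx hgx => hx (by
        have := (mem_fixingSubgroup_iff G).mp hg _ hgx
        rwa [MulAction.injective g this] at hgx))
      (fun c hc => by
        obtain ⟨P, hP, hP'⟩ := h (insert c s) (by rw [Finset.card_insert_of_notMem hc, hs])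
        have hm : ∀ x, (∀ q ∈ P, q • x = x) ↔ x = c ∨ x ∈ s := by
          intro x
          have := Set.ext_iff.mp hP' x
          simp only [MulAction.mem_fixedPoints, Subtype.forall, Finset.coe_insert,
            Set.mem_insert_iff, SetLike.mem_coe] at this
          rw [← this]
          exact ⟨fun h a b c => h _ c, fun h q hq => h q.1 q.2 hq⟩
        refine ⟨P, fun q hq => (mem_fixingSubgroup_iff G).mpr fun y hy =>
          (hm y).mpr (Or.inr hy) q hq, hP, fun x hx => ?_⟩
        rw [hm]
        exact ⟨fun h => h.resolve_right hx, Or.inl⟩) ha hb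
    exact ⟨g, (mem_fixingSubgroup_iff G).mp hg, hg'⟩
  rw [Perm.multi_iff]
  intro x y hx hy
  have key : ∀ j ≤ k, ∃ g : G, ∀ i : Fin k, i.val < j → g • x i = y i := by
    intro j
    induction j with
    | zero => intro _; exact ⟨1, fun i hi => absurd hi (Nat.not_lt_zero _)⟩
    | succ j ih =>
      intro hj
      obtain ⟨g, hg⟩ := ih (by omega)
      let j' : Fin k := ⟨j, hj⟩
      obtain ⟨s, hs1, hs2, hs3⟩ := Finset.exists_subsuperset_card_eq
        (s := (Finset.univ.filter fun i : Fin k => i.val < j).image y)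
        (t := (Finset.univ.erase (g • x j')).erase (y j')) (n := k - 1)
        (by
          intro z hz
          obtain ⟨i, hi, rfl⟩ := Finset.mem_image.mp hz
          have hi' : i.val < j := (Finset.mem_filter.mp hi).2
          have hne : i ≠ j' := fun h => by simp [h, j'] at hi'
          simp only [Finset.mem_erase, Finset.mem_univ, and_true]
          exact ⟨hy.ne hne, by rw [← hg i hi']; exact fun h => hne (hx (MulAction.injective g h))⟩)
        (by
          refine Finset.card_image_le.trans ?_
          have : (Finset.univ.filter fun i : Fin k => i.val < j) ⊆ Finset.univ.erase j' := by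
            intro i hi
            have hi' : i.val < j := (Finset.mem_filter.mp hi).2
            simp only [Finset.mem_erase, Finset.mem_univ, and_true]
            exact fun h => by simp [h, j'] at hi'
          simpa using Finset.card_le_card this)
        (by
          have h1 := Finset.pred_card_le_card_erase (s := Finset.univ.erase (g • x j')) (a := y j')
          rw [Finset.card_erase_of_mem (Finset.mem_univ _), Finset.card_univ] at h1
          omega)
      obtain ⟨u, hu, hu'⟩ := h1 s (by omega) (g • x j') (y j')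
        (fun h => by simpa using hs2 h) (fun h => by simpa using hs2 h)
      refine ⟨u * g, fun i hi => ?_⟩
      rw [mul_smul]
      by_cases hij : i = j'
      · rw [hij, hu']
      · have hlt : i.val < j := by
          have : i.val ≠ j := fun h => hij (Fin.ext h)
          omega
        rw [hg i hlt]
        exact hu _ (hs1 (Finset.mem_image_of_mem _ (by simpa using hlt)))
  obtain ⟨g, hg⟩ := key k le_rfl
  exact ⟨g, fun i => hg i i.2⟩

end Cfsg.Agent.S0743
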