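import Mathlib
import Cfsg.Statements.S0021
import Cfsg.Agent.H2.SylowSystem
import Cfsg.Agent.H2.Perm
import Cfsg.Agent.S0006

set_option autoImplicit false
open scoped Pointwise commutatorElement
open Pointwise
open Cfsg

namespace Cfsg.Agent.S0021

/-- A finite group with a family of pairwise permuting Sylow subgroups, one for each prime, is solvable (this direction rests on Burnside's two-prime Theorem). -/
theorem result {G : Type*} [Group G] [Finite G]
    (S : (p : Nat.Primes) → Sylow (p : ℕ) G)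
    (hS : ∀ p q : Nat.Primes, (S p : Set G) * (S q : Set G) = (S q : Set G) * (S p : Set G)) :
    Group.IsSolvable G := by
  refine S0006.result fun p hp => ⟨⨆ q ∈ {q : Nat.Primes | (q : ℕ) ∣ Nat.card G ∧ (q : ℕ) ≠ p},
    (S q : Subgroup G), (H2.index_eq_pow_iff_hall hp).2 ⟨le_top, ?_, fun q hq hqp hd => ?_⟩⟩
  · refine H2.pi_biSup_of_prm ((H2.finite_primes_dvd Nat.card_pos.ne').subset fun _ h => h.1)
      (fun i _ j _ => H2.prm_of_coe_eq (hS i j)) fun q hq => ?_
    have := Fact.mk q.2
    exact BG.Amb.pi_of_isPGroup (S q).isPGroup' hq.2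
  · have := Fact.mk hq
    rw [Subgroup.relIndex_top_right] at hd
    refine (S ⟨q, hq⟩).not_dvd_index (hd.trans (Subgroup.index_dvd_of_le ?_))
    exact le_iSup₂_of_le (f := fun (q : Nat.Primes)
      (_ : q ∈ {q : Nat.Primes | (q : ℕ) ∣ Nat.card G ∧ (q : ℕ) ≠ p}) => (S q : Subgroup G))
      ⟨q, hq⟩ ⟨hd.trans (Subgroup.index_dvd_card _), hqp⟩ le_rfl

end Cfsg.Agent.S0021
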