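import Mathlib
import Cfsg.Statements.S4201
import Cfsg.Agent.FGS.ClassCount

set_option autoImplicit false
open Cfsg

namespace Cfsg.Agent.S4201

/-- If N is a normal subgroup of the finite group X then k(X) ≤ k(N)·k(X ⧸ N), where k denotes the number of conjugacy classes. -/
theorem result {X : Type*} [Group X] [Finite X] (N : Subgroup X) [N.Normal] : Nat.card (ConjClasses X) ≤ Nat.card (ConjClasses N) * Nat.card (ConjClasses (X ⧸ N)) := by
  simpa only [FGS.kpi_univ] using FGS.kpi_le_mul Set.univ N

end Cfsg.Agent.S4201
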