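import Mathlib
import Cfsg.Statements.S0711
import Cfsg.Agent.Perm.Multi

set_option autoImplicit false
open Cfsg

namespace Cfsg.Agent.S0711

open Subgroup Cfsg.Agent.Perm MulAction Equiv Equiv.Perm

section
variable {α : Type*} [Fintype α] [DecidableEq α]

theorem inv_apply_self (g : Perm α) (x : α) : g⁻¹ (g x) = x := by simp

theorem bound (g h : Perm α) (A C : Finset α) (hA : A ⊆ g.support) (hfix : ∀ x ∈ A, h x = x)
    (hC : C ⊆ g.support) (hC' : ∀ y ∈ C, ∃ x ∈ g.support, h x = y) :
    (g⁻¹ * (h * g * h⁻¹)).support.card + (A.filter fun x => g x ∈ A).card + C.card ≤ 2 * g.support.card := by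
  have h1 : (h * g * h⁻¹).support = g.support.map h.toEmbedding := support_conj
  have h2 : (g⁻¹ * (h * g * h⁻¹)).support ⊆ (g.support ∪ g.support.map h.toEmbedding) \
      (A.filter fun x => g x ∈ A) := by
    intro x hx
    rw [Finset.mem_sdiff]
    refine ⟨?_, fun hxA => ?_⟩
    · have := support_mul_le _ _ hx
      rwa [support_inv, h1] at this
    · rw [Finset.mem_filter] at hxA
      rw [mem_support] at hx
      apply hx
      have e1 : h⁻¹ x = x := by rw [inv_eq_iff_eq, hfix x hxA.1]
      simp only [mul_apply, e1, hfix _ hxA.2, inv_apply_self]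
  have h3 := Finset.card_le_card h2
  have h4 : (A.filter fun x => g x ∈ A) ⊆ g.support ∪ g.support.map h.toEmbedding :=
    (Finset.filter_subset _ _).trans (hA.trans Finset.subset_union_left)
  rw [Finset.card_sdiff_of_subset h4] at h3
  have h5 := Finset.card_le_card h4
  have h6 := Finset.card_union_add_card_inter g.support (g.support.map h.toEmbedding)
  rw [Finset.card_map] at h6
  have h7 : C ⊆ g.support ∩ g.support.map h.toEmbedding := by
    intro y hy
    obtain ⟨x, hx, rfl⟩ := hC' y hy
    exact Finset.mem_inter.2 ⟨hC hy, Finset.mem_map.2 ⟨x, hx, rfl⟩⟩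
  have h8 := Finset.card_le_card h7
  omega

theorem exists_chain (g : Perm α) (j : ℕ) (hj : j ≤ g.support.card) :
    ∃ A ⊆ g.support, A.card = j ∧ (A.filter fun x => g x ∉ A).card ≤ 1 := by
  induction j with
  | zero => exact ⟨∅, by simp, rfl, by simp⟩
  | succ j ih =>
    obtain ⟨A, hA, hc, he⟩ := ih (by omega)
    have key : ∃ y ∈ g.support, y ∉ A ∧ ∀ x ∈ A, g x ∈ insert y A := by
      by_cases h0 : ∃ x ∈ A, g x ∉ A
      · obtain ⟨x, hx, hgx⟩ := h0
        refine ⟨g x, apply_mem_support.2 (hA hx), hgx, fun z hz => ?_⟩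
        by_cases hz' : g z ∈ A
        · exact Finset.mem_insert_of_mem hz'
        · have := Finset.card_le_one.1 he z (Finset.mem_filter.2 ⟨hz, hz'⟩) x (Finset.mem_filter.2 ⟨hx, hgx⟩)
          rw [this]; exact Finset.mem_insert_self _ _
      · push Not at h0
        obtain ⟨y, hy, hyA⟩ := Finset.exists_mem_notMem_of_card_lt_card (s := A) (t := g.support) (by omega)
        exact ⟨y, hy, hyA, fun z hz => Finset.mem_insert_of_mem (h0 z hz)⟩
    obtain ⟨y, hy, hyA, hall⟩ := key
    refine ⟨insert y A, Finset.insert_subset hy hA, by rw [Finset.card_insert_of_notMem hyA, hc], ?_⟩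
    refine Finset.card_le_one.2 fun a ha b hb => ?_
    rw [Finset.mem_filter, Finset.mem_insert] at ha hb
    rcases ha with ⟨rfl | ha, ha'⟩
    · rcases hb with ⟨rfl | hb, hb'⟩
      · rfl
      · exact absurd (hall b hb) hb'
    · exact absurd (hall a ha) ha'

theorem ext_one (G : Subgroup (Perm α)) {k : ℕ} (hkn : k ≤ Fintype.card α) (hG : IsMultiplyPretransitive G α k)
    (A : Finset α) (hA : A.card < k) {a b : α} (ha : a ∉ A) (hb : b ∉ A) :
    ∃ h ∈ G, (∀ x ∈ A, h x = x) ∧ h a = b := by
  obtain ⟨h, hh⟩ := multi_finset hG (by rwa [Nat.card_eq_fintype_card]) (insert a A)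
    (by rw [Finset.card_insert_of_notMem ha]; omega) (fun x => if x = a then b else x) (by
      intro x hx y hy hxy
      simp only [Finset.coe_insert, Set.mem_insert_iff, Finset.mem_coe] at hx hy hxy
      split_ifs at hxy with h1 h2 h2
      · rw [h1, h2]
      · exact absurd (hxy ▸ hy.resolve_left h2) hb
      · exact absurd (hxy ▸ hx.resolve_left h1) hb
      · exact hxy)
  refine ⟨h.1, h.2, fun x hx => ?_, ?_⟩
  · have := hh x (Finset.mem_insert_of_mem hx)
    rwa [if_neg (fun e : x = a => ha (e ▸ hx))] at this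
  · have := hh a (Finset.mem_insert_self _ _)
    rwa [if_pos rfl] at this

end


/-- A `k`-transitive permutation group (`k ≥ 3`) with a non-identity element of support smaller than `2k - 2` contains a non-identity element of support at most 3, and therefore contains the alternating group. -/
theorem result {α : Type*} [Fintype α] [DecidableEq α] (G : Subgroup (Equiv.Perm α)) {k : ℕ} (hk : 3 ≤ k) (hkn : k ≤ Fintype.card α) (hG : MulAction.IsMultiplyPretransitive G α k) (g : Equiv.Perm α) (hg : g ∈ G) (hg1 : g ≠ 1) (hsupp : g.support.card < 2 * k - 2) : (∃ h : Equiv.Perm α, h ∈ G ∧ h ≠ 1 ∧ h.support.card ≤ 3) ∧ alternatingGroup α ≤ G := by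
  have key : ∃ h : Equiv.Perm α, h ∈ G ∧ h ≠ 1 ∧ h.support.card ≤ 3 := by
    obtain ⟨g, ⟨hg, hg1⟩, hmin⟩ := (measure fun u : Perm α => u.support.card).wf.has_min
      {u | u ∈ G ∧ u ≠ 1} ⟨g, hg, hg1⟩ |>.imp fun u hu => (⟨hu.1, fun v hv hv1 => not_lt.1 (hu.2 v ⟨hv, hv1⟩)⟩ :
        (u ∈ G ∧ u ≠ 1) ∧ ∀ v ∈ G, v ≠ 1 → u.support.card ≤ v.support.card)
    have hsupp : g.support.card < 2 * k - 2 := lt_of_le_of_lt (hmin _ ‹_› ‹_›) hsupp
    by_contra hcon
    have h4 : 4 ≤ g.support.card := by
      by_contra h
      exact hcon ⟨g, hg, hg1, by omega⟩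
    have hmem : ∀ h ∈ G, g⁻¹ * (h * g * h⁻¹) ∈ G := fun h hh =>
      G.mul_mem (G.inv_mem hg) (G.mul_mem (G.mul_mem hh hg) (G.inv_mem hh))
    -- a point outside the support
    obtain ⟨β, hβ⟩ : ∃ β, β ∉ g.support := by
      by_contra hall
      push Not at hall
      obtain ⟨a, b, c, hab, hac, hbc⟩ := Fintype.two_lt_card_iff.1 (show 2 < Fintype.card α by omega)
      obtain ⟨h, hh, h1, h2⟩ := ext_one G hkn hG {a} (by simp; omega) (a := b) (b := c)
        (by simpa using hab.symm) (by simpa using hac.symm)
      have h3 : h ≠ 1 := by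
        rintro rfl
        exact hbc h2
      have h5 := hmin h hh h3
      have h6 : h.support ⊂ g.support :=
        ⟨fun x _ => hall x, fun hs => (mem_support.1 (hs (hall a))) (h1 a (by simp))⟩
      exact absurd (Finset.card_lt_card h6) (by omega)
    have hout : ∀ h : Perm α, ∀ a ∈ g.support, h a = β → g⁻¹ * (h * g * h⁻¹) ≠ 1 := by
      intro h a ha hab e
      have e1 : h * g * h⁻¹ = g := (inv_mul_eq_one.1 e).symm
      have e2 : (h * g * h⁻¹) β = β := by rw [e1]; exact notMem_support.1 hβ
      rw [← hab] at e2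
      simp only [mul_apply, inv_apply_self] at e2
      exact mem_support.1 ha (h.injective e2)
    by_cases hmk : g.support.card ≤ k
    · obtain ⟨a, ha⟩ : g.support.Nonempty := Finset.card_pos.1 (by omega)
      have hc : (g.support.erase a).card = g.support.card - 1 := Finset.card_erase_of_mem ha
      obtain ⟨h, hh, h1, h2⟩ := ext_one G hkn hG (g.support.erase a) (by omega) (a := a) (b := β)
        (by simp) (fun e => hβ (Finset.mem_of_mem_erase e))
      have hb := bound g h (g.support.erase a) (g.support.erase a) (Finset.erase_subset _ _) h1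
        (Finset.erase_subset _ _) (fun y hy => ⟨y, Finset.mem_of_mem_erase hy, h1 y hy⟩)
      have h7 : (g.support.erase a).erase (g⁻¹ a) ⊆ (g.support.erase a).filter fun x => g x ∈ g.support.erase a := by
        intro x hx
        rw [Finset.mem_erase] at hx
        refine Finset.mem_filter.2 ⟨hx.2, Finset.mem_erase.2 ⟨fun e => hx.1 ?_, ?_⟩⟩
        · rw [← e, inv_apply_self]
        · exact apply_mem_support.2 (Finset.mem_of_mem_erase hx.2)
      have h8 := Finset.card_le_card h7
      have h9 := Finset.pred_card_le_card_erase (s := g.support.erase a) (a := g⁻¹ a)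
      have h10 := hmin _ (hmem h hh) (hout h a ha h2)
      omega
    · obtain ⟨A, hA, hc, he⟩ := exists_chain g (k - 1) (by omega)
      have hsum := Finset.card_filter_add_card_filter_not (s := A) (fun x => g x ∈ A)
      by_cases h0 : ∃ x ∈ A, g x ∉ A
      · obtain ⟨x, hx, hgx⟩ := h0
        obtain ⟨y, hy, hyA⟩ := Finset.exists_mem_notMem_of_card_lt_card (s := insert (g x) A) (t := g.support)
          (by rw [Finset.card_insert_of_notMem hgx]; omega)
        rw [Finset.mem_insert, not_or] at hyA
        obtain ⟨h, hh, h1, h2⟩ := ext_one G hkn hG A (by omega) hgx hyA.2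
        have hb := bound g h A (insert y A) hA h1 (Finset.insert_subset hy hA) (fun z hz => by
          rcases Finset.mem_insert.1 hz with rfl | hz
          · exact ⟨g x, apply_mem_support.2 (hA hx), h2⟩
          · exact ⟨z, hA hz, h1 z hz⟩)
        rw [Finset.card_insert_of_notMem hyA.2] at hb
        have hne : g⁻¹ * (h * g * h⁻¹) ≠ 1 := by
          intro e
          have e1 : h * g * h⁻¹ = g := (inv_mul_eq_one.1 e).symm
          have e2 : (h * g * h⁻¹) x = g x := by rw [e1]
          have e3 : h⁻¹ x = x := by rw [inv_eq_iff_eq, h1 x hx]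
          simp only [mul_apply, e3, h2] at e2
          exact hyA.1 e2
        have h10 := hmin _ (hmem h hh) hne
        omega
      · push Not at h0
        obtain ⟨a, ha, haA⟩ := Finset.exists_mem_notMem_of_card_lt_card (s := A) (t := g.support) (by omega)
        obtain ⟨h, hh, h1, h2⟩ := ext_one G hkn hG A (by omega) haA (fun e => hβ (hA e))
        have hb := bound g h A A hA h1 hA (fun z hz => ⟨z, hA hz, h1 z hz⟩)
        rw [Finset.filter_true_of_mem h0] at hb
        have h10 := hmin _ (hmem h hh) (hout h a ha h2)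
        omega
  refine ⟨key, ?_⟩
  obtain ⟨h, hh, h1, h3⟩ := key
  have h2 : IsMultiplyPretransitive G α 2 :=
    isMultiplyPretransitive_of_le' (n := k) (by omega) (by rw [ENat.card_eq_coe_fintype_card]; exact_mod_cast hkn)
  have hprim : IsPreprimitive G α := isPreprimitive_of_is_two_pretransitive h2
  have h5 := two_le_card_support_of_ne_one h1
  rcases (show h.support.card = 2 ∨ h.support.card = 3 by omega) with e | e
  · rw [subgroup_eq_top_of_isPreprimitive_of_isSwap_mem hprim h (card_support_eq_two.1 e) hh]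
    exact le_top
  · exact alternatingGroup_le_of_isPreprimitive_of_isThreeCycle_mem hprim (card_support_eq_three_iff.1 e) hh

end Cfsg.Agent.S0711
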