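import Mathlib
import Cfsg.Statements.S1329
import Cfsg.Agent.BG.T1_16
import Cfsg.Agent.BG.T6_3
import Cfsg.Agent.BG.AmbHall2
import Cfsg.Agent.Comp2.Ssft2
import Cfsg.Agent.S0205

set_option autoImplicit false
open Cfsg

namespace Cfsg.Agent.S1329

open Cfsg.Agent.BG Cfsg.Agent.BG.Amb

theorem lnc {G : Type*} [Group G] (H K : Subgroup G) : H ≤ 𝐍(⁅H, K⁆) :=
  Subgroup.normalizer_commutator_ge_left H K

theorem aux {G : Type*} [Group G] [Finite G] (A B : Subgroup G) (hA2 : IsPGroup 2 ↥A)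
    (hAc : IsMulCommutative ↥A) (hB : B ≤ A) (n : ℕ) : ∀ Y L : Subgroup G, Nat.card Y ≤ n →
    Odd (Nat.card ↥Y) → A ≤ 𝐍(Y) → ⁅Y, A⁆ = Y →
    (∀ B₀ : Subgroup G, B₀ ≤ B → (∃ a ∈ B, B₀ ⊔ Subgroup.zpowers a = B) →
      Y ⊓ 𝐂(B) ⊓ ⁅Y ⊓ 𝐂(B₀), A⁆ ≤ L) → Y ⊓ 𝐂(B) ≤ L := by
  induction n with
  | zero => intro Y L h; exact absurd h (by have := Nat.card_pos (α := Y); omega)
  | succ n ih =>
    intro Y L hn hodd hAY hYA h
    by_cases hY : Y = ⊥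
    · rw [hY]; exact inf_le_left.trans bot_le
    have hs : Group.IsSolvable Y := S0205.result hodd
    have cop : ∀ X D : Subgroup G, X ≤ Y → D ≤ A → (Nat.card X).Coprime (Nat.card D) := by
      intro X D hX hD
      obtain ⟨k, hk⟩ := IsPGroup.iff_card.1 (hA2.to_le hD)
      rw [hk]
      exact Nat.Coprime.pow_right _ (Nat.coprime_two_right.2
        (hodd.of_dvd_nat (Subgroup.card_dvd_of_le hX)))
    obtain ⟨B₁, h1, h2, h3⟩ : ∃ B₁ : Subgroup G, B₁ ≤ B ∧ (∃ a ∈ B, B₁ ⊔ Subgroup.zpowers a = B) ∧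
        ¬ Y ⊓ 𝐂(B₁) ≤ ⁅Y, Y⁆ := by
      by_contra hc
      push Not at hc
      exact (der_lt hs hY).not_ge (coprime_abelian_gen_cent (comm_mono hAc hB) (hB.trans hAY)
        (cop _ _ le_rfl hB) hc)
    have hB1 : B₁ ≤ A := h1.trans hB
    have hAB1 : A ≤ 𝐍(B₁) := le_norm_of_le_cent (le_cent_of_comm hAc le_rfl hB1)
    set X := ⁅Y, B₁⁆ with hX
    have hXY : X ≤ Y := comm_le_left (hB1.trans hAY)
    have hXlt : X < Y := lt_of_le_of_ne hXY fun e =>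
      h3 (Comp2.inf_cent_le_der hs (hB1.trans hAY) (cop _ _ le_rfl hB1) e)
    have hAX : A ≤ 𝐍(X) := le_norm_comm hAY hAB1
    have hYX : Y ≤ 𝐍(X) := lnc Y B₁
    have hXA : ⁅X, A⁆ = X := le_antisymm (comm_le_left hAX) (by
      have := coprime_comm_comm (hB1.trans hAY) (cop _ _ le_rfl hB1) (Or.inr hs)
      exact this.ge.trans (Subgroup.commutator_mono le_rfl hB1))
    have hC : A ≤ 𝐍(Y ⊓ 𝐂(B₁)) := le_norm_inf_cent hAY hAB1
    set Y₁ := ⁅Y ⊓ 𝐂(B₁), A⁆ with hY1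
    have hY1Y : Y₁ ≤ Y := (comm_le_left hC).trans inf_le_left
    have hAY1 : A ≤ 𝐍(Y₁) := le_norm_comm hC Subgroup.le_normalizer
    have hsup : X ⊔ Y₁ = Y := by
      refine le_antisymm (sup_le hXY hY1Y) ?_
      have e := coprime_comm_sup_cent (hB1.trans hAY) (cop _ _ le_rfl hB1) (Or.inr hs)
      calc Y = ⁅X ⊔ (Y ⊓ 𝐂(B₁)), A⁆ := by rw [e, hYA]
        _ ≤ X ⊔ Y₁ := comm_sup_left_le
          (sup_le_norm_sup (inf_le_left.trans hYX) (lnc _ _))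
          (hXA.le.trans le_sup_left) le_sup_right
    have e2 := coprime_sup_inf_cent (hB.trans hAX) (hB.trans hAY1) (hY1Y.trans hYX)
      (cop _ _ (inf_le_left.trans hXY) hB) (Or.inl (solvable_of_comm (comm_mono hAc hB)))
    rw [hsup] at e2
    rw [e2]
    refine sup_le (ih X L ?_ (hodd.of_dvd_nat (Subgroup.card_dvd_of_le hXY)) hAX hXA
      fun B₀ h4 h5 => le_trans ?_ (h B₀ h4 h5)) (le_trans ?_ (h B₁ h1 h2))
    · have := Core.card_lt_of_lt hXlt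
      omega
    · exact inf_le_inf (inf_le_inf_right _ hXY)
        (Subgroup.commutator_mono (inf_le_inf_right _ hXY) le_rfl)
    · exact le_inf (inf_le_inf_right _ hY1Y) inf_le_left

/-- Let A be an abelian 2-subgroup of the finite group G, B ≤ A, and Y a subgroup of odd order normalized by A with ⁅Y, A⁆ = Y. Then Y ∩ C_G(B) is generated by the subgroups Y ∩ C_G(B) ∩ ⁅Y ∩ C_G(B₀), A⁆, B₀ ranging over the subgroups of B with B / B₀ cyclic. -/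
theorem result {G : Type*} [Group G] [Finite G] (A B Y : Subgroup G) (hA2 : IsPGroup 2 ↥A) (hAc : IsMulCommutative ↥A) (hB : B ≤ A) (hYodd : Odd (Nat.card ↥Y)) (hAY : A ≤ Subgroup.normalizer (Y : Set G)) (hYA : ⁅Y, A⁆ = Y) : Y ⊓ Subgroup.centralizer (B : Set G) = ⨆ B₀ : {B₀ : Subgroup G // B₀ ≤ B ∧ ∀ [(B₀.subgroupOf B).Normal], IsCyclic (↥B ⧸ B₀.subgroupOf B)}, Y ⊓ Subgroup.centralizer (B : Set G) ⊓ ⁅Y ⊓ Subgroup.centralizer ((B₀ : Subgroup G) : Set G), A⁆ := by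
  refine le_antisymm (aux A B hA2 hAc hB _ Y _ le_rfl hYodd hAY hYA fun B₀ h1 ⟨a, ha, h2⟩ => ?_)
    (iSup_le fun _ => inf_le_left)
  refine le_iSup_of_le ⟨B₀, h1, fun [hN : _] => ?_⟩ le_rfl
  refine ⟨⟨QuotientGroup.mk ⟨a, ha⟩, fun x => ?_⟩⟩
  obtain ⟨⟨b, hb⟩, rfl⟩ := QuotientGroup.mk_surjective x
  have hn : Subgroup.zpowers a ≤ 𝐍(B₀) := le_norm_of_le_cent
    (le_cent_of_comm hAc ((Subgroup.zpowers_le.2 ha).trans hB) (h1.trans hB))
  have hb' : b ∈ Subgroup.zpowers a ⊔ B₀ := by rw [sup_comm, h2]; exact hb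
  obtain ⟨_, ⟨k, rfl⟩, c, hc, e⟩ := (Core.mem_sup_of_le_normalizer' hn).1 hb'
  refine ⟨k, ?_⟩
  dsimp only at e ⊢
  rw [← QuotientGroup.mk_zpow, QuotientGroup.eq, Subgroup.mem_subgroupOf]
  subst e
  simpa using hc

end Cfsg.Agent.S1329
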