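import Mathlib
import Cfsg.Agent.Core.Hall
import Cfsg.Statements.S0005
-- import your own Cfsg.Agent.* helpers here

set_option autoImplicit false
open Cfsg

namespace Cfsg.Agent.S0005

/-- Hall's Theorem, containment: in a finite solvable group of order m * n with m and n coprime, every subgroup of order coprime to n is contained in a subgroup of order m. -/
theorem result {G : Type*} [Group G] [Finite G] [Group.IsSolvable G] (m n : ℕ)
    (hG : Nat.card G = m * n) (hmn : m.Coprime n) (K : Subgroup G) (hK : (Nat.card K).Coprime n) :
    ∃ H : Subgroup G, Nat.card H = m ∧ K ≤ H := by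
  obtain ⟨H, hH⟩ := Core.exists_subgroup_card_of_coprime m n hG hmn
  have hidx : H.index = n := by
    have := H.card_mul_index
    rw [hG, ← hH] at this
    exact Nat.eq_of_mul_eq_mul_left Nat.card_pos this
  obtain ⟨g, hg⟩ := Core.exists_conj_le_of_coprime_index K H (by rwa [hidx])
  refine ⟨_, (Core.card_conj_smul H g⁻¹).trans hH, ?_⟩
  rwa [map_inv, Subgroup.subset_pointwise_smul_iff, inv_inv]

end Cfsg.Agent.S0005
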