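import Mathlib
import Cfsg.Statements.S0018
import Cfsg.Agent.H2.Carter

set_option autoImplicit false
open scoped Pointwise commutatorElement
open Cfsg

namespace Cfsg.Agent.S0018

/-- A finite solvable group whose Sylow p-subgroups are abelian has p-length one: a Sylow p-subgroup together with the largest normal subgroup of order prime to p generates a normal subgroup. -/
theorem result {G : Type*} [Group G] [Finite G] [Group.IsSolvable G]
    (p : ℕ) [Fact p.Prime] (P : Sylow p G) (hP : IsMulCommutative P) :
    ((P : Subgroup G) ⊔ Cfsg.pPrimeCore p G).Normal := by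
  set N := Cfsg.pPrimeCore p G
  have hs := QuotientGroup.mk'_surjective N
  have h1 : pCore p (G ⧸ N) ≤ (P : Subgroup G).map (QuotientGroup.mk' N) :=
    Core.pCore_le_sylow (P.mapSurjective hs)
  have h2 : IsMulCommutative ((P : Subgroup G).map (QuotientGroup.mk' N)) := inferInstance
  have h3 := (BG.Amb.le_cent_of_comm h2 le_rfl h1).trans
    (Core.centralizer_pCore_le p (Core.pPrimeCore_quotient_pPrimeCore p))
  rw [← H2.comap_map_mk', le_antisymm h3 h1]
  infer_instance

end Cfsg.Agent.S0018
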