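import Mathlib
import Cfsg.Statements.S0020
import Cfsg.Agent.H2.SylowSystem
import Cfsg.Agent.H2.Perm

set_option autoImplicit false
open scoped Pointwise commutatorElement
open Pointwise
open Cfsg

namespace Cfsg.Agent.S0020

open Cfsg.Agent.BG Cfsg.Agent.BG.Amb Cfsg.Agent.H2 Subgroup in
theorem aux {G : Type*} [Group G] [Finite G] {K : Nat.Primes → Subgroup G} (hK : Sys K ⊤)
    (p q : ℕ) : Prm (Sys.hall K ⊤ {p}) (Sys.hall K ⊤ {q}) := by
  by_cases hpq : p = q
  · subst hpq; exact prm_of_le_norm le_normalizer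
  have h := hK.isHall {p, q}
  have h1 : Sys.hall K ⊤ {p} ≤ Sys.hall K ⊤ {p, q} := Sys.hall_mono (by simp)
  have h2 : Sys.hall K ⊤ {q} ≤ Sys.hall K ⊤ {p, q} := Sys.hall_mono (by simp)
  refine (fac_of_coprime h1 h2 (piNat_coprime_of_disjoint
    (piNat_inter (hall_index (hall_of_le (hK.isHall _) h1 le_top))
      (piNat_of_dvd (hall_pi h) (Core.relIndex_dvd_card' _ _)))
    (hall_index (hall_of_le (hK.isHall _) h2 le_top)) ?_)).prm
  rintro r ⟨hr, rfl | rfl⟩
  · exact (hr rfl).elim
  · simp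

/-- A finite solvable group admits a Sylow system: Sylow subgroups, one for each prime, that pairwise permute as sets. -/
theorem result {G : Type*} [Group G] [Finite G] [Group.IsSolvable G] :
    ∃ S : (p : Nat.Primes) → Sylow (p : ℕ) G,
      ∀ p q : Nat.Primes, (S p : Set G) * (S q : Set G) = (S q : Set G) * (S p : Set G) := by
  obtain ⟨K, hK⟩ := H2.exists_sys (H2.solvable_top (G := G))
  have h : ∀ p : Nat.Primes, ∃ S : Sylow (p : ℕ) G, (S : Subgroup G) = H2.Sys.hall K ⊤ {(p : ℕ)} :=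
    fun p => haveI := Fact.mk p.2; BG.Amb.exists_sylow_of_isSylowOf_top (hK.isHall _)
  choose S hS using h
  refine ⟨S, fun p q => ?_⟩
  have := (aux hK p q).coe_eq
  rwa [← hS, ← hS] at this

end Cfsg.Agent.S0020
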