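import Mathlib
import Cfsg.Agent.Core.Coprime
import Cfsg.Statements.S0022
-- import your own Cfsg.Agent.* helpers here

set_option autoImplicit false
open Cfsg

namespace Cfsg.Agent.S0022

/-- Under coprime action fixed points pass to quotients: with A normalising K, coprime orders, A or K solvable, and N an A-invariant normal subgroup of K, every coset of N in K fixed by conjugation by A contains an element centralised by A. -/
theorem result {G : Type*} [Group G] [Finite G] (A K : Subgroup G) (hAK : A ≤ Subgroup.normalizer (K : Set G))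
    (hcop : (Nat.card A).Coprime (Nat.card K)) (hsolv : Group.IsSolvable A ∨ Group.IsSolvable K)
    (N : Subgroup G) (hNK : N ≤ K) (hNnormal : K ≤ Subgroup.normalizer (N : Set G)) (hNA : A ≤ Subgroup.normalizer (N : Set G))
    (k : G) (hk : k ∈ K) (hfix : ∀ a ∈ A, a * k * a⁻¹ * k⁻¹ ∈ N) :
    ∃ c ∈ K ⊓ Subgroup.centralizer (A : Set G), k⁻¹ * c ∈ N := by
  obtain ⟨n, hn, h⟩ := Core.exists_mul_mem_centralizer' A N hNA (Core.coprime_of_le_right hcop hNK)
    (hsolv.imp_right (Core.solvable_of_le hNK)) k hfix
  refine ⟨n * k, ⟨K.mul_mem (hNK hn) hk, h⟩, ?_⟩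
  rw [← mul_assoc]
  exact Core.inv_conj_mem_of_le_normalizer hNnormal hk hn

end Cfsg.Agent.S0022
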