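import Mathlib
import Cfsg.Statements.S0031
import Cfsg.Agent.H2.Subnormal

set_option autoImplicit false
open scoped Pointwise commutatorElement
open Cfsg

namespace Cfsg.Agent.S0031

/-- A fixed-point-free automorphism of a finite group maps some Sylow p-subgroup to itself. -/
theorem result {G : Type*} [Group G] [Finite G] (φ : G ≃* G)
    (hφ : MonoidHom.FixedPointFree (φ : G →* G)) (p : ℕ) [Fact p.Prime] :
    ∃ P : Sylow p G, (P : Subgroup G).map (φ : G →* G) = P := by
  obtain ⟨P⟩ : Nonempty (Sylow p G) := inferInstance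
  obtain ⟨g, hg⟩ := MulAction.exists_smul_eq G P (P.mapSurjective (f := (φ : G →* G)) φ.surjective)
  obtain ⟨x, hx⟩ := hφ.commutatorMap_surjective g⁻¹
  refine ⟨x⁻¹ • P, ?_⟩
  have hg' : MulAut.conj g • (P : Subgroup G) = (P : Subgroup G).map (φ : G →* G) :=
    congrArg (fun Q : Sylow p G => (Q : Subgroup G)) hg
  have h1 : ∀ y : G, (MulAut.conj y • (P : Subgroup G)).map (φ : G →* G) =
      MulAut.conj (φ y) • (P : Subgroup G).map (φ : G →* G) := by
    intro y
    rw [H2.conj_smul_eq_map, H2.conj_smul_eq_map, Subgroup.map_map, Subgroup.map_map]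
    congr 1
    ext z; simp
  rw [Sylow.coe_subgroup_smul, h1, ← hg', H2.conj_smul_conj_smul]
  congr 2
  simp only [MonoidHom.commutatorMap_apply, MonoidHom.coe_coe, div_eq_mul_inv] at hx
  rw [← inv_inj, mul_inv_rev, ← hx]
  simp

end Cfsg.Agent.S0031
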