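import Mathlib
import Cfsg.Statements.S0032

set_option autoImplicit false
open scoped Pointwise commutatorElement
open Cfsg

namespace Cfsg.Agent.S0032

/-- If an automorphism of a finite group fixes only the identity and maps a normal subgroup N into itself, then the only cosets of N it fixes are those in N: a fixed coset xN forces x ∈ N. -/
theorem result {G : Type*} [Group G] [Finite G] (φ : G ≃* G)
    (hφ : MonoidHom.FixedPointFree (φ : G →* G)) (N : Subgroup G) [N.Normal] (hN : ∀ n ∈ N, φ n ∈ N)
    (x : G) (hx : (φ x)⁻¹ * x ∈ N) : x ∈ N := by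
  have hinj : Function.Injective fun y : G => (φ y)⁻¹ * y := by
    intro a b h
    have := hφ (a * b⁻¹) (by
      simp only [MonoidHom.coe_coe, map_mul, map_inv]
      have h' : (φ a)⁻¹ * a = (φ b)⁻¹ * b := h
      calc φ a * (φ b)⁻¹ = φ a * ((φ b)⁻¹ * b) * b⁻¹ := by group
        _ = a * b⁻¹ := by rw [← h']; group)
    exact mul_inv_eq_one.1 this
  let f : N → N := fun n => ⟨(φ n)⁻¹ * n, N.mul_mem (N.inv_mem (hN n n.2)) n.2⟩
  have hf : Function.Injective f := fun a b h => Subtype.ext (hinj (congrArg Subtype.val h))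
  obtain ⟨n, hn⟩ := Finite.surjective_of_injective hf ⟨_, hx⟩
  have := hinj (congrArg Subtype.val hn)
  rw [← this]; exact n.2

end Cfsg.Agent.S0032
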