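import Mathlib
import Cfsg.Statements.S0036
import Cfsg.Agent.H2.Frobenius

set_option autoImplicit false
open scoped Pointwise commutatorElement
open Cfsg

namespace Cfsg.Agent.S0036

/-- When a Frobenius complement contains an involution, an elementary argument shows the Frobenius kernel is closed under multiplication (hence a subgroup). -/
theorem result {G : Type*} [Group G] [Finite G] (H : Subgroup G) (hH : Cfsg.IsFrobeniusComplement H)
    (t : G) (ht : t ∈ H) (ht1 : t ≠ 1) (ht2 : t * t = 1) :
    ∀ x ∈ Cfsg.frobeniusKernel H, ∀ y ∈ Cfsg.frobeniusKernel H, x * y ∈ Cfsg.frobeniusKernel H := by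
  have hne : ∀ a : G ⧸ H, a.out * t * a.out⁻¹ ≠ 1 := fun a h => ht1 (by simpa using h)
  have hfix : ∀ a : G ⧸ H, (a.out * t * a.out⁻¹) • a = a := fun a => by
    conv_lhs => rw [← QuotientGroup.out_eq' a]
    conv_rhs => rw [← QuotientGroup.out_eq' a]
    simp only [QuotientGroup.out_eq']
    have := H2.smul_coe_eq_iff.2 (H2.conj_mem_conj_smul a.out ht)
    rwa [QuotientGroup.out_eq'] at this
  set τ : G ⧸ H → G := fun a => a.out * t * a.out⁻¹ with hτ
  have hsq : ∀ a, τ a * τ a = 1 := fun a => by
    simp only [hτ]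
    calc a.out * t * a.out⁻¹ * (a.out * t * a.out⁻¹) = a.out * (t * t) * a.out⁻¹ := by group
      _ = 1 := by rw [ht2]; group
  have hinj : Function.Injective τ := fun a b h =>
    H2.Frob.fix_unique hH (τ a) (hne a) a b (hfix a) (h ▸ hfix b)
  have hmem : ∀ a b, τ a * τ b ∈ Cfsg.frobeniusKernel H := by
    intro a b
    rw [H2.Frob.mem_kernel_iff]
    by_cases h1 : τ a * τ b = 1
    · exact Or.inl h1
    refine Or.inr fun c hc => h1 ?_
    have h2 : τ b • c = τ a • c := by
      have := congrArg (fun x => τ a • x) hc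
      simpa only [← mul_smul, ← mul_assoc, hsq, one_mul] using this
    have h3 : (τ a * τ b) • τ b • c = τ b • c := by
      rw [← mul_smul, mul_assoc, hsq, mul_one, h2]
    have h4 : τ b • c = c := H2.Frob.fix_unique hH _ h1 _ _ h3 hc
    have h5 : b = c := H2.Frob.fix_unique hH _ (hne b) _ _ (hfix b) h4
    have h6 : a = c := H2.Frob.fix_unique hH _ (hne a) _ _ (hfix a) (h2 ▸ h4)
    rw [h5, h6, hsq]
  have hcard : ∀ f : G ⧸ H → G, Function.Injective f → (∀ a, f a ∈ Cfsg.frobeniusKernel H) →
      ∀ x ∈ Cfsg.frobeniusKernel H, ∃ a, f a = x := by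
    intro f hf h1 x hx
    have : Set.range f = Cfsg.frobeniusKernel H := by
      refine Set.eq_of_subset_of_ncard_le (Set.range_subset_iff.2 h1) ?_
      rw [H2.Frob.ncard_kernel hH, Set.ncard_range_of_injective hf]
      rfl
    rwa [← this] at hx
  intro x hx y hy
  obtain ⟨a, rfl⟩ := hcard (fun a => τ a * τ (1 : G)) (fun a b h => hinj (mul_right_cancel h))
    (fun a => hmem _ _) x hx
  obtain ⟨b, rfl⟩ := hcard (fun a => τ (1 : G) * τ a) (fun a b h => hinj (mul_left_cancel h))
    (fun a => hmem _ _) y hy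
  have := hmem a b
  convert this using 1
  rw [mul_assoc, ← mul_assoc (τ _) (τ _) (τ b), hsq, one_mul]

end Cfsg.Agent.S0036
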