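import Mathlib
import Cfsg.Statements.S0037
import Cfsg.Agent.H2.Frobenius

set_option autoImplicit false
open scoped Pointwise commutatorElement
open Pointwise
open Cfsg

namespace Cfsg.Agent.S0037

/-- Of two Frobenius complements in one finite group, the one of smaller (or equal) order is conjugate to a subgroup of the other. -/
theorem result {G : Type*} [Group G] [Finite G] (H H₀ : Subgroup G)
    (hH : Cfsg.IsFrobeniusComplement H) (hH₀ : Cfsg.IsFrobeniusComplement H₀) (hle : Nat.card H₀ ≤ Nat.card H) :
    ∃ g : G, MulAut.conj g • H₀ ≤ H := by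
  obtain ⟨g, hg⟩ := H2.Frob.exists_le_conj hH (U := H₀) fun x hx hk => by
    by_contra h1
    have hsub : MulAction.orbit (ConjAct G) x ⊆ Cfsg.frobeniusKernel H \ {1} := by
      rintro _ ⟨g, rfl⟩
      refine ⟨H2.Frob.conj_mem_kernel hk _, fun h => h1 ?_⟩
      simpa [ConjAct.smul_def] using h
    have h2 := Set.ncard_le_ncard hsub
    rw [Set.ncard_sdiff_singleton_of_mem H2.Frob.one_mem_kernel, H2.Frob.ncard_kernel hH,
      ← MulAction.index_stabilizer] at h2
    have h3 : H₀.index ≤ (MulAction.stabilizer (ConjAct G) x).index := by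
      have : (MulAction.stabilizer (ConjAct G) x).index = (Subgroup.centralizer {x}).index := by
        rw [Subgroup.centralizer_eq_comap_stabilizer]; rfl
      rw [this]
      exact Subgroup.index_antitone (H2.Frob.centralizer_le hH₀ h1 hx)
    have h4 : H.index ≤ H₀.index := by
      have e1 := H.index_mul_card
      have e2 := H₀.index_mul_card
      have : 0 < Nat.card H₀ := Nat.card_pos
      by_contra h5
      push Not at h5
      nlinarith
    have h5 : 0 < H.index := Nat.pos_of_ne_zero Subgroup.index_ne_zero_of_finite
    omega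
  refine ⟨g⁻¹, ?_⟩
  have := H2.conj_smul_mono g⁻¹ hg
  rwa [H2.conj_smul_conj_smul, inv_mul_cancel, H2.conj_one_smul] at this

end Cfsg.Agent.S0037
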