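import Mathlib
import Cfsg.Statements.S0038
import Cfsg.Agent.H2.FrobCenter
import Cfsg.Agent.S0035
import Cfsg.Agent.S0037

set_option autoImplicit false
open scoped Pointwise commutatorElement
open Pointwise
open Cfsg

namespace Cfsg.Agent.S0038

/-- All Frobenius complements of a finite group are conjugate to one another. -/
theorem result {G : Type*} [Group G] [Finite G] (H H₀ : Subgroup G)
    (hH : Cfsg.IsFrobeniusComplement H) (hH₀ : Cfsg.IsFrobeniusComplement H₀) :
    ∃ g : G, MulAut.conj g • H₀ = H := by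
  have key : ∀ H H₀ : Subgroup G, Cfsg.IsFrobeniusComplement H → Cfsg.IsFrobeniusComplement H₀ →
      H₀ ≤ H → H₀ = H := by
    intro H H₀ hH hH₀ hle
    by_contra hne
    obtain ⟨K, hK, hKn, -⟩ := S0035.result H hH
    refine H2.center_ne_bot_of_semiregular Subgroup.le_normalizer_of_normal
      (H2.Frob.semiregular_of_coe_eq hH hK) (H2.Frob.ne_bot_of_coe_eq hH hK) hH.1 ?_
    exact H2.Frob.center_eq_bot (H2.Frob.subgroupOf hH₀ (by rw [inf_of_le_left hle]; exact hH₀.1)
      fun h => hne (le_antisymm hle h))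
  rcases le_total (Nat.card H₀) (Nat.card H) with h | h
  · obtain ⟨g, hg⟩ := S0037.result H H₀ hH hH₀ h
    exact ⟨g, key _ _ hH (H2.Frob.conj hH₀ g) hg⟩
  · obtain ⟨g, hg⟩ := S0037.result H₀ H hH₀ hH h
    refine ⟨g⁻¹, ?_⟩
    rw [← key _ _ hH₀ (H2.Frob.conj hH g) hg, H2.conj_smul_conj_smul, inv_mul_cancel,
      H2.conj_one_smul]

end Cfsg.Agent.S0038
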