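import Mathlib
import Cfsg.Statements.S0572
import Cfsg.Agent.Core.Basic
import Cfsg.Agent.Core.MinNormal

set_option autoImplicit false
open scoped Pointwise commutatorElement
open Cfsg

namespace Cfsg.Agent.S0572

/-- Itô's Theorem: if a group G is the product AB of two abelian subgroups, then the commutator subgroup of G is abelian, i.e. the second term of the derived series is trivial. -/
theorem result {G : Type*} [Group G] (A B : Subgroup G) [IsMulCommutative A] [IsMulCommutative B] (hAB : ∀ g : G, ∃ a ∈ A, ∃ b ∈ B, g = a * b) : derivedSeries G 2 = ⊥ := by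
  have hA : ∀ x ∈ A, ∀ y ∈ A, x * y = y * x := fun x hx y hy =>
    Core.comm_of_isMulCommutative ‹_› hx hy
  have hB : ∀ x ∈ B, ∀ y ∈ B, x * y = y * x := fun x hx y hy =>
    Core.comm_of_isMulCommutative ‹_› hx hy
  have hBA : ∀ g : G, ∃ b ∈ B, ∃ a ∈ A, g = b * a := fun g => by
    obtain ⟨a, ha, b, hb, h⟩ := hAB g⁻¹
    exact ⟨b⁻¹, B.inv_mem hb, a⁻¹, A.inv_mem ha, by rw [← mul_inv_rev, ← h, inv_inv]⟩
  have htop : A ⊔ B = ⊤ := eq_top_iff.2 fun g _ => by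
    obtain ⟨a, ha, b, hb, rfl⟩ := hAB g
    exact Subgroup.mul_mem_sup ha hb
  have hn : (⁅A, B⁆ : Subgroup G).Normal := Core.normal_of_le_normalizer (htop ▸ sup_le
    (Subgroup.normalizer_commutator_ge_left A B) (Subgroup.normalizer_commutator_ge_right A B))
  have h1 : commutator G ≤ ⁅A, B⁆ := by
    rw [commutator_def, Subgroup.commutator_le]
    intro g _ h _
    obtain ⟨a, ha, b, hb, rfl⟩ := hAB g
    obtain ⟨a', ha', b', hb', rfl⟩ := hAB h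
    rw [← QuotientGroup.eq_one_iff]
    have key : ∀ x ∈ A, ∀ y ∈ B, Commute (x : G ⧸ ⁅A, B⁆) y := fun x hx y hy => by
      rw [← commutatorElement_eq_one_iff_commute]
      exact (QuotientGroup.eq_one_iff _).2 (Subgroup.commutator_mem_commutator hx hy)
    have e : ((⁅a * b, a' * b'⁆ : G) : G ⧸ ⁅A, B⁆) = ⁅(a : G ⧸ ⁅A, B⁆) * b, (a' : G ⧸ ⁅A, B⁆) * b'⁆ :=
      map_commutatorElement (QuotientGroup.mk' ⁅A, B⁆) _ _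
    rw [e, commutatorElement_eq_one_iff_commute]
    refine Commute.mul_left (Commute.mul_right ?_ (key a ha b' hb'))
      (Commute.mul_right (key a' ha' b hb).symm ?_)
    · exact congrArg (QuotientGroup.mk' ⁅A, B⁆) (hA a ha a' ha')
    · exact congrArg (QuotientGroup.mk' ⁅A, B⁆) (hB b hb b' hb')
  have h2 : ∀ a ∈ A, ∀ b ∈ B, ∀ a₁ ∈ A, ∀ b₁ ∈ B, ⁅a, b⁆ * ⁅a₁, b₁⁆ = ⁅a₁, b₁⁆ * ⁅a, b⁆ := by
    intro a ha b hb a₁ ha₁ b₁ hb₁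
    obtain ⟨b₂, hb₂, a₂, ha₂, e₂⟩ := hBA (a₁⁻¹ * b * a₁)
    obtain ⟨a₃, ha₃, b₃, hb₃, e₃⟩ := hAB (b₁⁻¹ * a * b₁)
    have c1 : a₁⁻¹ * ⁅a, b⁆ * a₁ = ⁅a, b₂⁆ := by
      calc a₁⁻¹ * ⁅a, b⁆ * a₁ = (a₁⁻¹ * a * a₁) * (a₁⁻¹ * b * a₁) * (a₁⁻¹ * a * a₁)⁻¹ *
            (a₁⁻¹ * b * a₁)⁻¹ := by rw [commutatorElement_def]; group
        _ = a * (b₂ * (a₂ * a⁻¹) * a₂⁻¹) * b₂⁻¹ := by
            rw [e₂, mul_assoc a₁⁻¹ a a₁, hA a ha a₁ ha₁]; group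
        _ = ⁅a, b₂⁆ := by rw [hA a₂ ha₂ _ (A.inv_mem ha), commutatorElement_def]; group
    have c2 : ∀ y ∈ B, b₁⁻¹ * ⁅a, y⁆ * b₁ = ⁅a₃, y⁆ := by
      intro y hy
      calc b₁⁻¹ * ⁅a, y⁆ * b₁ = (b₁⁻¹ * a * b₁) * (b₁⁻¹ * y * b₁) * (b₁⁻¹ * a * b₁)⁻¹ *
            (b₁⁻¹ * y * b₁)⁻¹ := by rw [commutatorElement_def]; group
        _ = a₃ * (b₃ * y) * b₃⁻¹ * a₃⁻¹ * y⁻¹ := by
            rw [e₃, mul_assoc b₁⁻¹ y b₁, hB y hy b₁ hb₁]; group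
        _ = ⁅a₃, y⁆ := by rw [hB b₃ hb₃ y hy, commutatorElement_def]; group
    have c3 : a₁⁻¹ * ⁅a₃, b⁆ * a₁ = ⁅a₃, b₂⁆ := by
      calc a₁⁻¹ * ⁅a₃, b⁆ * a₁ = (a₁⁻¹ * a₃ * a₁) * (a₁⁻¹ * b * a₁) * (a₁⁻¹ * a₃ * a₁)⁻¹ *
            (a₁⁻¹ * b * a₁)⁻¹ := by rw [commutatorElement_def]; group
        _ = a₃ * (b₂ * (a₂ * a₃⁻¹) * a₂⁻¹) * b₂⁻¹ := by
            rw [e₂, mul_assoc a₁⁻¹ a₃ a₁, hA a₃ ha₃ a₁ ha₁]; group
        _ = ⁅a₃, b₂⁆ := by rw [hA a₂ ha₂ _ (A.inv_mem ha₃), commutatorElement_def]; group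
    have c4 : b₁⁻¹ * (a₁⁻¹ * ⁅a, b⁆ * a₁) * b₁ = a₁⁻¹ * (b₁⁻¹ * ⁅a, b⁆ * b₁) * a₁ := by
      rw [c1, c2 b₂ hb₂, c2 b hb, c3]
    rw [commutatorElement_def a₁ b₁]
    calc ⁅a, b⁆ * (a₁ * b₁ * a₁⁻¹ * b₁⁻¹)
        = a₁ * b₁ * (b₁⁻¹ * (a₁⁻¹ * ⁅a, b⁆ * a₁) * b₁) * a₁⁻¹ * b₁⁻¹ := by group
      _ = a₁ * b₁ * a₁⁻¹ * b₁⁻¹ * ⁅a, b⁆ := by rw [c4]; group
  have h3 : ⁅⁅A, B⁆, ⁅A, B⁆⁆ = (⊥ : Subgroup G) := by
    rw [Subgroup.commutator_eq_bot_iff_le_centralizer, Subgroup.commutator_le]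
    intro a ha b hb
    have : ⁅A, B⁆ ≤ Subgroup.centralizer {⁅a, b⁆} := by
      rw [Subgroup.commutator_le]
      intro a₁ ha₁ b₁ hb₁
      rw [Subgroup.mem_centralizer_iff]
      rintro _ rfl
      exact h2 a ha b hb a₁ ha₁ b₁ hb₁
    rw [Subgroup.mem_centralizer_iff]
    intro x hx
    exact (Subgroup.mem_centralizer_iff.1 (this hx) _ rfl).symm
  rw [derivedSeries_succ, derivedSeries_one, eq_bot_iff, ← h3]
  exact Subgroup.commutator_mono h1 h1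

end Cfsg.Agent.S0572
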