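import Mathlib
import Cfsg.Statements.S0060
import Cfsg.Agent.H2.Carter

set_option autoImplicit false
open scoped Pointwise commutatorElement
open Pointwise
open Cfsg

namespace Cfsg.Agent.S0060

open Cfsg.Agent.BG Cfsg.Agent.BG.Amb Cfsg.Agent.H2 Subgroup in
theorem aux {G : Type*} [Group G] [Finite G] {p : ℕ} [Fact p.Prime] {S K : Subgroup G}
    (hS : IsSylowOf p S ⊤) {g : G} (hmin : ∀ h : G, Nat.card (S ⊓ MulAut.conj g • S : Subgroup G) ≤
      Nat.card (S ⊓ MulAut.conj h • S : Subgroup G)) (hK : K ≤ S ⊓ MulAut.conj g • S)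
    (h1 : S ≤ 𝐍(K)) (h2 : MulAut.conj g • S ≤ 𝐍(K)) : K ≤ pCore p G := by
  rw [Core.pCore_eq_iInf_sylow, le_iInf_iff]
  intro P
  have hT : IsSylowOf p (MulAut.conj g • S) 𝐍(K) :=
    hall_of_le (hall_conj_of_mem hS trivial) h2 le_top
  obtain ⟨x, hx, hle⟩ := sylow_conj_le hT (Q := (P : Subgroup G) ⊓ 𝐍(K))
    (isPGroup_mono P.isPGroup' inf_le_left) inf_le_right
  obtain ⟨k, -, hk⟩ := sylow_conj hS (hall_conj_of_mem (g := x) (isSylowOf_top P) trivial)
  rw [conj_inf, conj_eq_of_mem hx] at hle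
  have h3 : S ⊓ MulAut.conj k • S ≤ S ⊓ MulAut.conj g • S :=
    le_inf inf_le_left (le_trans (le_inf (hk ▸ inf_le_right) (inf_le_left.trans h1)) hle)
  rw [← Core.eq_of_le_of_card_le h3 (hmin k), ← hk] at hK
  have := hK.trans inf_le_right
  rwa [le_conj_iff, conj_eq_of_mem_normalizer (Subgroup.inv_mem _ hx)] at this

/-- Brodkey's Theorem: in a finite group with abelian Sylow p-subgroups and no nontrivial normal p-subgroup, some conjugate of a Sylow p-subgroup meets it trivially. -/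
theorem result {G : Type*} [Group G] [Finite G] (p : ℕ) [Fact p.Prime]
    (S : Sylow p G) (hS : IsMulCommutative S) (hOp : Cfsg.pCore p G = ⊥) :
    ∃ g : G, (S : Subgroup G) ⊓ MulAut.conj g • (S : Subgroup G) = ⊥ := by
  obtain ⟨g, hg⟩ := Finite.exists_min
    (fun g : G => Nat.card ((S : Subgroup G) ⊓ MulAut.conj g • (S : Subgroup G) : Subgroup G))
  refine ⟨g, eq_bot_iff.2 (hOp ▸ aux (BG.Amb.isSylowOf_top S) hg le_rfl ?_ ?_)⟩
  · exact BG.Amb.le_norm_of_le_cent (BG.Amb.le_cent_of_comm hS le_rfl inf_le_left)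
  · exact BG.Amb.le_norm_of_le_cent (BG.Amb.le_cent_of_comm (BG.Amb.isMulCommutative_conj.2 hS)
      le_rfl inf_le_right)

end Cfsg.Agent.S0060
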