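import Mathlib
import Cfsg.Statements.S0064
import Cfsg.Agent.H2.Subnormal

set_option autoImplicit false
open Cfsg

namespace Cfsg.Agent.S0064

/-- A finite group is nilpotent exactly when each of its subgroups is subnormal. -/
theorem result {G : Type*} [Group G] [Finite G] :
    Group.IsNilpotent G ↔ ∀ H : Subgroup G, H.IsSubnormal := by
  constructor
  · intro h H
    have : Group.IsNilpotent (⊤ : Subgroup G) := inferInstance
    exact H2.SN.top_iff.1 (H2.SN.of_isNilpotent le_top)
  · intro h
    refine ((Group.isNilpotent_of_finite_tfae (G := G)).out 1 0).1 ?_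
    intro H hH
    have := (H2.SN.top_iff.2 (h H)).lt_normalizer hH.ne
    rwa [top_inf_eq] at this

end Cfsg.Agent.S0064
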