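import Mathlib
import Cfsg.Statements.S0065

set_option autoImplicit false
open scoped Pointwise commutatorElement
open Cfsg

namespace Cfsg.Agent.S0065

/-- A nontrivial normal subgroup of a nilpotent group intersects the centre nontrivially. -/
theorem result {G : Type*} [Group G] [Finite G] [Group.IsNilpotent G]
    (N : Subgroup G) [N.Normal] (hN : N ≠ ⊥) : N ⊓ Subgroup.center G ≠ ⊥ := by
  intro h
  have key : ∀ n, N ⊓ Subgroup.upperCentralSeries G n = ⊥ := by
    intro n
    induction n with
    | zero => simp
    | succ n ih =>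
      rw [eq_bot_iff, ← h]
      intro x hx
      refine ⟨hx.1, Subgroup.mem_center_iff.2 fun y => ?_⟩
      have h1 := Subgroup.mem_upperCentralSeries_succ_iff.1 hx.2 y
      have h2 : x * y * x⁻¹ * y⁻¹ ∈ N := by
        have := N.mul_mem hx.1 (‹N.Normal›.conj_mem _ (N.inv_mem hx.1) y)
        simpa only [mul_assoc] using this
      have h3 : x * y * x⁻¹ * y⁻¹ ∈ N ⊓ Subgroup.upperCentralSeries G n := ⟨h2, h1⟩
      rw [ih, Subgroup.mem_bot] at h3
      calc y * x = (x * y * x⁻¹ * y⁻¹) * y * x := by rw [h3, one_mul]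
        _ = x * y := by group
  obtain ⟨n, hn⟩ := Group.IsNilpotent.nilpotent G
  have := key n
  rw [hn, inf_top_eq] at this
  exact hN this

end Cfsg.Agent.S0065
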