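import Mathlib
import Cfsg.Statements.S0068
import Cfsg.Agent.H2.FrobComplement

set_option autoImplicit false
open scoped Pointwise commutatorElement
open Cfsg

namespace Cfsg.Agent.S0068

/-- Frobenius complements of even order: if H complements a nontrivial normal subgroup K, each nonidentity element of H has trivial centraliser in K, and H has even order, then H contains a unique involution s, K is abelian, and s inverts every element of K. -/
theorem result {G : Type*} [Group G] [Finite G] (K H : Subgroup G) [K.Normal]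
    (hc : Subgroup.IsComplement' K H) (hK : K ≠ ⊥) (hfpf : ∀ h ∈ H, h ≠ 1 → K ⊓ Subgroup.centralizer {h} = ⊥)
    (heven : 2 ∣ Nat.card H) :
    (∃ s ∈ H, orderOf s = 2 ∧ (∀ t ∈ H, orderOf t = 2 → t = s) ∧ ∀ k ∈ K, s * k * s⁻¹ = k⁻¹) ∧ IsMulCommutative K := by
  obtain ⟨s, hs⟩ := exists_prime_orderOf_dvd_card' (G := H) 2 heven
  have hs' : orderOf (s : G) = 2 := by rw [Subgroup.orderOf_coe, hs]
  have h1 : (s : G) * s = 1 := by rw [← sq, ← hs', pow_orderOf_eq_one]
  have h2 := H2.inverts_of_involution (K := K)
    (Subgroup.subset_normalizer_of_normal (S := {(s : G)}) rfl) h1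
    (hfpf s s.2 (fun h => by simp [h] at hs'))
  exact ⟨⟨s, s.2, hs', fun t ht ht2 => H2.involution_unique_of_semiregular
    Subgroup.le_normalizer_of_normal hfpf hK s.2 ht hs' ht2, h2.1⟩, h2.2⟩

end Cfsg.Agent.S0068
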