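import Mathlib
import Cfsg.Statements.S0073
import Cfsg.Agent.Transfer.Frobenius
-- import your own Cfsg.Agent.* helpers here

set_option autoImplicit false
open Cfsg

namespace Cfsg.Agent.S0073

open Cfsg.Agent.Transfer

/-- For a finite non-abelian simple group, either the cube of the least prime divisor of the order divides the order, or 12 does. -/
theorem result {G : Type*} [Group G] [Finite G] [IsSimpleGroup G] (hG : ∃ x y : G, x * y ≠ y * x) : (Nat.card G).minFac ^ 3 ∣ Nat.card G ∨ 12 ∣ Nat.card G := by
  by_contra hcon
  push Not at hcon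
  obtain ⟨h3, h12⟩ := hcon
  have hne : Nat.card G ≠ 1 := (Finite.one_lt_card (α := G)).ne'
  set p := (Nat.card G).minFac with hpdef
  have hp : p.Prime := Nat.minFac_prime hne
  have : Fact p.Prime := ⟨hp⟩
  obtain ⟨P⟩ := (inferInstance : Nonempty (Sylow p G))
  obtain ⟨n, hn⟩ := P.2.exists_card_eq
  have hnG : p ^ n ∣ Nat.card G := hn ▸ Subgroup.card_subgroup_dvd_card (P : Subgroup G)
  have hn2 : n ≤ 2 := by
    by_contra hlt
    exact h3 ((pow_dvd_pow p (by omega)).trans hnG)
  have hN : HasNormalPComplement p G := by
    refine hasNormalPComplement_of_not_dvd_pow_sub_one P (n := n) (by rw [← hn])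
      fun q hq hqp hqG i hi1 hi2 hd => ?_
    have hpq : p < q := lt_of_le_of_ne (Nat.minFac_le_of_dvd hq.two_le hqG) hqp.symm
    have h1 : ¬ q ∣ p - 1 := fun h => by
      have := Nat.le_of_dvd (by have := hp.two_le; omega) h
      omega
    have hi : i = 1 ∨ i = 2 := by omega
    rcases hi with rfl | rfl
    · exact h1 (by simpa using hd)
    · have hn' : n = 2 := by omega
      have h2 : p ^ 2 - 1 = (p + 1) * (p - 1) := by simpa using Nat.sq_sub_sq p 1
      rw [h2] at hd
      have h4 : q ∣ p + 1 := ((Nat.Prime.dvd_mul hq).mp hd).resolve_right h1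
      have h5 : q = p + 1 := by
        have := Nat.le_of_dvd (by omega) h4
        omega
      have hp2 : p = 2 := by
        rcases hp.eq_two_or_odd' with h | h
        · exact h
        · exfalso
          have : Even q := h5 ▸ h.add_one
          have := hq.even_iff.mp this
          have := hp.two_le
          omega
      apply h12
      rw [hn', hp2] at hnG
      rw [h5, hp2] at hqG
      exact Nat.Coprime.mul_dvd_of_dvd_of_dvd (m := 4) (n := 3) (by norm_num) hnG hqG
  rcases (pResidual_normal (G := G) (p := p)).eq_bot_or_eq_top with h | h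
  · have := (isPGroup_of_pResidual_eq_bot h).isNilpotent
    obtain ⟨x, y, hxy⟩ := hG
    rcases (inferInstance : (Subgroup.center G).Normal).eq_bot_or_eq_top with hc | hc
    · exact Group.IsNilpotent.center_ne_bot G hc
    · exact hxy (Subgroup.mem_center_iff.mp (hc ▸ Subgroup.mem_top y) x)
  · apply hasNormalPComplement_iff_not_dvd.mp hN
    rw [h, Subgroup.card_top]
    exact Nat.minFac_dvd _

end Cfsg.Agent.S0073
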