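import Mathlib
import Cfsg.Statements.S0076
import Cfsg.Agent.Transfer.Frobenius
-- import your own Cfsg.Agent.* helpers here

set_option autoImplicit false
open Cfsg

namespace Cfsg.Agent.S0076

open Cfsg.Agent.Transfer

/-- Two P-invariant subsets of a Sylow p-subgroup P that are conjugate in G are conjugate under the normalizer of P. -/
theorem result {G : Type*} [Group G] [Finite G] {p : ℕ} [Fact p.Prime] (P : Sylow p G) (X Y : Set G) (hXP : X ⊆ P) (hYP : Y ⊆ P) (hX : ∀ x ∈ P, (fun y => x * y * x⁻¹) '' X = X) (hY : ∀ x ∈ P, (fun y => x * y * x⁻¹) '' Y = Y) (g : G) (hg : (fun y => g * y * g⁻¹) '' X = Y) : ∃ n ∈ Subgroup.normalizer (P : Set G), (fun y => n * y * n⁻¹) '' X = Y := by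
  have key : ∀ (Z : Set G) (x : G), (fun y => x * y * x⁻¹) '' Z = Z →
      x ∈ Subgroup.normalizer Z := fun Z x hx =>
    Subgroup.mem_normalizer_iff_conj_image_eq.mpr hx
  have h1 : (P : Subgroup G) ≤ Subgroup.normalizer Y := fun x hx => key Y x (hY x hx)
  have h2 : ((g • P : Sylow p G) : Subgroup G) ≤ Subgroup.normalizer Y := by
    intro x hx
    apply key
    have := hX _ (mem_smul_sylow_iff.mp hx)
    rw [← hg]
    conv_rhs => rw [← this]
    rw [Set.image_image, Set.image_image]
    congr 1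
    funext y
    group
  obtain ⟨h, hh, hh'⟩ := exists_smul_sylow_eq_of_le h2 h1
  rw [← mul_smul, Sylow.smul_eq_iff_mem_normalizer] at hh'
  refine ⟨h * g, hh', ?_⟩
  rw [← Subgroup.mem_normalizer_iff_conj_image_eq.mp hh, ← hg, Set.image_image]
  congr 1
  funext y
  simp [mul_assoc]

end Cfsg.Agent.S0076
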