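import Mathlib
import Cfsg.Statements.S0078
import Cfsg.Agent.Transfer.Abelian
-- import your own Cfsg.Agent.* helpers here

set_option autoImplicit false
open Cfsg

namespace Cfsg.Agent.S0078

open Cfsg.Agent.Transfer
open scoped Pointwise

/-- In a p-normal group, a Sylow p-subgroup P meets O^p(G) exactly where it meets O^p(V), for any subgroup V containing the normalizer of the centre of P. -/
theorem result {G : Type*} [Group G] [Finite G] {p : ℕ} [Fact p.Prime] (P : Sylow p G) (hn : ∀ Q : Sylow p G, (P : Subgroup G) ⊓ Subgroup.centralizer (P : Set G) ≤ (Q : Subgroup G) → (Q : Subgroup G) ⊓ Subgroup.centralizer (Q : Set G) = (P : Subgroup G) ⊓ Subgroup.centralizer (P : Set G)) (V : Subgroup G) (hV : Subgroup.normalizer (((P : Subgroup G) ⊓ Subgroup.centralizer (P : Set G) : Subgroup G) : Set G) ≤ V) : (P : Subgroup G) ⊓ Cfsg.pResidual p G = (P : Subgroup G) ⊓ (Cfsg.pResidual p V).map V.subtype := by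
  set Z := (P : Subgroup G) ⊓ Subgroup.centralizer (P : Set G) with hZ
  have hW : IsWeaklyClosed Z (P : Subgroup G) := by
    refine ⟨inf_le_left, fun g hg => ?_⟩
    have h1 := hn (g⁻¹ • P) fun z hz => by
      rw [mem_smul_sylow_iff, inv_inv]
      exact conj_smul_le_iff.mp hg z hz
    have h2 : ((g⁻¹ • P : Sylow p G) : Subgroup G) ⊓
        Subgroup.centralizer ((g⁻¹ • P : Sylow p G) : Set G) = MulAut.conj g⁻¹ • Z := by
      rw [hZ, Subgroup.smul_inf]
      exact congrArg _ (centralizer_conj_smul (P : Subgroup G) g⁻¹)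
    rw [h2, ← mem_normalizer_iff_conj_smul_eq, inv_mem_iff] at h1
    exact Subgroup.mem_normalizer_iff_map_conj_eq.mp h1
  have hPN : (P : Subgroup G) ≤ Subgroup.normalizer (Z : Set G) :=
    (Subgroup.le_centralizer_iff.mp (inf_le_right : Z ≤ _)).trans
      (Subgroup.centralizer_le_normalizer _)
  refine inf_pResidual_eq_of_control P (hPN.trans hV) fun x hx g _ hg => ?_
  obtain ⟨v, hv, h⟩ := control_of_isWeaklyClosed' inf_le_right hW hx.1 hg
  exact ⟨v, hV hv, h⟩

end Cfsg.Agent.S0078
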