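import Mathlib
import Cfsg.Statements.S0083
import Cfsg.Agent.Transfer.Abelian
-- import your own Cfsg.Agent.* helpers here

set_option autoImplicit false
open Cfsg

namespace Cfsg.Agent.S0083

open Cfsg.Agent.Transfer

/-- For an abelian Sylow p-subgroup P, a normal p-complement exists exactly when the normalizer of P is an internal direct product of P with some subgroup. -/
theorem result {G : Type*} [Group G] [Finite G] {p : ℕ} [Fact p.Prime] (P : Sylow p G) (hP : IsMulCommutative P) : Cfsg.HasNormalPComplement p G ↔ ∃ Q : Subgroup G, Q ≤ Subgroup.centralizer (P : Set G) ∧ Q ⊓ (P : Subgroup G) = ⊥ ∧ Q ⊔ (P : Subgroup G) = Subgroup.normalizer (P : Set G) := by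
  constructor
  · intro h
    refine ⟨pResidual p G ⊓ Subgroup.normalizer (P : Set G), fun g hg =>
      mem_centralizer_of_hasNormalPComplement h P.2 hg.2 ((mem_pResidual_iff_coprime h).mp hg.1),
      ?_, ?_⟩
    · rw [eq_bot_iff, ← (hasNormalPComplement_iff_inf_eq_bot P).mp h]
      exact le_inf inf_le_right (inf_le_left.trans inf_le_left)
    · refine le_antisymm (sup_le inf_le_right Subgroup.le_normalizer) fun g hg => ?_
      obtain ⟨k, hk, x, hx, rfl⟩ := exists_mul_eq_of_sylow P g
      refine Subgroup.mul_mem_sup ⟨hk, ?_⟩ hx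
      simpa using Subgroup.mul_mem _ hg (Subgroup.inv_mem _ (Subgroup.le_normalizer hx))
  · rintro ⟨Q, h1, -, h3⟩
    refine hasNormalPComplement_of_normalizer_le_centralizer P ?_
    rw [← h3]
    exact sup_le h1 (P : Subgroup G).le_centralizer

end Cfsg.Agent.S0083
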