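import Mathlib
import Cfsg.Statements.S0085
import Cfsg.Agent.Transfer.Frobenius
-- import your own Cfsg.Agent.* helpers here

set_option autoImplicit false
open Cfsg

namespace Cfsg.Agent.S0085

open Cfsg.Agent.Transfer

/-- A group whose Sylow 2-subgroups are elementary abelian of order 8 and whose order is prime to 3 and to 7 has a normal 2-complement. -/
theorem result {G : Type*} [Group G] [Finite G] (T : Sylow 2 G) (h8 : Nat.card T = 8) (he : ∀ x : T, x * x = 1) (h3 : ¬ 3 ∣ Nat.card G) (h7 : ¬ 7 ∣ Nat.card G) : Cfsg.HasNormalPComplement 2 G := by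
  refine hasNormalPComplement_of_not_dvd_pow_sub_one T (n := 3)
    (by rw [h8]; norm_num) fun q hq _ hqG i hi1 hi2 hd => ?_
  interval_cases i
  · exact hq.not_dvd_one (by simpa using hd)
  · have : q = 3 := (Nat.prime_dvd_prime_iff_eq hq Nat.prime_three).mp (by simpa using hd)
    exact h3 (this ▸ hqG)
  · have : q = 7 := (Nat.prime_dvd_prime_iff_eq hq Nat.prime_seven).mp (by simpa using hd)
    exact h7 (this ▸ hqG)

end Cfsg.Agent.S0085
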