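import Mathlib
import Cfsg.Statements.S0087
import Cfsg.Agent.Transfer.Wielandt
-- import your own Cfsg.Agent.* helpers here

set_option autoImplicit false
open Cfsg

namespace Cfsg.Agent.S0087

open Cfsg.Agent.Transfer

/-- A Hall subgroup that is central in its normalizer has a normal complement. -/
theorem result {G : Type*} [Group G] [Finite G] (H : Subgroup G) (hHall : Nat.Coprime (Nat.card H) H.index) (h : Subgroup.normalizer (H : Set G) ≤ Subgroup.centralizer (H : Set G)) : ∃ N : Subgroup G, N.Normal ∧ N.IsComplement' H := by
  have hc : IsMulCommutative H := ⟨⟨fun a b =>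
    Subtype.ext (h (Subgroup.le_normalizer b.2) a a.2)⟩⟩
  have hnil : Group.IsNilpotent H := by
    let _ : CommGroup H := { (inferInstance : Group H) with mul_comm := hc.is_comm.comm }
    exact CommGroup.isNilpotent
  refine exists_normal_isComplement'_of_control hHall fun x hx g hg => ?_
  obtain ⟨v, hv, e⟩ := control_normalizer_of_abelian_hall hHall hx hg
  exact ⟨1, one_mem _, by rw [← e, ← h hv x hx]; simp⟩

end Cfsg.Agent.S0087
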