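import Mathlib
import Cfsg.Statements.S0090
import Cfsg.Agent.Transfer.Abelian
-- import your own Cfsg.Agent.* helpers here

set_option autoImplicit false
open Cfsg

namespace Cfsg.Agent.S0090

open Cfsg.Agent.Transfer

/-- An abelian normal Hall subgroup A splits as the internal direct product of G' ∩ A and Z(G) ∩ A, and [A, G] = G' ∩ A. -/
theorem result {G : Type*} [Group G] [Finite G] (A : Subgroup G) [A.Normal] (hc : IsMulCommutative A) (hHall : Nat.Coprime (Nat.card A) A.index) : ⁅A, (⊤ : Subgroup G)⁆ = commutator G ⊓ A ∧ (commutator G ⊓ A) ⊓ (Subgroup.center G ⊓ A) = ⊥ ∧ (commutator G ⊓ A) ⊔ (Subgroup.center G ⊓ A) = A := by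
  refine ⟨(commutator_inf_eq_of_normal_hall A hHall).symm, ?_, ?_⟩
  · rw [eq_bot_iff, ← inf_commutator_inf_center_eq_bot hHall]
    exact le_inf (le_inf (inf_le_left.trans inf_le_right) (inf_le_left.trans inf_le_left))
      (inf_le_right.trans inf_le_left)
  · rw [commutator_inf_eq_of_normal_hall A hHall, commutator_sup_center_inf_of_hall A hHall]

end Cfsg.Agent.S0090
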