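import Mathlib
import Cfsg.Statements.S0092
import Cfsg.Agent.Transfer.Abelian
import Cfsg.Agent.Transfer.Replacement
import Cfsg.Agent.Core.SylowOf
-- import your own Cfsg.Agent.* helpers here

set_option autoImplicit false
open Cfsg

namespace Cfsg.Agent.S0092

open Cfsg.Agent.Transfer

open scoped Pointwise

/-- If the Sylow p-subgroups of O^p(G) are abelian then G splits over O^p(G). -/
theorem result {G : Type*} [Group G] [Finite G] {p : ℕ} [Fact p.Prime] (h : ∀ Q : Sylow p (Cfsg.pResidual p G), IsMulCommutative Q) : ∃ K : Subgroup G, K.IsComplement' (Cfsg.pResidual p G) := by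
  set K := Cfsg.pResidual p G with hK
  obtain ⟨Q₀⟩ := (inferInstance : Nonempty (Sylow p K))
  have hab := h Q₀
  set Q := (Q₀ : Subgroup K).map K.subtype with hQ
  have hQK : Core.IsSylowOf p Q K := Core.isSylowOf_map_subtype Q₀
  set N := K ⊓ Subgroup.normalizer (Q : Set G) with hN
  have hQN : Core.IsSylowOf p Q N := hQK.of_le (le_inf hQK.le Subgroup.le_normalizer) inf_le_left
  obtain ⟨L, hLN, hd, hsup, hcard⟩ := Core.exists_complement_in Q N hQN.le inf_le_right
    hQN.coprime_relIndex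
  set M := Subgroup.normalizer (Q : Set G) ⊓ Subgroup.normalizer (L : Set G) with hM
  have h1 : K ⊔ M = ⊤ := by
    rw [eq_top_iff, ← hQK.frattini_top]
    refine sup_le le_sup_left fun n hn => ?_
    have h2 : MulAut.conj n • L ≤ N := by
      have : n ∈ Subgroup.normalizer (N : Set G) := Core.le_normalizer_inf
        Subgroup.le_normalizer_of_normal Subgroup.le_normalizer hn
      rw [← mem_normalizer_iff_conj_smul_eq.1 this]
      exact Subgroup.map_mono hLN
    obtain ⟨q, hq, e⟩ := Core.exists_conj_eq_of_subset_mul Q (MulAut.conj n • L) L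
      (h2.trans inf_le_right) (by rw [card_conj_smul, hcard]; exact hQN.coprime_relIndex.symm)
      (Or.inr (Core.solvable_of_isPGroup hQK.isPGroup)) (fun x hx => by
        obtain ⟨a, ha, b, hb, rfl⟩ := (Core.mem_sup_of_le_normalizer (hLN.trans inf_le_right)).1
          (hsup ▸ h2 hx)
        exact ⟨a, ha, by simpa using hb⟩) (card_conj_smul L n).ge
    have h3 : q * n ∈ M := ⟨mul_mem (Subgroup.le_normalizer hq) hn,
      mem_normalizer_iff_conj_smul_eq.2 (by rw [map_mul, mul_smul, e])⟩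
    simpa using mul_mem (Subgroup.mem_sup_left (inv_mem (hQK.le hq))) (Subgroup.mem_sup_right h3)
  have h2 : M ⊓ Q = ⊥ := by
    rw [eq_bot_iff]
    rintro _ ⟨hx, x, hxQ, rfl⟩
    have h3 := (fitting_decomposition_sylow Q₀).1
    rw [show pResidual p K = ⊤ from pResidual_pResidual, inf_top_eq, ← inf_assoc, inf_idem] at h3
    have h4 : (x : G) ∈ Subgroup.centralizer (N : Set G) := by
      rw [← hsup, centralizer_coe_sup]
      refine ⟨?_, fun l hl => ?_⟩
      · rintro _ ⟨y, hy, rfl⟩
        exact congrArg Subtype.val (Core.comm_of_isMulCommutative hab hy hxQ)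
      · have h5 : l * x * l⁻¹ * (x : G)⁻¹ ∈ Q ⊓ L := ⟨mul_mem
          ((Subgroup.mem_normalizer_iff.1 (hLN hl).2 _).1 ⟨x, hxQ, rfl⟩) (Q.inv_mem ⟨x, hxQ, rfl⟩), by
            have := mul_mem hl ((Subgroup.mem_normalizer_iff.1 hx.2 _).1 (inv_mem hl))
            simpa [mul_assoc] using this⟩
        rw [hd.eq_bot, Subgroup.mem_bot, mul_inv_eq_one, mul_inv_eq_iff_eq_mul] at h5
        exact h5
    have h5 : x ∈ (Q₀ : Subgroup K) ⊓ Subgroup.centralizer
        (Subgroup.normalizer ((Q₀ : Subgroup K) : Set K) : Set K) :=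
      ⟨hxQ, fun n hn => Subtype.ext
        (h4 n ⟨n.2, (Q₀ : Subgroup K).le_normalizer_map K.subtype ⟨n, hn, rfl⟩⟩)⟩
    rw [h3, Subgroup.mem_bot] at h5
    simp [h5]
  obtain ⟨P, hP⟩ := Core.exists_isSylowOf p M
  obtain ⟨k, hk⟩ := exists_index_pResidual_eq_pow (p := p) (G := G)
  have h3 : (K ⊓ M) ⊔ P = M := hP.sup_eq_of_relIndex_eq_pow inf_le_right (n := k) (by
    rw [Subgroup.inf_relIndex_right, ← Core.index_eq_relIndex_of_sup_eq_top h1, hk])
  refine ⟨P, Subgroup.isComplement'_of_disjoint_and_mul_eq_univ ?_ ?_⟩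
  · rw [disjoint_iff, eq_bot_iff, ← h2]
    exact le_inf (inf_le_left.trans hP.le) (hQK.le_of_le_normalizer' (hP.isPGroup.to_le inf_le_left)
      inf_le_right (inf_le_left.trans (hP.le.trans inf_le_left)))
  · rw [← Subgroup.mul_normal, ← Subgroup.coe_top, SetLike.coe_set_eq, eq_top_iff, ← h1, ← h3]
    exact sup_le le_sup_right (sup_le (inf_le_left.trans le_sup_right) le_sup_left)

end Cfsg.Agent.S0092
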