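import Mathlib
import Cfsg.Statements.S0097
import Cfsg.Agent.PGrp.Critical
-- import your own Cfsg.Agent.* helpers here

set_option autoImplicit false
open Cfsg

namespace Cfsg.Agent.S0097

/-- For odd p and E extraspecial, the subgroup generated by the elements of order dividing p has exponent dividing p and index at most p. -/
theorem result {E : Type*} [Group E] [Finite E] {p : ℕ} [Fact p.Prime] (hp : p ≠ 2) (h : Cfsg.IsExtraspecial p E) : (Subgroup.closure {x : E | x ^ p = 1}).index ≤ p ∧ ∀ g ∈ Subgroup.closure {x : E | x ^ p = 1}, g ^ p = 1 := by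
  obtain ⟨⟨hP, h1, h2⟩, h4⟩ := h
  have hodd := (Fact.out : p.Prime).odd_of_ne_two hp
  have h3 : ⁅⁅(⊤ : Subgroup E), (⊤ : Subgroup E)⁆, (⊤ : Subgroup E)⁆ = ⊥ := by
    rw [Subgroup.commutator_top_right_eq_bot_iff_le_center]
    exact h2.le
  have h5 : ∀ x : E, x ^ p ∈ Subgroup.center E := fun x => h1 ▸ PGrp.pow_mem_frattini hP x
  have h6 : ∀ x y : E, (x * y) ^ p = x ^ p * y ^ p := fun x y =>
    PGrp.mul_pow_of_critical hodd (H := ⊤) (fun x _ => by
      rw [Subgroup.coe_top, Subgroup.centralizer_univ]; exact h5 x) h3 trivial trivial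
  let f : E →* E := { toFun := fun x => x ^ p, map_one' := one_pow p, map_mul' := h6 }
  have h7 : Subgroup.closure {x : E | x ^ p = 1} = f.ker := by
    have : {x : E | x ^ p = 1} = (f.ker : Set E) := rfl
    rw [this, Subgroup.closure_eq]
  rw [h7]
  refine ⟨?_, fun g hg => hg⟩
  rw [Subgroup.index_ker, ← h4]
  refine Subgroup.card_le_of_le ?_
  rintro _ ⟨x, rfl⟩
  exact h5 x

end Cfsg.Agent.S0097
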