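import Mathlib
import Cfsg.Statements.S0098
import Cfsg.Agent.PGrp.Extra
-- import your own Cfsg.Agent.* helpers here

set_option autoImplicit false
open Cfsg

namespace Cfsg.Agent.S0098

/-- For odd p, extraspecial p-groups of exponent p are determined up to isomorphism by their order. -/
theorem result {E₁ : Type*} {E₂ : Type*} [Group E₁] [Group E₂] [Finite E₁] [Finite E₂] {p : ℕ} [Fact p.Prime] (hp : p ≠ 2) (h₁ : Cfsg.IsExtraspecial p E₁) (h₂ : Cfsg.IsExtraspecial p E₂) (he₁ : Monoid.exponent E₁ = p) (he₂ : Monoid.exponent E₂ = p) (hc : Nat.card E₁ = Nat.card E₂) : Nonempty (E₁ ≃* E₂) := by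
  obtain ⟨m, D, -, h1, h2⟩ := PGrp.exists_cext_of_isExtraspecial h₁
  obtain ⟨m', D', -, h1', h2'⟩ := PGrp.exists_cext_of_isExtraspecial h₂
  rw [h2, h2'] at hc
  have h3 := Nat.pow_right_injective (Fact.out : p.Prime).two_le hc
  obtain ⟨σ, hσ⟩ := PGrp.exists_isometry_of_alt h1 D.B_alt h1' D'.B_alt (by
    rw [PGrp.finrank_fin_fun_zmod, PGrp.finrank_fin_fun_zmod]; omega)
  obtain ⟨φ, -⟩ := D.exists_lift D' σ.toAddEquiv hσ fun v => by
    obtain ⟨x, rfl⟩ := D.χ_surj v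
    obtain ⟨y, hy⟩ := D'.χ_surj (σ.toAddEquiv (D.χ x))
    rw [← hy, (D.pow_eq_one_iff x).mp (he₁ ▸ Monoid.pow_exponent_eq_one x),
      (D'.pow_eq_one_iff y).mp (he₂ ▸ Monoid.pow_exponent_eq_one y)]
  exact ⟨φ⟩

end Cfsg.Agent.S0098
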