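import Mathlib
import Cfsg.Statements.S0099
import Cfsg.Agent.PGrp.Extra2
-- import your own Cfsg.Agent.* helpers here

set_option autoImplicit false
open Cfsg

namespace Cfsg.Agent.S0099

/-- Among three extraspecial 2-groups of equal order, some two are isomorphic. -/
theorem result {E₁ : Type*} {E₂ : Type*} {E₃ : Type*} [Group E₁] [Group E₂] [Group E₃] [Finite E₁] [Finite E₂] [Finite E₃] (h₁ : Cfsg.IsExtraspecial 2 E₁) (h₂ : Cfsg.IsExtraspecial 2 E₂) (h₃ : Cfsg.IsExtraspecial 2 E₃) (h12 : Nat.card E₁ = Nat.card E₂) (h23 : Nat.card E₂ = Nat.card E₃) : Nonempty (E₁ ≃* E₂) ∨ Nonempty (E₂ ≃* E₃) ∨ Nonempty (E₁ ≃* E₃) := by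
  have : Fact (Nat.Prime 2) := ⟨Nat.prime_two⟩
  obtain ⟨m₁, D₁, a₁, -, c₁⟩ := PGrp.exists_cext_two h₁
  obtain ⟨m₂, D₂, a₂, -, c₂⟩ := PGrp.exists_cext_two h₂
  obtain ⟨m₃, D₃, a₃, -, c₃⟩ := PGrp.exists_cext_two h₃
  rw [c₁, c₂] at h12
  rw [c₂, c₃] at h23
  have e12 := Nat.pow_right_injective le_rfl h12
  have e23 := Nat.pow_right_injective le_rfl h23
  obtain rfl : m₁ = m₂ := by omega
  obtain rfl : m₁ = m₃ := by omega
  by_cases h1 : Orth.IsPlus D₁.Q ↔ Orth.IsPlus D₂.Q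
  · exact Or.inl (D₁.nonempty_equiv_of_isPlus_iff D₂ a₁ a₂ rfl h1)
  by_cases h2 : Orth.IsPlus D₂.Q ↔ Orth.IsPlus D₃.Q
  · exact Or.inr (Or.inl (D₂.nonempty_equiv_of_isPlus_iff D₃ a₂ a₃ rfl h2))
  · exact Or.inr (Or.inr (D₁.nonempty_equiv_of_isPlus_iff D₃ a₁ a₃ rfl (by tauto)))

end Cfsg.Agent.S0099
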