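import Mathlib
import Cfsg.Statements.S0104
import Cfsg.Agent.Transfer.Abelian
-- import your own Cfsg.Agent.* helpers here

set_option autoImplicit false
open Cfsg

namespace Cfsg.Agent.S0104

open Cfsg.Agent.Transfer

/-- A subgroup Z of a Sylow p-subgroup P that is normalized by N_G(P) is weakly closed in P exactly when it is normal in every Sylow p-subgroup containing it. -/
theorem result {G : Type*} [Group G] [Finite G] {p : ℕ} [Fact p.Prime] (P : Sylow p G) (Z : Subgroup G) (hZP : Z ≤ (P : Subgroup G)) (hZN : Subgroup.normalizer (P : Set G) ≤ Subgroup.normalizer (Z : Set G)) : Cfsg.IsWeaklyClosed Z P ↔ ∀ R : Sylow p G, Z ≤ (R : Subgroup G) → (R : Subgroup G) ≤ Subgroup.normalizer (Z : Set G) := by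
  constructor
  · intro h R hR r hr
    exact IsWeaklyClosed.conj_eq (IsWeaklyClosed.of_le_sylow h hR) fun w hw =>
      mul_mem (mul_mem hr (hR hw)) (inv_mem hr)
  · intro h
    refine ⟨hZP, fun g hg => Subgroup.mem_normalizer_iff_map_conj_eq.mp ?_⟩
    have h1 := h (g⁻¹ • P) fun z hz => by
      rw [mem_smul_sylow_iff, inv_inv]
      exact conj_smul_le_iff.mp hg z hz
    obtain ⟨n, hn, hn'⟩ := exists_smul_sylow_eq_of_le h1 (h P hZP)
    rw [← mul_smul, Sylow.smul_eq_iff_mem_normalizer] at hn'
    simpa using mul_mem (inv_mem (hZN hn')) hn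

end Cfsg.Agent.S0104
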