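import Mathlib
import Cfsg.Statements.S0107
import Cfsg.Agent.Transfer.Residual
import Cfsg.Agent.Inv.DihFus
-- import your own Cfsg.Agent.* helpers here

set_option autoImplicit false
open Cfsg

namespace Cfsg.Agent.S0107

open Cfsg.Agent.Transfer

/-- A finite group with no nontrivial 2-group quotient and dihedral Sylow 2-subgroups of order at least 8 has a single class of involutions. -/
theorem result {G : Type*} [Group G] [Finite G] (T : Sylow 2 G) (n : ℕ) (hn : 2 ≤ n) (hT : Nonempty ((T : Subgroup G) ≃* DihedralGroup (2 ^ n))) (hO : Cfsg.pResidual 2 G = ⊤) (x y : G) (hx : orderOf x = 2) (hy : orderOf y = 2) : ∃ g : G, g * x * g⁻¹ = y := by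
  obtain ⟨e⟩ := hT
  have h2 : 2 ≤ 2 ^ n := by
    calc 2 = 2 ^ 1 := rfl
      _ ≤ 2 ^ n := Nat.pow_le_pow_right (by norm_num) (by omega)
  obtain ⟨a, b, m, h⟩ := Inv.exists_dih T.2 h2 e
  have hO' := h.not_oddC (Inv.no_index_two_of_pResidual hO)
  exact isConj_iff.1 ((h.isConj_of_not_oddC hO' hx).symm.trans (h.isConj_of_not_oddC hO' hy))

end Cfsg.Agent.S0107
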