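import Mathlib
import Cfsg.Statements.S0110
import Cfsg.Agent.PGrp.Frattini
-- import your own Cfsg.Agent.* helpers here

set_option autoImplicit false
open Cfsg

namespace Cfsg.Agent.S0110

/-- In a p-group G, an extraspecial subgroup E with [G, E] ≤ Z(E) satisfies G = E C_G(E). -/
theorem result {G : Type*} [Group G] [Finite G] {p : ℕ} [Fact p.Prime] (hG : IsPGroup p G) (E : Subgroup G) (hE : Cfsg.IsExtraspecial p E) (h : ⁅(⊤ : Subgroup G), E⁆ ≤ E ⊓ Subgroup.centralizer (E : Set G)) : E ⊔ Subgroup.centralizer (E : Set G) = ⊤ := by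
  have hp : p.Prime := Fact.out
  set Z := E ⊓ Subgroup.centralizer (E : Set G) with hZ
  have hZc : Nat.card Z = p := by
    rw [← hE.2, ← Subgroup.card_map_of_injective E.subtype_injective]
    congr 2
    ext x
    simp only [hZ, Subgroup.mem_inf, Subgroup.mem_centralizer_iff, Subgroup.mem_map,
      Subgroup.mem_center_iff]
    constructor
    · rintro ⟨h1, h2⟩
      exact ⟨⟨x, h1⟩, fun g => Subtype.ext (h2 g g.2), rfl⟩
    · rintro ⟨y, h1, rfl⟩
      exact ⟨y.2, fun g hg => congrArg Subtype.val (h1 ⟨g, hg⟩)⟩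
  have hEn : E.Normal := Subgroup.commutator_top_left_le_iff.mp (h.trans inf_le_left)
  have hZn : Z.Normal := inferInstance
  have hZ1 := PGrp.le_center_of_card_eq_prime hG Z hZc
  have h1 := PGrp.relIndex_centralizer_le_relIndex (H := ⊤) (Z := Z) (Z₀ := Z) hZc.le
    (Subgroup.le_centralizer_iff.mp (by rwa [Subgroup.coe_top, Subgroup.centralizer_univ])) _ E
    (hG.to_subgroup E) inf_le_left h rfl
  rw [Subgroup.relIndex_top_right, hZ, Subgroup.inf_relIndex_left] at h1
  refine PGrp.eq_of_le_of_card_le le_top ?_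
  rw [Subgroup.card_top, sup_comm, PGrp.card_eq_card_mul_relIndex le_sup_left,
    Subgroup.relIndex_sup_left, ← (Subgroup.centralizer (E : Set G)).card_mul_index]
  exact Nat.mul_le_mul_left _ h1

end Cfsg.Agent.S0110
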