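import Mathlib
import Cfsg.Statements.S0115
import Cfsg.Agent.PGrp.MaxClass2
-- import your own Cfsg.Agent.* helpers here

set_option autoImplicit false
open Cfsg

namespace Cfsg.Agent.S0115

/-- A 2-group of order 2^n, n ≥ 3, is of maximal class exactly when its commutator quotient is a Klein four-group. -/
theorem result {X : Type*} [Group X] [Finite X] (n : ℕ) (hn : 3 ≤ n) (hX : Nat.card X = 2 ^ n) : Group.nilpotencyClass X = n - 1 ↔ IsKleinFour (X ⧸ commutator X) := by
  have : Fact (Nat.Prime 2) := ⟨Nat.prime_two⟩
  have hP : IsPGroup 2 X := IsPGroup.of_card hX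
  constructor
  · intro hc
    have h1 : Nat.card (X ⧸ commutator X) = 2 ^ 2 :=
      PGrp.index_commutator_of_maximal_class hX hc (by omega)
    refine ⟨h1, (not_isCyclic_iff_exponent_eq_prime Nat.prime_two h1).mp fun h => ?_⟩
    exact PGrp.not_isMulCommutative_of_class hP (by omega) (PGrp.isMulCommutative_of_isCyclic
      (PGrp.isCyclic_of_isCyclic_quotient_commutator hP h))
  · intro h
    have h4 : (commutator X).index = 4 := h.card_four
    have hna : ¬ IsMulCommutative X := by
      intro hc
      rw [commutator_eq_bot, Subgroup.index_bot, hX] at h4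
      have : 2 ^ 3 ≤ 2 ^ n := Nat.pow_le_pow_right (by norm_num) hn
      omega
    obtain ⟨a, b, m, -, hm⟩ := PGrp.exists_mc_of_index_commutator hP h4 hna
    have h1 := PGrp.mc_card hm
    rw [hX] at h1
    have h2 := Nat.pow_right_injective le_rfl h1
    rw [PGrp.mc_nilpotencyClass hm]
    omega

end Cfsg.Agent.S0115
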