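import Mathlib
import Cfsg.Statements.S0118
import Cfsg.Agent.Transfer.ZJFusion
-- import your own Cfsg.Agent.* helpers here

set_option autoImplicit false
open Cfsg

namespace Cfsg.Agent.S0118

open Cfsg.Agent.Transfer

/-- Glauberman's ZJ-Theorem, in the case of groups with no section isomorphic to SL(2,p), p odd: conjugation of subsets of a Sylow p-subgroup P inside P is always induced from the normalizer of Z(J(P)). -/
theorem result {G : Type*} [Group G] [Finite G] {p : ℕ} [Fact p.Prime] (hp : p ≠ 2) (hfree : ¬ ∃ (H K : Subgroup G) (hK : (K.subgroupOf H).Normal), Nonempty ((H ⧸ K.subgroupOf H) ≃* Matrix.SpecialLinearGroup (Fin 2) (ZMod p))) (P : Sylow p G) (A : Set G) (hA : A ⊆ (P : Set G)) (g : G) (hAg : (fun a => g⁻¹ * a * g) '' A ⊆ (P : Set G)) : ∃ n ∈ Subgroup.normalizer (Cfsg.centerThompsonOf p (P : Subgroup G) : Set G), ∀ a ∈ A, n⁻¹ * a * n = g⁻¹ * a * g := by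
  obtain ⟨x, hx, c, hc, e⟩ := control_zj hp (Or.inr rfl) (fun h => hfree h.exists_mulEquiv) P
    (A := Subgroup.closure A) ((Subgroup.closure_le _).2 hA) (Glaub.cj_inv_closure_le hAg)
  rw [PLocal.centerThompsonOf_eq]
  refine ⟨x⁻¹, inv_mem hx, fun a ha => ?_⟩
  have h1 := Glaub.mem_cent.1 hc a (Subgroup.subset_closure ha)
  have h2 : g = c⁻¹ * x⁻¹ := by rw [← mul_inv_rev, ← e, inv_inv]
  calc x⁻¹⁻¹ * a * x⁻¹ = x * (c * a * c⁻¹) * x⁻¹ := by rw [h1, inv_inv]
    _ = g⁻¹ * a * g := by rw [h2]; group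

end Cfsg.Agent.S0118
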