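import Mathlib
import Cfsg.Statements.S0122
import Cfsg.Agent.PGrp.Alperin
-- import your own Cfsg.Agent.* helpers here

set_option autoImplicit false
open Cfsg

namespace Cfsg.Agent.S0122

open Subgroup PGrp
open scoped commutatorElement

universe u

theorem aux {p : ℕ} [Fact p.Prime] (hp2 : p ≠ 2) (n : ℕ) : ∀ (G : Type u) [Group G] [Finite G],
    Nat.card G = n → IsPGroup p G → ∀ E : Subgroup G, IsElementaryAbelian p E →
      Nat.card E = p ^ 4 →
      ∃ A : Subgroup G, A.Normal ∧ IsElementaryAbelian p A ∧ Nat.card A = p ^ 4 := by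
  have hp : p.Prime := Fact.out
  have hodd := hp.odd_of_ne_two hp2
  have hlt : ∀ {a b : ℕ}, p ^ a < p ^ b → a < b := fun h => (Nat.pow_lt_pow_iff_right hp.one_lt).mp h
  have hle : ∀ {a b : ℕ}, p ^ a ≤ p ^ b → a ≤ b := fun h => (Nat.pow_le_pow_iff_right hp.one_lt).mp h
  induction n using Nat.strong_induction_on with
  | _ n ih =>
  intro G _ _ hn hG E₀ hE₀ hE₀4
  by_cases htop : E₀ = ⊤
  · exact ⟨E₀, htop ▸ inferInstance, hE₀, hE₀4⟩
  obtain ⟨M, hMn, hMi, hEM⟩ := exists_normal_index_prime_ge hG htop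
  have hMlt : Nat.card M < n := by
    rw [← hn, ← card_top (G := G)]
    refine card_lt_of_lt (lt_top_iff_ne_top.mpr ?_)
    rintro rfl
    exact hp.one_lt.ne (by simpa using hMi)
  obtain ⟨E', hE'n, hE', hE'4⟩ := ih _ hMlt M rfl (hG.to_subgroup M) (E₀.subgroupOf M)
    ⟨haveI := hE₀.1; inferInstance, fun a ha => Subtype.ext (hE₀.2 a ha)⟩
    (by rw [Nat.card_congr (subgroupOfEquivOfLe hEM).toEquiv, hE₀4])
  set E := E'.map M.subtype with hEdef
  have hE : IsElementaryAbelian p E := ⟨haveI := hE'.1; inferInstance, by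
    rintro _ ⟨a, ha, rfl⟩
    simpa using congrArg Subtype.val (hE'.2 a ha)⟩
  have hE4 : Nat.card E = p ^ 4 := by rw [hEdef, card_map_of_injective M.subtype_injective, hE'4]
  have hEM' : E ≤ M := map_subtype_le _
  have hME : ∀ m ∈ M, ∀ e ∈ E, m * e * m⁻¹ ∈ E := by
    rintro m hm _ ⟨e, he, rfl⟩
    exact ⟨_, hE'n.conj_mem e he ⟨m, hm⟩, rfl⟩
  have hEc := isMulCommutative_iff_forall.mp hE.1
  obtain ⟨A, -, hAn, hA, hA3, hAmax⟩ := exists_normal_elementary_cube_ge hp2 hG hE
    (by rw [hE4]; exact Nat.pow_lt_pow_right hp.one_lt (by omega)) ⊥ isElementaryAbelian_bot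
  by_cases hA4 : p ^ 4 ≤ Nat.card A
  · obtain ⟨K, k1, k2, k3⟩ := exists_normal_le_card_eq hG A 4 hA4
    exact ⟨K, k1, IsElementaryAbelian_of_le k2 hA, k3⟩
  obtain ⟨a, ha⟩ := exists_card_eq_pow hG A
  obtain rfl : a = 3 := by
    rw [ha] at hA3 hA4
    have := hle hA3
    have := hlt (not_le.mp hA4)
    omega
  set C := centralizer (A : Set G) with hC
  obtain ⟨h4, h5⟩ := card_elementary_le_aux hAmax hE
  have h6 : C.index ≤ p ^ 3 := by simpa using index_centralizer_le_pow_choose hG A ha
  have h10 : ¬ A ≤ E := fun h => by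
    have := card_le_of_le (h5 h)
    rw [hE4, ha] at this
    have := hle this
    omega
  have h11 : C ⊓ E < A := lt_of_le_of_ne h4 fun h => h10 (h ▸ inf_le_right)
  obtain ⟨k, hk⟩ := exists_card_eq_pow hG (C ⊓ E)
  have h12 := card_lt_of_lt h11
  rw [hk, ha] at h12
  have h13 := hlt h12
  by_cases hk2 : k = 2
  · subst hk2
    have h7 := card_inf_mul_relIndex C E
    rw [hk, hE4, show p ^ 4 = p ^ 2 * p ^ 2 by ring] at h7
    have h8 := Nat.eq_of_mul_eq_mul_left (pow_pos hp.pos 2) h7
    have h9 : (C ⊔ E).index ≤ p := by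
      have := relIndex_mul_index (le_sup_left : C ≤ C ⊔ E)
      rw [relIndex_sup_left, h8] at this
      rw [← this, pow_succ] at h6
      exact Nat.le_of_mul_le_mul_left h6 (pow_pos hp.pos 2)
    have hCEn := normal_of_index_le_prime hG h9
    have hAE : A ⊓ E = C ⊓ E :=
      le_antisymm (inf_le_inf_right _ (haveI := hA.1; le_centralizer A)) (le_inf h4 inf_le_right)
    have hH : Nat.card ↥(A ⊔ E) = p ^ 5 := by
      have := card_sup_mul_card_inf (N := A) (H := E) le_normalizer_of_normal
      rw [hAE, hk, ha, hE4, show p ^ 3 * p ^ 4 = p ^ 5 * p ^ 2 by ring] at this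
      exact Nat.eq_of_mul_eq_mul_right (pow_pos hp.pos 2) this
    have hEH : E.relIndex (A ⊔ E) = p := by
      have := card_eq_card_mul_relIndex (le_sup_right : E ≤ A ⊔ E)
      rw [hH, hE4, pow_succ] at this
      exact (Nat.eq_of_mul_eq_mul_left (pow_pos hp.pos 4) this).symm
    refine ⟨E, ⟨fun e he g => ?_⟩, hE, hE4⟩
    set F := E.map (MulAut.conj g).toMonoidHom with hF
    have hmemF : ∀ f, f ∈ F ↔ g⁻¹ * f * g ∈ E := by
      intro f
      constructor
      · rintro ⟨x, hx, rfl⟩
        simpa [mul_assoc] using hx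
      · intro h
        exact ⟨_, h, by simp [mul_assoc]⟩
    have hF4 : Nat.card F = p ^ 4 := by
      rw [hF, card_map_of_injective (MulAut.conj g).injective, hE4]
    have hFM : F ≤ M := fun f hf => by
      have := hMn.conj_mem _ (hEM' ((hmemF f).mp hf)) g
      simpa [mul_assoc] using this
    have hMF : ∀ m ∈ M, ∀ f ∈ F, m * f * m⁻¹ ∈ F := by
      intro m hm f hf
      rw [hmemF] at hf ⊢
      have := hME _ (hMn.conj_mem' m hm g) _ hf
      simpa [mul_assoc] using this
    have hFc : ∀ a ∈ F, ∀ b ∈ F, a * b = b * a :=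
      isMulCommutative_iff_forall.mp (haveI := hE.1; inferInstance)
    have hFp : ∀ f ∈ F, f ^ p = 1 := by
      rintro _ ⟨x, hx, rfl⟩
      rw [← map_pow, hE.2 x hx, map_one]
    have hFH : F ≤ A ⊔ E := by
      intro f hf
      have h1 : f ∈ C ⊔ E := by
        have := hCEn.conj_mem _ (mem_sup_right ((hmemF f).mp hf)) g
        simpa [mul_assoc] using this
      obtain ⟨c, hc, x, hx, hcx⟩ := mem_sup_of_normal_left.mp h1
      have h2 : c = f * x⁻¹ := by rw [← hcx]; group
      have h3 : ⁅x⁻¹, f⁆ ∈ F := by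
        rw [commutatorElement_def]
        exact mul_mem (hMF _ (hEM' (inv_mem hx)) f hf) (inv_mem hf)
      have h3' : ⁅x⁻¹, f⁆ ∈ E := by
        apply commutator_symm_mem
        rw [commutatorElement_def]
        exact mul_mem (hME _ (hFM hf) _ (inv_mem hx)) (inv_mem (inv_mem hx))
      have h14 : c ^ p = 1 := by
        rw [h2]
        exact mul_pow_eq_one_of_commute_of_odd hodd (hFc f hf _ h3) (hEc _ (inv_mem hx) _ h3')
          (hFp f hf) (hE.2 _ (inv_mem hx))
      rw [← hcx]
      exact mul_mem (mem_sup_left (hAmax c hc h14)) (mem_sup_right hx)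
    have hFE : F ≤ E := by
      by_contra hFE
      have h1 : E ⊔ F = A ⊔ E := by
        rcases eq_or_eq_of_relIndex_prime hp hEH (le_sup_left : E ≤ E ⊔ F)
          (sup_le le_sup_right hFH) with h | h
        · exact absurd (h ▸ le_sup_right) hFE
        · exact h
      have h2 : E ⊓ F ≤ C ⊓ E := by
        refine le_inf ?_ inf_le_left
        have : E ⊓ F ≤ centralizer ((E ⊔ F : Subgroup G) : Set G) := by
          rw [centralizer_sup]
          exact fun x hx => ⟨fun y hy => hEc y hy x hx.1, fun y hy => hFc y hy x hx.2⟩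
        rw [h1] at this
        exact this.trans (centralizer_le (by exact fun _ hx => mem_sup_left hx))
      have h3 := card_sup_mul_card_inf (N := E) (H := F)
        (le_normalizer_iff.mpr fun f hf => hME f (hFM hf))
      have h14 := card_le_of_le h2
      rw [h1, hH, hE4, hF4] at h3
      rw [hk] at h14
      have : p ^ 8 ≤ p ^ 7 := by
        calc p ^ 8 = p ^ 4 * p ^ 4 := by ring
          _ = p ^ 5 * Nat.card ↥(E ⊓ F) := h3.symm
          _ ≤ p ^ 5 * p ^ 2 := Nat.mul_le_mul_left _ h14
          _ = p ^ 7 := by ring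
      have := hle this
      omega
    exact hFE ⟨e, he, rfl⟩
  · exfalso
    have hk1 : Nat.card ↥(C ⊓ E) ≤ p := by
      rw [hk]
      conv_rhs => rw [← pow_one p]
      exact Nat.pow_le_pow_right hp.pos (by omega)
    obtain ⟨Z, hZn, hZA, hZ⟩ := exists_normal_le_card_eq hG A 2
      (by rw [ha]; exact Nat.pow_le_pow_right hp.pos (by omega))
    have hAZ : ¬ A ≤ Z := fun h => by
      have := card_le_of_le h
      rw [ha, hZ] at this
      have := hle this
      omega
    obtain ⟨a, haA, haZ, hap, hac⟩ := exists_central_mod_normal hG A Z hAZ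
    have hsup : Z ⊔ zpowers a = A := eq_of_le_of_card_le (sup_le hZA (by simpa using haA)) (by
      rw [card_sup_zpowers hp (le_normalizer_of_normal (K := ⊤) trivial) hap haZ, ha, hZ, pow_succ])
    set K := centralizer (Z : Set G) with hK
    have hKi : K.index ≤ p := index_centralizer_le_of_card_eq_sq hG Z hZ
    have hCK : C = K ⊓ centralizer {a} := by rw [hC, ← hsup, centralizer_sup_zpowers]
    have h1 : (centralizer {a}).relIndex (K ⊓ E) ≤ Nat.card ↥(Z ⊓ centralizer (E : Set G)) := by
      refine relIndex_centralizer_singleton_le fun e he => ⟨commutator_symm_mem (hac e), ?_⟩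
      intro h hh
      have h2 : ⁅h, a⁆ ∈ Z := commutator_symm_mem (hac h)
      have h3 : h * ⁅e, a⁆ * h⁻¹ = ⁅e, a⁆ := by
        rw [conjugate_commutatorElement, hEc h hh e he.2, mul_inv_cancel_right,
          conj_eq_commutator_mul, commutatorElement_mul_right_eq_mul_conj,
          commutatorElement_eq_one_iff_mul_comm.mpr (he.1 _ h2).symm, one_mul,
          isMulCommutative_iff_forall.mp hA.1 _ (hZA h2) _ (hZA (commutator_symm_mem (hac e))),
          mul_inv_cancel_right]
      rw [← h3, inv_mul_cancel_right, h3]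
    have h2 := card_inf_mul_relIndex (centralizer {a}) (K ⊓ E)
    rw [← inf_assoc, inf_comm _ K, ← hCK] at h2
    have h3 : Nat.card ↥(K ⊓ E) ≤ p * Nat.card ↥(Z ⊓ centralizer (E : Set G)) := by
      rw [← h2]; exact Nat.mul_le_mul hk1 h1
    by_cases hEK : E ≤ K
    · rw [inf_eq_right.mpr hEK, hE4] at h3
      have h7 := h3.trans (Nat.mul_le_mul_left p (card_le_of_le inf_le_left))
      rw [hZ, ← pow_succ'] at h7
      have := hle h7
      omega
    · have h7 : Z ⊓ centralizer (E : Set G) < Z := lt_of_le_of_ne inf_le_left fun h =>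
        hEK (le_centralizer_iff.mp (h ▸ inf_le_right))
      have h8 := card_lt_of_lt h7
      obtain ⟨j, hj⟩ := exists_card_eq_pow hG (Z ⊓ centralizer (E : Set G))
      rw [hj] at h3
      rw [hj, hZ] at h8
      have h9 := hlt h8
      have h14 := card_inf_mul_relIndex K E
      have h15 := Nat.mul_le_mul h3 ((relIndex_le_index_of_finite K E).trans hKi)
      rw [h14, hE4, ← pow_succ', ← pow_succ] at h15
      have := hle h15
      omega

/-- For odd p, a p-group containing an elementary abelian subgroup of order p^4 has a normal elementary abelian subgroup of order p^4. -/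
theorem result {G : Type*} [Group G] [Finite G] {p : ℕ} [Fact p.Prime] (hp : p ≠ 2) (hG : IsPGroup p G) (E : Subgroup G) (hE : Cfsg.IsElementaryAbelian p E) (hE4 : Nat.card E = p ^ 4) : ∃ A : Subgroup G, A.Normal ∧ Cfsg.IsElementaryAbelian p A ∧ Nat.card A = p ^ 4 := by
  exact aux hp _ G rfl hG E hE hE4

end Cfsg.Agent.S0122
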