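import Mathlib
import Cfsg.Statements.S0125
import Cfsg.Agent.Transfer.Abelian
-- import your own Cfsg.Agent.* helpers here

set_option autoImplicit false
open Cfsg

namespace Cfsg.Agent.S0125

open Cfsg.Agent.Transfer

/-- The centralizer of a self-centralizing normal subgroup A of a Sylow p-subgroup is the direct product of A with a normal p'-subgroup. -/
theorem result {G : Type*} [Group G] [Finite G] {p : ℕ} [Fact p.Prime] (R : Sylow p G) (A : Subgroup G) (hAR : A ≤ (R : Subgroup G)) (hAn : (R : Subgroup G) ≤ Subgroup.normalizer (A : Set G)) (hC : (R : Subgroup G) ⊓ Subgroup.centralizer (A : Set G) = A) : ∃ H : Subgroup G, H ≤ Subgroup.centralizer (A : Set G) ∧ Nat.Coprime (Nat.card H) p ∧ Subgroup.centralizer (A : Set G) ≤ Subgroup.normalizer (H : Set G) ∧ H ⊓ A = ⊥ ∧ H ⊔ A = Subgroup.centralizer (A : Set G) := by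
  set C := Subgroup.centralizer (A : Set G) with hCdef
  have hAC : A ≤ C := hC.ge.trans inf_le_right
  have hCN : C ≤ Subgroup.normalizer (A : Set G) := Subgroup.centralizer_le_normalizer _
  have h1 : ¬ p ∣ A.relIndex C := by
    intro hd
    apply (R.subtype hAn).not_dvd_index
    refine hd.trans (dvd_trans ?_ (relIndex_dvd_index_of_normal_right _
      (C.subgroupOf (Subgroup.normalizer (A : Set G)))))
    rw [Sylow.coe_subtype, Subgroup.relIndex_subgroupOf hCN, ← hC, Subgroup.inf_relIndex_right]
  let S : Sylow p C := IsPGroup.toSylow (P := A.subgroupOf C) (R.2.to_le hAR).comap_subtype h1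
  have h2 : HasNormalPComplement p C :=
    hasNormalPComplement_of_normalizer_le_centralizer S fun g _ x hx =>
      Subtype.ext (g.2 x hx)
  have h3 := isComplement'_pResidual h2 S
  refine ⟨(pResidual p C).map C.subtype, Subgroup.map_subtype_le _, ?_, ?_, ?_, ?_⟩
  · rw [Subgroup.card_map_of_injective C.subtype_injective]
    exact ((Nat.Prime.coprime_iff_not_dvd Fact.out).mpr
      (hasNormalPComplement_iff_not_dvd.mp h2)).symm
  · refine le_trans ?_ (Subgroup.le_normalizer_map C.subtype)
    rw [Subgroup.normalizer_eq_top, ← MonoidHom.range_eq_map, Subgroup.range_subtype]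
  · rw [← Subgroup.map_subgroupOf_eq_of_le hAC, ← Subgroup.map_inf _ _ _ C.subtype_injective]
    exact (congrArg (Subgroup.map C.subtype) h3.disjoint.eq_bot).trans (Subgroup.map_bot _)
  · rw [← Subgroup.map_subgroupOf_eq_of_le hAC, ← Subgroup.map_sup]
    refine (congrArg (Subgroup.map C.subtype) h3.sup_eq_top).trans ?_
    rw [← MonoidHom.range_eq_map, Subgroup.range_subtype]

end Cfsg.Agent.S0125
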