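import Mathlib
import Cfsg.Statements.S0129
import Cfsg.Agent.PGrp.Frattini
-- import your own Cfsg.Agent.* helpers here

set_option autoImplicit false
open Cfsg

namespace Cfsg.Agent.S0129

/-- The order of a p-group is bounded by p^(a(a+1)/2) when it has a maximal normal abelian subgroup of order p^a. -/
theorem result {G : Type*} [Group G] [Finite G] {p : ℕ} [Fact p.Prime] (hG : IsPGroup p G) (A : Subgroup G) [A.Normal] (hA : IsMulCommutative A) (hmax : ∀ B : Subgroup G, B.Normal → IsMulCommutative B → A ≤ B → B = A) (a : ℕ) (ha : Nat.card A = p ^ a) : Nat.card G ≤ p ^ (a * (a + 1) / 2) := by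
  have := hG.isNilpotent
  have h1 := PGrp.centralizer_eq_of_maximal_normal hA hmax
  have h2 := PGrp.index_centralizer_le_pow_choose hG A ha
  rw [h1] at h2
  rw [← A.card_mul_index, ha]
  have h3 : a * (a + 1) / 2 = a + a.choose 2 := by
    have := Nat.choose_two_right (a + 1)
    rw [Nat.choose_succ_succ' a 1, Nat.choose_one_right, Nat.add_sub_cancel, mul_comm] at this
    exact this.symm
  rw [h3, pow_add]
  exact Nat.mul_le_mul_left _ h2

end Cfsg.Agent.S0129
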