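import Mathlib
import Cfsg.Statements.S0132
import Cfsg.Agent.Transfer.Wielandt
import Cfsg.Agent.H2.Schmidt
-- import your own Cfsg.Agent.* helpers here

set_option autoImplicit false
open Cfsg

namespace Cfsg.Agent.S0132

open Cfsg.Agent.Transfer

/-- A minimal non-p-nilpotent finite group is a minimal non-nilpotent group with a normal Sylow p-subgroup. -/
theorem result {G : Type*} [Group G] [Finite G] {p : ℕ} [Fact p.Prime] (h1 : ¬ Cfsg.HasNormalPComplement p G) (h2 : ∀ H : Subgroup G, H ≠ ⊤ → Cfsg.HasNormalPComplement p H) : (∀ H : Subgroup G, H ≠ ⊤ → Group.IsNilpotent H) ∧ ¬ Group.IsNilpotent G ∧ ∀ P : Sylow p G, (P : Subgroup G).Normal := by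
  obtain ⟨Q, _, q, g, hq, hqp, -, hQ, hg, -, ht⟩ := exists_of_minimal_not_hasNormalPComplement h1 h2
  have := Fact.mk hq
  have hGQ := isPGroup_quotient_of_sup_eq_top hg ht
  refine ⟨fun H hH => H2.nilpotent_of_forall_hasNormalPComplement fun r hr hrH => ?_,
    fun h => h1 hasNormalPComplement_of_isNilpotent, fun P => ?_⟩
  · by_cases hrp : r = p
    · exact hrp ▸ h2 H hH
    have hrq : r = q := by
      by_contra hrq
      have h3 := hrH.trans (Subgroup.card_subgroup_dvd_card H)
      rw [← Q.card_mul_index] at h3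
      rcases hr.dvd_mul.1 h3 with h4 | h4
      · exact not_dvd_card_of_isPGroup hr hrp hQ h4
      · exact not_dvd_card_of_isPGroup hr hrq hGQ h4
    subst hrq
    refine hasNormalPComplement_subgroup (hasNormalPComplement_of_normal Q
      (not_dvd_card_of_isPGroup hq hqp hQ) hGQ) H
  · have h3 : ¬ p ∣ Q.index := not_dvd_card_of_isPGroup Fact.out hqp.symm hGQ
    have : (hQ.toSylow h3 : Subgroup G).Normal := ‹Q.Normal›
    have := Sylow.unique_of_normal (hQ.toSylow h3) this
    rwa [Subsingleton.elim P (hQ.toSylow h3)]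

end Cfsg.Agent.S0132
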