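import Mathlib
import Cfsg.Statements.S0163
import Cfsg.Agent.Isaacs.BInd
-- import your own Cfsg.Agent.* helpers here

set_option autoImplicit false
open Cfsg

namespace Cfsg.Agent.S0163

open Cfsg.Agent.Char Cfsg.Agent.Isaacs Subgroup

/-- Brauer's induction Theorem: every character of a finite group is a ℤ-linear combination of functions induced from linear characters (homomorphisms to ℂˣ) of elementary subgroups. -/
theorem result {G : Type*} [Group G] [Fintype G] (χ : G → ℂ) (hχ : Cfsg.IsCharacter G χ) : ∃ l : List ((E : Subgroup G) × ((E →* ℂˣ) × ℤ)), (∀ t ∈ l, ∃ p : ℕ, p.Prime ∧ Cfsg.IsElementary p t.1) ∧ χ = (l.map fun t => (t.2.2 : ℂ) • Cfsg.indFun t.1 (fun e => (t.2.1 e : ℂ))).sum := by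
  obtain ⟨l, h1, h2⟩ := brauer_induction (listSpan
    (fun t : (E : Subgroup G) × (E →* ℂˣ) => ∃ p : ℕ, p.Prime ∧ IsElementary p t.1)
    fun t => indFun t.1 fun e => (t.2 e : ℂ))
    (fun p E lam hp hE => mem_listSpan (fun t : (E : Subgroup G) × (E →* ℂˣ) => indFun t.1 fun e => (t.2 e : ℂ))
      (t := ⟨E, lam⟩) ⟨p, hp, hE⟩) (isChar_isGenChar hχ)
  refine ⟨l.map fun t => ⟨t.1.1, t.1.2, t.2⟩, fun t ht => ?_, by rw [h2, List.map_map]; rfl⟩
  obtain ⟨u, hu, rfl⟩ := List.mem_map.mp ht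
  exact h1 u hu

end Cfsg.Agent.S0163
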