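import Mathlib
import Cfsg.Statements.S0164
import Cfsg.Agent.Block.Brauer

set_option autoImplicit false
open Cfsg

namespace Cfsg.Agent.S0164


/-- Brauer's characterisation of characters: a class function on a finite group whose restriction to every elementary subgroup is a generalized character is a generalized character. -/
theorem result {G : Type*} [Group G] [Finite G] (θ : G → ℂ) (hθ : Cfsg.IsClassFunction G θ) (hE : ∀ (E : Subgroup G) (p : ℕ), p.Prime → Cfsg.IsElementary p E → Cfsg.IsGeneralizedCharacter E (fun e : E => θ e)) : Cfsg.IsGeneralizedCharacter G θ := by
  exact Block.brauer_characterization hθ hE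

end Cfsg.Agent.S0164
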