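import Mathlib
import Cfsg.Statements.S0165
import Cfsg.Agent.Block.Height

set_option autoImplicit false
open Cfsg

namespace Cfsg.Agent.S0165


/-- If p ^ n is the exact power of the prime p dividing the order of a finite group and p ^ n divides the degree of an irreducible complex representation, then its character vanishes at every element of order divisible by p. -/
theorem result {G : Type*} [Group G] [Finite G] {V : Type*} [AddCommGroup V] [Module ℂ V] [FiniteDimensional ℂ V] (ρ : Representation ℂ G V) [ρ.IsIrreducible] (p n : ℕ) (hp : p.Prime) (hn : p ^ n ∣ Nat.card G) (hn' : ¬ p ^ (n + 1) ∣ Nat.card G) (hdeg : p ^ n ∣ Module.finrank ℂ V) (x : G) (hx : p ∣ orderOf x) : ρ.character x = 0 := by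
  obtain ⟨M, hM⟩ := Block.exists_isPModular hp
  let χ : IrrCharacter G := ⟨ρ.character, Char.isIrr_character ρ⟩
  have hd : charDegree (χ : G → ℂ) = Module.finrank ℂ V :=
    Block.charDegree_of_eq (ρ.char_one)
  refine Block.char_eq_zero_of_defect_zero hM (χ := χ) ?_ hx
  have h1 : (Nat.card G).factorization p ≤ n := by
    by_contra h
    exact hn' ((hp.pow_dvd_iff_le_factorization Nat.card_pos.ne').2 (by omega))
  refine h1.trans ((hp.pow_dvd_iff_le_factorization (Block.irr_degree_ne_zero χ)).1 ?_)
  rwa [hd]

end Cfsg.Agent.S0165
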