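import Mathlib
import Cfsg.Statements.S0166
import Cfsg.Agent.Isaacs.Split
import Cfsg.Agent.Char.RepEquiv
-- import your own Cfsg.Agent.* helpers here

set_option autoImplicit false
open Cfsg

namespace Cfsg.Agent.S0166

open Cfsg.Agent.Char Cfsg.Agent.Isaacs Cfsg.Agent.Char.IndRep

/-- Brauer's splitting field Theorem: a complex representation of a finite group of exponent m is equivalent to a representation by matrices with entries in ℚ adjoined exp(2πi/m). -/
theorem result {G : Type*} [Group G] [Finite G] (n : ℕ) (ρ : Representation ℂ G (Fin n → ℂ)) : ∃ σ : Representation ℂ G (Fin n → ℂ), Nonempty (ρ.Equiv σ) ∧ ∀ g : G, ∀ i j : Fin n, LinearMap.toMatrix' (σ g) i j ∈ Algebra.adjoin ℚ ({Complex.exp (2 * Real.pi * Complex.I / (Monoid.exponent G : ℂ))} : Set ℂ) := by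
  have := Fintype.ofFinite G
  have he : Monoid.exponent G ≠ 0 := Monoid.exponent_ne_zero_of_finite
  have hζ := Complex.isPrimitiveRoot_exp _ he
  set ζ := Complex.exp (2 * Real.pi * Complex.I / (Monoid.exponent G : ℂ))
  let F := IntermediateField.adjoin ℚ ({ζ} : Set ℂ)
  have hF : F.toSubalgebra = Algebra.adjoin ℚ {ζ} :=
    IntermediateField.adjoin_simple_toSubalgebra_of_isAlgebraic
      ((hζ.isIntegral (Nat.pos_of_ne_zero he)).tower_top.isAlgebraic)
  obtain ⟨m, M, h⟩ := rf_of_lin (φ := algebraMap F ℂ) (fun H lam x => by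
    have : NeZero (Monoid.exponent G) := ⟨he⟩
    obtain ⟨i, -, hi⟩ := hζ.eq_pow_of_pow_eq_one (ξ := (lam x : ℂ)) (by
      rw [← Units.val_pow_eq_pow_val, ← map_pow, show x ^ Monoid.exponent G = 1 from
        Subtype.ext (Monoid.pow_exponent_eq_one _), map_one, Units.val_one])
    exact ⟨⟨_, pow_mem (IntermediateField.mem_adjoin_simple_self ℚ ζ) i⟩, hi⟩) (isChar_character ρ)
  obtain rfl : m = n := by simpa using (congrFun h 1).symm
  refine ⟨repOfMatrix ((algebraMap F ℂ).mapMatrix.toMonoidHom.comp M), equiv_of_character_eq _ _ ?_, fun g i j => ?_⟩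
  · rw [h]; funext g; rw [character_repOfMatrix, ← map_trace']; rfl
  · rw [repOfMatrix_apply, LinearMap.toMatrix'_toLin', ← hF]
    exact (M g i j).2

end Cfsg.Agent.S0166
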