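import Mathlib
import Cfsg.Statements.S0167
import Cfsg.Agent.Isaacs.Count
-- import your own Cfsg.Agent.* helpers here

set_option autoImplicit false
open Cfsg

namespace Cfsg.Agent.S0167

/-- An element g of a finite group is a commutator if and only if the sum over the irreducible characters χ of χ g / χ 1 is nonzero. -/
theorem result {G : Type*} [Group G] [Finite G] (g : G) : (∃ a b : G, g = a * b * a⁻¹ * b⁻¹) ↔ ∑ᶠ χ : Cfsg.IrrCharacter G, (χ : G → ℂ) g / (χ : G → ℂ) 1 ≠ 0 := by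
  rw [Isaacs.finsum_irr]
  have h := Isaacs.card_commutator g
  constructor
  · rintro ⟨a, b, e⟩ h0
    rw [h0, mul_zero, Nat.cast_eq_zero, Nat.card_eq_zero] at h
    rcases h with h | h
    · exact h.elim ⟨(a, b), e.symm⟩
    · exact not_finite {p : G × G // p.1 * p.2 * p.1⁻¹ * p.2⁻¹ = g}
  · intro h0
    have h1 : Nat.card {p : G × G // p.1 * p.2 * p.1⁻¹ * p.2⁻¹ = g} ≠ 0 := fun e => by
      rw [e, Nat.cast_zero] at h
      exact mul_ne_zero Char.card_ne_zero h0 h.symm
    obtain ⟨⟨p, e⟩⟩ := (Nat.card_ne_zero.mp h1).1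
    exact ⟨p.1, p.2, e.symm⟩

end Cfsg.Agent.S0167
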