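import Mathlib
import Cfsg.Statements.S0170
import Cfsg.Agent.Coh.IndIso

set_option autoImplicit false
open Cfsg

namespace Cfsg.Agent.S0170

/-- Exceptional characters. Let S be a subset of a finite group contained in its normalizer N and meeting its conjugates by elements outside N only in the identity. Given n ≥ 2 distinct irreducible characters of N of equal degree that vanish on N away from S, there exist a sign ε and n distinct irreducible characters θ_i of G such that inducing χ_i − χ_j to G gives ε (θ_i − θ_j) for all i, j. -/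
theorem result {G : Type*} [Group G] [Fintype G] (S : Set G) (hSN : S ⊆ Subgroup.normalizer S) (hTI : ∀ g : G, g ∉ Subgroup.normalizer S → ∀ s ∈ S, g * s * g⁻¹ ∈ S → s = 1) (n : ℕ) (hn : 2 ≤ n) (χ : Fin n → (Subgroup.normalizer S → ℂ)) (hirr : ∀ i, Cfsg.IsIrrCharacter (Subgroup.normalizer S) (χ i)) (hinj : Function.Injective χ) (hvan : ∀ i, ∀ x : Subgroup.normalizer S, (x : G) ∉ S → χ i x = 0) (hdeg : ∀ i j, χ i 1 = χ j 1) : ∃ ε : ℂ, (ε = 1 ∨ ε = -1) ∧ ∃ θ : Fin n → (G → ℂ), (∀ i, Cfsg.IsIrrCharacter G (θ i)) ∧ Function.Injective θ ∧ ∀ i j, Cfsg.indFun (Subgroup.normalizer S) (χ i) - Cfsg.indFun (Subgroup.normalizer S) (χ j) = ε • (θ i - θ j) := by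
  classical
  have hT : Coh.Iso0 (Set.range χ) (Char.Ind.indL (Subgroup.normalizer S)) :=
    Coh.iso0_indL _ S hTI (by rintro _ ⟨i, rfl⟩; exact Coh.vc_of_irr (hirr i))
      (by rintro _ ⟨i, rfl⟩ x _ hx; exact hvan i x hx)
  have hi : ∀ φ ∈ Set.range χ, IsIrrCharacter _ φ := by rintro _ ⟨i, rfl⟩; exact hirr i
  obtain ⟨ν, hν⟩ := hT.irr_uniform hi (by rintro _ ⟨i, rfl⟩ _ ⟨j, rfl⟩; exact hdeg i j)
  obtain ⟨ε, hε, h⟩ := hν.exists_sign hT hi
  have hε2 : (ε : ℂ) * ε = 1 := by rcases hε with rfl | rfl <;> norm_num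
  refine ⟨ε, by rcases hε with rfl | rfl <;> simp, fun i => (ε : ℂ) • ν (χ i),
    fun i => h _ ⟨i, rfl⟩, fun i j hij => ?_, fun i j => ?_⟩
  · have := congrArg (fun x => (ε : ℂ) • x) hij
    simp only [smul_smul, hε2, one_smul] at this
    exact hinj (hν.injOn (Submodule.subset_span ⟨i, rfl⟩) (Submodule.subset_span ⟨j, rfl⟩) this)
  · rw [← smul_sub, smul_smul, hε2, one_smul, ← map_sub, hν.agree _
      (sub_mem (Submodule.subset_span ⟨i, rfl⟩) (Submodule.subset_span ⟨j, rfl⟩))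
      (by simp [hdeg i j]), map_sub]
    rfl

end Cfsg.Agent.S0170
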