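import Mathlib
import Cfsg.Statements.S0175
import Cfsg.Agent.Isaacs.Prim
-- import your own Cfsg.Agent.* helpers here

set_option autoImplicit false
open Cfsg

namespace Cfsg.Agent.S0175

open Cfsg.Agent.Char Cfsg.Agent.Isaacs Subgroup

/-- Taketa's Theorem on M-groups: if every irreducible complex character of a finite group is induced from a linear character (a homomorphism to ℂˣ) of some subgroup, the group is solvable. -/
theorem result {G : Type*} [Group G] [Fintype G] (hM : ∀ χ : G → ℂ, Cfsg.IsIrrCharacter G χ → ∃ (H : Subgroup G) (lam : H →* ℂˣ), χ = Cfsg.indFun H (fun h => (lam h : ℂ))) : Group.IsSolvable G := by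
  have h : ∀ d : ℕ, ∀ η, Irr ⊤ η → ∀ k : ℕ, η 1 = k → k < d + 1 → Ker (derivedSeries G d) η := by
    intro d
    induction d with
    | zero =>
      intro η hη k hk hlt
      exact absurd (by rw [hk, show k = 0 by omega, Nat.cast_zero]) hη.one_ne
    | succ d ih =>
      intro η hη k hk hlt
      obtain ⟨H, lam, e⟩ := hM η (irr_top.mp hη)
      have h1 : Chr H (ez H fun h => (lam h : ℂ)) := chr_ez.mpr (isChar_linear lam)
      have h2 : ez H (fun h => (lam h : ℂ)) 1 = 1 := by rw [ez_one]; simp
      rw [← ind_top_ez] at e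
      by_cases hH : H = ⊤
      · subst hH
        rw [eqv_top.mp h1.inv.ind_self] at e
        rw [e]
        exact (h1.ker_comm h2).mono (commutator_mono le_top le_top)
      · rw [e]
        refine taketa_step le_top h1 h2 hH le_top norm_top fun ζ hζ j hj hlt' => ih ζ hζ j hj ?_
        rw [e, ind_one, h2, mul_one] at hk
        have : H.relIndex ⊤ = k := by exact_mod_cast hk
        omega
  refine ⟨Nat.card G, eq_bot_iff.mpr fun x hx => eq_one_of_forall_irr fun χ hχ => ?_⟩
  obtain ⟨k, -, h1, h2⟩ := isIrr_degree' hχ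
  exact h _ χ (irr_top.mpr hχ) k h2 (Nat.lt_succ_of_le (Nat.le_of_dvd Nat.card_pos h1)) x hx

end Cfsg.Agent.S0175
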