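import Mathlib
import Cfsg.Statements.S0176
import Cfsg.Agent.Isaacs.Misc
-- import your own Cfsg.Agent.* helpers here

set_option autoImplicit false
open Cfsg

namespace Cfsg.Agent.S0176

open Cfsg.Agent.Char Cfsg.Agent.Isaacs Subgroup

/-- A finite nilpotent group is an M-group: each irreducible complex character is induced from a homomorphism of some subgroup into ℂˣ. -/
theorem result {G : Type*} [Group G] [Fintype G] [Group.IsNilpotent G] (χ : G → ℂ) (hχ : Cfsg.IsIrrCharacter G χ) : ∃ (H : Subgroup G) (lam : H →* ℂˣ), χ = Cfsg.indFun H (fun h => (lam h : ℂ)) := by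
  obtain ⟨H, ψ, -, h1, h2, h3⟩ := (irr_top.mpr hχ).monomial inferInstance
  obtain ⟨l, hl⟩ := h1.chr.exists_hom h2
  exact ⟨H, l, by rw [← hl, ← ind_top, eqv_top.mp h3]⟩

end Cfsg.Agent.S0176
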