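import Mathlib
import Cfsg.Statements.S0178
import Cfsg.Agent.Char.Clifford

set_option autoImplicit false
open Cfsg

namespace Cfsg.Agent.S0178

/-- The degree of an irreducible complex representation of a finite group is at most the index of any abelian subgroup. -/
theorem result {G : Type*} [Group G] [Finite G] {V : Type*} [AddCommGroup V] [Module ℂ V] [FiniteDimensional ℂ V] (ρ : Representation ℂ G V) [ρ.IsIrreducible] (A : Subgroup G) (hA : ∀ a ∈ A, ∀ b ∈ A, a * b = b * a) : Module.finrank ℂ V ≤ A.index := by
  open Cfsg.Agent.Char in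
  have : IsMulCommutative A := ⟨⟨fun a b => Subtype.ext (hA a a.2 b b.2)⟩⟩
  have := Fintype.ofFinite G
  have := Fintype.ofFinite A
  have hχ := isIrr_character ρ
  obtain ⟨θ, hθ, h⟩ := Clifford.exists_under (N := A) hχ
  refine Constit.degree_le_of_inner_ne_zero (IndRep.isChar_indFun A (isIrr_isChar hθ)) hχ ?_
    (by rw [Ind.indFun_one, isIrr_degree_one_of_comm hθ, mul_one]) ρ.char_one
  rwa [Ne, classInner_eq_zero_comm, Ind.inner_indFun_right A θ (isIrr_classFun hχ)]

end Cfsg.Agent.S0178
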