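import Mathlib
import Cfsg.Statements.S0180
import Cfsg.Agent.Char.Galois
import Cfsg.Agent.Char.Expand
-- import your own Cfsg.Agent.* helpers here

set_option autoImplicit false
open Cfsg

namespace Cfsg.Agent.S0180

open Cfsg.Agent.Char

/-- Every irreducible complex character of a finite group takes only rational values if and only if g is conjugate to g ^ m for every element g and every m coprime to the group order. -/
theorem result {G : Type*} [Group G] [Finite G] : (∀ χ : Cfsg.IrrCharacter G, ∀ g : G, ∃ q : ℚ, (χ : G → ℂ) g = (q : ℂ)) ↔ ∀ m : ℕ, m.Coprime (Nat.card G) → ∀ g : G, IsConj g (g ^ m) := by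
  refine ⟨fun h m hm g => (isConj_iff_forall_irr _ _).mpr fun χ => ?_, fun h χ g => ?_⟩
  · obtain ⟨q, hq⟩ := h χ g
    exact (Galois.apply_pow_eq_of_rat (isIrr_isGenChar χ.2) hq (hm.coprime_dvd_right (orderOf_dvd_natCard g))).symm
  · obtain ⟨n, hn⟩ := Galois.exists_int_of_forall_pow (isIrr_isGenChar χ.2) (g := g) fun k hk => by
      obtain ⟨σ, hσ⟩ := Galois.exists_aut_apply_pow g hk
      obtain ⟨m, hm, e⟩ := Galois.exists_pow_forall (G := G) σ.toRingHom
      rw [← hσ _ (isIrr_isGenChar χ.2)]
      exact (e _ (isIrr_isGenChar χ.2) g).trans (classFun_isConj (irr_classFun χ) (h m hm g)).symm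
    exact ⟨n, by simpa using hn⟩

end Cfsg.Agent.S0180
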