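import Mathlib
import Cfsg.Statements.S0183
import Cfsg.Agent.H2.CN2
import Cfsg.Agent.H2.Fac2
import Cfsg.Agent.S1526

set_option autoImplicit false
open scoped Pointwise commutatorElement
open Cfsg

namespace Cfsg.Agent.S0183

open Cfsg.Agent.BG Cfsg.Agent.BG.Amb Cfsg.Agent.H2 Subgroup in
theorem aux {G : Type*} [Group G] [Finite G] (hG : Cfsg.IsMinSimpleOddOrder G)
    (h : Cfsg.IsCNGroup G) : False := by
  classical
  let s : Setoid {H : Subgroup G // CN.MaxNil H} :=
    ⟨fun H K => IsConjSub H.1 K.1, fun H => isConjSub_refl _, isConjSub_symm, isConjSub_trans⟩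
  have := Fintype.ofFinite (Quotient s)
  have hout : ∀ H : {H : Subgroup G // CN.MaxNil H}, IsConjSub (Quotient.mk s H).out.1 H.1 :=
    fun H => Quotient.mk_out (s := s) H
  refine S1526.result hG.1 (ι := Quotient s) ?_ (fun i => 𝐍(i.out.1)) (fun i => i.out.1)
    (fun i => i.out.2.lt_norm hG h) (fun i => i.out.2.ne_bot hG)
    (fun i x hx y hy => conj_mem_of_le_norm le_rfl hx hy)
    (fun i y hy hy1 => inf_le_right.trans (i.out.2.cent_le h (i.out.2.ti hG h) hy hy1))
    (fun i j hij => (i.out.2.conj_or_coprime h j.out.2).resolve_left fun hc =>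
      hij (Quotient.out_equiv_out.1 hc)) (fun i => ⟨fun g hg x hx hgx => ?_, rfl⟩) fun g _ => ?_
  · obtain ⟨H, hH, -⟩ := CN.exists_maxNil_mem (1 : G)
    obtain ⟨p, hp, hd⟩ := Nat.exists_prime_and_dvd (n := H.index)
      fun e => hH.ne_top hG (index_eq_one.1 e)
    have := Fact.mk hp
    obtain ⟨x, hx⟩ := exists_prime_orderOf_dvd_card' p (hd.trans H.index_dvd_card)
    obtain ⟨K, hK, hxK⟩ := CN.exists_maxNil_mem x
    refine Fintype.one_lt_card_iff.2 ⟨Quotient.mk s ⟨H, hH⟩, Quotient.mk s ⟨K, hK⟩, fun e => ?_⟩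
    obtain ⟨g, hg⟩ : IsConjSub H K := Quotient.exact e
    have h1 := K.orderOf_dvd_natCard hxK
    rw [hx, hg, card_conj] at h1
    exact hp.one_lt.ne' (Nat.eq_one_of_dvd_coprimes (hH.coprime h) h1 hd)
  · have h1 := i.out.2.ti hG h g fun e => hg (mem_normalizer_iff_conj.2 e)
    have h2 : g * x * g⁻¹ ∈ i.out.1 ⊓ MulAut.conj g • i.out.1 := mem_inf.2 ⟨hgx, conj_mem_conj.2 hx⟩
    rw [h1, mem_bot] at h2
    simpa using h2
  · obtain ⟨H, hH, hg⟩ := CN.exists_maxNil_mem g
    obtain ⟨y, hy⟩ := hout ⟨H, hH⟩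
    refine ⟨Quotient.mk s ⟨H, hH⟩, y⁻¹, ?_⟩
    change H = _ at hy
    rw [hy] at hg
    simpa using mem_conj.1 hg

universe u in
open Cfsg.Agent.BG Cfsg.Agent.BG.Amb Cfsg.Agent.H2 Subgroup in
theorem main (G : Type u) [Group G] [Finite G] :
    Odd (Nat.card G) → Cfsg.IsCNGroup G → Group.IsSolvable G := by
  induction hn : Nat.card G using Nat.strong_induction_on generalizing G with
  | _ n ih =>
  intro hodd h
  subst hn
  by_contra hs
  have h1 : ∀ H : Subgroup G, H ≠ ⊤ → Group.IsSolvable H := fun H hH =>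
    ih _ (Core.card_lt_of_ne_top H hH) H rfl
      (hodd.of_dvd_nat (card_subgroup_dvd_card H)) (CN.subgroup h H)
  have hnt : Nontrivial G := by
    by_contra hh
    have := not_nontrivial_iff_subsingleton.1 hh
    exact hs inferInstance
  refine aux ⟨hodd, ⟨fun N hN => ?_⟩, fun hc => hs (Group.isSolvable_of_comm hc.is_comm.comm), h1⟩ h
  by_contra hc
  obtain ⟨h0, ht⟩ := not_or.1 hc
  refine hs (solvable_of_normal_quotient N (h1 N ht) (ih _ ?_ (G ⧸ N) rfl
    (hodd.of_dvd_nat (card_quotient_dvd_card N)) (CN.quotient G h N (h1 N ht))))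
  rw [← index_eq_card, ← N.card_mul_index]
  exact lt_mul_of_one_lt_left (Nat.pos_of_ne_zero index_ne_zero_of_finite)
    (N.one_lt_card_iff_ne_bot.2 h0)

/-- The CN-Theorem for odd order: a finite group of odd order in which every non-identity element has a nilpotent centralizer (a CN-group) is solvable. -/
theorem result {G : Type*} [Group G] [Finite G] (hodd : Odd (Nat.card G)) (hCN : Cfsg.IsCNGroup G) : Group.IsSolvable G := by
  exact main G hodd hCN

end Cfsg.Agent.S0183
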