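import Mathlib
import Cfsg.Statements.S0184
import Cfsg.Agent.Isaacs.Misc
import Cfsg.Agent.PGrp.Basic
import Cfsg.Agent.Transfer.Abelian
-- import your own Cfsg.Agent.* helpers here

set_option autoImplicit false
open Cfsg

namespace Cfsg.Agent.S0184

open Cfsg.Agent.Char Cfsg.Agent.Isaacs Subgroup

/-- A finite p-group admits a faithful irreducible complex representation if and only if its centre is cyclic. -/
theorem result {G : Type*} [Group G] [Finite G] (p : ℕ) [Fact p.Prime] (hG : IsPGroup p G) : (∃ (n : ℕ) (ρ : Representation ℂ G (Fin n → ℂ)), ρ.IsIrreducible ∧ Function.Injective ρ) ↔ IsCyclic (Subgroup.center G) := by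
  constructor
  · rintro ⟨n, ρ, h1, h2⟩
    exact isCyclic_center_of_faithful (isIrr_character ρ)
      (by rw [charKer_character]; exact (MonoidHom.ker_eq_bot_iff ρ).mpr h2)
  intro hc
  suffices h : ∃ χ, IsIrrCharacter G χ ∧ charKer χ = ⊥ by
    obtain ⟨χ, ⟨n, ρ, h1, rfl⟩, h2⟩ := h
    exact ⟨n, ρ, h1, by rw [charKer_character] at h2; exact (MonoidHom.ker_eq_bot_iff ρ).mp h2⟩
  obtain ⟨χ, hχ⟩ := exists_minimalFor_of_wellFoundedLT (fun _ : IrrCharacter G => True)
    (fun χ => charKer (χ : G → ℂ) ⊓ center G) ⟨_root_.Classical.arbitrary _, trivial⟩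
  refine ⟨χ, χ.2, by_contra fun hk => ?_⟩
  have := charKer_normal (isIrr_classFun χ.2)
  obtain ⟨z, h1, h2, h3⟩ := PGrp.exists_mem_center_orderOf_eq hG _ hk
  have hz : z ≠ 1 := fun e => by
    rw [e, orderOf_one] at h3; exact (Fact.out : p.Prime).one_lt.ne h3
  obtain ⟨ψ, h4, h5⟩ := exists_irr_not_mem_charKer hz
  rcases Transfer.le_total_of_isCyclic (hG.to_subgroup (center G)) (A := charKer (χ : G → ℂ) ⊓ center G)
    (B := charKer ψ ⊓ center G) inf_le_right inf_le_right with e | e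
  · exact h5 (e ⟨h1, h2⟩).1
  · exact h5 (hχ.2 (j := ⟨ψ, h4⟩) trivial e ⟨h1, h2⟩).1

end Cfsg.Agent.S0184
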