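import Mathlib
import Cfsg.Statements.S0186
import Cfsg.Agent.Isaacs.Misc
-- import your own Cfsg.Agent.* helpers here

set_option autoImplicit false
open Cfsg

namespace Cfsg.Agent.S0186

open Cfsg.Agent.Char Cfsg.Agent.Isaacs Subgroup

/-- Let G be a finite simple group of order n and p a prime dividing n. If G has more than n / p^2 conjugacy classes, then every Sylow p-subgroup of G is abelian. -/
theorem result {G : Type*} [Group G] [Finite G] [IsSimpleGroup G] (p : ℕ) [Fact p.Prime] (hp : p ∣ Nat.card G) (hmany : Nat.card G < p ^ 2 * Nat.card (ConjClasses G)) (P : Sylow p G) (a b : G) (ha : a ∈ P) (hb : b ∈ P) : a * b = b * a := by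
  classical
  have hp' : p.Prime := Fact.out
  obtain ⟨k, hk⟩ := P.isPGroup'.exists_card_eq
  by_cases h2 : k ≤ 1
  · have : IsCyclic P := by
      interval_cases k
      · have : Subsingleton P := (Nat.card_eq_one_iff_unique.mp (by simpa using hk)).1
        infer_instance
      · exact isCyclic_of_prime_card (p := p) (by simpa using hk)
    exact congrArg Subtype.val (mul_comm' (⟨a, ha⟩ : P) ⟨b, hb⟩)
  obtain ⟨m, hm⟩ : p ^ 2 ∣ Nat.card G :=
    (pow_dvd_pow p (by omega)).trans (hk ▸ card_subgroup_dvd_card (P : Subgroup G))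
  choose d h0 hd using fun χ : IrrCharacter G => isIrr_degree χ.2
  obtain ⟨χ, h3, h4⟩ : ∃ χ : IrrCharacter G, χ ≠ ⟨fun _ => 1, isIrr_one⟩ ∧ d χ < p := by
    by_contra! hc
    have h5 : ∑ χ, d χ ^ 2 = Nat.card G := by
      have := sum_irr_one_sq (G := G)
      simp only [hd] at this
      exact_mod_cast this
    rw [← Finset.add_sum_erase _ _ (Finset.mem_univ ⟨fun _ => 1, isIrr_one⟩)] at h5
    have h6 := Finset.card_nsmul_le_sum (Finset.univ.erase ⟨fun _ => 1, isIrr_one⟩) (fun χ => d χ ^ 2)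
      (p ^ 2) fun χ hχ => Nat.pow_le_pow_left (hc χ (Finset.ne_of_mem_erase hχ)) 2
    rw [Finset.card_erase_of_mem (Finset.mem_univ _), Finset.card_univ, ← Nat.card_eq_fintype_card,
      card_irr_eq_card_conjClasses, smul_eq_mul] at h6
    rw [hm] at hmany h5
    have h7 := Nat.mul_le_mul_left (p ^ 2) (Nat.le_sub_one_of_lt (lt_of_mul_lt_mul_left' hmany))
    have := pow_pos (h0 ⟨fun _ => 1, isIrr_one⟩) 2
    rw [mul_comm] at h6
    omega
  have h1 := (chr_of (isIrr_isChar χ.2) P).ker_of_deg_lt (hd χ) fun q hq e => by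
    rw [hk] at e
    rwa [(Nat.prime_dvd_prime_iff_eq hq hp').mp (hq.dvd_of_dvd_pow e)]
  rw [← ker_iff (isIrr_isChar χ.2), charKer_eq_bot_of_simple χ.2 fun e => h3 (Subtype.ext e)] at h1
  exact comm_of_commutator_eq_bot h1 ha hb

end Cfsg.Agent.S0186
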