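import Mathlib
import Cfsg.Statements.S0192
import Cfsg.Agent.Isaacs.Count
-- import your own Cfsg.Agent.* helpers here

set_option autoImplicit false
open Cfsg

namespace Cfsg.Agent.S0192

/-- Brauer's generation criterion. Let G be a finite simple group, H₁ and H₂ subgroups, and χ a non-principal irreducible character. If the multiplicity of the principal character in χ restricted to H₁ ⊓ H₂ is less than the sum of the corresponding multiplicities for H₁ and H₂, then H₁ and H₂ do not generate G. -/
theorem result {G : Type*} [Group G] [Fintype G] [IsSimpleGroup G] (H₁ H₂ : Subgroup G) [Fintype H₁] [Fintype H₂] [Fintype ↥(H₁ ⊓ H₂)] (χ : G → ℂ) (hχ : Cfsg.IsIrrCharacter G χ) (hχ1 : χ ≠ fun _ => 1) (hlt : (Cfsg.classInner (fun x : ↥(H₁ ⊓ H₂) => χ x) (fun _ => 1)).re < (Cfsg.classInner (fun x : H₁ => χ x) (fun _ => 1)).re + (Cfsg.classInner (fun x : H₂ => χ x) (fun _ => 1)).re) : H₁ ⊔ H₂ ≠ ⊤ := by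
  intro htop
  obtain ⟨n, ρ, hirr, rfl⟩ := hχ
  have h : ∀ (H : Subgroup G) [Fintype H], (Cfsg.classInner (fun x : H => ρ.character x)
      (fun _ => 1)).re = Module.finrank ℂ (Representation.invariants (ρ.comp H.subtype)) := by
    intro H _
    have := Char.classInner_character_one (G := H) (ρ.comp H.subtype)
    erw [this]
    simp
  rw [h, h, h, ← Nat.cast_add, Nat.cast_lt, ← Submodule.finrank_sup_add_finrank_inf_eq] at hlt
  have h0 : Representation.invariants (ρ.comp H₁.subtype) ⊓
      Representation.invariants (ρ.comp H₂.subtype) = ⊥ := by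
    have h1 := Char.classInner_character_one ρ
    rw [Char.classInner_isIrr_ne (Char.isIrr_character ρ) Char.isIrr_one hχ1, eq_comm,
      Nat.cast_eq_zero, Submodule.finrank_eq_zero] at h1
    rw [eq_bot_iff, ← h1]
    rintro v ⟨h1, h2⟩ g
    let S : Subgroup G :=
      { carrier := {g | ρ g v = v}
        mul_mem' := fun {a b} ha hb => by
          simp only [Set.mem_setOf_eq, map_mul, Module.End.mul_apply] at ha hb ⊢
          rw [hb, ha]
        one_mem' := by simp
        inv_mem' := fun {a} ha => by
          simp only [Set.mem_setOf_eq] at ha ⊢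
          conv_lhs => rw [← ha]
          rw [← Module.End.mul_apply, ← map_mul, inv_mul_cancel, map_one, Module.End.one_apply] }
    have : H₁ ⊔ H₂ ≤ S := sup_le (fun x hx => h1 ⟨x, hx⟩) fun x hx => h2 ⟨x, hx⟩
    exact this (htop ▸ Subgroup.mem_top g)
  rw [h0, finrank_bot, add_zero] at hlt
  refine hlt.not_ge (Submodule.finrank_mono (sup_le ?_ ?_))
  · exact fun v hv x => hv ⟨x, x.2.1⟩
  · exact fun v hv x => hv ⟨x, x.2.2⟩

end Cfsg.Agent.S0192
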