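import Mathlib
import Cfsg.Statements.S0194
import Cfsg.Agent.Isaacs.Zero
import Cfsg.Agent.Char.Indicator
-- import your own Cfsg.Agent.* helpers here

set_option autoImplicit false
open scoped ComplexConjugate
open Cfsg

namespace Cfsg.Agent.S0194

open Cfsg.Agent.Char Cfsg.Agent.Isaacs Subgroup

/-- Let G have odd order, H be a normal subgroup and θ a non-principal irreducible character of H. Then the function induced from θ is orthogonal to its complex conjugate. -/
theorem result {G : Type*} [Group G] [Fintype G] (hodd : Odd (Nat.card G)) (H : Subgroup G) [H.Normal] (θ : H → ℂ) (hθ : Cfsg.IsIrrCharacter H θ) (hθ1 : θ ≠ fun _ => 1) : Cfsg.classInner (fun g => conj (Cfsg.indFun H θ g)) (Cfsg.indFun H θ) = 0 := by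
  by_contra h
  have h1 := irr_ez.mpr hθ
  rw [← ind_top_ez, ← inn_top, ← ind_map (starRingEnd ℂ)] at h
  obtain ⟨g, -, e⟩ := h1.cnj.inn_ind_ind_ne norm_top le_top h1 h
  have e2 : g ^ 2 ∈ stab H (ez H θ) := mem_stab.mpr ⟨norm_top (mem_top _), fun x hx => by
    rw [e x hx, cj_apply, cj_apply, e _ (‹H.Normal›.conj_mem x hx g), cj_apply, Complex.conj_conj]
    congr 1; rw [sq]; group⟩
  have e3 := (mem_stab.mp (mem_of_pow_coprime (Nat.coprime_two_left.mpr hodd) e2)).2
  refine isIrr_conj_ne_of_odd (hodd.of_dvd_nat (card_subgroup_dvd_card H)) hθ hθ1 (funext fun x => ?_)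
  rw [← ez_coe θ x]
  conv_rhs => rw [e x x.2, cj_apply, ← cj_apply g (ez H θ), e3 x x.2]

end Cfsg.Agent.S0194
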