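import Mathlib
import Cfsg.Statements.S0196
-- import your own Cfsg.Agent.* helpers here

set_option autoImplicit false
open Cfsg

namespace Cfsg.Agent.S0196

/-- Let A be a subgroup of a finite group G that equals the centralizer of each of its non-identity elements, and let N be its normalizer. Then the index of A in N divides |A| − 1 (N/A permutes the non-identity elements of A in orbits of full length). -/
theorem result {G : Type*} [Group G] [Finite G] (A : Subgroup G) (hA : ∀ x ∈ A, x ≠ 1 → Subgroup.centralizer ({x} : Set G) = A) : (A.subgroupOf (Subgroup.normalizer (A : Set G))).index ∣ Nat.card A - 1 := by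
  classical
  set N := Subgroup.normalizer (A : Set G)
  let X := {x : A // x ≠ 1}
  have hn : (A.subgroupOf N).Normal := Subgroup.normal_in_normalizer
  have hcard : Nat.card X = Nat.card A - 1 := by
    have := Fintype.ofFinite A
    simp [X, Nat.card_eq_fintype_card]
  let a : N →* Equiv.Perm X :=
    { toFun := fun n => (Subgroup.normalizerMonoidHom A n).toEquiv.subtypeEquiv fun x => by simp
      map_one' := by ext; simp
      map_mul' := fun _ _ => by ext; simp }
  have ha : ∀ (n : N) (x : X), ((a n x).1 : G) = n * x.1 * (n : G)⁻¹ := fun _ _ => rfl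
  have hx1 : ∀ x : X, (x.1 : G) ≠ 1 := fun x e => x.2 (Subtype.ext e)
  have key : ∀ (n : N) (x : X), a n x = x ↔ n ∈ A.subgroupOf N := by
    intro n x
    rw [Subgroup.mem_subgroupOf, ← hA _ x.1.2 (hx1 x), Subgroup.mem_centralizer_singleton_iff,
      Subtype.ext_iff, Subtype.ext_iff, ha, mul_inv_eq_iff_eq_mul]
  let _ : MulAction (N ⧸ A.subgroupOf N) X := MulAction.compHom X
    (QuotientGroup.lift _ a fun n hn => Equiv.ext fun x => (key n x).mpr hn)
  rw [← hcard, Subgroup.index]
  have hfree : ∀ x : X, MulAction.stabilizer (N ⧸ A.subgroupOf N) x = ⊥ := by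
    intro x
    rw [eq_bot_iff]
    intro q hq
    obtain ⟨n, rfl⟩ := QuotientGroup.mk_surjective q
    exact (QuotientGroup.eq_one_iff n).mpr ((key n x).mp hq)
  rw [Nat.card_congr (MulAction.selfEquivOrbitsQuotientProd hfree), Nat.card_prod]
  exact Dvd.intro_left _ rfl

end Cfsg.Agent.S0196
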