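import Mathlib
import Cfsg.Statements.S0197
import Cfsg.Agent.Gl23.Ord1
import Cfsg.Agent.Inv.Fus

set_option autoImplicit false
open Cfsg

namespace Cfsg.Agent.S0197

open Cfsg.Agent.Golay

/-- If a finite simple group has an involution whose centralizer is isomorphic to the general linear group GL(2, 3), then the group has order 5616 or 7920. -/
theorem result {G : Type*} [Group G] [Finite G] [IsSimpleGroup G] (t : G) (ht : orderOf t = 2) (e : Subgroup.centralizer ({t} : Set G) ≃* Matrix.GeneralLinearGroup (Fin 2) (ZMod 3)) : Nat.card G = 5616 ∨ Nat.card G = 7920 := by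
  have h1 : Nat.card G ≠ 2 := fun h => by
    have h2 := Subgroup.card_subgroup_dvd_card (Subgroup.centralizer ({t} : Set G))
    rw [Nat.card_congr e.toEquiv, Gl23.card_M, h] at h2
    norm_num at h2
  exact (Gl23.recognition (Inv.pResidual_eq_top_of_no_index_two (Gl23.no_index_two h1)) ht e).imp
    (fun ⟨f⟩ => (Nat.card_congr f.toEquiv).trans Gl23.card_L33)
    fun ⟨f⟩ => (Nat.card_congr f.toEquiv).trans card_M11

end Cfsg.Agent.S0197
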