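import Mathlib
import Cfsg.Statements.S0203
import Cfsg.Agent.Inv.FourSylow
import Cfsg.Agent.Transfer.Focal

set_option autoImplicit false
open Cfsg

namespace Cfsg.Agent.S0203

/-- If a Sylow 2-subgroup P of a finite group G is a Klein four-group, then G has three classes of involutions if and only if P has a normal complement in G. -/
theorem result {G : Type*} [Group G] [Finite G] (P : Sylow 2 G) (hP : IsKleinFour (P : Subgroup G)) : Nat.card {C : ConjClasses G // ∃ t : G, orderOf t = 2 ∧ ConjClasses.mk t = C} = 3 ↔ ∃ N : Subgroup G, N.Normal ∧ Subgroup.IsComplement' N (P : Subgroup G) := by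
  have : Fact (Nat.Prime 2) := ⟨Nat.prime_two⟩
  rw [← Transfer.hasNormalPComplement_iff_sylow]
  rcases Inv.four_sylow_cases P hP with ⟨h1, h⟩ | ⟨⟨g, hg, hodd, hC⟩, h⟩
  · exact ⟨fun _ => Transfer.hasNormalPComplement_of_normalizer_le_centralizer P h1, fun _ => h⟩
  · refine ⟨fun h' => by omega, fun h' => absurd ?_ hC⟩
    exact Transfer.mem_centralizer_of_hasNormalPComplement h' P.2 hg
      (Nat.coprime_two_right.2 hodd)

end Cfsg.Agent.S0203
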