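import Mathlib
import Cfsg.Statements.S0208
import Cfsg.Agent.Inv.Dihedral
import Cfsg.Agent.Inv.Pairs

set_option autoImplicit false
open Cfsg

namespace Cfsg.Agent.S0208

/-- If x, y are involutions and xy has odd order, then some element of the subgroup generated by x and y conjugates x to y. -/
theorem result {G : Type*} [Group G] [Finite G] (x y : G) (hx : orderOf x = 2) (hy : orderOf y = 2) (hodd : Odd (orderOf (x * y))) : ∃ d ∈ Subgroup.closure ({x, y} : Set G), d * x * d⁻¹ = y := by
  obtain ⟨d, hd, h⟩ := Inv.exists_conj_of_odd (Inv.mul_self_of_two hx) (Inv.mul_self_of_two hy) hodd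
  refine ⟨d, ?_, h⟩
  refine (Subgroup.zpowers_le.2 ?_ : Subgroup.zpowers (x * y) ≤ _) hd
  exact Subgroup.mul_mem _ (Subgroup.subset_closure (by simp)) (Subgroup.subset_closure (by simp))

end Cfsg.Agent.S0208
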