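import Mathlib
import Cfsg.Statements.S0210
import Cfsg.Agent.Inv.Dihedral
import Cfsg.Agent.Inv.Pairs

set_option autoImplicit false
open Cfsg

namespace Cfsg.Agent.S0210

/-- If x, y are involutions whose product has even order, no element of the subgroup generated by x and y conjugates x to y. -/
theorem result {G : Type*} [Group G] [Finite G] (x y : G) (hx : orderOf x = 2) (hy : orderOf y = 2) (heven : Even (orderOf (x * y))) (d : G) (hd : d ∈ Subgroup.closure ({x, y} : Set G)) : d * x * d⁻¹ ≠ y := by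
  have hx2 := Inv.mul_self_of_two hx
  have hy2 := Inv.mul_self_of_two hy
  obtain ⟨k, hk⟩ := Inv.conj_left_of_mem_closure hx2 hy2 hd
  intro h
  rw [hk] at h
  have hy' : y = (x * y) ^ (-1 : ℤ) * x := by
    rw [zpow_neg_one, ← Inv.inverts_mul_left hx2 hy2, ← mul_assoc, hx2]; group
  rw [hy'] at h
  have h' : (x * y) ^ (2 * k) = (x * y) ^ (-1 : ℤ) := by
    rw [← hy'] at h
    conv_rhs at h => rw [hy']
    exact mul_right_cancel h
  rw [zpow_eq_zpow_iff_modEq] at h'
  have h2 : (2 : ℤ) ∣ (orderOf (x * y) : ℤ) := by exact_mod_cast heven.two_dvd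
  have := (h'.of_dvd h2).dvd
  omega

end Cfsg.Agent.S0210
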