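import Mathlib
import Cfsg.Statements.S0211
import Cfsg.Agent.Inv.Dihedral
import Cfsg.Agent.Inv.Pairs

set_option autoImplicit false
open Cfsg

namespace Cfsg.Agent.S0211

/-- Let x, y be involutions with xy of even order n and z = (xy)^(n/2). Then xz is conjugate to x by an element of the subgroup generated by x, y if and only if 4 divides n. -/
theorem result {G : Type*} [Group G] [Finite G] (x y : G) (hx : orderOf x = 2) (hy : orderOf y = 2) (heven : Even (orderOf (x * y))) : (∃ d ∈ Subgroup.closure ({x, y} : Set G), d * x * d⁻¹ = x * (x * y) ^ (orderOf (x * y) / 2)) ↔ 4 ∣ orderOf (x * y) := by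
  have hx2 := Inv.mul_self_of_two hx
  have hy2 := Inv.mul_self_of_two hy
  obtain ⟨-, hc, -⟩ := Inv.half_power hx2 hy2 heven
  rw [← hc.eq]
  obtain ⟨m, hm⟩ := heven
  have hm2 : orderOf (x * y) / 2 = m := by omega
  rw [hm2]
  constructor
  · rintro ⟨d, hd, h⟩
    obtain ⟨k, hk⟩ := Inv.conj_left_of_mem_closure hx2 hy2 hd
    rw [hk] at h
    have h' := mul_right_cancel h
    rw [← zpow_natCast, zpow_eq_zpow_iff_modEq, hm] at h'
    have := (h'.of_dvd (show (2 : ℤ) ∣ _ from ⟨m, by push_cast; ring⟩)).dvd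
    omega
  · rintro ⟨j, hj⟩
    have hmj : m = 2 * j := by omega
    refine ⟨(x * y) ^ (j : ℤ), Subgroup.zpow_mem _ (Subgroup.mul_mem _
      (Subgroup.subset_closure (by simp)) (Subgroup.subset_closure (by simp))) _, ?_⟩
    rw [Inv.zpow_conj_of_inverts (Inv.inverts_mul_left hx2 hy2), hmj, ← zpow_natCast]
    push_cast
    rfl

end Cfsg.Agent.S0211
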