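import Mathlib
import Cfsg.Statements.S0212
import Cfsg.Agent.Inv.Count

set_option autoImplicit false
open Cfsg

namespace Cfsg.Agent.S0212

theorem card_le_factorial_index {G : Type*} [Group G] [Finite G] [IsSimpleGroup G] {H : Subgroup G}
    (hH : H ≠ ⊤) : Nat.card G ≤ H.index.factorial := by
  classical
  have := Fintype.ofFinite (G ⧸ H)
  have h1 : H.normalCore = ⊥ := (Subgroup.Normal.eq_bot_or_eq_top inferInstance).resolve_right
    fun h => hH (top_le_iff.1 (h ▸ H.normalCore_le))
  rw [Subgroup.normalCore_eq_ker, MonoidHom.ker_eq_bot_iff] at h1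
  have := Nat.card_le_card_of_injective _ h1
  rwa [Nat.card_perm] at this

/-- The Brauer–Fowler bound: if G is a finite simple group and t an involution of G whose centralizer has order n, then |G| ≤ (2n^2)!. -/
theorem result {G : Type*} [Group G] [Finite G] [IsSimpleGroup G] (t : G) (ht : orderOf t = 2) : Nat.card G ≤ Nat.factorial (2 * (Nat.card (Subgroup.centralizer ({t} : Set G))) ^ 2) := by
  set c := Nat.card (Subgroup.centralizer ({t} : Set G)) with hc
  have hc2 : 2 ≤ c := Nat.le_of_dvd Nat.card_pos (Inv.even_card_of_two_mem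
    (Inv.mem_centralizer_single.2 (Commute.refl t)) ht).two_dvd
  rcases Subgroup.Normal.eq_bot_or_eq_top (inferInstance : (Subgroup.center G).Normal) with h | h
  · obtain ⟨H, hH, h1⟩ := Inv.brauer_fowler (Inv.even_card_of_two ht) (by rw [h]; simp)
    refine (card_le_factorial_index hH).trans (Nat.factorial_le ?_)
    rcases h1 with h1 | h1
    · rw [h1]; nlinarith
    · have h2 := Inv.index_centralizer_le_card_two ht
      have h3 := (Subgroup.centralizer ({t} : Set G)).card_mul_index
      have h4 : Nat.card {t : G // orderOf t = 2} ≤ Nat.card G := Finite.card_subtype_le _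
      set m := Nat.card {t : G // orderOf t = 2}
      rw [← hc] at h3
      have h5 : Nat.card G ≤ c * m := h3 ▸ Nat.mul_le_mul_left c h2
      have h6 : 2 * H.index * m ^ 2 ≤ (2 * c ^ 2) * m ^ 2 := by
        calc 2 * H.index * m ^ 2 ≤ Nat.card G * (Nat.card G + m) := h1.le
          _ ≤ (c * m) * (c * m + c * m) := by gcongr; exact h4.trans h5
          _ = _ := by ring
      have hm : 0 < m := by
        have : Nonempty {t : G // orderOf t = 2} := ⟨⟨t, ht⟩⟩
        exact Nat.card_pos
      have := Nat.le_of_mul_le_mul_right h6 (by positivity)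
      omega
  · have h1 : Subgroup.centralizer ({t} : Set G) = ⊤ :=
      top_le_iff.1 (h ▸ Subgroup.center_le_centralizer _)
    rw [h1, Subgroup.card_top] at hc
    rw [← hc]
    exact le_trans (by nlinarith) (Nat.self_le_factorial _)

end Cfsg.Agent.S0212
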