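import Mathlib
import Cfsg.Statements.S0217
import Cfsg.Agent.Comp2.SsftMain

set_option autoImplicit false
open Cfsg

namespace Cfsg.Agent.S0217

open Cfsg.Agent.Comp2 Cfsg.Agent.BG Subgroup

/-- The solvable signalizer functor Theorem. Let A be an elementary abelian p-subgroup of rank at least 3 of a finite group G, and for each nontrivial a in A let θ a be an A-invariant solvable subgroup of C(a) of order prime to p, such that θ a ∩ C(b) ≤ θ b for all nontrivial a, b in A (balance). Then the subgroup generated by all the θ a has order prime to p and meets C(a) in exactly θ a for each nontrivial a in A. -/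
theorem result {G : Type*} [Group G] [Finite G] {p : ℕ} [Fact p.Prime] (A : Subgroup G) (hAcomm : ∀ a ∈ A, ∀ b ∈ A, a * b = b * a) (hAexp : ∀ a ∈ A, a ^ p = 1) (hArank : p ^ 3 ≤ Nat.card A) (θ : G → Subgroup G) (hθC : ∀ a ∈ A, a ≠ 1 → θ a ≤ Subgroup.centralizer {a}) (hθp : ∀ a ∈ A, a ≠ 1 → ¬ p ∣ Nat.card (θ a)) (hθinv : ∀ a ∈ A, a ≠ 1 → ∀ b ∈ A, ∀ x ∈ θ a, b * x * b⁻¹ ∈ θ a) (hθsolv : ∀ a ∈ A, a ≠ 1 → Group.IsSolvable (θ a)) (hbal : ∀ a ∈ A, a ≠ 1 → ∀ b ∈ A, b ≠ 1 → θ a ⊓ Subgroup.centralizer {b} ≤ θ b) : ¬ p ∣ Nat.card ↥(⨆ a : {a : G // a ∈ A ∧ a ≠ 1}, θ a) ∧ ∀ a ∈ A, a ≠ 1 → (⨆ b : {a : G // a ∈ A ∧ a ≠ 1}, θ b) ⊓ Subgroup.centralizer {a} = θ a := by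
  have hA : IsElementaryAbelian p A := Transfer.ea_mk hAcomm hAexp
  obtain ⟨X, hX, hle⟩ := (SF.mk' hA hθC hθp (fun a ha ha1 => Amb.le_norm_of_conj_mem (hθinv a ha ha1))
    hbal hθsolv).compl_gen hArank
  have l : (⨆ a : {a : G // a ∈ A ∧ a ≠ 1}, θ a) ≤ X := iSup_le fun a => hle a a.2.1 a.2.2
  exact ⟨fun h => hX.ndvd (h.trans (card_dvd_of_le l)), fun a ha ha1 => le_antisymm
    ((inf_le_inf_right _ l).trans (hX.cent a ha ha1))
    (le_inf (le_iSup (fun b : {a : G // a ∈ A ∧ a ≠ 1} => θ b) ⟨a, ha, ha1⟩) (hθC a ha ha1))⟩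

end Cfsg.Agent.S0217
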