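import Mathlib
import Cfsg.Statements.S0218
import Cfsg.Agent.Inv.Isolated

set_option autoImplicit false
open Cfsg

namespace Cfsg.Agent.S0218

/-- The generalized quaternion group of order 2^(n+3) contains exactly one element of order 2. -/
theorem result (n : ℕ) : Nat.card {x : QuaternionGroup (2 ^ (n + 1)) // orderOf x = 2} = 1 := by
  have h0 : NeZero (2 ^ (n + 1)) := ⟨by positivity⟩
  rw [Nat.card_eq_one_iff_exists]
  have ho : orderOf (QuaternionGroup.a 1 : QuaternionGroup (2 ^ (n + 1))) = 2 * 2 ^ (n + 1) :=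
    QuaternionGroup.orderOf_a_one
  have h1 := Inv.orderOf_pow_half (by rw [ho]; positivity) (by rw [ho]; exact even_two_mul _)
  refine ⟨⟨_, h1⟩, ?_⟩
  rintro ⟨i | i, hx⟩
  · refine Subtype.ext ?_
    have hi : QuaternionGroup.a i = (QuaternionGroup.a 1 : QuaternionGroup (2 ^ (n + 1))) ^ i.val := by
      rw [QuaternionGroup.a_one_pow, ZMod.natCast_zmod_val]
    change QuaternionGroup.a i = _
    rw [hi] at hx ⊢
    congr 1
    have h2 := orderOf_dvd_of_pow_eq_one (show
      (QuaternionGroup.a 1 : QuaternionGroup (2 ^ (n + 1))) ^ (i.val * 2) = 1 by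
      rw [pow_mul]; exact Inv.sq_of_two hx)
    have h3 : i.val ≠ 0 := by
      intro h; rw [h, pow_zero] at hx; simp at hx
    have h4 := ZMod.val_lt i
    rw [ho] at h2 ⊢
    obtain ⟨c, hc⟩ := h2
    have h5 : c = 1 := by
      rcases c with _ | _ | c
      · omega
      · rfl
      · nlinarith
    subst h5
    omega
  · rw [QuaternionGroup.orderOf_xa] at hx
    omega

end Cfsg.Agent.S0218
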