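import Mathlib
import Cfsg.Statements.S0219
import Cfsg.Agent.Inv.Isolated
import Cfsg.Agent.Transfer.Focal

set_option autoImplicit false
open Cfsg

namespace Cfsg.Agent.S0219

/-- If a finite group has even order and a cyclic Sylow 2-subgroup, then it has a subgroup of index 2 (consider the parity of permutations in the regular representation). -/
theorem result {G : Type*} [Group G] [Finite G] (heven : Even (Nat.card G)) (T : Sylow 2 G) (hT : IsCyclic (T : Subgroup G)) : ∃ H : Subgroup G, H.index = 2 := by
  have : Fact (Nat.Prime 2) := ⟨Nat.prime_two⟩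
  have hmin : (Nat.card G).minFac = 2 := (Nat.minFac_eq_two_iff _).2 heven.two_dvd
  have h1 := Transfer.hasNormalPComplement_of_normalizer_le_centralizer T
    (hT.normalizer_le_centralizer hmin)
  obtain ⟨N, -, h, -⟩ := Transfer.exists_normal_index_eq_of_pResidual_ne_top (p := 2) (G := G) (by
    intro h
    apply Transfer.hasNormalPComplement_iff_not_dvd.1 h1
    rw [h, Subgroup.card_top]
    exact heven.two_dvd)
  exact ⟨N, h⟩

end Cfsg.Agent.S0219
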