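import Mathlib
import Cfsg.Statements.S0220
import Cfsg.Agent.Inv.Isolated
import Cfsg.Agent.S0219
import Cfsg.Agent.LocalEven.SylowIn

set_option autoImplicit false
open Cfsg

namespace Cfsg.Agent.S0220

theorem eq_of_cyclic {H : Type*} [Group H] [Finite H] [IsCyclic H] {a b : H} (ha : orderOf a = 2)
    (hb : orderOf b = 2) : a = b := by
  classical
  have := Fintype.ofFinite H
  have h := IsCyclic.card_orderOf_eq_totient (α := H) (d := 2) (ha ▸ orderOf_dvd_card)
  rw [Nat.totient_two, Finset.card_eq_one] at h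
  obtain ⟨c, hc⟩ := h
  have h1 : a ∈ ({c} : Finset H) := hc ▸ (by simpa using ha)
  have h2 : b ∈ ({c} : Finset H) := hc ▸ (by simpa using hb)
  rw [Finset.mem_singleton] at h1 h2
  rw [h1, h2]

/-- If x is an involution of a finite group G and a Sylow 2-subgroup of the centralizer of x is cyclic, then G has a subgroup of index 2; in particular G is not simple unless it has order 2. -/
theorem result {G : Type*} [Group G] [Finite G] (x : G) (hx : orderOf x = 2) (S : Sylow 2 ↥(Subgroup.centralizer ({x} : Set G))) (hS : IsCyclic (S : Subgroup ↥(Subgroup.centralizer ({x} : Set G)))) : ∃ H : Subgroup G, H.index = 2 := by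
  have : Fact (Nat.Prime 2) := ⟨Nat.prime_two⟩
  have hS' := LocalEven.isSylowIn_map S
  set S' := (S : Subgroup (Subgroup.centralizer ({x} : Set G))).map
    (Subgroup.centralizer ({x} : Set G)).subtype
  have hcyc : IsCyclic S' :=
    isCyclic_of_surjective _ (Subgroup.equivMapOfInjective _ _ (Subgroup.subtype_injective _)).surjective
  have hmem : ∀ z, Commute z x → z * z = 1 → (∀ s ∈ S', Commute s z) → z ∈ S' := by
    intro z hzx hz h
    refine hS'.mem_of_mem_normalizer (Inv.mem_centralizer_single.2 hzx) (k := 1)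
      (by simpa [pow_two] using hz) (Subgroup.centralizer_le_normalizer _ ?_)
    exact fun s hs => (h s hs).eq
  have hxS : x ∈ S' := hmem x (Commute.refl x) (Inv.mul_self_of_two hx)
    fun s hs => Inv.mem_centralizer_single.1 (hS'.1 hs)
  obtain ⟨T, hT⟩ := hS'.2.exists_le_sylow
  obtain ⟨z, hzT, hzc, hz⟩ := LocalEven.exists_mem_inf_centralizer T.2 T.2 Subgroup.le_normalizer
    (fun h => Inv.ne_one_of_two hx (by have := hT hxS; rwa [h, Subgroup.mem_bot] at this))
  have hzS : z ∈ S' := hmem z (hzc x (hT hxS)).symm (Inv.mul_self_of_two hz)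
    fun s hs => hzc s (hT hs)
  have hzx : z = x := congrArg Subtype.val (eq_of_cyclic (H := S') (a := ⟨z, hzS⟩) (b := ⟨x, hxS⟩)
    (by rw [← Subgroup.orderOf_coe, hz]) (by rw [← Subgroup.orderOf_coe, hx]))
  have hTS : (T : Subgroup G) = S' := hS'.3 _ (fun t ht =>
    Inv.mem_centralizer_single.2 (hzx ▸ hzc t ht)) T.2 hT
  exact S0219.result (Inv.even_card_of_two hx) T (hTS ▸ hcyc)

end Cfsg.Agent.S0220
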