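import Mathlib
import Cfsg.Statements.S0226
import Cfsg.Agent.Inv.Isolated

set_option autoImplicit false
open Cfsg

namespace Cfsg.Agent.S0226

/-- A finite group of even order has an odd number of involutions. -/
theorem result {G : Type*} [Group G] [Finite G] (heven : Even (Nat.card G)) : Odd (Nat.card {t : G // orderOf t = 2}) := by
  classical
  have := Fintype.ofFinite G
  have : Fact (Nat.Prime 2) := ⟨Nat.prime_two⟩
  have h := Equiv.Perm.card_fixedPoints_modEq (f := (fun x : G => x⁻¹ : Function.End G)) (p := 2)
    (n := 1) (by funext x; exact inv_inv x)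
  have h2 : Fintype.card (Function.fixedPoints (fun x : G => x⁻¹)) =
      Nat.card {t : G // orderOf t = 2} + 1 := by
    rw [Nat.card_eq_fintype_card, Fintype.card_subtype, Fintype.card_subtype,
      ← Finset.card_insert_of_notMem (a := 1) (by simp)]
    congr 1
    ext x
    simp only [Finset.mem_filter, Finset.mem_univ, true_and, Finset.mem_insert, Inv.two_iff,
      Function.mem_fixedPoints_iff, inv_eq_iff_mul_eq_one]
    by_cases hx : x = 1 <;> simp [hx]
  rw [← Nat.card_eq_fintype_card, h2] at h
  obtain ⟨k, hk⟩ := heven
  rw [Nat.odd_iff]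
  unfold Nat.ModEq at h
  omega

end Cfsg.Agent.S0226
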