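import Mathlib
import Cfsg.Statements.S0227
import Cfsg.Agent.Block.GlAut
import Cfsg.Agent.S0205
-- import your own Cfsg.Agent.* helpers here

set_option autoImplicit false
open Cfsg

namespace Cfsg.Agent.S0227

open Cfsg.Agent.Block

/-- Let G be a finite group with no nontrivial normal subgroup of odd order, S a Sylow 2-subgroup, and C the group of automorphisms of G that fix every element of S. Then every Sylow 2-subgroup of C is abelian and has a normal complement in C; in particular C is solvable. -/
theorem result {G : Type*} [Group G] [Finite G] (hO : ∀ N : Subgroup G, N.Normal → Odd (Nat.card N) → N = ⊥) (S : Sylow 2 G) (C : Subgroup (MulAut G)) (hC : ∀ φ : MulAut G, φ ∈ C ↔ ∀ s : G, s ∈ S → φ s = s) : (∀ T : Sylow 2 ↥C, (∀ a b : ↥T, a * b = b * a) ∧ ∃ N : Subgroup ↥C, N.Normal ∧ Subgroup.IsComplement' N (T : Subgroup ↥C)) ∧ Group.IsSolvable ↥C := by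
  have h := glaut_odd' hO S (C := C) fun β hβ s hs => (hC β).1 hβ s hs
  refine ⟨fun T => ⟨(npc_of_odd_commutator h T).1, pResidual 2 C, inferInstance,
    Transfer.isComplement'_pResidual_of_inf_eq_bot T (npc_of_odd_commutator h T).2⟩, ?_⟩
  refine (Group.isSolvable_iff_subgroup_quotient (commutator C)).2 ⟨S0205.result h, ?_⟩
  exact (inferInstance : Group.IsSolvable (Abelianization C))

end Cfsg.Agent.S0227
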