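import Mathlib
import Cfsg.Statements.S0229
import Cfsg.Agent.Inv.Isolated

set_option autoImplicit false
open Cfsg

namespace Cfsg.Agent.S0229

/-- Let t be an involution of a Sylow 2-subgroup S of a finite group G, conjugate in G to no other element of S, and let s be an involution of G not conjugate to t. Then the order of st is twice an odd number. -/
theorem result {G : Type*} [Group G] [Finite G] (S : Sylow 2 G) (t : G) (ht : orderOf t = 2) (htS : t ∈ S) (hiso : ∀ g : G, g * t * g⁻¹ ∈ S → g * t * g⁻¹ = t) (s : G) (hs : orderOf s = 2) (hns : ¬ IsConj s t) : orderOf (s * t) % 4 = 2 := by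
  have hz := Inv.isolated_of_sylow S ht hiso
  have hs2 := Inv.mul_self_of_two hs
  have ht2 := Inv.mul_self_of_two ht
  have he : Even (orderOf (t * s)) := by
    rw [← Nat.not_odd_iff_even]
    exact fun h => hns (Inv.isConj_of_odd ht2 hs2 h).symm
  have h1 := (Inv.isolated_half_odd hz hs2 he).1
  have h2 : orderOf (s * t) = orderOf (t * s) := by
    rw [← Inv.orderOf_conj t (s * t)]; congr 1; group
  rw [h2]
  obtain ⟨a, ha⟩ := he
  obtain ⟨b, hb⟩ := h1
  omega

end Cfsg.Agent.S0229
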