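import Mathlib
import Cfsg.Statements.S0230
import Cfsg.Agent.Inv.Count

set_option autoImplicit false
open Cfsg

namespace Cfsg.Agent.S0230

/-- Let G be a finite group with two non-conjugate involutions, and let t be an involution whose centralizer has maximal order among centralizers of involutions. Then |G| < |C_G(t)|^3. -/
theorem result {G : Type*} [Group G] [Finite G] (s t : G) (hs : orderOf s = 2) (ht : orderOf t = 2) (hnc : ¬ IsConj s t) (hmax : ∀ u : G, orderOf u = 2 → Nat.card (Subgroup.centralizer ({u} : Set G)) ≤ Nat.card (Subgroup.centralizer ({t} : Set G))) : Nat.card G < Nat.card (Subgroup.centralizer ({t} : Set G)) ^ 3 := by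
  set c := Nat.card (Subgroup.centralizer ({t} : Set G)) with hc
  have key : ∀ y : {y : G // IsConj s y}, ∃ z : {z : G // orderOf z = 2 ∧ Commute z t},
      Commute y.1 z.1 := by
    intro y
    have hy : orderOf y.1 = 2 := by rw [← Inv.orderOf_of_isConj y.2, hs]
    rcases Inv.isConj_or_exists_central (Inv.mul_self_of_two ht) (Inv.mul_self_of_two hy) with
      ⟨d, -, hd⟩ | ⟨z, -, hz, h1, h2⟩
    · exact absurd (y.2.trans (isConj_iff.2 ⟨d, hd⟩).symm) hnc
    · exact ⟨⟨z, hz, h1⟩, h2.symm⟩
  choose f hf using key
  classical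
  have := Fintype.ofFinite G
  have h1 : Nat.card {y : G // IsConj s y} ≤
      ∑ z : {z : G // orderOf z = 2 ∧ Commute z t},
        Nat.card {y : G // orderOf y = 2 ∧ Commute y z.1} := by
    rw [← Nat.card_sigma]
    refine Nat.card_le_card_of_injective
      (fun y => ⟨f y, y.1, by rw [← Inv.orderOf_of_isConj y.2, hs], hf y⟩) ?_
    intro a b hab
    exact Subtype.ext (congrArg (fun q : (Σ z : {z : G // orderOf z = 2 ∧ Commute z t},
      {y : G // orderOf y = 2 ∧ Commute y z.1}) => q.2.1) hab)
  have h2 : ∑ z : {z : G // orderOf z = 2 ∧ Commute z t},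
        Nat.card {y : G // orderOf y = 2 ∧ Commute y z.1} ≤
      ∑ z : {z : G // orderOf z = 2 ∧ Commute z t}, c :=
    Finset.sum_le_sum fun z _ => by
      have := Inv.card_two_commute_lt z.1
      have := hmax z.1 z.2.1
      omega
  rw [Finset.sum_const, Finset.card_univ, ← Nat.card_eq_fintype_card, smul_eq_mul] at h2
  have h3 := Inv.card_two_commute_lt t
  have h4 := Inv.card_isConj_mul s
  have h5 := hmax s hs
  have h6 : 0 < c := Nat.card_pos
  rw [← hc] at h3
  calc Nat.card G ≤ (Nat.card {z : G // orderOf z = 2 ∧ Commute z t} * c) * c := by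
        rw [← h4]; exact Nat.mul_le_mul (h1.trans h2) h5
    _ < c * c * c := by gcongr; omega
    _ = c ^ 3 := by ring

end Cfsg.Agent.S0230
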