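import Mathlib
import Cfsg.Statements.S0231
import Cfsg.Agent.Inv.StrongEmb
import Cfsg.Agent.LocalEven.SylowIn

set_option autoImplicit false
open scoped Pointwise
open Cfsg

namespace Cfsg.Agent.S0231

/-- Let T be a Sylow 2-subgroup of the finite group G which is not normal and which intersects every other Sylow 2-subgroup trivially. Then G has a single conjugacy class of involutions. -/
theorem result {G : Type*} [Group G] [Finite G] (T : Sylow 2 G) (hnn : ¬ (T : Subgroup G).Normal) (hTI : ∀ g : G, MulAut.conj g • (T : Subgroup G) ≠ T → MulAut.conj g • (T : Subgroup G) ⊓ T = ⊥) (s t : G) (hs : orderOf s = 2) (ht : orderOf t = 2) : IsConj s t := by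
  have hT := LocalEven.isSylowIn_top T
  have hmem : ∀ x ∈ Subgroup.normalizer ((T : Subgroup G) : Set G), orderOf x = 2 →
      x ∈ (T : Subgroup G) := fun x hx h2 =>
    hT.mem_of_mem_normalizer (Subgroup.mem_top x) (k := 1) (by simpa using Inv.sq_of_two h2) hx
  obtain ⟨c, hc⟩ := Inv.exists_conj_mem_sylow T (Inv.mul_self_of_two hs)
  refine Inv.se_isConj (H := Subgroup.normalizer ((T : Subgroup G) : Set G))
    (Inv.se_of (fun h => hnn (Subgroup.normalizer_eq_top_iff.1 h)) (Subgroup.le_normalizer hc)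
      (Inv.two_conj hs c) ?_) hs ht
  intro x hx h2 g hg
  rw [← LocalEven.cj_eq_self_iff]
  by_contra hne
  have h0 : g * x * g⁻¹ ∈ MulAut.conj g • (T : Subgroup G) ⊓ T :=
    ⟨LocalEven.conj_mem_cj (hmem x hx h2), hmem _ hg (Inv.two_conj h2 g)⟩
  rw [hTI g hne, Subgroup.mem_bot] at h0
  exact Inv.ne_one_of_two (Inv.two_conj h2 g) h0

end Cfsg.Agent.S0231
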