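import Mathlib
import Cfsg.Statements.S0232
import Cfsg.Agent.Inv.Count
import Cfsg.Agent.S0219

set_option autoImplicit false
open Cfsg

namespace Cfsg.Agent.S0232

theorem of_index_two {G : Type*} [Group G] [Finite G] (hgt : 2 < Nat.card G) {H : Subgroup G}
    (h : H.index = 2) : ∃ H : Subgroup G, H ≠ ⊤ ∧ Nat.card G < (Nat.card H) ^ 3 := by
  refine ⟨H, fun h' => by simp [h'] at h, ?_⟩
  have h1 := H.card_mul_index
  rw [h] at h1
  have h2 : 2 ≤ Nat.card H := by omega
  rw [← h1]
  calc Nat.card H * 2 < Nat.card H * (2 * 2) := by omega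
    _ ≤ Nat.card H * (Nat.card H * Nat.card H) := by gcongr
    _ = _ := by ring

theorem aux (n : ℕ) : ∀ (G : Type*) [Group G] [Finite G], Nat.card G = n → Even n → 2 < n →
    ∃ H : Subgroup G, H ≠ ⊤ ∧ Nat.card G < (Nat.card H) ^ 3 := by
  induction n using Nat.strong_induction_on with
  | _ n ih =>
  intro G _ _ hn heven hgt
  subst hn
  have : Fact (Nat.Prime 2) := ⟨Nat.prime_two⟩
  rcases Nat.even_or_odd (Nat.card (Subgroup.center G)) with hZ | hZ
  · obtain ⟨z, hzZ, hz⟩ := Inv.exists_two_mem_of_even hZ
    have hzn : (Subgroup.zpowers z).Normal := ⟨fun a ha g => by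
      rw [Subgroup.mem_center_iff.1 (Subgroup.zpowers_le.2 hzZ ha) g]; simpa using ha⟩
    have hc := (Subgroup.zpowers z).card_mul_index
    rw [Nat.card_zpowers, hz, Subgroup.index] at hc
    rcases Nat.even_or_odd (Nat.card (G ⧸ Subgroup.zpowers z)) with he | ho
    · by_cases h2 : Nat.card (G ⧸ Subgroup.zpowers z) = 2
      · exact of_index_two hgt h2
      · obtain ⟨K, hK, h⟩ := ih _ (by omega) (G ⧸ Subgroup.zpowers z) rfl he
          (by obtain ⟨k, hk⟩ := he; omega)
        refine ⟨K.comap (QuotientGroup.mk' _), fun h' => hK ?_, ?_⟩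
        · rw [← Subgroup.map_comap_eq_self_of_surjective (QuotientGroup.mk'_surjective _) K, h',
            Subgroup.map_top_of_surjective _ (QuotientGroup.mk'_surjective _)]
        · have h3 := (K.comap (QuotientGroup.mk' _)).card_mul_index
          rw [Subgroup.index_comap_of_surjective _ (QuotientGroup.mk'_surjective _), ← hc,
            ← K.card_mul_index, ← mul_assoc] at h3
          rw [Nat.eq_of_mul_eq_mul_right (Nat.pos_of_ne_zero K.index_ne_zero_of_finite) h3, ← hc]
          nlinarith
    · obtain ⟨T⟩ : Nonempty (Sylow 2 G) := inferInstance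
      have hT : Nat.card T = 2 := by
        rw [T.card_eq_multiplicity, ← hc, Nat.factorization_mul (by norm_num) Nat.card_pos.ne',
          Finsupp.add_apply, Nat.factorization_eq_zero_of_not_dvd ho.not_two_dvd_nat]
        rw [Nat.prime_two.factorization_self]; rfl
      obtain ⟨H, hH⟩ := S0219.result heven T (isCyclic_of_prime_card hT)
      exact of_index_two hgt hH
  · obtain ⟨H, hH, h1 | h1⟩ := Inv.brauer_fowler heven hZ
    · exact of_index_two hgt h1
    obtain ⟨t, ht⟩ := Inv.exists_two_of_even heven
    have h2 := Inv.index_centralizer_le_card_two ht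
    have h4 : Nat.card {t : G // orderOf t = 2} ≤ Nat.card G := Finite.card_subtype_le _
    set m := Nat.card {t : G // orderOf t = 2}
    have h5 : H.index * m ^ 2 < Nat.card G ^ 2 := by nlinarith
    have key : ∀ K : Subgroup G, K.index ≤ H.index → K.index ≤ m →
        Nat.card G < (Nat.card K) ^ 3 := by
      intro K h6 h7
      have h8 := K.card_mul_index
      have h9 : K.index * K.index ^ 2 < Nat.card K ^ 2 * K.index ^ 2 := by
        calc K.index * K.index ^ 2 ≤ H.index * m ^ 2 := by gcongr
          _ < _ := h5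
          _ = _ := by rw [← h8]; ring
      have h10 := Nat.lt_of_mul_lt_mul_right h9
      have h11 : 0 < Nat.card K := Nat.card_pos
      calc Nat.card G = Nat.card K * K.index := h8.symm
        _ < Nat.card K * Nat.card K ^ 2 := by gcongr
        _ = _ := by ring
    rcases le_total H.index (Subgroup.centralizer ({t} : Set G)).index with h | h
    · exact ⟨H, hH, key H le_rfl (h.trans h2)⟩
    · exact ⟨_, Inv.centralizer_ne_top_of_odd_center hZ ht, key _ h h2⟩

/-- A finite group G of even order greater than 2 has a proper subgroup H with |G| < |H|^3. -/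
theorem result {G : Type*} [Group G] [Finite G] (heven : Even (Nat.card G)) (hgt : 2 < Nat.card G) : ∃ H : Subgroup G, H ≠ ⊤ ∧ Nat.card G < (Nat.card H) ^ 3 := by
  exact aux _ G rfl heven hgt

end Cfsg.Agent.S0232
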