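import Mathlib
import Cfsg.Statements.S0234
import Cfsg.Agent.Inv.Count
import Cfsg.Agent.S0219

set_option autoImplicit false
open Cfsg

namespace Cfsg.Agent.S0234

theorem card_even_invol : (Finset.univ.filter fun σ : Equiv.Perm (Fin 5) =>
    σ ≠ 1 ∧ σ * σ = 1 ∧ Equiv.Perm.sign σ = 1).card = 15 := by decide +kernel

/-- In a finite simple group G of even order greater than 2, the number n of involutions satisfies 3n < |G|. -/
theorem result {G : Type*} [Group G] [Finite G] [IsSimpleGroup G] (heven : Even (Nat.card G)) (hgt : 2 < Nat.card G) : 3 * Nat.card {t : G // orderOf t = 2} < Nat.card G := by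
  classical
  have : Fact (Nat.Prime 2) := ⟨Nat.prime_two⟩
  have h2 : ∀ H : Subgroup G, H.index ≠ 2 := by
    intro H h
    rcases (H.normal_of_index_eq_two h).eq_bot_or_eq_top with h' | h'
    · rw [h', Subgroup.index_bot] at h; omega
    · rw [h', Subgroup.index_top] at h; omega
  have hcyc : ¬ 4 ∣ Nat.card G → False := by
    intro h4
    obtain ⟨T⟩ : Nonempty (Sylow 2 G) := inferInstance
    have hT : Nat.card T = 2 := by
      obtain ⟨k, hk⟩ := T.2.exists_card_eq
      have h5 := T.1.card_subgroup_dvd_card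
      have h6 := T.ne_bot_of_dvd_card heven.two_dvd
      rw [hk] at h5 ⊢
      rcases k with _ | _ | k
      · exact absurd (Subgroup.card_eq_one.1 hk) h6
      · rfl
      · exact absurd ((Dvd.intro (2 ^ k) (by ring)).trans h5) h4
    obtain ⟨H, hH⟩ := S0219.result heven T (isCyclic_of_prime_card hT)
    exact h2 H hH
  have hZ : Subgroup.center G = ⊥ := by
    refine (Subgroup.Normal.eq_bot_or_eq_top inferInstance).resolve_right fun h => ?_
    obtain ⟨t, ht⟩ := Inv.exists_two_of_even heven
    have hzn : (Subgroup.zpowers t).Normal := ⟨fun a ha g => by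
      rw [Subgroup.mem_center_iff.1 (h ▸ Subgroup.mem_top a) g]; simpa using ha⟩
    have hc := Nat.card_zpowers t
    rcases hzn.eq_bot_or_eq_top with h' | h'
    · rw [h', ht] at hc; simp at hc
    · rw [h', ht, Subgroup.card_top] at hc; omega
  by_contra! hm
  obtain ⟨H, hH, h1 | h1⟩ := Inv.brauer_fowler heven (by rw [hZ]; simp)
  · exact h2 H h1
  set m := Nat.card {t : G // orderOf t = 2} with hmdef
  have h5 : H.index ≤ 5 := by
    by_contra! h6
    have : 12 * m ^ 2 ≤ 2 * H.index * m ^ 2 := by gcongr; omega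
    nlinarith
  have := Fintype.ofFinite (G ⧸ H)
  obtain ⟨ι⟩ : Nonempty ((G ⧸ H) ↪ Fin 5) := Function.Embedding.nonempty_of_card_le
    (by rwa [← Nat.card_eq_fintype_card, Fintype.card_fin])
  have hker : H.normalCore = ⊥ := (Subgroup.Normal.eq_bot_or_eq_top inferInstance).resolve_right
    fun h => hH (top_le_iff.1 (h ▸ H.normalCore_le))
  rw [Subgroup.normalCore_eq_ker, MonoidHom.ker_eq_bot_iff] at hker
  let φ : G →* Equiv.Perm (Fin 5) :=
    (Equiv.Perm.viaEmbeddingHom ι).comp (MulAction.toPermHom G (G ⧸ H))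
  have hφ : Function.Injective φ := (Equiv.Perm.viaEmbeddingHom_injective ι).comp hker
  have hsign : ∀ g, φ g ∈ alternatingGroup (Fin 5) := by
    have h3 := Subgroup.index_comap (alternatingGroup (Fin 5)) φ
    have h4 : (alternatingGroup (Fin 5)).relIndex φ.range ∣ 2 := by
      rw [← alternatingGroup.index_eq_two (α := Fin 5)]
      exact Subgroup.relIndex_dvd_index_of_normal _ _
    rw [← h3] at h4
    have h6 := ((Nat.dvd_prime Nat.prime_two).1 h4).resolve_right (h2 _)
    rw [Subgroup.index_eq_one] at h6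
    intro g
    have : g ∈ (alternatingGroup (Fin 5)).comap φ := h6 ▸ Subgroup.mem_top g
    exact this
  have hm15 : m ≤ 15 := by
    rw [← card_even_invol, ← Fintype.card_subtype, ← Nat.card_eq_fintype_card]
    refine Nat.card_le_card_of_injective (fun t => ⟨φ t.1, ?_, ?_, hsign _⟩) ?_
    · exact fun h => Inv.ne_one_of_two t.2 (hφ (by rw [h, map_one]))
    · rw [← map_mul, Inv.mul_self_of_two t.2, map_one]
    · exact fun a b hab => Subtype.ext (hφ (congrArg (fun y => y.1) hab))
  have hdvd : Nat.card G ∣ 60 := by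
    have h3 := Subgroup.card_dvd_of_injective (φ.codRestrict _ hsign)
      (fun a b hab => hφ (congrArg (fun y => y.1) hab))
    have h4 := two_mul_nat_card_alternatingGroup (α := Fin 5)
    rw [Nat.card_perm, Nat.card_eq_fintype_card (α := Fin 5), Fintype.card_fin] at h4
    have h6 : Nat.card (alternatingGroup (Fin 5)) = 60 := by
      have : Nat.factorial 5 = 120 := rfl
      omega
    rwa [h6] at h3
  have h4 : 4 ∣ Nat.card G := by by_contra h; exact hcyc h
  have hnn : ∀ (p : ℕ) [Fact p.Prime], p ∣ Nat.card G → Nat.card (Sylow p G) = 1 →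
      IsPGroup p G := by
    intro p _ hp h1
    obtain ⟨P⟩ : Nonempty (Sylow p G) := inferInstance
    have := (Nat.card_eq_one_iff_unique.1 h1).1
    have hn : (P : Subgroup G).Normal := P.normal_of_subsingleton
    have := hn.eq_bot_or_eq_top.resolve_left (P.ne_bot_of_dvd_card hp)
    exact (this ▸ P.2 : IsPGroup p (⊤ : Subgroup G)).of_equiv Subgroup.topEquiv
  have hle : Nat.card G ≤ 45 := by omega
  have hcases : Nat.card G = 4 ∨ Nat.card G = 12 ∨ Nat.card G = 20 := by
    obtain ⟨k, hk⟩ := h4
    rw [hk] at hdvd hle ⊢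
    have : k ≤ 11 := by omega
    interval_cases k <;> simp_all
  rcases hcases with h | h | h
  · have hp : IsPGroup 2 G := IsPGroup.of_card (n := 2) h
    have := hp.bot_lt_center
    rw [hZ] at this
    exact lt_irrefl _ this
  · have : Fact (Nat.Prime 3) := ⟨Nat.prime_three⟩
    obtain ⟨P⟩ : Nonempty (Sylow 2 G) := inferInstance
    have hP : Nat.card P = 4 := by
      rw [P.card_eq_multiplicity, h]; decide +kernel
    have h7 := P.1.card_mul_index
    rw [hP, h] at h7
    have h8 : P.1.index = 3 := by omega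
    have hker : P.1.normalCore = ⊥ :=
      (Subgroup.Normal.eq_bot_or_eq_top inferInstance).resolve_right fun h' => by
        have h10 : P.1 = ⊤ := top_le_iff.1 (h' ▸ P.1.normalCore_le)
        rw [h10, Subgroup.index_top] at h8; omega
    rw [Subgroup.normalCore_eq_ker, MonoidHom.ker_eq_bot_iff] at hker
    have := Fintype.ofFinite (G ⧸ P.1)
    have h9 := Nat.card_le_card_of_injective _ hker
    rw [Nat.card_perm, ← Subgroup.index, h8, h] at h9
    exact absurd h9 (by decide)
  · have : Fact (Nat.Prime 5) := ⟨Nat.prime_five⟩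
    obtain ⟨P⟩ : Nonempty (Sylow 5 G) := inferInstance
    have hP : Nat.card P = 5 := by
      rw [P.card_eq_multiplicity, h]; decide +kernel
    have h7 := P.1.card_mul_index
    rw [hP, h] at h7
    have h8 : P.1.index = 4 := by omega
    have h9 := P.card_dvd_index
    have h10 := card_sylow_modEq_one 5 G
    rw [h8] at h9
    have h11 := Nat.le_of_dvd (by norm_num) h9
    unfold Nat.ModEq at h10
    obtain ⟨k, hk⟩ := (hnn 5 (by rw [h]; norm_num) (by omega)).exists_card_eq
    rw [h] at hk
    have : 2 ∣ 5 ^ k := hk ▸ (by norm_num)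
    exact absurd (Nat.Prime.dvd_of_dvd_pow Nat.prime_two this) (by norm_num)

end Cfsg.Agent.S0234
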