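import Mathlib
import Cfsg.Statements.S0239
import Cfsg.Agent.Inv.Isolated

set_option autoImplicit false
open Cfsg

namespace Cfsg.Agent.S0239

/-- If some nontrivial element x of a finite group G is conjugate to x⁻¹, then |G| is even. -/
theorem result {G : Type*} [Group G] [Finite G] (x : G) (hx : x ≠ 1) (hreal : IsConj x x⁻¹) : Even (Nat.card G) := by
  rw [← Nat.not_odd_iff_even]
  intro hodd
  obtain ⟨g, hg⟩ := isConj_iff.1 hreal
  exact hx (Inv.eq_one_of_odd_of_mul_self (hodd.of_dvd_nat (orderOf_dvd_natCard x))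
    (Inv.mul_self_of_odd_inverts hg (hodd.of_dvd_nat (orderOf_dvd_natCard g))))

end Cfsg.Agent.S0239
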