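import Mathlib
import Cfsg.Statements.S0240
import Cfsg.Agent.Inv.Count

set_option autoImplicit false
open Cfsg

namespace Cfsg.Agent.S0240

/-- Let G be a finite group with n involutions and H a subgroup with |H|·(n+1) > |G|. Then some nontrivial h ∈ H is strongly real in G: an involution t of G satisfies t h t⁻¹ = h⁻¹. -/
theorem result {G : Type*} [Group G] [Finite G] (H : Subgroup G) (hH : Nat.card G < Nat.card H * (Nat.card {t : G // orderOf t = 2} + 1)) : ∃ h : G, h ∈ H ∧ h ≠ 1 ∧ ∃ t : G, orderOf t = 2 ∧ t * h * t⁻¹ = h⁻¹ := by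
  by_contra! hno
  have h1 : ∀ t : G, orderOf t = 2 → t ∉ H := fun t ht htH =>
    hno t htH (Inv.ne_one_of_two ht) t ht (by simp [Inv.inv_eq_of_two ht, Inv.mul_self_of_two ht])
  let f : Option {t : G // orderOf t = 2} → G ⧸ H := fun o => o.elim (1 : G) fun t => (t.1 : G)
  have hf : Function.Injective f := by
    rintro (_ | ⟨a, ha⟩) (_ | ⟨b, hb⟩) h
    · rfl
    · exact absurd (by simpa using QuotientGroup.eq.1 h) (h1 b hb)
    · exact absurd (by simpa using QuotientGroup.eq.1 h.symm) (h1 a ha)
    · have h2 : a⁻¹ * b ∈ H := QuotientGroup.eq.1 h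
      rw [Inv.inv_eq_of_two ha] at h2
      have h3 : a * b = 1 := by
        by_contra h3
        exact hno _ h2 h3 a ha
          (Inv.inverts_mul_left (Inv.mul_self_of_two ha) (Inv.mul_self_of_two hb))
      have h4 : a = b := (Inv.inv_eq_of_two ha).symm.trans (inv_eq_of_mul_eq_one_right h3)
      subst h4; rfl
  have h2 := Nat.card_le_card_of_injective f hf
  rw [Finite.card_option] at h2
  have h3 := H.card_mul_index
  rw [← h3] at hH
  exact absurd (Nat.lt_of_mul_lt_mul_left hH) (not_lt.2 h2)

end Cfsg.Agent.S0240
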