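import Mathlib
import Cfsg.Statements.S0241
import Cfsg.Agent.Inv.Isolated

set_option autoImplicit false
open Cfsg

namespace Cfsg.Agent.S0241

/-- If x ≠ 1 is conjugate to x⁻¹ in a finite group G and |C_G(x)| is odd, then some involution t satisfies t x t⁻¹ = x⁻¹. -/
theorem result {G : Type*} [Group G] [Finite G] (x : G) (hx : x ≠ 1) (hreal : IsConj x x⁻¹) (hodd : Odd (Nat.card (Subgroup.centralizer ({x} : Set G)))) : ∃ t : G, orderOf t = 2 ∧ t * x * t⁻¹ = x⁻¹ := by
  obtain ⟨g, hg⟩ := isConj_iff.1 hreal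
  have hxo : Odd (orderOf x) :=
    Inv.odd_orderOf_of_mem hodd (Inv.mem_centralizer_single.2 (Commute.refl x))
  have h' : g * x⁻¹ * g⁻¹ = x := by
    have := congrArg (·⁻¹) hg
    simpa [mul_assoc] using this
  have h2 : g * g ∈ Subgroup.centralizer ({x} : Set G) := by
    rw [Inv.mem_centralizer_single, Inv.commute_iff_conj]
    calc g * g * x * (g * g)⁻¹ = g * (g * x * g⁻¹) * g⁻¹ := by group
      _ = x := by rw [hg, h']
  have h3 := Inv.odd_orderOf_of_mem hodd h2
  have h4 := Inv.pow_odd_inverts hg h3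
  refine ⟨g ^ orderOf (g * g), Inv.two_of_mul_self ?_ ?_, h4⟩
  · intro h
    rw [h, one_mul, inv_one, mul_one] at h4
    exact hx (Inv.eq_one_of_odd_of_mul_self hxo (mul_eq_one_iff_eq_inv.2 h4))
  · rw [← (Commute.refl g).mul_pow, pow_orderOf_eq_one]

end Cfsg.Agent.S0241
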