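import Mathlib
import Cfsg.Statements.S0251
import Cfsg.Agent.Classical.PSL2Basic

set_option autoImplicit false
set_option backward.isDefEq.respectTransparency false
open Cfsg

namespace Cfsg.Agent.S0251

/-- PSL_2(3) is isomorphic to A_4. -/
theorem result {F : Type*} [Field F] [Fintype F] (hF : Fintype.card F = 3) : Nonempty (Matrix.ProjectiveSpecialLinearGroup (Fin 2) F ≃* alternatingGroup (Fin 4)) := by
  exact Classical.PSL2Basic.psl_equiv_A4 (by rw [Nat.card_eq_fintype_card, hF])

end Cfsg.Agent.S0251
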