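import Mathlib
import Cfsg.Statements.S0252
import Cfsg.Agent.Classical.SmallRecog

set_option autoImplicit false
set_option backward.isDefEq.respectTransparency false
open Cfsg

namespace Cfsg.Agent.S0252

/-- PSL_2(4) is isomorphic to A_5. -/
theorem result {F : Type*} [Field F] [Fintype F] (hF : Fintype.card F = 4) : Nonempty (Matrix.ProjectiveSpecialLinearGroup (Fin 2) F ≃* alternatingGroup (Fin 5)) := by
  have hF' : Nat.card F = 4 := by rw [Nat.card_eq_fintype_card, hF]
  have := Matrix.ProjectiveSpecialLinearGroup.rank_two_simple (F := F) (by omega)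
  apply Classical.SmallRecog.equiv_A5_of_simple
  have h := Classical.SLBasic.card_PSL_two (F := F)
  rw [hF'] at h
  norm_num at h
  exact h

end Cfsg.Agent.S0252
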