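import Mathlib
import Cfsg.Statements.S0257
import Cfsg.Agent.Classical.PSL2Basic

set_option autoImplicit false
set_option backward.isDefEq.respectTransparency false
open Cfsg

namespace Cfsg.Agent.S0257

/-- SL_2(3) has a normal subgroup of index 3 isomorphic to the quaternion group of order 8, and its centre has order 2. -/
theorem result {F : Type*} [Field F] [Fintype F] (hF : Fintype.card F = 3) : (∃ Q : Subgroup (Matrix.SpecialLinearGroup (Fin 2) F), Q.Normal ∧ Q.index = 3 ∧ Nonempty (Q ≃* QuaternionGroup 2)) ∧ Nat.card (Subgroup.center (Matrix.SpecialLinearGroup (Fin 2) F)) = 2 := by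
  have hF' : Nat.card F = 3 := by rw [Nat.card_eq_fintype_card, hF]
  have : Fact (Nat.Prime 3) := ⟨Nat.prime_three⟩
  have : CharP F 3 := Classical.Congr.charP_of_card (k := 1) hF'
  refine ⟨?_, by rw [Classical.SLBasic.card_center_SL, hF']; rfl⟩
  obtain ⟨e⟩ := Classical.PSL2Basic.psl_equiv_A4 hF'
  let f := e.toMonoidHom.comp (QuotientGroup.mk' _)
  have hf : Function.Surjective f := e.surjective.comp (QuotientGroup.mk'_surjective _)
  have hn := alternatingGroup.normal_kleinFour (α := Fin 4) (by simp)
  have hi : ((alternatingGroup.kleinFour (Fin 4)).comap f).index = 3 := by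
    rw [Subgroup.index_comap_of_surjective _ hf]
    have := (alternatingGroup.kleinFour (Fin 4)).card_mul_index
    rw [alternatingGroup.kleinFour_card_of_card_eq_four (by simp),
      Classical.DicksonSL.card_A4] at this
    omega
  refine ⟨_, inferInstance, hi, ?_⟩
  have hc : Nat.card ((alternatingGroup.kleinFour (Fin 4)).comap f) = 2 ^ 3 := by
    have := ((alternatingGroup.kleinFour (Fin 4)).comap f).card_mul_index
    rw [hi, Classical.SLBasic.card_SL_two, hF'] at this
    omega
  obtain ⟨g, hg⟩ := Classical.DicksonSL.exists_Q8 (F := F)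
    (Classical.SL2Basic.two_ne_zero_of_char (p := 3) (by norm_num))
  obtain ⟨k, -, ⟨e'⟩⟩ := Classical.DicksonSL.sylow_quaternion (p := 3) (by norm_num)
    (MonoidHom.id _) Function.injective_id g hg (Sylow.ofCard _ (by
      rw [hc, Classical.SLBasic.card_SL_two, hF', show 3 * (3 ^ 2 - 1) = 2 ^ 3 * 3 by norm_num,
        Nat.factorization_mul (by norm_num) (by norm_num),
        Nat.Prime.factorization_pow Nat.prime_two, Nat.prime_three.factorization]
      simp))
  have h1 := Nat.card_congr e'.toEquiv
  have : NeZero (2 ^ k) := ⟨by positivity⟩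
  rw [Sylow.coe_ofCard, hc, Nat.card_eq_fintype_card, QuaternionGroup.card] at h1
  have h2 : 2 ^ k = 2 := by omega
  rw [h2] at e'
  exact ⟨e'⟩

end Cfsg.Agent.S0257
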