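import Mathlib
import Cfsg.Statements.S0267
import Cfsg.Agent.Classical.PSL2Basic
import Cfsg.Agent.S0266

set_option autoImplicit false
set_option backward.isDefEq.respectTransparency false
open Cfsg

namespace Cfsg.Agent.S0267

/-- SL_2(q) is 3-transitive on the q+1 points of the projective line if and only if q is even. -/
theorem result {F : Type*} [Field F] [Fintype F] : MulAction.IsMultiplyPretransitive (Matrix.SpecialLinearGroup (Fin 2) F) (Projectivization F (Fin 2 → F)) 3 ↔ ringChar F = 2 := by
  have h2 : ringChar F = 2 ↔ (2 : F) = 0 := by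
    refine ⟨fun h => ?_, fun h => ?_⟩
    · exact_mod_cast (ringChar.spec F 2).2 (h ▸ dvd_refl _)
    · exact ((Nat.dvd_prime Nat.prime_two).1 ((ringChar.spec F 2).1
        (by exact_mod_cast h))).resolve_left CharP.ringChar_ne_one
  rw [h2, ← Classical.PSL2Basic.toP_surjective_iff, MulAction.isMultiplyPretransitive_iff]
  constructor
  · intro h g
    let x : Fin 3 ↪ Classical.P1.PL F :=
      ⟨![Classical.P1.inf, Classical.P1.pt 0, Classical.P1.pt 1], by
        intro i j
        fin_cases i <;> fin_cases j <;> simp⟩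
    obtain ⟨s, hs⟩ := h x (g • x)
    refine ⟨s, Classical.P1.eq_of_smul_std ?_ ?_ ?_⟩ <;>
      rw [Classical.PSL2Basic.toP_mk, Classical.SL2Basic.toPGL_smul']
    exacts [DFunLike.congr_fun hs 0, DFunLike.congr_fun hs 1, DFunLike.congr_fun hs 2]
  · intro h x y
    obtain ⟨g, hg⟩ := MulAction.isMultiplyPretransitive_iff.1 (S0266.result (F := F)).1 x y
    obtain ⟨g, rfl⟩ := h g
    obtain ⟨g, rfl⟩ := QuotientGroup.mk_surjective g
    refine ⟨g, ?_⟩
    rw [← hg]
    ext i
    rw [Function.Embedding.smul_apply, Function.Embedding.smul_apply,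
      Classical.PSL2Basic.toP_mk, Classical.SL2Basic.toPGL_smul']

end Cfsg.Agent.S0267
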