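import Mathlib
import Cfsg.Statements.S0273
import Cfsg.Agent.Classical.Borel2

set_option autoImplicit false
set_option backward.isDefEq.respectTransparency false
open Cfsg

namespace Cfsg.Agent.S0273

/-- In GL_2(q) the centraliser of a non-trivial element of a Sylow p-subgroup (p the characteristic) has order q (q-1): the Sylow subgroup times the scalars. -/
theorem result {F : Type*} [Field F] [Fintype F] {q : ℕ} (hF : Fintype.card F = q) (p : ℕ) [Fact p.Prime] [CharP F p] (P : Sylow p (Matrix.GeneralLinearGroup (Fin 2) F)) (a : Matrix.GeneralLinearGroup (Fin 2) F) (ha : a ∈ P) (ha1 : a ≠ 1) : Nat.card (Subgroup.centralizer ({a} : Set (Matrix.GeneralLinearGroup (Fin 2) F))) = q * (q - 1) := by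
  obtain ⟨c, rfl, -⟩ := (Cfsg.Agent.Classical.Borel2.isRootSylow_GL (F := F) p).exists_of P
  obtain ⟨u, hu, rfl⟩ := ha
  obtain ⟨b, rfl⟩ := (Cfsg.Agent.Classical.Borel2.mem_sylGL p).1 hu
  have hb : b ≠ 0 := by
    rintro rfl
    exact ha1 (by rw [Cfsg.Agent.Classical.SL2Basic.upper_zero, map_one, map_one])
  have h1 := Cfsg.Agent.Classical.Borel2.card_centralizer_conj c
    (Matrix.SpecialLinearGroup.toGL (Cfsg.Agent.Classical.SL2Basic.upper b))
  rw [Cfsg.Agent.Classical.Borel2.card_centralizer_upper_GL hb, Nat.card_eq_fintype_card (α := F),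
    hF] at h1
  exact h1

end Cfsg.Agent.S0273
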