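import Mathlib
import Cfsg.Statements.S0275
import Cfsg.Agent.Classical.DicksonSL

set_option autoImplicit false
set_option backward.isDefEq.respectTransparency false
open Cfsg

namespace Cfsg.Agent.S0275

/-- If p is odd and H is a subgroup of SL_2(q), q a power of p, with more than one Sylow p-subgroup, then the Sylow 2-subgroups of H are generalised quaternion. -/
theorem result {F : Type*} [Field F] [Fintype F] (p : ℕ) [Fact p.Prime] [CharP F p] (hp : p ≠ 2) (H : Subgroup (Matrix.SpecialLinearGroup (Fin 2) F)) (hH : 1 < Nat.card (Sylow p H)) (S : Sylow 2 H) : ∃ k : ℕ, 1 ≤ k ∧ Nonempty ((S : Subgroup H) ≃* QuaternionGroup (2 ^ k)) := by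
  obtain ⟨f, hf, hH'⟩ := Cfsg.Agent.Classical.DicksonSL.exists_SL2_zmod hp H hH.ne'
  obtain ⟨g, hg⟩ := Cfsg.Agent.Classical.DicksonSL.exists_Q8 (F := ZMod p)
    (Cfsg.Agent.Classical.SL2Basic.two_ne_zero_of_char hp)
  refine Cfsg.Agent.Classical.DicksonSL.sylow_quaternion hp H.subtype H.subtype_injective
    ((f.codRestrict H fun x => hH' ⟨x, rfl⟩).comp g) ?_ S
  intro a b h
  exact hg (hf (congrArg Subtype.val h))

end Cfsg.Agent.S0275
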