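import Mathlib
import Cfsg.Statements.S0276
import Cfsg.Agent.Max.L2d

set_option autoImplicit false
open Cfsg

namespace Cfsg.Agent.S0276

open scoped Pointwise
open Cfsg.Agent.Max.L2 Cfsg.Agent.Classical.PSL2Basic Cfsg.Agent.Classical.P1Ident
  Cfsg.Agent.Classical.Congr Cfsg.Agent.Classical.P1

/-- For q = 3 or 5 mod 8 the Sylow 2-subgroups of PSL_2(q) are elementary abelian of order 4. -/
theorem result {F : Type*} [Field F] [Fintype F] {q : ℕ} (hF : Fintype.card F = q) (hq : q % 8 = 3 ∨ q % 8 = 5) (P : Sylow 2 (Matrix.ProjectiveSpecialLinearGroup (Fin 2) F)) : IsKleinFour (P : Subgroup (Matrix.ProjectiveSpecialLinearGroup (Fin 2) F)) := by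
  rw [← Nat.card_eq_fintype_card] at hF
  have h2 : (2 : F) ≠ 0 := odd_card_iff.1 (by rw [hF, Nat.odd_iff]; omega)
  haveI := NeZero.mk h2
  obtain ⟨V, ⟨e⟩⟩ := (exists_sub_PSL (X := V0 F)).2 ⟨V0 F, V0_le_A0.trans A0_le_LL, ⟨MulEquiv.refl _⟩⟩
  have h4 : Nat.card V = 2 ^ 2 := by rw [Nat.card_congr e.toEquiv, card_V0]; norm_num
  obtain ⟨Q, hQ⟩ := (IsPGroup.of_card h4).exists_le_sylow
  have h5 := Cfsg.Agent.Classical.SLBasic.card_PSL_two (F := F)
  rw [gcd_eq_two h2, hF] at h5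
  obtain ⟨m, hm, hm'⟩ : ∃ m, q ^ 2 - 1 = 8 * m ∧ ¬ 2 ∣ m := by
    have : q ^ 2 % 16 = 9 := by
      rw [Nat.pow_mod]
      have : q % 16 = 3 ∨ q % 16 = 5 ∨ q % 16 = 11 ∨ q % 16 = 13 := by omega
      rcases this with h | h | h | h <;> rw [h]
    exact ⟨(q ^ 2 - 1) / 8, by omega, by omega⟩
  have h6 := Cfsg.Agent.Classical.GLBasic.sylow_card_of_eq Q (k := 2) (m := q * m)
    (by rw [hm] at h5; nlinarith) (by rw [Nat.prime_two.dvd_mul]; omega)
  have h7 : V = Q := Subgroup.eq_of_le_of_card_ge hQ (by rw [h4, h6])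
  have e' := (Sylow.equiv P Q).trans ((MulEquiv.subgroupCongr h7).symm.trans e)
  have := isKleinFour_V0 (F := F)
  exact ⟨by rw [Nat.card_congr e'.toEquiv, card_V0],
    by rw [Monoid.exponent_eq_of_mulEquiv e', this.exponent_two]⟩

end Cfsg.Agent.S0276
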