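import Mathlib
import Cfsg.Statements.S0282
import Cfsg.Agent.S0827
import Cfsg.Agent.S0280
-- import your own Cfsg.Agent.* helpers here

set_option autoImplicit false
open Cfsg

namespace Cfsg.Agent.S0282

/-- PSU_3(2) is a solvable group of order 72. -/
theorem result {F : Type*} [Field F] [Fintype F] (hF : Fintype.card F = 4) : Nat.card (Cfsg.PSU 3 F 2) = 72 ∧ Group.IsSolvable (Cfsg.PSU 3 F 2) := by
  constructor
  · have := S0280.result (F := F) (q := 2) hF 3 (by norm_num)
    norm_num [Finset.prod_range_succ, Nat.even_add_one] at this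
    omega
  · obtain ⟨N, hN, h1, -, ⟨e⟩⟩ := S0827.result hF
    have : Fact (Nat.Prime 3) := ⟨Nat.prime_three⟩
    have h2 : IsPGroup 3 N := IsPGroup.of_card (n := 2) h1
    have h3 : IsPGroup 2 (Cfsg.PSU 3 F 2 ⧸ N) := IsPGroup.of_card (n := 3) (by
      rw [Nat.card_congr e.toEquiv, Nat.card_eq_fintype_card, QuaternionGroup.card]; rfl)
    have := h2.isNilpotent
    have := h3.isNilpotent
    exact solvable_of_ker_le_range N.subtype (QuotientGroup.mk' N) (by simp)

end Cfsg.Agent.S0282
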