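import Mathlib
import Cfsg.Statements.S0285
import Cfsg.Agent.Herm.Matrix
-- import your own Cfsg.Agent.* helpers here

set_option autoImplicit false
open Cfsg

namespace Cfsg.Agent.S0285

/-- The standard Hermitian form on F^n, |F| = q^2, has exactly (q^n - (-1)^n)(q^(n-1) + (-1)^n) non-zero isotropic vectors; counting the zero vector too: -/
theorem result {F : Type*} [Field F] [Fintype F] {q : ℕ} (hF : Fintype.card F = q ^ 2) (n : ℕ) : Nat.card {v : Fin n → F // Cfsg.hermForm n F q v v = 0} = (if Even n then (q ^ n - 1) * (q ^ (n - 1) + 1) else (q ^ n + 1) * (q ^ (n - 1) - 1)) + 1 := by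
  have hF' := Herm.natCard_of_card hF
  have h := (Herm.hf_sB hF' n).nv_zero hF'
  have h2 := Herm.two_le_of_card hF'
  simp only [Herm.hermForm_eq hF']
  change Herm.nv _ 0 = _
  rw [Module.finrank_fin_fun] at h
  apply Nat.cast_injective (R := ℤ)
  apply mul_left_cancel₀ (show (q : ℤ) ≠ 0 by omega)
  rw [h]
  rcases n with _ | n
  · simp
  · split_ifs with hn
    · rw [hn.neg_pow, Nat.cast_add, Nat.cast_mul, Nat.cast_sub (Nat.one_le_pow _ _ (by omega))]
      simp; ring
    · rw [(Nat.not_even_iff_odd.1 hn).neg_pow, Nat.cast_add, Nat.cast_mul,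
        Nat.cast_sub (Nat.one_le_pow _ _ (by omega))]
      simp; ring

end Cfsg.Agent.S0285
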