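import Mathlib
import Cfsg.Statements.S0289
import Cfsg.Agent.Orth.Count
-- import your own Cfsg.Agent.* helpers here

set_option autoImplicit false
open Cfsg

namespace Cfsg.Agent.S0289

/-- The hyperbolic quadratic form on F^(2m), m at least 1, has q^(2m-1) + q^m - q^(m-1) zeros (that is, (q^m - 1)(q^(m-1) + 1) non-zero isotropic vectors). -/
theorem result {F : Type*} [Field F] [Fintype F] {q : ℕ} (hF : Fintype.card F = q) (m : ℕ) (hm : 1 ≤ m) : Nat.card {v : Fin m ⊕ Fin m → F // Cfsg.quadFormPlus m F v = 0} = q ^ (2 * m - 1) + q ^ m - q ^ (m - 1) := by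
  subst hF
  rw [← Nat.card_eq_fintype_card]
  obtain ⟨m, rfl⟩ := Nat.exists_eq_add_of_le' hm
  have h := Orth.nv_plusQ (F := F) m
  change Orth.nv (Orth.plusQ (m + 1) F) 0 = _
  apply Nat.eq_sub_of_add_eq
  zify
  rw [h, show 2 * (m + 1) - 1 = 2 * m + 1 by omega]; simp

end Cfsg.Agent.S0289
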