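import Mathlib
import Cfsg.Statements.S0290
import Cfsg.Agent.Orth.Count
-- import your own Cfsg.Agent.* helpers here

set_option autoImplicit false
open Cfsg

namespace Cfsg.Agent.S0290

/-- The minus-type quadratic form on F^(2m), m at least 1, has q^(2m-1) + q^(m-1) - q^m zeros (that is, (q^m + 1)(q^(m-1) - 1) non-zero isotropic vectors). -/
theorem result {F : Type*} [Field F] [Fintype F] {q : ℕ} (hF : Fintype.card F = q) (m : ℕ) (hm : 1 ≤ m) (a b : F) (hab : ∀ z₁ z₂ : F, z₁ ^ 2 + a * z₁ * z₂ + b * z₂ ^ 2 = 0 → z₁ = 0 ∧ z₂ = 0) : Nat.card {v : (Fin (m - 1) ⊕ Fin (m - 1)) ⊕ Fin 2 → F // Cfsg.quadFormMinus (m - 1) F a b v = 0} = q ^ (2 * m - 1) + q ^ (m - 1) - q ^ m := by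
  subst hF
  rw [← Nat.card_eq_fintype_card]
  obtain ⟨m, rfl⟩ := Nat.exists_eq_add_of_le' hm
  have h := Orth.nv_minusQ (F := F) m hab
  change Orth.nv (Orth.minusQ m F a b) 0 = _
  apply Nat.eq_sub_of_add_eq
  zify
  rw [h, show 2 * (m + 1) - 1 = 2 * m + 1 by omega]; simp

end Cfsg.Agent.S0290
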