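import Mathlib
import Cfsg.Statements.S0304
import Cfsg.Agent.Orth.Char2
-- import your own Cfsg.Agent.* helpers here

set_option autoImplicit false
open Cfsg

namespace Cfsg.Agent.S0304

/-- In characteristic 2, O_{2m+1}(q) is isomorphic to Sp_{2m}(q). -/
theorem result {F : Type*} [Field F] [Fintype F] [CharP F 2] (m : ℕ) : Nonempty (Cfsg.isometryGroup F (Cfsg.quadFormOdd m F) ≃* Matrix.symplecticGroup (Fin m) F) := by
  have h2 : (2 : F) = 0 := Orth.two_eq_zero_of_charP
  have e := Orth.oddEquiv (Orth.nd_plusQ (F := F) m) h2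
  rw [Orth.polarBilin_plusQ h2] at e
  exact ⟨(Orth.toOG (Orth.oddQ m F)).trans ((Orth.ogCongr (Orth.oddIso m)).symm.trans
    (e.symm.trans (Classical.SpMat.spEquiv (Fin m) F).symm))⟩

end Cfsg.Agent.S0304
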