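import Mathlib
import Cfsg.Statements.S0305
import Cfsg.Agent.Orth.Count
-- import your own Cfsg.Agent.* helpers here

set_option autoImplicit false
open Cfsg

namespace Cfsg.Agent.S0305

/-- GO^+_2(q) is dihedral of order 2(q-1). -/
theorem result {F : Type*} [Field F] [Fintype F] {q : ℕ} (hF : Fintype.card F = q) : Nonempty (Cfsg.isometryGroup F (Cfsg.quadFormPlus 1 F) ≃* DihedralGroup (q - 1)) := by
  subst hF
  rw [← Nat.card_eq_fintype_card]
  obtain ⟨e⟩ := Orth.dihedral_hypQ (F := F)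
  exact ⟨(Orth.toOG (Orth.plusQ 1 F)).trans ((Orth.ogCongr (Orth.plusOne F)).symm.trans e)⟩

end Cfsg.Agent.S0305
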