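import Mathlib
import Cfsg.Statements.S0307
import Cfsg.Agent.Classical.GLBasic

set_option autoImplicit false
set_option backward.isDefEq.respectTransparency false
open Cfsg

namespace Cfsg.Agent.S0307

/-- PSL_n(q) is normal in PGL_n(q) with cyclic quotient of order gcd(n, q-1): the image of the natural map PSL_n → PGL_n is the kernel of a surjective homomorphism onto the cyclic group of that order. -/
theorem result {F : Type*} [Field F] [Fintype F] {q : ℕ} (hF : Fintype.card F = q) (n : ℕ) (hn : 1 ≤ n) : ∃ g : Matrix.ProjGenLinGroup (Fin n) F →* Multiplicative (ZMod (Nat.gcd n (q - 1))), Function.Surjective g ∧ g.ker = (Matrix.ProjectiveSpecialLinearGroup.toPGL : Matrix.ProjectiveSpecialLinearGroup (Fin n) F →* Matrix.ProjGenLinGroup (Fin n) F).range := by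
  subst hF
  have : Nonempty (Fin n) := ⟨⟨0, hn⟩⟩
  have hc := Classical.GLBasic.card_quotient_pow (F := F) (Fintype.card (Fin n))
  rw [Nat.card_eq_fintype_card (α := F)] at hc
  have hcyc : IsCyclic (Fˣ ⧸ (powMonoidHom (Fintype.card (Fin n)) : Fˣ →* Fˣ).range) :=
    isCyclic_of_surjective _ (QuotientGroup.mk'_surjective _)
  have hc' : Nat.card (Fˣ ⧸ (powMonoidHom (Fintype.card (Fin n)) : Fˣ →* Fˣ).range) =
      Nat.card (Multiplicative (ZMod (Nat.gcd n (Fintype.card F - 1)))) := by
    rw [hc, Nat.card_congr Multiplicative.toAdd, Nat.card_zmod, Fintype.card_fin]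
  let e := mulEquivOfCyclicCardEq hc'
  refine ⟨e.toMonoidHom.comp Classical.GLBasic.detPGL,
    e.surjective.comp Classical.GLBasic.detPGL_surjective, ?_⟩
  rw [← Classical.GLBasic.ker_detPGL]
  ext x
  simp [MonoidHom.mem_ker]

end Cfsg.Agent.S0307
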