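import Cfsg.Statements.S0310
import Mathlib
import Cfsg.Agent.BN.Basic

set_option autoImplicit false
open Cfsg

namespace Cfsg.Agent.S0310
open Cfsg.Agent.BN

/-- For a set `J` of distinguished generators, the subgroup generated by `B` and `J` is exactly the union of
the double cosets `B n B` with `n` in the subgroup generated by `J` (so `B W_J B` is a subgroup). -/
theorem result {G : Type*} [Group G] (P : Cfsg.BNPair G) {J : Set G}
    (hJ : J ⊆ P.S) (g : G) :
    g ∈ P.parabolic J ↔ ∃ n ∈ Subgroup.closure J, g ∈ DoubleCoset.doubleCoset n (P.B : Set G) P.B := by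
  constructor
  · intro hg
    rw [parabolic_eq_cellUnion hJ] at hg
    obtain ⟨l, hl, hg⟩ := hg
    refine ⟨wp (fun s : P.S => (s : G)) l, ?_, ?_⟩
    · clear hg
      induction l with
      | nil => exact Subgroup.one_mem _
      | cons a l ih =>
        rw [wp_cons]
        exact Subgroup.mul_mem _ (Subgroup.subset_closure (hl a (by simp)))
          (ih fun s hs => hl s (by simp [hs]))
    · rw [← cell_eq_doubleCoset (wp_val_mem l), cls_wp]; exact hg
  · rintro ⟨n, hn, hg⟩
    obtain ⟨b1, h1, b2, h2, rfl⟩ := DoubleCoset.mem_doubleCoset.mp hg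
    exact Subgroup.mul_mem _ (Subgroup.mul_mem _ (B_le_parabolic J h1)
      ((le_sup_right : Subgroup.closure J ≤ _) hn)) (B_le_parabolic J h2)

end Cfsg.Agent.S0310
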