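import Cfsg.Statements.S0321
import Mathlib
import Cfsg.Agent.BN.Basic

set_option autoImplicit false
open Cfsg

namespace Cfsg.Agent.S0321
open Cfsg.Agent.BN

/-- For `n ∈ N` not in `B`, the union `B ∪ B n B` is (the underlying set of) a subgroup exactly when `n` agrees
modulo `B ⊓ N` with one of the distinguished representatives; thus the distinguished involutions are
determined by `B` and `N`. -/
theorem result {G : Type*} [Group G] (P : Cfsg.BNPair G) {n : G}
    (hn : n ∈ P.N) (hnB : n ∉ P.B) :
    (∃ H : Subgroup G, (H : Set G) = (P.B : Set G) ∪ DoubleCoset.doubleCoset n (P.B : Set G) P.B) ↔ ∃ s ∈ P.S, s⁻¹ * n ∈ P.B := by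
  rw [← cell_eq_doubleCoset hn]
  constructor
  · rintro ⟨H, hH⟩
    have hB : P.B ≤ H := fun b hb => by
      show b ∈ (H : Set G); rw [hH]; exact Or.inl hb
    have hnH : n ∈ H := by
      show n ∈ (H : Set G); rw [hH]; exact Or.inr (self_mem_cell hn)
    obtain ⟨l, hl, hg⟩ := exists_red_mem_cell (P := P) n
    cases l with
    | nil => exact absurd (mem_cell_one.mp hg) hnB
    | cons a l =>
      have ha : (a : G) ∈ (H : Set G) := letters_mem_of_mem hB hl hg hnH a (by simp)
      rw [hH] at ha
      rcases ha with ha | ha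
      · exact absurd ha (not_mem_B a)
      · exact ⟨a, a.2, (cls_eq_iff _ _).mp (eq_of_mem_cell (sw_mem_cell a) ha)⟩
  · rintro ⟨s, hs, h⟩
    have e : cls P n hn = sw P ⟨s, hs⟩ := ((cls_eq_iff _ _).mpr h).symm
    rw [e]
    refine ⟨cellUnion P {s}, ?_⟩
    ext g
    constructor
    · rintro ⟨l, hl, hg⟩
      have : wp (sw P) l = 1 ∨ wp (sw P) l = sw P ⟨s, hs⟩ := by
        clear hg
        induction l with
        | nil => exact Or.inl rfl
        | cons a l ih =>
          have ha : a = ⟨s, hs⟩ := Subtype.ext (hl a (by simp))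
          rcases ih (fun t ht => hl t (by simp [ht])) with h1 | h1
          · right; rw [wp_cons, h1, ha, mul_one]
          · left; rw [wp_cons, h1, ha, sw_sq]
      rcases this with h1 | h1
      · left; rw [h1] at hg; exact mem_cell_one.mp hg
      · right; rwa [h1] at hg
    · rintro (hg | hg)
      · exact B_le_cellUnion _ hg
      · exact ⟨[⟨s, hs⟩], by simp, by simpa using hg⟩

end Cfsg.Agent.S0321
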