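import Cfsg.Statements.S0322
import Mathlib
import Cfsg.Agent.BN.Basic

set_option autoImplicit false
open Cfsg

namespace Cfsg.Agent.S0322
open Cfsg.Agent.BN

/-- A group with a (B,N)-pair of rank one acts doubly transitively on the left cosets of `B`. -/
theorem result {G : Type*} [Group G] (P : Cfsg.BNPair G) (h : P.rank = 1) : MulAction.IsMultiplyPretransitive G (G ⧸ P.B) 2 := by
  obtain ⟨⟨s⟩, hsub⟩ : Nonempty P.S ∧ Subsingleton P.S := by
    have := Nat.card_eq_one_iff_unique.mp h
    exact ⟨this.2, this.1⟩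
  have hW : ∀ w : Weyl P, w = 1 ∨ w = sw P s := by
    intro w
    induction w using invGen.induction_left with
    | h1 => exact Or.inl rfl
    | hs t w ih =>
      rw [Subsingleton.elim t s]
      rcases ih with rfl | rfl
      · right; rw [mul_one]
      · left; exact sw_sq s
  have hc : ∀ g : G, g ∉ P.B → g ∈ cell P (sw P s) := by
    intro g hg
    obtain ⟨w, hw⟩ := exists_mem_cell (P := P) g
    rcases hW w with rfl | rfl
    · exact absurd (mem_cell_one.mp hw) hg
    · exact hw
  rw [MulAction.is_two_pretransitive_iff]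
  intro a b c d hab hcd
  obtain ⟨a, rfl⟩ := QuotientGroup.mk_surjective a
  obtain ⟨b, rfl⟩ := QuotientGroup.mk_surjective b
  obtain ⟨c, rfl⟩ := QuotientGroup.mk_surjective c
  obtain ⟨d, rfl⟩ := QuotientGroup.mk_surjective d
  rw [Ne, QuotientGroup.eq] at hab hcd
  obtain ⟨b1, h1, b2, h2, e⟩ := exists_of_mem_cell (hc _ hab) (hc _ hcd)
  refine ⟨c * b1 * a⁻¹, ?_, ?_⟩
  · rw [MulAction.Quotient.smul_mk, QuotientGroup.eq]
    simpa using h1
  · rw [MulAction.Quotient.smul_mk, QuotientGroup.eq]
    have : d = c * (b1 * (a⁻¹ * b) * b2) := by rw [← e]; group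
    rw [this]
    simpa [mul_assoc] using h2

end Cfsg.Agent.S0322
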