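import Cfsg.Statements.S0323
import Mathlib
import Cfsg.Agent.BN.Basic

set_option autoImplicit false
open scoped Pointwise
open Cfsg

namespace Cfsg.Agent.S0323
open Cfsg.Agent.BN

/-- A doubly transitive action on a set with at least three points yields a (B,N)-pair of rank one:
`B` is the stabiliser of a point `x`, `N` the setwise stabiliser of a pair `{x, y}`. -/
theorem result {G Ω : Type*} [Group G] [MulAction G Ω]
    (h2 : MulAction.IsMultiplyPretransitive G Ω 2) {x y z : Ω} (hxy : x ≠ y) (hyz : y ≠ z) (hxz : x ≠ z) :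
    ∃ P : Cfsg.BNPair G, P.B = MulAction.stabilizer G x ∧
      P.N = MulAction.stabilizer G ({x, y} : Set Ω) ∧ P.rank = 1 := by
  rw [MulAction.is_two_pretransitive_iff] at h2
  obtain ⟨s, hsx, hsy⟩ := h2 hxy hxy.symm
  have hN : ∀ n : G, n ∈ MulAction.stabilizer G ({x, y} : Set Ω) ↔
      (n • x = x ∧ n • y = y) ∨ (n • x = y ∧ n • y = x) := by
    intro n
    rw [MulAction.mem_stabilizer_iff, Set.smul_set_insert, Set.smul_set_singleton, Set.pair_eq_pair_iff]
  have hdc : ∀ g g' : G, g • x ≠ x → g' • x ≠ x → g ∈ DoubleCoset.doubleCoset g'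
      (MulAction.stabilizer G x : Set G) (MulAction.stabilizer G x) := by
    intro g g' hg hg'
    obtain ⟨b, hb1, hb2⟩ := h2 hg'.symm hg.symm
    refine DoubleCoset.mem_doubleCoset.mpr ⟨b, hb1, (b * g')⁻¹ * g, ?_, by group⟩
    show ((b * g')⁻¹ * g) • x = x
    rw [mul_smul, inv_smul_eq_iff, mul_smul, hb2]
  have hdc1 : ∀ g g' : G, g • x = x → g' • x = x → g ∈ DoubleCoset.doubleCoset g'
      (MulAction.stabilizer G x : Set G) (MulAction.stabilizer G x) := by
    intro g g' hg hg'
    refine DoubleCoset.mem_doubleCoset.mpr ⟨1, Subgroup.one_mem _, g'⁻¹ * g, ?_, by group⟩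
    show (g'⁻¹ * g) • x = x
    rw [mul_smul, inv_smul_eq_iff, hg, hg']
  have hsN : s ∈ MulAction.stabilizer G ({x, y} : Set Ω) := (hN s).mpr (Or.inr ⟨hsx, hsy⟩)
  refine ⟨⟨MulAction.stabilizer G x, MulAction.stabilizer G ({x, y} : Set Ω), {s}, ?_, ?_, ?_, ?_,
    ?_, ?_, ?_, ?_⟩, rfl, rfl, by simp [Cfsg.BNPair.rank]⟩
  · rw [eq_top_iff]
    intro g _
    by_cases hg : g • x = x
    · exact Subgroup.mem_sup_left hg
    · obtain ⟨b1, h1, b2, h2, rfl⟩ := DoubleCoset.mem_doubleCoset.mp
        (hdc g s hg (by rw [hsx]; exact hxy.symm))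
      exact Subgroup.mul_mem _ (Subgroup.mul_mem _ (Subgroup.mem_sup_left h1)
        (Subgroup.mem_sup_right hsN)) (Subgroup.mem_sup_left h2)
  · intro n hn t ht
    have ht1 : t • x = x := ht.1
    have ht2 : t • y = y := by
      rcases (hN t).mp ht.2 with h | h
      · exact h.2
      · exact absurd (ht1.symm.trans h.1) hxy
    show (n * t * n⁻¹) • x = x
    rcases (hN n).mp hn with h | h
    · rw [mul_smul, mul_smul, inv_smul_eq_iff.mpr h.1.symm, ht1, h.1]
    · rw [mul_smul, mul_smul, inv_smul_eq_iff.mpr h.2.symm, ht2, h.2]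
  · rintro _ rfl; exact hsN
  · rintro _ rfl
    show (_ * _) • x = x
    rw [mul_smul, hsx, hsy]
  · rintro _ rfl _ rfl _; rfl
  · apply le_antisymm
    · exact sup_le ((Subgroup.closure_le _).mpr (by rintro _ rfl; exact hsN)) inf_le_right
    · intro n hn
      rcases (hN n).mp hn with h | h
      · exact Subgroup.mem_sup_right ⟨h.1, hn⟩
      · have : n = s * (s⁻¹ * n) := by group
        rw [this]
        refine Subgroup.mul_mem _ (Subgroup.mem_sup_left (Subgroup.subset_closure rfl))
          (Subgroup.mem_sup_right ⟨?_, Subgroup.mul_mem _ (Subgroup.inv_mem _ hsN) hn⟩)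
        show (s⁻¹ * n) • x = x
        rw [mul_smul, inv_smul_eq_iff, h.1, hsx]
  · intro s' hs' n hn b hb
    rw [show s' = s from hs']
    have hb' : b • x = x := hb
    rcases (hN n).mp hn with h | h
    · left
      refine hdc _ _ ?_ ?_
      · rw [mul_smul, mul_smul, h.1, hb', hsx]; exact hxy.symm
      · rw [mul_smul, h.1, hsx]; exact hxy.symm
    · by_cases hc : (s * b * n) • x = x
      · left
        refine hdc1 _ _ hc ?_
        rw [mul_smul, h.1, hsy]
      · right
        refine hdc _ _ hc ?_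
        rw [h.1]; exact hxy.symm
  · intro s' hs' h
    rw [show s' = s from hs'] at h
    obtain ⟨b, hb1, hb2⟩ := h2 hxy hxz
    have : s * b * s ∈ (MulAction.stabilizer G x : Set G) := by
      rw [← h]; exact ⟨b, hb1, rfl⟩
    have h3 : (s * b * s) • x = x := this
    rw [mul_smul, mul_smul, hsx, hb2] at h3
    exact hyz (smul_left_cancel s (hsy.trans h3.symm))

end Cfsg.Agent.S0323
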