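import Mathlib
import Cfsg.Statements.S0327
import Cfsg.Agent.RankOne.SzOvoid
import Cfsg.Agent.RankOne.SzBasic
-- import your own Cfsg.Agent.* helpers here

set_option autoImplicit false
open Cfsg

namespace Cfsg.Agent.S0327

/-- The Suzuki group (`m ≥ 1`) is a Zassenhaus group on the `q² + 1` points of the Suzuki–Tits ovoid. -/
theorem result {F : Type*} [Field F] [Fintype F] {m : ℕ} (hm : 1 ≤ m)
    (hF : Fintype.card F = 2 ^ (2 * m + 1)) :
    Cfsg.IsZassenhausGroup (Cfsg.Sz F m) (Cfsg.suzukiOvoid F m) := by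
  let Z := RankOne.Sz.model hF hm
  refine ⟨⟨fun {g h} e => ?_⟩, Z.setup.two_transitive,
    fun g a b c h1 h2 h3 => Z.one_of_fix_three h1 h2 h3, ?_, ?_⟩
  · have := Z.faithful (h⁻¹ * g) (fun c => by rw [mul_smul, e, inv_smul_smul])
    exact (inv_mul_eq_one.mp this).symm
  · obtain ⟨κ, hκ⟩ := Z.exists_unit_ne_one
    exact ⟨Z.M κ, fun h => hκ (Z.M_inj (h.trans (map_one _).symm)), Z.a, Z.t • Z.a, Z.ta_ne.symm,
      Z.M_a κ, Z.M_b κ⟩
  · intro N hN htr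
    have hne : N ≠ ⊥ := by
      rintro rfl
      obtain ⟨⟨g, hg⟩, h⟩ := htr.exists_smul_eq Z.a (Z.t • Z.a)
      obtain rfl := Subgroup.mem_bot.mp hg
      exact Z.ta_ne (by rw [← h]; exact one_smul _ _)
    obtain rfl := Z.top_of_normal N hne
    refine ⟨Z.a, Subgroup.ne_bot_iff_exists_ne_one.mpr ⟨⟨⟨Z.S 0 1, trivial⟩, Z.S_a 0 1⟩, fun h => ?_⟩⟩
    have : Z.S 0 1 = 1 := congrArg (fun x => (x.1.1 : Cfsg.Sz F m)) h
    simpa using (Z.S_eq_one_iff.mp this).2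

end Cfsg.Agent.S0327
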