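import Mathlib
import Cfsg.Statements.S0332
import Cfsg.Agent.RankOne.SzOvoid
import Cfsg.Agent.RankOne.SzCount
-- import your own Cfsg.Agent.* helpers here

set_option autoImplicit false
open Cfsg

namespace Cfsg.Agent.S0332

/-- The Suzuki group is a CN-group: every non-identity element has nilpotent centraliser. -/
theorem result {F : Type*} [Field F] [Fintype F] {m : ℕ} (hm : 1 ≤ m)
    (hF : Fintype.card F = 2 ^ (2 * m + 1)) : Cfsg.IsCNGroup (Cfsg.Sz F m) := by
  let Z := RankOne.Sz.model hF hm
  have := Z.finite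
  have : Fact (Nat.Prime 2) := ⟨Nat.prime_two⟩
  intro g h1
  rcases Z.centralizer_cases h1 with ⟨Y, -, h2⟩ | ⟨Y, κ, -, -, h2⟩ | h2
  · exact (Y.isPGroup_Q.to_le h2).isNilpotent
  · rw [h2]
    letI := Y.isCyclic_D.commGroup
    infer_instance
  · letI := (Z.isCyclic_centralizer_fpf h2).commGroup
    infer_instance

end Cfsg.Agent.S0332
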