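import Mathlib
import Cfsg.Statements.S0335
import Cfsg.Agent.RankOne.SzOvoid
import Cfsg.Agent.RankOne.SzBasic
-- import your own Cfsg.Agent.* helpers here

set_option autoImplicit false
open Cfsg

namespace Cfsg.Agent.S0335

/-- The Suzuki–Tits point set is an ovoid: any three distinct points of it are projectively independent
(no line of projective 3-space meets it in more than two points). -/
theorem result {F : Type*} [Field F] [Fintype F] {m : ℕ} (hm : 1 ≤ m)
    (hF : Fintype.card F = 2 ^ (2 * m + 1)) (p : Fin 3 ↪ Cfsg.suzukiOvoid F m) :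
    Projectivization.Independent (fun i => (p i : Projectivization F (Fin 4 → F))) := by
  let Z := RankOne.Sz.model hF hm
  have := RankOne.Sz.charP_of_card hF
  obtain ⟨g, h0, h1⟩ := RankOne.two_trans Z.setup.two_transitive (RankOne.Sz.P_ne_inf hF 0 0).symm
    (p.injective.ne (show (0 : Fin 3) ≠ 1 by decide))
  obtain ⟨x, y, hxy, h2⟩ : ∃ x y, ¬ (x = 0 ∧ y = 0) ∧ g • RankOne.Sz.P hF x y = p 2 := by
    rcases RankOne.Sz.cases_point hF (g⁻¹ • p 2) with h | ⟨x, y, h⟩
    · rw [inv_smul_eq_iff, h0] at h
      exact absurd (p.injective h) (by decide)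
    · rw [inv_smul_eq_iff] at h
      refine ⟨x, y, ?_, h.symm⟩
      rintro ⟨rfl, rfl⟩
      rw [h1] at h
      exact absurd (p.injective h) (by decide)
  let v : Fin 3 → Fin 4 → F := ![RankOne.Sz.e0 F, RankOne.Sz.pt Z.θ 0 0, RankOne.Sz.pt Z.θ x y]
  have hv : LinearIndependent F v := by
    rw [Fintype.linearIndependent_iff]
    intro c hc
    have e0 := congrFun hc 0
    have e1 := congrFun hc 1
    have e2 := congrFun hc 2
    have e3 := congrFun hc 3
    simp [v, Fin.sum_univ_succ, RankOne.Sz.pt, RankOne.Sz.e0, RankOne.Sz.ff_zero] at e0 e1 e2 e3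
    have c2 : c 2 = 0 := by
      by_contra h
      exact hxy ⟨e2.resolve_left h, e1.resolve_left h⟩
    intro i
    fin_cases i
    · simpa [c2] using e0
    · simpa [c2] using e3
    · exact c2
  let A := Matrix.SpecialLinearGroup.toLin' (g : Matrix.SpecialLinearGroup (Fin 4) F)
  have hw := hv.map' A.toLinearMap A.ker
  have key := Projectivization.Independent.mk _ hw.ne_zero hw
  convert key using 2 with i
  fin_cases i
  · exact congrArg Subtype.val h0.symm
  · exact congrArg Subtype.val h1.symm
  · exact congrArg Subtype.val h2.symm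

end Cfsg.Agent.S0335
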