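import Mathlib
import Cfsg.Statements.S0357
import Cfsg.Agent.Golay.Steiner

set_option autoImplicit false
open Cfsg

namespace Cfsg.Agent.S0357

open Cfsg.Agent.Golay

/-- In a Steiner system S(5, 6, 12), the complement of every block is again a block. -/
theorem result {α : Type*} [Fintype α] [DecidableEq α] (hα : Fintype.card α = 12) {B : Set (Finset α)} (hB : Cfsg.IsSteinerSystem 5 6 B) {b : Finset α} (hb : b ∈ B) : bᶜ ∈ B := by
  have h := steiner_inter_eq hB (by norm_num) hα (Or.inr ⟨b, hb, subset_rfl⟩)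
    (Finset.empty_subset b)
  rw [hB.1 b hb, show tri (lam 5 6 12) (6 - (∅ : Finset α).card) (∅ : Finset α).card = (1 : ℕ) by
    rw [Finset.card_empty]; decide, Nat.cast_inj] at h
  obtain ⟨c, hc, e⟩ := Set.nonempty_of_ncard_ne_zero (h.trans_ne one_ne_zero)
  rw [← Finset.disjoint_iff_inter_eq_empty, ← Finset.subset_compl_iff_disjoint_left] at e
  rwa [← Finset.eq_of_subset_of_card_le e (by rw [Finset.card_compl, hα, hB.1 b hb, hB.1 c hc])]

end Cfsg.Agent.S0357
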