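import Mathlib
import Cfsg.Statements.S0377
import Cfsg.Agent.Golay.Mathieu

set_option autoImplicit false
open Cfsg

namespace Cfsg.Agent.S0377

open Cfsg.Agent.Golay

/-- A point stabiliser in the group of the length-24 code is simple. -/
theorem result (p : Cfsg.GolayPt) : IsSimpleGroup (MulAction.stabilizer Cfsg.M24 p) := by
  obtain ⟨e⟩ := equiv_St (trans_pt none p) (K := MulAction.stabilizer M24 p) (fun _ => Iff.rfl)
  have := simple_M23
  exact MulEquiv.isSimpleGroup (H := Spor.M23) e

end Cfsg.Agent.S0377
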