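import Mathlib
import Cfsg.Statements.S0380
import Cfsg.Agent.Golay.PSL

set_option autoImplicit false
open Cfsg

namespace Cfsg.Agent.S0380

open Cfsg.Agent.Golay

/-- A three-point stabiliser in the group of the length-24 code is isomorphic to PSL(3, F) for the field F with 4 elements. -/
theorem result (p q r : Cfsg.GolayPt) (hpq : p ≠ q) (hpr : p ≠ r) (hqr : q ≠ r) (F : Type) [Field F] [Fintype F] (hF : Fintype.card F = 4) : Nonempty (↥(MulAction.stabilizer Cfsg.M24 p ⊓ MulAction.stabilizer Cfsg.M24 q ⊓ MulAction.stabilizer Cfsg.M24 r) ≃* Matrix.ProjectiveSpecialLinearGroup (Fin 3) F) := by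
  obtain ⟨e⟩ := equiv_St (trans_pt3 (p := none) (q := some 0) (r := some 1) (by decide) (by decide)
    (by decide) hpq hpr hqr) (K := MulAction.stabilizer M24 p ⊓ MulAction.stabilizer M24 q ⊓
    MulAction.stabilizer M24 r) fun g => by simp [Subgroup.smul_def]
  obtain ⟨e1⟩ := M21_equiv
  obtain ⟨e2⟩ := Classical.SmallFields.equiv_F4 (F := F) (by rw [Nat.card_eq_fintype_card, hF])
  exact ⟨((e.trans (MulEquiv.subgroupCongr M21_eq.symm)).trans e1).trans
    (Classical.Congr.pslCongr e2)⟩

end Cfsg.Agent.S0380
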