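import Mathlib
import Cfsg.Statements.S0383
import Cfsg.Agent.Golay.Mathieu

set_option autoImplicit false
open scoped Pointwise
open Cfsg

namespace Cfsg.Agent.S0383

open Cfsg.Agent.Golay

/-- A dodecad stabiliser in the group of the length-24 code is simple. -/
theorem result (d : Finset Cfsg.GolayPt) (hd : d ∈ Cfsg.dodecads) : IsSimpleGroup (MulAction.stabilizer Cfsg.M24 d) := by
  obtain ⟨e⟩ := equiv_St (dodecad_trans squareDodecad_mem hd) (K := MulAction.stabilizer M24 d)
    (fun _ => Iff.rfl)
  have := simple_M12
  exact MulEquiv.isSimpleGroup (H := Spor.M12) e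

end Cfsg.Agent.S0383
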