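import Mathlib
import Cfsg.Statements.S0384
import Cfsg.Agent.Golay.Mathieu

set_option autoImplicit false
open scoped Pointwise
open Cfsg

namespace Cfsg.Agent.S0384

open Cfsg.Agent.Golay

/-- A dodecad stabiliser is sharply 5-transitive on the dodecad. -/
theorem result (d : Finset Cfsg.GolayPt) (hd : d ∈ Cfsg.dodecads) (x y : Fin 5 ↪ Cfsg.GolayPt) (hx : ∀ i, x i ∈ d) (hy : ∀ i, y i ∈ d) : ∃! g : MulAction.stabilizer Cfsg.M24 d, ∀ i, ((g : Cfsg.M24) : Equiv.Perm Cfsg.GolayPt) (x i) = y i := by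
  obtain ⟨g, hg, e, e'⟩ := dod_tuple_trans le_rfl hd hd x.injective y.injective hx hy
  refine ⟨⟨⟨g, hg⟩, e⟩, e', fun k hk => Subtype.ext (Subtype.ext ?_)⟩
  have h1 : g⁻¹ * k.1.1 = 1 := by
    refine eq_one_of_dod_five hd x.injective hx (M24.mul_mem (M24.inv_mem hg) k.1.2) ?_ fun i => ?_
    · rw [mul_smul, show k.1.1 • d = d from k.2, inv_smul_eq_iff, e]
    · rw [Equiv.Perm.mul_apply, hk, ← e']; simp
  exact (inv_mul_eq_one.1 h1).symm

end Cfsg.Agent.S0384
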