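import Mathlib
import Cfsg.Statements.S0385
import Cfsg.Agent.Golay.Octads

set_option autoImplicit false
open Cfsg

namespace Cfsg.Agent.S0385

open Cfsg.Agent.Golay
open scoped Pointwise

/-- The 6-point intersections of octads with a fixed dodecad form a Steiner system S(5, 6, 12) on the dodecad. -/
theorem result (d : Finset Cfsg.GolayPt) (hd : d ∈ Cfsg.dodecads) : Cfsg.IsSteinerSystem 5 6 {h : Finset {p : Cfsg.GolayPt // p ∈ d} | ∃ o ∈ Cfsg.octads, (o ∩ d).card = 6 ∧ h = Finset.subtype (fun p => p ∈ d) o} := by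
  have hc : ∀ o : Finset GolayPt, (Finset.subtype (fun p => p ∈ d) o).map
      (Function.Embedding.subtype _) = o ∩ d := fun o => by
    rw [Finset.subtype_map, Finset.filter_mem_eq_inter]
  constructor
  · rintro _ ⟨o, ho, h6, rfl⟩
    rw [← Finset.card_map (Function.Embedding.subtype _), hc, h6]
  · intro s hs
    obtain ⟨o, ho, hu⟩ := octads_steiner.2 (s.map (Function.Embedding.subtype _))
      (by rw [Finset.card_map, hs])
    refine ⟨_, ⟨⟨o, ho.1, ?_, rfl⟩, fun a ha => ?_⟩, ?_⟩
    · have h1 : s.map (Function.Embedding.subtype _) ⊆ o ∩ d := Finset.subset_inter ho.2 (by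
        intro a ha
        obtain ⟨a', -, rfl⟩ := Finset.mem_map.1 ha
        exact a'.2)
      have h2 := Finset.card_le_card h1
      rw [Finset.card_map, hs] at h2
      obtain ⟨v, hv, e⟩ := (classif_dod_oct hd).val o ho.1
      simp only [List.mem_cons, List.not_mem_nil, or_false] at hv
      rcases hv with rfl | rfl | rfl <;> simp only at e <;> omega
    · rw [Finset.mem_subtype]; exact ho.2 (Finset.mem_map_of_mem _ ha)
    · rintro _ ⟨⟨c, hc, -, rfl⟩, hs⟩
      rw [hu c ⟨hc, fun a ha => ?_⟩]
      obtain ⟨a', ha', rfl⟩ := Finset.mem_map.1 ha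
      exact Finset.mem_subtype.1 (hs ha')

end Cfsg.Agent.S0385
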