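import Mathlib
import Cfsg.Statements.S0387
import Cfsg.Agent.Golay.Mathieu

set_option autoImplicit false
open scoped Pointwise
open Cfsg

namespace Cfsg.Agent.S0387

open Cfsg.Agent.Golay

/-- The stabiliser of a dodecad and a point on it has order 7920 = 2^4·3^2·5·11. -/
theorem result (d : Finset Cfsg.GolayPt) (hd : d ∈ Cfsg.dodecads) (p : Cfsg.GolayPt) (hp : p ∈ d) : Nat.card ↥(MulAction.stabilizer Cfsg.M24 d ⊓ MulAction.stabilizer Cfsg.M24 p) = 7920 := by
  rw [card_eq_of_mem_iff (y := (d, p)) (fun g => by simp [Subgroup.smul_def]),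
    card_St_eq (dod_pt_trans squareDodecad_mem hd zero_mem_squareDodecad hp), ← M11_eq]
  exact card_M11

end Cfsg.Agent.S0387
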