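import Mathlib
import Cfsg.Statements.S0388
import Cfsg.Agent.Golay.Mathieu

set_option autoImplicit false
open scoped Pointwise
open Cfsg

namespace Cfsg.Agent.S0388

open Cfsg.Agent.Golay

/-- The stabiliser of a dodecad and a point on it is simple. -/
theorem result (d : Finset Cfsg.GolayPt) (hd : d ∈ Cfsg.dodecads) (p : Cfsg.GolayPt) (hp : p ∈ d) : IsSimpleGroup ↥(MulAction.stabilizer Cfsg.M24 d ⊓ MulAction.stabilizer Cfsg.M24 p) := by
  obtain ⟨e⟩ := equiv_St (dod_pt_trans squareDodecad_mem hd zero_mem_squareDodecad hp)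
    (K := MulAction.stabilizer M24 d ⊓ MulAction.stabilizer M24 p)
    (fun g => by simp [Subgroup.smul_def])
  rw [← M11_eq] at e
  have := simple_M11
  exact e.isSimpleGroup

end Cfsg.Agent.S0388
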