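import Mathlib
import Cfsg.Statements.S0403
import Cfsg.Agent.Leech.Simple

set_option autoImplicit false
open Cfsg

namespace Cfsg.Agent.S0403

/-- Stabiliser of a vector of sum of squares 48 is simple of order 495766656000. -/
theorem result (v : Cfsg.leechLattice) (hv : Cfsg.sqNorm (v : Cfsg.GolayPt → ℤ) = 48) : Cfsg.IsCo3 (MulAction.stabilizer Cfsg.Co0 v) := by
  refine ⟨?_, Leech.card_stab48 v hv⟩
  obtain ⟨g, rfl⟩ := Leech.exists_uu hv
  have := Leech.simple_co3
  exact (Leech.stabEquiv g Leech.uu).symm.isSimpleGroup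

end Cfsg.Agent.S0403
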