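import Mathlib
import Cfsg.Statements.S0407
import Cfsg.Agent.Golay.Canon

set_option autoImplicit false
open Cfsg

namespace Cfsg.Agent.S0407

open Cfsg.Agent.Golay

/-- Uniqueness of the Steiner system S(5, 8, 24) up to isomorphism. -/
theorem result {α β : Type*} [Fintype α] [DecidableEq α] [Fintype β] [DecidableEq β] (hα : Fintype.card α = 24) (hβ : Fintype.card β = 24) {B : Set (Finset α)} {B' : Set (Finset β)} (hB : Cfsg.IsSteinerSystem 5 8 B) (hB' : Cfsg.IsSteinerSystem 5 8 B') : Cfsg.SetSystemIso B B' := by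
  obtain ⟨f, h⟩ := canon24 hα hB
  obtain ⟨f', h'⟩ := canon24 hβ hB'
  exact h.iso h'

end Cfsg.Agent.S0407
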