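import Mathlib
import Cfsg.Statements.S0413
import Cfsg.Agent.Golay.CanonAut

set_option autoImplicit false
open Cfsg

namespace Cfsg.Agent.S0413

open Cfsg.Agent.Golay

/-- Aut of an S(4, 7, 23) is simple of order 10200960 and 4-transitive. -/
theorem result {α : Type*} [Fintype α] [DecidableEq α] (hα : Fintype.card α = 23) {B : Set (Finset α)} (hB : Cfsg.IsSteinerSystem 4 7 B) : Cfsg.IsM23 (Cfsg.setSystemAut B) ∧ MulAction.IsMultiplyPretransitive (Cfsg.setSystemAut B) α 4 := by
  obtain ⟨f, h⟩ := canon23 hα hB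
  obtain ⟨e, he⟩ := h.aut23
  have := simple_M23
  have h1 : ∀ x, x ∉ um 8388608 → x ∈ um 8388607 := by decide +kernel
  exact ⟨⟨e.symm.isSimpleGroup, (Nat.card_congr e.symm.toEquiv).trans card_M23⟩,
    h.trans_of he fun x y hx hy => exists_emb_of_chain in_gensM23 (chainM23.take 4)
      (mk_um (by norm_num)) (fun g hg _ ha => mem_of_smul_eq (smul_M23 g hg) ha) rfl (by decide)
      (by decide +kernel) x y (fun i => h1 _ (hx i).2) fun i => h1 _ (hy i).2⟩

end Cfsg.Agent.S0413
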