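import Cfsg.Statements.S0423
-- import your own Cfsg.Agent.* helpers here
import Cfsg.Agent.Comp.J2.Main

set_option autoImplicit false
open Cfsg

namespace Cfsg.Agent.S0423

/-- Existence of a simple group of order 604800. -/
theorem result : ∃ G : Subgroup (Equiv.Perm (Fin 100)), Cfsg.IsJ2 G := by
  have := Comp.J2.simple
  have e := Comp.finEquiv Comp.J2.rep.bd Comp.J2.card.2.2
  exact ⟨_, e.symm.isSimpleGroup, by rw [← Nat.card_congr e.toEquiv, Comp.J2.card.2.1]⟩

end Cfsg.Agent.S0423
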