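import Mathlib
import Cfsg.Statements.S0425
import Cfsg.Agent.Golay.CanonAut

set_option autoImplicit false
open Cfsg

namespace Cfsg.Agent.S0425

open Cfsg.Agent.Golay

/-- Aut of an S(5, 6, 12) is simple of order 95040 and sharply 5-transitive on points. -/
theorem result {α : Type*} [Fintype α] [DecidableEq α] (hα : Fintype.card α = 12) {B : Set (Finset α)} (hB : Cfsg.IsSteinerSystem 5 6 B) : Cfsg.IsM12 (Cfsg.setSystemAut B) ∧ MulAction.IsMultiplyPretransitive (Cfsg.setSystemAut B) α 5 ∧ ∀ x : Fin 5 ↪ α, MulAction.stabilizer (Cfsg.setSystemAut B) x = ⊥ := by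
  obtain ⟨f, h⟩ := canon12 hα hB
  obtain ⟨e, he⟩ := h.aut12
  have := simple_M12
  exact ⟨⟨e.symm.isSimpleGroup, (Nat.card_congr e.symm.toEquiv).trans card_M12⟩,
    h.trans_of he fun x y hx hy => M12_trans le_rfl x y (fun i => squareDodecad_eq ▸ (hx i).1)
      fun i => squareDodecad_eq ▸ (hy i).1,
    h.sharp_of he fun x hx g hg => eq_one_of_dod_five dod0_mem x.injective (fun i => (hx i).1) hg.1
      (smul_M12 g hg)⟩

end Cfsg.Agent.S0425
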