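import Mathlib
import Cfsg.Statements.S0426
import Cfsg.Agent.Golay.CanonAut

set_option autoImplicit false
open Cfsg

namespace Cfsg.Agent.S0426

open Cfsg.Agent.Golay

/-- Aut of an S(4, 5, 11) is simple of order 7920 and sharply 4-transitive on points. -/
theorem result {α : Type*} [Fintype α] [DecidableEq α] (hα : Fintype.card α = 11) {B : Set (Finset α)} (hB : Cfsg.IsSteinerSystem 4 5 B) : Cfsg.IsM11 (Cfsg.setSystemAut B) ∧ MulAction.IsMultiplyPretransitive (Cfsg.setSystemAut B) α 4 ∧ ∀ x : Fin 4 ↪ α, MulAction.stabilizer (Cfsg.setSystemAut B) x = ⊥ := by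
  obtain ⟨f, h⟩ := canon11 hα hB
  obtain ⟨e, he⟩ := h.aut11
  have := simple_M11
  have h1 : ∀ x, x ∈ um 340831 ∧ x ∉ um 1 → x ∈ um 340830 := by decide +kernel
  refine ⟨⟨e.symm.isSimpleGroup, (Nat.card_congr e.symm.toEquiv).trans card_M11⟩,
    h.trans_of he fun x y hx hy => exists_emb_of_chain in_gensM11 (chainM11.take 4)
      (mk_um (by norm_num)) (fun g hg _ ha => mem_of_smul_eq (smul_M11 g hg) ha) rfl (by decide)
      (by decide +kernel) x y (fun i => h1 _ (hx i)) fun i => h1 _ (hy i),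
    h.sharp_of he fun x hx g hg h2 => eq_one_of_fix_dod dod0_mem
      (s := insert (some 0) (Finset.univ.map x)) ?_ ?_ hg.1.1 (smul_M12 g hg.1) ?_⟩
  · exact Finset.insert_subset zero_mem_d0 fun a ha => by
      obtain ⟨i, -, rfl⟩ := Finset.mem_map.1 ha
      exact (hx i).1
  · rw [Finset.card_insert_of_notMem fun ha => ?_]
    · simp
    · obtain ⟨i, -, e⟩ := Finset.mem_map.1 ha
      exact (hx i).2 (by rw [e, um_one]; simp)
  · intro a ha
    rcases Finset.mem_insert.1 ha with rfl | ha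
    · exact hg.2
    · obtain ⟨i, -, rfl⟩ := Finset.mem_map.1 ha
      exact h2 i

end Cfsg.Agent.S0426
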