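import Mathlib
import Cfsg.Statements.S0427
import Cfsg.Agent.Golay.Srg22

set_option autoImplicit false
open Cfsg

namespace Cfsg.Agent.S0427

open Cfsg.Agent.Golay

/-- The block graph (adjacent = disjoint) of an S(3, 6, 22) is strongly regular with parameters (77, 16, 0, 4). -/
theorem result {α : Type*} [Fintype α] (hα : Fintype.card α = 22) {B : Set (Finset α)} (hB : Cfsg.IsSteinerSystem 3 6 B) [Fintype B] [DecidableRel (Cfsg.blockGraph B).Adj] : (Cfsg.blockGraph B).IsSRGWith 77 16 0 4 := by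
  classical
  have hA : ∀ b c : B, (Cfsg.blockGraph B).Adj b c ↔ Disjoint b.1 c.1 := fun b c =>
    (SimpleGraph.fromRel_adj _ _ _).trans (s22_disj_iff hB b c)
  have h2 : ∀ b c : B, b ≠ c → {u | (Cfsg.blockGraph B).Adj b u ∧ (Cfsg.blockGraph B).Adj c u}.ncard
      = 2 * (b.1 ∩ c.1).card := fun b c h => by
    rw [← s22_disj2 hα hB b.2 c.2 (Subtype.coe_ne_coe.2 h)]
    exact ncard_subtype_eq _ _ fun x => by simp only [Set.mem_ofPred_eq, hA]
  refine isSRG_of_ncard ?_ (fun b => ?_) (fun b c h => ?_) fun b c h h' => ?_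
  · rw [← Nat.card_eq_fintype_card, Nat.card_coe_set_eq, s22_card hα hB]
  · rw [← s22_disj hα hB b.2]
    exact ncard_subtype_eq _ _ fun x => by simp only [Set.mem_ofPred_eq, hA, and_self]
  · rw [h2 b c h.ne, Finset.disjoint_iff_inter_eq_empty.1 ((hA b c).1 h)]; rfl
  · rw [hA, Finset.disjoint_iff_inter_eq_empty, ← Finset.card_eq_zero] at h'
    rw [h2 b c h, (s22_inter hα hB b.2 c.2 (Subtype.coe_ne_coe.2 h)).resolve_left h']

end Cfsg.Agent.S0427
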