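import Mathlib
import Cfsg.Statements.S0428
import Cfsg.Agent.Golay.Srg22
import Cfsg.Agent.Eqns.E_Cfsg_pointBlockRel

set_option autoImplicit false
open Cfsg

namespace Cfsg.Agent.S0428

open Cfsg.Agent.Golay

/-- The point-block graph of an S(3, 6, 22) is strongly regular with parameters (100, 22, 0, 6). -/
theorem result {α : Type*} [Fintype α] (hα : Fintype.card α = 22) {B : Set (Finset α)} (hB : Cfsg.IsSteinerSystem 3 6 B) [Fintype B] [DecidableRel (Cfsg.pointBlockGraph B).Adj] : (Cfsg.pointBlockGraph B).IsSRGWith 100 22 0 6 := by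
  classical
  have a1 : ∀ a, (Cfsg.pointBlockGraph B).Adj none (some (Sum.inl a)) := by
    simp [pointBlockGraph, pointBlockRel]
  have a2 : ∀ a, ¬ (Cfsg.pointBlockGraph B).Adj none (some (Sum.inr a)) := by
    simp [pointBlockGraph, pointBlockRel]
  have a3 : ∀ a b, ¬ (Cfsg.pointBlockGraph B).Adj (some (Sum.inl a)) (some (Sum.inl b)) := by
    simp [pointBlockGraph, pointBlockRel]
  have a4 : ∀ a b, (Cfsg.pointBlockGraph B).Adj (some (Sum.inl a)) (some (Sum.inr b)) ↔ a ∈ b.1 := by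
    simp [pointBlockGraph, pointBlockRel]
  have a5 : ∀ b c, (Cfsg.pointBlockGraph B).Adj (some (Sum.inr b)) (some (Sum.inr c)) ↔
      Disjoint b.1 c.1 := fun b c => by
    rw [← s22_disj_iff hB]; simp [pointBlockGraph, pointBlockRel]
  have b1 := fun a => (a1 a).symm
  have b2 := fun a => mt (Cfsg.pointBlockGraph B).adj_symm (a2 a)
  have b4 := fun a b => ((Cfsg.pointBlockGraph B).adj_comm _ _).trans (a4 a b)
  have hB' := s22_card hα hB
  have c1 : ∀ a, {b : B | a ∈ b.1}.ncard = 21 := fun a =>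
    (ncard_subtype_eq _ ({a} ⊆ ·) (by simp)).trans
      (s22_through hα hB (by simp) (by rw [Finset.card_singleton]; decide))
  have c2 : ∀ a a', a ≠ a' → {b : B | a ∈ b.1 ∧ a' ∈ b.1}.ncard = 5 := fun a a' h =>
    (ncard_subtype_eq _ ({a, a'} ⊆ ·) (by simp [Finset.insert_subset_iff])).trans
      (s22_through hα hB (by rw [Finset.card_pair h]; norm_num) (by rw [Finset.card_pair h]; decide))
  have c3 : ∀ b : B, {c : B | Disjoint b.1 c.1}.ncard = 16 := fun b =>
    (ncard_subtype_eq _ (Disjoint b.1 ·) (by simp)).trans (s22_disj hα hB b.2)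
  have c4 : ∀ a, ∀ b : B, a ∉ b.1 → {c : B | a ∈ c.1 ∧ Disjoint b.1 c.1}.ncard = 6 := fun a b h =>
    (ncard_subtype_eq _ (fun c => a ∈ c ∧ Disjoint b.1 c) (by simp)).trans (s22_pt_disj hα hB b.2 h)
  have c5 : ∀ a, ∀ b : B, a ∈ b.1 → {c : B | a ∈ c.1 ∧ Disjoint b.1 c.1}.ncard = 0 := fun a b h => by
    rw [Set.ncard_eq_zero, Set.eq_empty_iff_forall_notMem]
    exact fun c hc => Finset.disjoint_left.1 hc.2 h hc.1
  have c6 : ∀ b c : B, b ≠ c → {x : B | Disjoint b.1 x.1 ∧ Disjoint c.1 x.1}.ncard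
      = 2 * (b.1 ∩ c.1).card := fun b c h =>
    (ncard_subtype_eq _ (fun x => Disjoint b.1 x ∧ Disjoint c.1 x) (by simp)).trans
      (s22_disj2 hα hB b.2 c.2 (Subtype.coe_ne_coe.2 h))
  have c7 : ∀ b c : Finset α, {a | a ∈ b ∧ a ∈ c}.ncard = (b ∩ c).card := fun b c => by
    rw [← Set.ncard_coe_finset]; congr 1; ext; simp
  have c8 : ∀ b : B, {a | a ∈ b.1}.ncard = 6 := fun b => (Set.ncard_coe_finset _).trans (hB.1 b b.2)
  refine isSRG_of_ncard ?_ ?_ ?_ ?_
  · rw [Fintype.card_option, Fintype.card_sum, hα, ← Nat.card_eq_fintype_card, Nat.card_coe_set_eq, hB']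
  · rintro (_ | a | b) <;> rw [ncard_opt] <;>
      simp only [Set.mem_ofPred_eq, a1, a2, a3, a4, a5, b1, b2, b4, SimpleGraph.irrefl, and_self]
    · simp [hα]
    · simp [c1]
    · rw [c3, c8]; simp
  · rintro (_ | a | b) (_ | a' | b') h <;> rw [ncard_opt] <;>
      simp only [Set.mem_ofPred_eq, a1, a2, a3, a4, a5, b1, b2, b4, SimpleGraph.irrefl, and_self,
        false_and, and_false, Set.ofPred_false, Set.ncard_empty] at h ⊢
    · rw [c5 _ _ h]
    · simpa only [and_comm, zero_add] using c5 _ _ h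
    · rw [c6 _ _ ((s22_disj_iff hB _ _).2 h).1, c7, Finset.disjoint_iff_inter_eq_empty.1 h]; rfl
  · rintro (_ | a | b) (_ | a' | b') h' h <;> rw [ncard_opt] <;>
      simp only [Set.mem_ofPred_eq, a1, a2, a3, a4, a5, b1, b2, b4, SimpleGraph.irrefl, and_self,
        false_and, and_false, Set.ofPred_false, Set.ncard_empty, true_and, and_true, not_true,
        ne_eq] at h h' ⊢
    · rw [c8]
    · rw [c2 _ _ (by simpa using h')]; simp
    · rw [c4 _ _ h]
    · rw [c8]
    · simpa only [and_comm, zero_add] using c4 _ _ h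
    · have h1 : b ≠ b' := by simpa using h'
      rw [Finset.disjoint_iff_inter_eq_empty, ← Finset.card_eq_zero] at h
      rw [c6 _ _ h1, c7, (s22_inter hα hB b.2 b'.2 (Subtype.coe_ne_coe.2 h1)).resolve_left h]

end Cfsg.Agent.S0428
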