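import Cfsg.Statements.S0439
import Mathlib
import Cfsg.Agent.Fischer.Basic

set_option autoImplicit false
open Cfsg

namespace Cfsg.Agent.S0439

open Fischer Equiv Equiv.Perm

theorem swap_mul_swap_pow {α : Type*} [DecidableEq α] [Fintype α] {a b c d : α} (hab : a ≠ b)
    (hcd : c ≠ d) :
    (swap a b * swap c d) ^ 2 = 1 ∨ (swap a b * swap c d) ^ 3 = 1 := by
  have three : ∀ x y z : α, x ≠ y → x ≠ z → y ≠ z → (swap x y * swap x z) ^ 3 = 1 := by
    intro x y z h1 h2 h3
    have := (isThreeCycle_swap_mul_swap_same h1 h2 h3).orderOf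
    rw [← this]; exact pow_orderOf_eq_one _
  have same : ∀ x y : α, (swap x y * swap x y) ^ 2 = 1 := by
    intro x y; simp
  by_cases hac : a = c
  · subst hac
    by_cases hbd : b = d
    · subst hbd; exact Or.inl (same _ _)
    · exact Or.inr (three _ _ _ hab hcd hbd)
  by_cases had : a = d
  · subst had
    by_cases hbc : b = c
    · subst hbc; rw [swap_comm b a]; exact Or.inl (same _ _)
    · rw [swap_comm c a]; exact Or.inr (three _ _ _ hab hac hbc)
  by_cases hbc : b = c
  · subst hbc
    rw [swap_comm a b]; exact Or.inr (three _ _ _ hab.symm hcd had)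
  by_cases hbd : b = d
  · subst hbd
    rw [swap_comm a b, swap_comm c b]; exact Or.inr (three _ _ _ hab.symm hbc hac)
  left
  apply sq_of_commute (swap_mul_self _ _) (swap_mul_self _ _)
  apply Equiv.Perm.Disjoint.commute
  apply disjoint_swap_swap
  simp [hab, hac, had, hbc, hbd, hcd]

theorem swaps_tt {α : Type*} [DecidableEq α] [Fintype α] :
    IsThreeTranspositionSet {σ : Perm α | σ.IsSwap} := by
  refine ⟨fun d hd => ?_, fun d hd e he => ?_⟩
  · obtain ⟨x, y, hxy, rfl⟩ := hd
    exact orderOf_two_of (swap_mul_self _ _) (by simpa using hxy)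
  · obtain ⟨x, y, hxy, rfl⟩ := hd
    obtain ⟨z, w, hzw, rfl⟩ := he
    exact swap_mul_swap_pow hxy hzw

/-- In the symmetric group of degree n ≥ 2, the set of transpositions is a conjugacy class of 3-transpositions which generates the group. -/
theorem result (n : ℕ) (hn : 2 ≤ n) : Cfsg.IsThreeTranspositionClass {σ : Equiv.Perm (Fin n) | σ.IsSwap} := by
  refine class_of_group ⟨swaps_tt, ?_, closure_isSwap⟩ ?_ ?_
  · rintro g d ⟨x, y, hxy, rfl⟩
    exact ⟨g x, g y, fun h => hxy (g.injective h), (swap_apply_apply g x y).symm⟩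
  · exact ⟨swap ⟨0, by omega⟩ ⟨1, by omega⟩, _, _, by simp, rfl⟩
  · rintro a ⟨x, y, hxy, rfl⟩ b ⟨z, w, hzw, rfl⟩
    exact isConj_iff.1 (isConj_swap hxy hzw)

end Cfsg.Agent.S0439
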