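import Cfsg.Statements.S0440
import Mathlib
import Cfsg.Agent.Fischer.Trans2

set_option autoImplicit false
open Cfsg

namespace Cfsg.Agent.S0440

open Fischer

/-- In the symplectic group in dimension 2n ≥ 2 over the field with two elements, the elements g for which g - 1 has rank one (the symplectic transvections) form a conjugacy class of 3-transpositions generating the group. -/
theorem result (n : ℕ) (hn : 1 ≤ n) : Cfsg.IsThreeTranspositionClass {g : Matrix.symplecticGroup (Fin n) (ZMod 2) | ((g : Matrix (Fin n ⊕ Fin n) (Fin n ⊕ Fin n) (ZMod 2)) - 1).rank = 1} := by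
  have : Nonempty (Fin n) := ⟨⟨0, hn⟩⟩
  have := class_of_equiv (Classical.SpMat.spEquiv (Fin n) (ZMod 2))
    (Trans2.sp_class Classical.SpMat.sB_nondeg Classical.SpMat.sB_alt)
  convert this using 1
  ext g
  rw [Set.mem_setOf_eq, Trans2.rank_sub_one_iff, Set.mem_preimage, Set.mem_setOf_eq,
    ← Trans2.sp_rank_iff Classical.SpMat.sB_nondeg Classical.SpMat.sB_alt]
  simp only [Classical.SpMat.spEquiv_apply]

end Cfsg.Agent.S0440
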