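import Mathlib
import Cfsg.Statements.S0442
import Cfsg.Agent.Inv.Isolated

set_option autoImplicit false
open Cfsg

namespace Cfsg.Agent.S0442

/-- A standard trick for producing elements of an involution centraliser: for an involution a and an element g, let b be the conjugate g⁻¹ * a * g. If a * b has odd order 2m + 1 then g * (a * b) ^ m commutes with a; if a * b has even order 2m then (a * b) ^ m and (a * (g * a * g⁻¹)) ^ m commute with a. -/
theorem result {G : Type*} [Group G] (a g : G) (ha : orderOf a = 2) : (∀ m : ℕ, orderOf (a * (g⁻¹ * a * g)) = 2 * m + 1 → Commute (g * (a * (g⁻¹ * a * g)) ^ m) a) ∧ (∀ m : ℕ, orderOf (a * (g⁻¹ * a * g)) = 2 * m → Commute ((a * (g⁻¹ * a * g)) ^ m) a ∧ Commute ((a * (g * a * g⁻¹)) ^ m) a) := by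
  have ha2 := Inv.mul_self_of_two ha
  have hb2 : (g⁻¹ * a * g) * (g⁻¹ * a * g) = 1 := by
    apply Inv.mul_self_of_two; rw [Inv.orderOf_conj', ha]
  have hb2' : (g * a * g⁻¹) * (g * a * g⁻¹) = 1 := Inv.mul_self_of_two (Inv.two_conj ha g)
  have hi := Inv.inverts_mul_left ha2 hb2
  constructor
  · intro m hm
    rw [Inv.commute_iff_conj]
    set c := a * (g⁻¹ * a * g) with hc
    have h1 : c ^ m * a * (c ^ m)⁻¹ = g⁻¹ * a * g := by
      rw [← zpow_natCast, Inv.zpow_conj_of_inverts hi]
      have h2 : c ^ (2 * (m : ℤ)) = c⁻¹ := by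
        rw [eq_inv_iff_mul_eq_one, ← zpow_add_one]
        have := pow_orderOf_eq_one c
        rw [hm, ← zpow_natCast] at this
        exact_mod_cast this
      rw [h2, hc, mul_inv_rev, Inv.inv_eq_of_two ha, mul_assoc, ha2, mul_one,
        inv_eq_of_mul_eq_one_right hb2]
    calc g * c ^ m * a * (g * c ^ m)⁻¹ = g * (c ^ m * a * (c ^ m)⁻¹) * g⁻¹ := by group
      _ = a := by rw [h1]; group
  · intro m hm
    constructor
    · refine Inv.commute_of_inverts_of_mul_self (Inv.conj_pow_of_inverts hi m) ?_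
      rw [← pow_add, ← two_mul, ← hm, pow_orderOf_eq_one]
    · refine Inv.commute_of_inverts_of_mul_self
        (Inv.conj_pow_of_inverts (Inv.inverts_mul_left ha2 hb2') m) ?_
      have : orderOf (a * (g * a * g⁻¹)) = 2 * m := by
        rw [← hm, ← orderOf_inv (a * (g⁻¹ * a * g)), ← Inv.orderOf_conj g (a * (g⁻¹ * a * g))⁻¹]
        congr 1
        rw [mul_inv_rev, Inv.inv_eq_of_two ha, inv_eq_of_mul_eq_one_right hb2]; group
      rw [← pow_add, ← two_mul, ← this, pow_orderOf_eq_one]

end Cfsg.Agent.S0442
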