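import Mathlib
import Cfsg.Statements.S0443
import Cfsg.Agent.Inv.Isolated

set_option autoImplicit false
open Cfsg

namespace Cfsg.Agent.S0443

/-- Two definitions of a 2-central involution agree: an element t of order 2 of a finite group lies in the centre of some Sylow 2-subgroup if and only if its centraliser contains some Sylow 2-subgroup. -/
theorem result {G : Type*} [Group G] [Finite G] (t : G) (ht : orderOf t = 2) : Cfsg.IsTwoCentralInvolution t ↔ ∃ P : Sylow 2 G, (P : Subgroup G) ≤ Subgroup.centralizer ({t} : Set G) := by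
  constructor
  · rintro ⟨-, P, -, h⟩
    exact ⟨P, fun x hx => Inv.mem_centralizer_single.2 (h x hx)⟩
  · rintro ⟨P, hP⟩
    refine ⟨ht, P, ?_, fun x hx => Inv.mem_centralizer_single.1 (hP hx)⟩
    have h1 : IsPGroup 2 ((P : Subgroup G) ⊔ Subgroup.zpowers t : Subgroup G) := by
      refine Inv.isPGroup_sup_of_commute P.2
        (Inv.isPGroup_zpowers_of_mul_self (Inv.mul_self_of_two ht)) ?_
      rintro a ha _ ⟨k, rfl⟩
      exact (Inv.mem_centralizer_single.1 (hP ha)).zpow_right k
    have h2 := P.is_maximal' h1 le_sup_left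
    have : t ∈ (P : Subgroup G) := h2 ▸ Subgroup.mem_sup_right (Subgroup.mem_zpowers t)
    exact this

end Cfsg.Agent.S0443
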