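import Mathlib
import Cfsg.Statements.S0445
import Cfsg.Agent.S5424
import Cfsg.Agent.Classical.SLBasic

set_option autoImplicit false
open Cfsg

namespace Cfsg.Agent.S0445

open Subgroup

/-- In the special linear group of dimension 5 over the field with two elements, the centraliser of a transvection has order 21504 = 2 ^ 7 · 168 (it is an extension of an extraspecial group of order 2 ^ 7 by the simple group of order 168). -/
theorem result (s : Matrix.SpecialLinearGroup (Fin 5) (ZMod 2)) (hs : (s : Matrix (Fin 5) (Fin 5) (ZMod 2)) = Matrix.transvection 0 1 1) : Nat.card (Subgroup.centralizer ({s} : Set (Matrix.SpecialLinearGroup (Fin 5) (ZMod 2)))) = 21504 := by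
  obtain ⟨-, h1, -, -, K, h2, h3, h4, ⟨e⟩⟩ := S5424.result 3 (by norm_num) s hs _ rfl
  have h5 := Core.card_sup_mul_card_inf (h2.trans (LocalEven.le_normalizer_map_subtype (pCore 2 _)))
  have h6 := Classical.SLBasic.card_SL (F := ZMod 2) 3 (by norm_num)
  rw [h4, h3, h1, Nat.card_congr e.toEquiv] at h5
  simp only [Nat.card_zmod, Fin.prod_univ_three] at h6
  simp only [card_bot] at h5
  norm_num at h6
  rw [← Nat.card_eq_fintype_card] at h6
  rw [h6, mul_one] at h5
  exact h5

end Cfsg.Agent.S0445
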