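import Mathlib
import Cfsg.Statements.S0446
import Cfsg.Agent.Inv.Isolated
import Cfsg.Agent.LocalEven.SylowIn

set_option autoImplicit false
open Cfsg

namespace Cfsg.Agent.S0446

/-- Every finite group of even order contains a 2-central involution, i.e. an element of order 2 in the centre of some Sylow 2-subgroup. -/
theorem result {G : Type*} [Group G] [Finite G] (h : Even (Nat.card G)) : ∃ t : G, Cfsg.IsTwoCentralInvolution t := by
  have : Fact (Nat.Prime 2) := ⟨Nat.prime_two⟩
  obtain ⟨T⟩ : Nonempty (Sylow 2 G) := inferInstance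
  obtain ⟨z, hzT, hzc, hz⟩ := LocalEven.exists_mem_inf_centralizer T.2 T.2 Subgroup.le_normalizer
    (T.ne_bot_of_dvd_card h.two_dvd)
  exact ⟨z, hz, T, hzT, hzc⟩

end Cfsg.Agent.S0446
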