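import Cfsg.Statements.S0458
-- import your own Cfsg.Agent.* helpers here
import Cfsg.Agent.Comp.J3.Main

set_option autoImplicit false
open Cfsg

namespace Cfsg.Agent.S0458

/-- Janko's third group exists as a transitive permutation group of degree 6156 with point stabiliser of order 8160: a simple group of order 50232960. -/
theorem result : ∃ H : Subgroup (Equiv.Perm (Fin 6156)), Cfsg.IsJ3 H ∧ MulAction.IsPretransitive H (Fin 6156) ∧ Nat.card (MulAction.stabilizer H (0 : Fin 6156)) = 8160 := by
  have := Comp.J3.simple
  have e := Comp.finEquiv Comp.J3.rep.bd Comp.J3.card.2.2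
  have ht := Comp.finRep_trans Comp.J3.rep.bd Comp.J3.trans
  have hc := (Nat.card_congr e.toEquiv).symm.trans Comp.J3.card.2.1
  exact ⟨_, ⟨e.symm.isSimpleGroup, hc⟩, ht, Comp.card_stabilizer_fin 0 hc⟩

end Cfsg.Agent.S0458
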