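import Cfsg.Statements.S0459
-- import your own Cfsg.Agent.* helpers here
import Cfsg.Agent.Comp.Ru.Main
import Cfsg.Agent.Comp.F42.Tits

set_option autoImplicit false
open Cfsg

namespace Cfsg.Agent.S0459

/-- The Rudvalis group exists as a transitive permutation group of degree 4060: simple of order 145926144000, with point stabiliser of order 35942400 containing a simple subgroup of order 17971200 (the order of the Tits group). -/
theorem result : ∃ H : Subgroup (Equiv.Perm (Fin 4060)), Cfsg.IsRu H ∧ MulAction.IsPretransitive H (Fin 4060) ∧ Nat.card (MulAction.stabilizer H (0 : Fin 4060)) = 35942400 ∧ ∃ T : Subgroup (MulAction.stabilizer H (0 : Fin 4060)), Cfsg.IsTits T := by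
  have := Comp.Ru.simple
  have e := Comp.finEquiv Comp.Ru.rep.bd Comp.Ru.card.2.2
  have ht := Comp.finRep_trans Comp.Ru.rep.bd Comp.Ru.trans
  have hc := (Nat.card_congr e.toEquiv).symm.trans Comp.Ru.card.2.1
  have e1 := Comp.finStabEquiv Comp.Ru.rep.bd Comp.Ru.card.2.2 (0 : Fin 4060) Comp.Ru.stab.2
  have hs := Comp.card_stabilizer_fin (m := 35942400) 0 hc
  have := Comp.F42.card.1
  obtain ⟨e2, -⟩ := Comp.F42.pres.equiv_gen Comp.F42.hR Comp.Ru.s
    (Comp.Ru.pres.sat.mono (by decide +kernel)) (by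
      rw [Comp.F42.card.2.1, ← hs, ← Nat.card_congr e1.toEquiv]; exact le_rfl)
  have e3 := (e2.trans e1).subgroupMap Comp.F42.eps.ker
  have := Comp.F42.simpleK
  exact ⟨_, ⟨e.symm.isSimpleGroup, hc⟩, ht, hs, _, e3.symm.isSimpleGroup,
    (Nat.card_congr e3.toEquiv).symm.trans Comp.F42.cardK⟩

end Cfsg.Agent.S0459
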