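import Cfsg.Statements.S0460
import Cfsg.Agent.Comp.ON.Sub

set_option autoImplicit false
open Cfsg

namespace Cfsg.Agent.S0460

/-- The O'Nan group exists as a transitive permutation group of degree 122760: simple of order 460815505920, point stabiliser of order 3753792, and containing simple subgroups of orders 175560 and 7920. -/
theorem result : ∃ H : Subgroup (Equiv.Perm (Fin 122760)), Cfsg.IsON H ∧ MulAction.IsPretransitive H (Fin 122760) ∧ Nat.card (MulAction.stabilizer H (0 : Fin 122760)) = 3753792 ∧ (∃ K : Subgroup H, Cfsg.IsJ1 K) ∧ (∃ K : Subgroup H, Cfsg.IsM11 K) := by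
  have := Comp.ON.simple
  have e := Comp.finEquiv Comp.ON.rep.bd Comp.ON.card.2.2
  have ht := Comp.finRep_trans Comp.ON.rep.bd Comp.ON.trans
  have hc := (Nat.card_congr e.toEquiv).symm.trans Comp.ON.card.2.1
  obtain ⟨e1⟩ := Comp.ON.isoJ
  obtain ⟨e2⟩ := Comp.ON.isoM
  have e3 := e1.trans (e.subgroupMap _)
  have e4 := e2.trans (e.subgroupMap _)
  have := Comp.J1.simple
  have := Comp.M11.simple
  exact ⟨_, ⟨e.symm.isSimpleGroup, hc⟩, ht, Comp.card_stabilizer_fin 0 hc,
    ⟨_, e3.symm.isSimpleGroup, (Nat.card_congr e3.toEquiv).symm.trans Comp.J1.card.2.1⟩,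
    ⟨_, e4.symm.isSimpleGroup, (Nat.card_congr e4.toEquiv).symm.trans Comp.M11.card.2.1⟩⟩

end Cfsg.Agent.S0460
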