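import Cfsg.Statements.S0462
import Cfsg.Agent.Comp.He.S44
import Cfsg.Agent.Comp.S44.Iso

set_option autoImplicit false
open Cfsg

namespace Cfsg.Agent.S0462

/-- The Held group exists as a transitive permutation group of degree 2058: simple of order 4030387200, with point stabiliser containing, with index 2, a copy of the 4-dimensional symplectic group over the field with four elements. -/
theorem result : ∃ H : Subgroup (Equiv.Perm (Fin 2058)), Cfsg.IsHe H ∧ MulAction.IsPretransitive H (Fin 2058) ∧ ∃ (F : Type) (_ : Field F) (_ : Fintype F), Fintype.card F = 4 ∧ ∃ N : Subgroup (MulAction.stabilizer H (0 : Fin 2058)), N.index = 2 ∧ Nonempty (N ≃* Matrix.symplecticGroup (Fin 2) F) := by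
  have := Comp.He.simple
  have e := Comp.finEquiv Comp.He.rep.bd Comp.He.card.2.2
  have ht := Comp.finRep_trans Comp.He.rep.bd Comp.He.trans
  have hc := (Nat.card_congr e.toEquiv).symm.trans Comp.He.card.2.1
  have e1 := Comp.finStabEquiv Comp.He.rep.bd Comp.He.card.2.2 (0 : Fin 2058) Comp.He.stab.2
  obtain ⟨K, -, h2, ⟨e3⟩⟩ := Comp.He.halfS44
  obtain ⟨e2⟩ := Comp.S44.iso
  exact ⟨_, ⟨e.symm.isSimpleGroup, hc⟩, ht, Comp.K4, inferInstance, inferInstance, Comp.card_K4,
    K.map e1.toMonoidHom, (Subgroup.index_map_equiv K e1).trans h2,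
    ⟨(e1.subgroupMap K).symm.trans (e3.trans e2)⟩⟩

end Cfsg.Agent.S0462
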