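import Cfsg.Statements.S0463
-- import your own Cfsg.Agent.* helpers here
import Cfsg.Agent.DCE.HN.A12

set_option autoImplicit false
open Cfsg

namespace Cfsg.Agent.S0463

/-- The Harada–Norton group exists as a transitive permutation group of degree 1140000: simple of order 273030912000000 with point stabiliser isomorphic to the alternating group of degree 12. -/
theorem result : ∃ H : Subgroup (Equiv.Perm (Fin 1140000)), Cfsg.IsHN H ∧ MulAction.IsPretransitive H (Fin 1140000) ∧ Nonempty (MulAction.stabilizer H (0 : Fin 1140000) ≃* alternatingGroup (Fin 12)) := by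
  have := DCE.HN.simple
  obtain ⟨ψ, hψ⟩ := DCE.HN.exists_A12
  have e0 := MonoidHom.ofInjective hψ
  have hc : Nat.card ψ.range = 239500800 := by
    have h1 := two_mul_nat_card_alternatingGroup (α := Fin 12)
    rw [Nat.card_perm, Nat.card_fin, Nat.card_congr e0.toEquiv] at h1
    exact Nat.eq_of_mul_eq_mul_left two_pos (h1.trans (by decide +kernel))
  obtain ⟨P, ⟨e⟩, ht, ⟨e1⟩⟩ := DCE.HN.exists_perm ψ.range (n := 1140000)
    (Comp.index_eq_of_card (DCE.HN.card.trans (by norm_num)) hc (by norm_num)) (by norm_num)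
  exact ⟨P, ⟨e.symm.isSimpleGroup, (Nat.card_congr e.toEquiv).symm.trans DCE.HN.card⟩, ht,
    ⟨e1.trans e0.symm⟩⟩

end Cfsg.Agent.S0463
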