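import Cfsg.Statements.S0464
-- import your own Cfsg.Agent.* helpers here
import Cfsg.Agent.DCE.Th.Main

set_option autoImplicit false
open Cfsg

namespace Cfsg.Agent.S0464

/-- The Thompson group exists as a group of 248 × 248 matrices over the field with three elements: a simple subgroup of GL(248, 3) of order 90745943887872000, possessing a subgroup of index 143127000 which contains a simple subgroup of the order of a triality-twisted D4 group. -/
theorem result : ∃ H : Subgroup (GL (Fin 248) (ZMod 3)), Cfsg.IsTh H ∧ ∃ K : Subgroup H, K.index = 143127000 ∧ ∃ L : Subgroup H, L ≤ K ∧ Cfsg.Is3D4 L := by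
  have key : ∀ (X : Type) [Group X], DCE.Th.G ≃* X → Cfsg.IsTh X ∧ ∃ K : Subgroup X,
      K.index = 143127000 ∧ ∃ L : Subgroup X, L ≤ K ∧ Cfsg.Is3D4 L := fun X _ e => by
    have := DCE.Th.simple
    have := DCE.Th.ker_simple
    have e2 := (DCE.Th.eps.ker.equivMapOfInjective _ DCE.Th.io_inj).trans
      ((DCE.Th.eps.ker.map DCE.Th.io).equivMapOfInjective e.toMonoidHom e.injective)
    refine ⟨⟨e.symm.isSimpleGroup, (Nat.card_congr e.toEquiv).symm.trans DCE.Th.card⟩,
      DCE.Th.io.range.map e.toMonoidHom, (Subgroup.index_map_equiv _ e).trans DCE.Th.index,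
      (DCE.Th.eps.ker.map DCE.Th.io).map e.toMonoidHom,
      Subgroup.map_mono (Subgroup.map_le_range _ _), e2.symm.isSimpleGroup, 2,
      Nat.prime_two.isPrimePow, ?_⟩
    rw [← Nat.card_congr e2.toEquiv, DCE.Th.ker_card]; norm_num
  exact ⟨DCE.Th.rho.range, key _ (MonoidHom.ofInjective DCE.Th.rho_inj)⟩

end Cfsg.Agent.S0464
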