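import Cfsg.Statements.S0471
import Mathlib
import Cfsg.Agent.Fischer.NS

set_option autoImplicit false
open Cfsg

namespace Cfsg.Agent.S0471

open Fischer

/-- The Fischer group of order 64561751654400 exists as a 3-transposition group: a simple group of that order generated by a conjugacy class of 3510 3-transpositions, the centraliser of each being a non-split double cover of PSU(6, 2). -/
theorem result : ∃ (G : Type) (_ : Group G) (_ : Finite G), Cfsg.IsFi22 G ∧ ∃ D : Set G, Cfsg.IsThreeTranspositionClass D ∧ Nat.card D = 3510 ∧ ∀ d ∈ D, ∃ (F : Type) (_ : Field F) (_ : Fintype F), Fintype.card F = 4 ∧ Cfsg.IsNonsplitDoubleCover (Subgroup.centralizer ({d} : Set G)) (Cfsg.PSU 6 F 2) := by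
  refine ⟨Cfsg.Spor.Fi22, inferInstance, Comp.Fi22.card.1, ⟨Comp.Fi22.simple, Comp.Fi22.card.2.1⟩,
    F22.D, F22.pm.ttc, F22.pm.ncard, fun d hd => ?_⟩
  haveI : Fact (Nat.Prime 2) := ⟨Nat.prime_two⟩
  letI := Fintype.ofFinite (GaloisField 2 2)
  have hF : Fintype.card (GaloisField 2 2) = 4 := by
    rw [← Nat.card_eq_fintype_card, GaloisField.card 2 2 (by norm_num)]; rfl
  exact ⟨GaloisField 2 2, inferInstance, inferInstance, hF, F22.nonsplit _ hF hd⟩

end Cfsg.Agent.S0471
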