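import Cfsg.Statements.S0475
-- import your own Cfsg.Agent.* helpers here
import Cfsg.Agent.DCE.Th.CQ

set_option autoImplicit false
open Cfsg

namespace Cfsg.Agent.S0475

/-- In some simple group of the Thompson group's order there is an involution whose centraliser C has a normal extraspecial subgroup Q of order 2 ^ 9 such that C / Q is isomorphic to the alternating group of degree 9. -/
theorem result : ∃ (G : Type) (_ : Group G) (_ : Finite G), Cfsg.IsTh G ∧ ∃ z : G, orderOf z = 2 ∧ ∃ (Q : Subgroup (Subgroup.centralizer ({z} : Set G))) (_ : Q.Normal), Nat.card Q = 2 ^ 9 ∧ Cfsg.IsExtraspecial 2 Q ∧ Nonempty ((Subgroup.centralizer ({z} : Set G)) ⧸ Q ≃* alternatingGroup (Fin 9)) := by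
  open DCE.Th in
  obtain ⟨h1, h2, -, h3, e, -⟩ := cxT
  obtain ⟨h4, h5⟩ := H3x.es_sub h1 QG_le
  exact ⟨G, inferInstance, inferInstance, ⟨simple, card⟩, sq 0, h1.orderOf, _, h3, h5.trans h2, h4,
    ⟨e.symm.trans isoU.choose⟩⟩

end Cfsg.Agent.S0475
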