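import Cfsg.Statements.S0477
import Cfsg.Agent.Comp.Ly.CM

set_option autoImplicit false
open Cfsg

namespace Cfsg.Agent.S0477

/-- In some simple group of the Lyons group's order there is an element of order 3 whose centraliser has centre of order 3 with quotient by the centre simple of order 898128000 (a triple cover of a group of McLaughlin's order). -/
theorem result : ∃ (G : Type) (_ : Group G) (_ : Finite G), Cfsg.IsLy G ∧ ∃ x : G, orderOf x = 3 ∧ Nat.card (Subgroup.center (Subgroup.centralizer ({x} : Set G))) = 3 ∧ Cfsg.IsMcL ((Subgroup.centralizer ({x} : Set G)) ⧸ Subgroup.center (Subgroup.centralizer ({x} : Set G))) := by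
  have := Cfsg.Agent.SchurG.McL.simple
  have : Fact (Nat.Prime 3) := ⟨by norm_num⟩
  obtain ⟨-, h, -, ⟨e⟩⟩ := Comp.Ly.CMcen
  exact ⟨Spor.Ly, inferInstance, inferInstance, ⟨Comp.Ly.simple, Comp.Ly.card⟩, Comp.Ly.CMu 12,
    orderOf_eq_prime Comp.Ly.CMp Comp.Ly.CMne, h, e.symm.isSimpleGroup,
    (Nat.card_congr e.toEquiv).symm.trans Cfsg.Agent.SchurG.McL.card.2.1⟩


end Cfsg.Agent.S0477
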