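import Mathlib
import Cfsg.Statements.S0481
import Cfsg.Agent.Inv.Isolated
import Cfsg.Agent.LocalEven.SylowIn

set_option autoImplicit false
open Cfsg

namespace Cfsg.Agent.S0481

/-- Large extraspecial subgroups: let z be an involution of a finite group G whose centraliser C contains a normal 2-subgroup Q with centre of order 2 and all squares central, such that every element of G centralising Q lies in Q. Then C contains a Sylow 2-subgroup of G, and any involution of G whose centraliser contains a Sylow 2-subgroup of G is conjugate to z. -/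
theorem result {G : Type*} [Group G] [Finite G] (z : G) (hz : orderOf z = 2) (Q : Subgroup G) (hQC : Q ≤ Subgroup.centralizer ({z} : Set G)) (hQn : ∀ g ∈ Subgroup.centralizer ({z} : Set G), ∀ q ∈ Q, g * q * g⁻¹ ∈ Q) (hQ2 : IsPGroup 2 Q) (hZ : Nat.card (Subgroup.center Q) = 2) (hsq : ∀ x : Q, x ^ 2 ∈ Subgroup.center Q) (hlarge : Subgroup.centralizer (Q : Set G) ≤ Q) : (∃ P : Sylow 2 G, (P : Subgroup G) ≤ Subgroup.centralizer ({z} : Set G)) ∧ ∀ u : G, orderOf u = 2 → (∃ P : Sylow 2 G, (P : Subgroup G) ≤ Subgroup.centralizer ({u} : Set G)) → IsConj z u := by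
  have : Fact (Nat.Prime 2) := ⟨Nat.prime_two⟩
  have huniq : ∀ a b : G, orderOf a = 2 → orderOf b = 2 → a ∈ Subgroup.centralizer (Q : Set G) →
      b ∈ Subgroup.centralizer (Q : Set G) → a = b := by
    intro a b ha hb haQ hbQ
    obtain ⟨c, -, hc⟩ := (Nat.card_eq_two_iff' (1 : Subgroup.center Q)).1 hZ
    have key : ∀ a : G, orderOf a = 2 → a ∈ Subgroup.centralizer (Q : Set G) → a = c := by
      intro a ha haQ
      have := hc ⟨⟨a, hlarge haQ⟩, Subgroup.mem_center_iff.2 fun q => Subtype.ext (haQ q q.2)⟩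
        (fun h => Inv.ne_one_of_two ha (congrArg (fun y : Subgroup.center Q => ((y : Q) : G)) h))
      rw [← this]
    rw [key a ha haQ, key b hb hbQ]
  have hzQ : z ∈ Subgroup.centralizer (Q : Set G) := fun q hq =>
    Inv.mem_centralizer_single.1 (hQC hq)
  obtain ⟨T, hT⟩ := hQ2.exists_le_sylow
  obtain ⟨w, hwT, hwc, hw⟩ := LocalEven.exists_mem_inf_centralizer T.2 T.2 Subgroup.le_normalizer
    (fun h => Inv.ne_one_of_two hz (by have := hT (hlarge hzQ); rwa [h, Subgroup.mem_bot] at this))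
  have hwz : w = z := huniq w z hw hz (Subgroup.centralizer_le hT hwc) hzQ
  refine ⟨⟨T, fun t ht => Inv.mem_centralizer_single.2 (hwz ▸ hwc t ht)⟩, ?_⟩
  rintro u hu ⟨P, hP⟩
  obtain ⟨g, hg⟩ := MulAction.exists_smul_eq G P T
  have : g * u * g⁻¹ = z := by
    refine huniq _ z (Inv.two_conj hu g) hz (fun q hq => ?_) hzQ
    have h1 : q ∈ g • P := hg ▸ hT hq
    have h2 := Inv.mem_centralizer_single.1 (hP (Inv.mem_sylow_smul.1 h1))
    calc q * (g * u * g⁻¹) = g * (g⁻¹ * q * g * u) * g⁻¹ := by group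
      _ = _ := by rw [h2.eq]; group
  exact (isConj_iff.2 ⟨g, this⟩).symm

end Cfsg.Agent.S0481
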