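import Mathlib
import Cfsg.Statements.S0499
import Cfsg.Agent.Fil.A

set_option autoImplicit false
open Cfsg

namespace Cfsg.Agent.S0499

open Subgroup Cfsg.Agent.Fil

/-- A non-abelian finite simple group of even order has order divisible by 12, 16 or 56. -/
theorem result {G : Type*} [Group G] [Finite G] [IsSimpleGroup G]
    (hG : ¬ IsMulCommutative G) (h2 : Even (Nat.card G)) :
    12 ∣ Nat.card G ∨ 16 ∣ Nat.card G ∨ 56 ∣ Nat.card G := by
  obtain ⟨P⟩ := (inferInstance : Nonempty (Sylow 2 G))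
  obtain ⟨k, hk⟩ := IsPGroup.iff_card.1 P.isPGroup'
  obtain ⟨r, j, hr, hrG, h1, hj, hrj⟩ := simple_prime hG P h2.two_dvd hk
  have hd : 2 ^ k ∣ Nat.card G := hk ▸ card_subgroup_dvd_card _
  by_cases h4 : 4 ≤ k
  · exact Or.inr (Or.inl ((pow_dvd_pow 2 h4).trans hd))
  have hj3 : j ≤ 3 := by omega
  interval_cases j
  · exact absurd (Nat.dvd_one.1 hrj) hr.ne_one
  · have : r = 3 := (Nat.prime_dvd_prime_iff_eq hr Nat.prime_three).1 hrj
    subst this
    exact Or.inl (Nat.Coprime.mul_dvd_of_dvd_of_dvd (m := 3) (n := 4) (by norm_num) hrG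
      ((pow_dvd_pow 2 hj).trans hd))
  · have : r = 7 := (Nat.prime_dvd_prime_iff_eq hr (by norm_num)).1 hrj
    subst this
    exact Or.inr (Or.inr (Nat.Coprime.mul_dvd_of_dvd_of_dvd (m := 7) (n := 8) (by norm_num) hrG
      ((pow_dvd_pow 2 hj).trans hd)))

end Cfsg.Agent.S0499
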