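import Mathlib
import Cfsg.Statements.S0501
import Cfsg.Agent.H23.Mw5
-- import your own Cfsg.Agent.* helpers here

set_option autoImplicit false
open Cfsg

namespace Cfsg.Agent.S0501

/-- A finite 2-group in which every normal elementary abelian subgroup has order at most 4 has sectional rank at most
4: every quotient of every subgroup has no elementary abelian subgroup of order exceeding 16. -/
theorem result {P : Type*} [Group P] [Finite P] (hP : IsPGroup 2 P)
    (h : ∀ A : Subgroup P, A.Normal → IsMulCommutative A → (∀ a ∈ A, a ^ 2 = 1) → Nat.card A ≤ 4) :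
    Cfsg.SectionalPRankLE 2 4 P := by

  obtain ⟨W, hW⟩ := Cfsg.Agent.H23.Mw.exists_st hP h
  intro H N hN A _ hA
  have e : Nat.card A = (N.map H.subtype).relIndex ((A.comap (QuotientGroup.mk' N)).map H.subtype) := by
    rw [Subgroup.relIndex_map_map_of_injective _ _ H.subtype_injective]
    have := Subgroup.relIndex_ker (A.comap (QuotientGroup.mk' N)) (QuotientGroup.mk' N)
    rw [QuotientGroup.ker_mk',
      Subgroup.map_comap_eq_self_of_surjective (QuotientGroup.mk'_surjective N)] at this
    exact this.symm
  rw [e]
  refine Cfsg.Agent.H23.Mw.main hW ?_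
  rintro x ⟨y, hy, rfl⟩
  refine ⟨y * y, ?_, rfl⟩
  have := hA _ hy
  rw [pow_two, ← map_mul, QuotientGroup.mk'_apply, QuotientGroup.eq_one_iff] at this
  exact this

end Cfsg.Agent.S0501
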