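import Mathlib
import Cfsg.Statements.S0514
import Cfsg.Agent.Transfer.Residual
import Cfsg.Agent.Inv.DihFus
-- import your own Cfsg.Agent.* helpers here

set_option autoImplicit false
open Cfsg

namespace Cfsg.Agent.S0514

open Cfsg.Agent.Transfer

/-- In a finite group whose Sylow 2-subgroups are dihedral of order at least 4, the centralizer of any involution has a
normal subgroup of odd order whose index in the centralizer is a power of 2. -/
theorem result {X : Type*} [Group X] [Finite X]
    (S : Sylow 2 X) (n : ℕ) (hn : 2 ≤ n) (hS : Nonempty ((S : Subgroup X) ≃* DihedralGroup n)) (t : X)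
    (ht : orderOf t = 2) :
    ∃ N : Subgroup (Subgroup.centralizer ({t} : Set X)), N.Normal ∧ Odd (Nat.card N) ∧ ∃ k : ℕ, N.index = 2 ^ k := by
  have : Fact (Nat.Prime 2) := ⟨Nat.prime_two⟩
  obtain ⟨e⟩ := hS
  set C := Subgroup.centralizer ({t} : Set X) with hC
  have htC : t ∈ C := Inv.mem_centralizer_single.2 (Commute.refl t)
  have key : Cfsg.HasNormalPComplement 2 C := by
    obtain ⟨T⟩ := (inferInstance : Nonempty (Sylow 2 C))
    obtain ⟨R, hR⟩ := (T.2.map C.subtype).exists_le_sylow
    obtain ⟨x, y, m, h⟩ := Inv.exists_dih R.2 hn (((R.equiv S)).trans e)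
    have hTR : (T : Subgroup C) = (R : Subgroup X).subgroupOf C :=
      (T.3 R.2.comap_subtype (Subgroup.map_le_iff_le_comap.1 hR)).symm
    have hcen : ∀ c : C, Commute (c : X) t := fun c => Inv.mem_centralizer_single.1 c.2
    have htT : (⟨t, htC⟩ : C) ∈ (T : Subgroup C) := by
      have hn : (Subgroup.zpowers (⟨t, htC⟩ : C)).Normal := ⟨fun a ha g => by
        obtain ⟨k, rfl⟩ := Subgroup.mem_zpowers_iff.1 ha
        have : Commute g (⟨t, htC⟩ : C) := Subtype.ext (hcen g)
        rw [(this.zpow_right k).eq, mul_inv_cancel_right]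
        exact ha⟩
      have hp : IsPGroup 2 (Subgroup.zpowers (⟨t, htC⟩ : C)) :=
        IsPGroup.of_card (n := 1) (by rw [Nat.card_zpowers, Subgroup.orderOf_mk, ht, pow_one])
      exact hp.le_sylow_of_normal T (Subgroup.mem_zpowers _)
    have htR : t ∈ (R : Subgroup X) := hR ⟨_, htT, rfl⟩
    have hzC : x ^ 2 ^ m ∈ C := Inv.mem_centralizer_single.2 (h.commute_z htR).symm
    refine Inv.npc_of_no_essential T fun B hB hBC g hg hodd => ?_
    have hBR : B.map C.subtype ≤ R := (Subgroup.map_mono hB).trans hR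
    have htB : (⟨t, htC⟩ : C) ∈ B := hBC ⟨htT, fun b _ => Subtype.ext (hcen b)⟩
    have hzB : (⟨_, hzC⟩ : C) ∈ B := hBC ⟨by rw [hTR]; exact h.z_mem,
      fun b hb => Subtype.ext (h.commute_z (hBR ⟨b, hb, rfl⟩))⟩
    have hg' : (g : X) ∈ Subgroup.normalizer ((B.map C.subtype : Subgroup X) : Set X) :=
      B.le_normalizer_map C.subtype ⟨g, hg, rfl⟩
    have hodd' : Odd (orderOf (g : X)) := by
      rw [Subgroup.orderOf_coe]; exact Nat.coprime_two_right.1 hodd
    have hc : (g : X) ∈ Subgroup.centralizer ((B.map C.subtype : Subgroup X) : Set X) := by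
      by_contra hc
      obtain ⟨s, hs, hs', hBs⟩ := h.essential hBR ⟨_, hzB, rfl⟩ hg' hodd' hc
      have h4 : IsKleinFour (B.map C.subtype) := hBs ▸ (h.change hs hs').four (h.change hs hs').yy
      refine hc fun b hb => ?_
      have := Inv.four_fix_of_odd h4 hg' hodd' (a := t) ⟨_, htB, rfl⟩ (Inv.ne_one_of_two ht)
        (Inv.commute_iff_conj.1 (hcen g)) hb
      exact (Inv.commute_iff_conj.2 this).eq.symm
    exact fun b hb => Subtype.ext (hc b ⟨b, hb, rfl⟩)
  refine ⟨pResidual 2 C, inferInstance, ?_, exists_index_pResidual_eq_pow⟩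
  exact Nat.odd_iff.2 (Nat.two_dvd_ne_zero.1 (hasNormalPComplement_iff_not_dvd.1 key))

end Cfsg.Agent.S0514
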