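import Mathlib
import Cfsg.Statements.S0518
import Cfsg.Agent.PLocal.JC6

set_option autoImplicit false
open Cfsg

namespace Cfsg.Agent.S0518

/-- Let G be a finite group of characteristic 2 type with trivial 2-core in which every 2-local subgroup is solvable
and, for every Sylow 2-subgroup S, the centralizer of the set of central involutions of S lies in the normalizer of S.
Then either G has a strongly embedded subgroup, or the subgroup generated by the elements of odd order has two distinct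
maximal 2-local subgroups, each isomorphic to the symmetric group of degree 4, whose intersection has order 8. -/
theorem result {G : Type*} [Group G] [Finite G]
    (hL : Cfsg.IsCharacteristicTwoType G) (hO : Cfsg.pCore 2 G = ⊥)
    (hN : ∀ N : Subgroup G, Cfsg.IsTwoLocal N → Group.IsSolvable N)
    (hZ : ∀ S : Sylow 2 G,
      Subgroup.centralizer {z : G | z ∈ (S : Subgroup G) ∧ z ^ 2 = 1 ∧ ∀ s ∈ (S : Subgroup G), s * z = z * s} ≤
        Subgroup.normalizer ((S : Subgroup G) : Set G))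
    (H : Subgroup G) (hH : H = Subgroup.closure {g : G | Odd (orderOf g)}) :
    (∃ K : Subgroup G, Cfsg.IsStronglyEmbedded K) ∨
      ∃ M₁ M₂ : Subgroup H, M₁ ≠ M₂ ∧ Cfsg.IsMaximalTwoLocal M₁ ∧ Cfsg.IsMaximalTwoLocal M₂ ∧
        Nonempty (M₁ ≃* Equiv.Perm (Fin 4)) ∧ Nonempty (M₂ ≃* Equiv.Perm (Fin 4)) ∧ Nat.card ↥(M₁ ⊓ M₂) = 8 := by
  obtain rfl : H = Cfsg.pResidual 2 G := by
    rw [hH, Cfsg.pResidual]
    simp only [Nat.coprime_two_right]
  have h : PLocal.ZN G := ⟨hL, hN, fun S => le_trans (Subgroup.centralizer_le fun z hz =>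
    LocalEven.mem_omegaOneCenter.2 ⟨hz.1, hz.2.2, hz.2.1⟩) (hZ S)⟩
  refine (h.se_or_pair hO).imp_right fun ⟨T, K, L, K', L', h⟩ => ?_
  have key : ∀ {K L K' L'}, PLocal.Pair T K L K' L' →
      Nonempty (L.subgroupOf (Cfsg.pResidual 2 G) ≃* Equiv.Perm (Fin 4)) := fun h => by
    rw [← Subgroup.inf_subgroupOf_right]
    exact ⟨(Subgroup.subgroupOfEquivOfLe inf_le_right).trans h.equiv_res.some⟩
  refine ⟨_, _, fun e => h.not_le fun x hx => ?_, h.max_res, h.symm.max_res, key h, key h.symm, ?_⟩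
  · exact e.ge (x := ⟨x, h.symm.K_le_res hx⟩) (h.h2.kL hx)
  rw [show L.subgroupOf (Cfsg.pResidual 2 G) ⊓ L'.subgroupOf (Cfsg.pResidual 2 G) =
    (L ⊓ L').subgroupOf (Cfsg.pResidual 2 G) from rfl, h.symm.L_eq, h.inf_eq, ← Subgroup.inf_subgroupOf_right,
    LocalEven.card_subgroupOf inf_le_right, h.T_inf_res, h.card_D]

end Cfsg.Agent.S0518
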