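import Mathlib
import Cfsg.Statements.S0521
import Cfsg.Agent.PLocal.PStable
import Cfsg.Agent.Core.PHall
import Cfsg.Agent.Core.PConstrained
import Cfsg.Agent.PGrp.Narrow

set_option autoImplicit false
open Cfsg

namespace Cfsg.Agent.S0521

open Subgroup
open scoped commutatorElement
theorem aux {G : Type*} [Group G] [Finite G] {p : ℕ} [hp : Fact p.Prime] (hq : PLocal.NoQuadPair p G)
    (hc : centralizer (pCore p G : Set G) ≤ pCore p G) {S : Subgroup G} (hS : IsPGroup p S) (hle : pCore p G ≤ S)
    (hS' : IsCyclic (⁅S, S⁆ : Subgroup G)) : S ≤ pCore p G := fun a ha => by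
  have hP := Core.pCore_isPGroup (G := G) p
  let f := QuotientGroup.mk' ((frattini (pCore p G)).map (pCore p G).subtype)
  have hV : IsElementaryAbelian p ((pCore p G).map f) := PLocal.elementary_map_mk_frattini hP
  haveI : ((pCore p G).map f).Normal := Normal.map inferInstance _ (QuotientGroup.mk'_surjective _)
  have hD : IsCyclic (⁅S.map f, S.map f⁆ : Subgroup _) := by
    rw [← map_commutator]
    exact isCyclic_of_surjective _ (f.subgroupMap_surjective _)
  let M := (commutator (S.map f)) ⊓ ((pCore p G).map f).subgroupOf (S.map f)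
  have hM : M ≤ center _ := PGrp.le_center_of_card_le_prime (hS.map f) M (by
    haveI : IsCyclic (commutator (S.map f)) := by
      rw [← map_subtype_commutator] at hD
      exact isCyclic_of_surjective _ (equivMapOfInjective _ _ (subtype_injective _)).symm.surjective
    haveI : IsCyclic M := isCyclic_of_le inf_le_left
    rw [← IsCyclic.exponent_eq_card]
    exact Nat.le_of_dvd hp.out.pos (Monoid.exponent_dvd_of_forall_pow_eq_one fun x =>
      Subtype.ext (Subtype.ext (hV.2 _ x.2.2))))
  refine PLocal.mem_pCore_of_mk_mem ((hP.to_subgroup _).map _) (PLocal.mem_pCore_of_mk_mem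
    ((hP.map f).to_le fun g hg => ?_) ((hq.quotient _).mem_pCore (hP.map f) _ le_rfl fun v hv => ?_))
  · obtain ⟨g, rfl⟩ := QuotientGroup.mk'_surjective _ g
    refine mem_map_of_mem _ (Core.mem_pCore_of_frattini hc fun x hx => (QuotientGroup.eq_one_iff _).1 ?_)
    change f (g * x * g⁻¹ * x⁻¹) = 1
    rw [map_mul, map_mul, map_mul, ← show f x * f g = f g * f x from hg _ (mem_map_of_mem f hx), map_inv, map_inv]
    group
  · have h1 : f a ∈ S.map f := mem_map_of_mem f ha
    have h2 := map_mono hle hv
    have := mem_center_iff.1 (hM (x := ⁅⟨f a, h1⟩, ⟨v, h2⟩⁆) ⟨commutator_mem_commutator (mem_top _) (mem_top _),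
      mem_subgroupOf.2 (mul_mem (Normal.conj_mem inferInstance v hv (f a)) (inv_mem hv))⟩) ⟨f a, h1⟩
    exact commutatorElement_eq_one_iff_mul_comm.2 (congrArg Subtype.val this)

/-- Let X be a finite solvable group of odd order, p a prime and S a Sylow p-subgroup of X whose commutator subgroup is
cyclic. Then the product of the largest normal subgroup of X of order prime to p with S is a normal subgroup of X. -/
theorem result {X : Type*} [Group X] [Finite X] [Group.IsSolvable X]
    (hX : Odd (Nat.card X)) (p : ℕ) [Fact p.Prime] (S : Sylow p X) (hS : IsCyclic (commutator (S : Subgroup X))) :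
    (Cfsg.pPrimeCore p X ⊔ (S : Subgroup X)).Normal := by
  by_cases h2 : p = 2
  · subst h2
    have : (S : Subgroup X) = ⊥ := by
      obtain ⟨k, hk⟩ := IsPGroup.iff_card.1 S.isPGroup'
      rw [← card_eq_one, hk]
      rcases k with _ | k
      · rfl
      · exact absurd (hX.of_dvd_nat (hk ▸ card_subgroup_dvd_card _)) (by rw [pow_succ]; simp)
    rw [this, sup_bot_eq]; infer_instance
  let f := QuotientGroup.mk' (pPrimeCore p X)
  let T := S.mapSurjective (QuotientGroup.mk'_surjective (pPrimeCore p X))
  have := aux ((PLocal.noQuadPair_of_odd h2 hX).quotient _)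
    (PLocal.isPConstrained_iff_charP.1 (Core.isPConstrained_of_solvable p inferInstance)) T.isPGroup'
    (Core.pCore_le_sylow T) (by
      change IsCyclic (⁅(S : Subgroup X).map f, (S : Subgroup X).map f⁆ : Subgroup _)
      rw [← map_commutator, ← map_subtype_commutator, map_map]
      exact isCyclic_of_surjective _ (MonoidHom.subgroupMap_surjective _ _))
  have h3 : (pCore p _).comap f = pPrimeCore p X ⊔ S := by
    rw [le_antisymm (Core.pCore_le_sylow T) this]
    change ((S : Subgroup X).map f).comap f = _
    rw [comap_map_eq, QuotientGroup.ker_mk', sup_comm]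
  rw [← h3]; infer_instance

end Cfsg.Agent.S0521
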