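import Mathlib
import Cfsg.Statements.S0522
import Cfsg.Agent.BG.S7Hyp
import Cfsg.Agent.S0205
import Cfsg.Agent.BG.AmbHall2

set_option autoImplicit false
open Cfsg

namespace Cfsg.Agent.S0522

open Subgroup Cfsg.Agent.BG
open scoped Pointwise

/-- Transitivity Theorem (odd-order setting). Let X be a finite group of odd order in which the normalizer of every
nontrivial p-subgroup is solvable, P a Sylow p-subgroup, and B an abelian subgroup of P, normalized by P, with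
C_P(B) = B and containing an elementary abelian subgroup of order p^3. Then for every prime q ≠ p, any two q-subgroups
that are maximal among the q-subgroups normalized by B are conjugate by an element of the centralizer of B. -/
theorem result {X : Type*} [Group X] [Finite X] (hX : Odd (Nat.card X)) (p : ℕ)
    [Fact p.Prime] (hloc : ∀ T : Subgroup X, IsPGroup p T → T ≠ ⊥ → Group.IsSolvable (Subgroup.normalizer (T : Set X)))
    (P : Sylow p X) (B : Subgroup X) (hBP : B ≤ (P : Subgroup X))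
    (hBn : ∀ x ∈ (P : Subgroup X), ∀ b ∈ B, x * b * x⁻¹ ∈ B) (hBa : IsMulCommutative B)
    (hBc : (P : Subgroup X) ⊓ Subgroup.centralizer (B : Set X) = B)
    (hB3 : ∃ E : Subgroup X, E ≤ B ∧ (∀ e ∈ E, e ^ p = 1) ∧ p ^ 3 ≤ Nat.card E)
    (q : ℕ) [Fact q.Prime] (hqp : q ≠ p) (Q₁ Q₂ : Subgroup X)
    (h₁ : IsPGroup q Q₁ ∧ B ≤ Subgroup.normalizer (Q₁ : Set X) ∧
      ∀ R : Subgroup X, IsPGroup q R → B ≤ Subgroup.normalizer (R : Set X) → Q₁ ≤ R → R = Q₁)
    (h₂ : IsPGroup q Q₂ ∧ B ≤ Subgroup.normalizer (Q₂ : Set X) ∧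
      ∀ R : Subgroup X, IsPGroup q R → B ≤ Subgroup.normalizer (R : Set X) → Q₂ ≤ R → R = Q₂) :
    ∃ c ∈ Subgroup.centralizer (B : Set X), Q₂ = Q₁.map (MulAut.conj c).toMonoidHom := by
  have hs : Group.IsSolvable X := S0205.result hX
  have hT : Group.IsSolvable (⊤ : Subgroup X) := inferInstance
  have hodd : Odd (Nat.card (⊤ : Subgroup X)) := by rwa [card_top]
  have hscn : IsSCN (P : Subgroup X) B := ⟨hBP, Amb.le_norm_of_conj_mem hBn, hBc⟩
  have hO := Amb.piCoreOf_pi {p}ᶜ (⊤ : Subgroup X)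
  have hn : B ≤ 𝐍(piCoreOf {p}ᶜ (⊤ : Subgroup X)) := le_top.trans (Amb.le_norm_piCoreOf _ _)
  have hBp : IsPGroup p B := P.isPGroup'.to_le hBP
  have hcop := S7.coprime_of_pgroup hO hBp
  have hsO : Group.IsSolvable (piCoreOf {p}ᶜ (⊤ : Subgroup X)) := inferInstance
  have key : ∀ Q : Subgroup X, (IsPGroup q Q ∧ B ≤ Subgroup.normalizer (Q : Set X) ∧
      ∀ R : Subgroup X, IsPGroup q R → B ≤ Subgroup.normalizer (R : Set X) → Q ≤ R → R = Q) →
      IsSylowOf q Q (piCoreOf {p}ᶜ ⊤) := by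
    intro Q h
    obtain ⟨R, hR, hBR, hQR⟩ := Amb.coprime_sylow_subset hn hcop (Or.inr hsO)
      (S7.scn_le_core_of_sylow hT hodd (Amb.isSylowOf_top P) hscn le_top
        (S7.pi_compl_of_pgroup h.1 hqp) h.2.1) h.1 h.2.1
    rwa [h.2.2 R (Amb.sylow_isPGroup hR) hBR hQR] at hR
  obtain ⟨c, hc, e⟩ := Amb.coprime_sylow_trans hn hcop (Or.inr hsO) (key Q₁ h₁) h₁.2.1 (key Q₂ h₂) h₂.2.1
  exact ⟨c, hc.2, e⟩

end Cfsg.Agent.S0522
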