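import Mathlib
import Cfsg.Agent.Core.Super
import Cfsg.Statements.S0530
-- import your own Cfsg.Agent.* helpers here

set_option autoImplicit false
open Cfsg

namespace Cfsg.Agent.S0530

/-- A finite group whose order is twice a prime power is supersolvable. -/
theorem result {G : Type*} [Group G] [Finite G] (p n : ℕ) (hp : p.Prime) (hG : Nat.card G = 2 * p ^ n) : Cfsg.IsSupersolvable G := by
  have := Fact.mk hp
  by_cases h2 : p = 2
  · subst h2
    have : IsPGroup 2 G := IsPGroup.of_card (n := n + 1) (by rw [hG, pow_succ'])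
    exact Core.isSupersolvable_of_nilpotent this.isNilpotent
  obtain ⟨P⟩ := (inferInstance : Nonempty (Sylow p G))
  have hcop : Nat.Coprime p 2 := (Nat.coprime_primes hp Nat.prime_two).mpr h2
  have hP : Nat.card (P : Subgroup G) = p ^ n := by
    rw [P.card_eq_multiplicity, hG, Nat.factorization_mul two_ne_zero (pow_ne_zero _ hp.ne_zero)]
    simp [hp.factorization_pow, Nat.factorization_eq_zero_of_not_dvd (hp.coprime_iff_not_dvd.mp hcop)]
  have hi : (P : Subgroup G).index = 2 := by
    have := (P : Subgroup G).index_mul_card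
    rw [hP, hG] at this
    exact Nat.eq_of_mul_eq_mul_right (pow_pos hp.pos n) this
  have := Subgroup.normal_of_index_eq_two hi
  obtain ⟨K, hK⟩ := Subgroup.exists_right_complement'_of_coprime P.card_coprime_index
  have hQ : Nat.card (G ⧸ (P : Subgroup G)) = 2 := hi
  have : IsCyclic (G ⧸ (P : Subgroup G)) := isCyclic_of_prime_card hQ
  refine Core.isSupersolvable_of_normal_pGroup hp P K P.isPGroup' Core.isSupersolvable_of_isCyclic
    hK.sup_eq_top ?_
  have h1 : Core.powComm (p - 1) G ≤ P := by
    refine sup_le ?_ ((Subgroup.closure_le _).mpr ?_)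
    · let _ := IsCyclic.commGroup (α := G ⧸ (P : Subgroup G))
      rw [← QuotientGroup.ker_mk' (P : Subgroup G)]
      exact Abelianization.commutator_subset_ker _
    · rintro _ ⟨g, rfl⟩
      obtain ⟨k, hk⟩ := (hp.even_sub_one h2)
      have : g ^ (p - 1) = (g ^ k) ^ (P : Subgroup G).index := by rw [hi, ← pow_mul, hk, mul_two]
      simp only [this]
      exact Subgroup.pow_index_mem _ _
  exact ((inf_le_inf_left K h1).trans hK.disjoint.symm.eq_bot.le).trans bot_le

end Cfsg.Agent.S0530
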