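import Mathlib
import Cfsg.Agent.S0006
import Cfsg.Statements.S0535
-- import your own Cfsg.Agent.* helpers here

set_option autoImplicit false
open Cfsg

namespace Cfsg.Agent.S0535

/-- Suppose that for every nontrivial subgroup H of a finite group and every prime p dividing the order of H there is a proper subgroup of H whose index in H is a power of p. Then the group is solvable. -/
theorem result {G : Type*} [Group G] [Finite G] (h : ∀ H : Subgroup G, H ≠ ⊥ → ∀ p : ℕ, p.Prime → p ∣ Nat.card H → ∃ K : Subgroup H, K ≠ ⊤ ∧ ∃ k : ℕ, K.index = p ^ k) : Group.IsSolvable G := by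
  refine Cfsg.Agent.S0006.result fun p hp => ?_
  obtain ⟨H, ⟨k, hk⟩, hmin⟩ := (wellFounded_lt (α := Subgroup G)).has_min
    {H : Subgroup G | ∃ k : ℕ, H.index = p ^ k} ⟨⊤, 0, by simp⟩
  have h1 : ¬ p ∣ Nat.card H := fun hd => by
    have hne : H ≠ ⊥ := by
      rintro rfl
      rw [Subgroup.card_bot] at hd
      exact hp.one_lt.ne' (Nat.dvd_one.mp hd)
    obtain ⟨K, hK, l, hl⟩ := h H hne p hp hd
    refine hmin (K.map H.subtype) ⟨l + k, ?_⟩ ?_
    · rw [Subgroup.index_map_subtype, hl, hk, pow_add]
    · refine lt_of_le_of_ne (Subgroup.map_subtype_le K) fun e => hK ?_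
      rw [← Subgroup.comap_map_eq_self_of_injective H.subtype_injective K, e]
      exact Subgroup.subgroupOf_self H
  refine ⟨H, ?_⟩
  rw [← H.card_mul_index, Nat.factorization_mul Nat.card_pos.ne' H.index_ne_zero_of_finite, hk]
  simp [hp.factorization_pow, Nat.factorization_eq_zero_of_not_dvd h1]

end Cfsg.Agent.S0535
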