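import Mathlib
import Cfsg.Statements.S0537
import Cfsg.Agent.H2.Schmidt
import Cfsg.Agent.BG.Base10

set_option autoImplicit false
open scoped Pointwise commutatorElement
open Cfsg

namespace Cfsg.Agent.S0537

open Cfsg.Agent.BG Cfsg.Agent.BG.Amb Cfsg.Agent.H2 Subgroup in
theorem aux {G : Type*} [Group G] [Finite G] (h : ∀ H : Subgroup G, H ≠ ⊤ → IsMulCommutative H)
    {p q : ℕ} [Fact p.Prime] [Fact q.Prime] (hpq : p ≠ q) {Q P : Subgroup G} (hQ : IsPGroup q Q)
    (hP : IsPGroup p P) [Q.Normal] (hc : ¬ P ≤ 𝐂(Q)) : IsElementaryAbelian q Q := by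
  have hd := pi_coprime (isPGroup_iff_pi.1 hP) (pi_of_isPGroup hQ hpq.symm)
  have hQc : IsMulCommutative Q := h Q fun e => hc (by
    rw [eq_bot_of_le_of_pi (isPGroup_iff_pi.1 hP) (pi_of_isPGroup hQ hpq.symm) le_rfl (e ▸ le_top)]
    exact bot_le)
  set W := Core.powKer Q hQc q
  have hW : W ≤ Q := fun x hx => (Core.mem_powKer.1 hx).1
  have hn : P ≤ 𝐍(W) := le_norm_of_normal.trans (Core.normalizer_le_normalizer_powKer Q hQc q)
  have ht : W ⊔ P = ⊤ := by
    by_contra hne
    refine hc (Core.le_centralizer_of_abelian_of_prime_orderOf P Q hQc le_norm_of_normal hd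
      fun v hv hp => le_cent_of_comm (h _ hne) le_sup_left le_sup_right (Core.mem_powKer.2 ⟨hv, ?_⟩))
    obtain rfl : orderOf v = q := isPGroup_iff_pi.1 hQ _ hp (orderOf_dvd_natCard Q hv)
    exact pow_orderOf_eq_one v
  have h1 := Core.sup_inf_of_le_left hn hW
  rw [ht, top_inf_eq, disjoint_iff.1 (Core.disjoint_of_coprime hd), sup_bot_eq] at h1
  refine ⟨hQc, fun x hx => (Core.mem_powKer.1 (show x ∈ W from h1 ▸ hx)).2⟩

/-- A finite non-abelian group in which every proper subgroup is abelian is either of prime-power order, or is generated by a cyclic Sylow p-subgroup and a normal Sylow q-subgroup that is elementary abelian, for distinct primes p and q. -/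
theorem result {G : Type*} [Group G] [Finite G] (hna : ¬ IsMulCommutative G) (h : ∀ H : Subgroup G, H ≠ ⊤ → IsMulCommutative H) : (∃ p : ℕ, p.Prime ∧ IsPGroup p G) ∨ ∃ p q : ℕ, p.Prime ∧ q.Prime ∧ p ≠ q ∧ ∃ (P : Sylow p G) (Q : Sylow q G), IsCyclic P ∧ (Q : Subgroup G).Normal ∧ Cfsg.IsElementaryAbelian q (Q : Subgroup G) ∧ (P : Subgroup G) ⊔ Q = ⊤ := by
  by_cases hn : Group.IsNilpotent G
  · left
    by_contra hp
    refine hna ?_
    have := BG.B10.comm_of_nilpotent_of_sylow (H := (⊤ : Subgroup G)) inferInstance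
      fun p hp' _ P hP => h P fun e => hp ⟨p, hp', by
        have := Fact.mk hp'
        have := BG.Amb.sylow_isPGroup hP
        rw [e] at this
        exact this.of_equiv Subgroup.topEquiv⟩
    exact ⟨⟨fun a b => Core.comm_of_isMulCommutative this trivial trivial⟩⟩
  right
  obtain ⟨p, q, Q, x, hp, hq, hpq, hQ, hx, hn, hc, ht⟩ := H2.schmidt hn fun H hH =>
    BG.Amb.nilpotent_of_comm (h H hH)
  have := Fact.mk hp
  have := Fact.mk hq
  have hel := aux h hpq (BG.Amb.sylow_isPGroup hQ) (BG.Amb.sylow_isPGroup hx)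
    fun hle => hc (hle (Subgroup.mem_zpowers x))
  obtain ⟨Q, rfl⟩ := BG.Amb.exists_sylow_of_isSylowOf_top hQ
  obtain ⟨P, hP⟩ := BG.Amb.exists_sylow_of_isSylowOf_top hx
  refine ⟨p, q, hp, hq, hpq, P, Q, ?_, hn, hel, by rw [hP, sup_comm, ht]⟩
  exact BG.Amb.cyclic_iff_exists.2 ⟨x, hP.symm⟩

end Cfsg.Agent.S0537
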