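import Mathlib
import Cfsg.Statements.S0540
import Cfsg.Agent.H2.SubnormalFam

set_option autoImplicit false
open Pointwise
open Cfsg

namespace Cfsg.Agent.S0540

/-- A uniqueness lemma of zipper type. Let A be a subgroup of a finite group G and U a nonempty family of subgroups. For V in U write S(V) for the set of conjugates of A that lie in V and are subnormal in V. Assume: A belongs to S(V) for every V in U; a member of some S(W) that lies in V belongs to S(V); and for all V, W in U the normalizer of the join of S(V) ∩ S(W) lies in some member of U. Then U has a greatest element. -/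
theorem result {G : Type*} [Group G] [Finite G] (A : Subgroup G) (U : Set (Subgroup G)) (hU : U.Nonempty) (S : Subgroup G → Set (Subgroup G)) (hS : ∀ V B : Subgroup G, B ∈ S V ↔ (∃ g : G, B = MulAut.conj g • A) ∧ B ≤ V ∧ (B.subgroupOf V).IsSubnormal) (h1 : ∀ V ∈ U, A ∈ S V) (h2 : ∀ V ∈ U, ∀ W ∈ U, ∀ B ∈ S W, B ≤ V → B ∈ S V) (h3 : ∀ V ∈ U, ∀ W ∈ U, ∃ X ∈ U, Subgroup.normalizer ((sSup (S V ∩ S W) : Subgroup G) : Set G) ≤ X) : ∃ M ∈ U, ∀ V ∈ U, V ≤ M := by
  have hSle : ∀ V B, B ∈ S V → B ≤ V := fun V B h => ((hS V B).1 h).2.1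
  have hSsn : ∀ V B, B ∈ S V → H2.SN V B := fun V B h =>
    H2.SN.of_subgroupOf ((hS V B).1 h).2.1 ((hS V B).1 h).2.2
  have hSconj : ∀ V B, B ∈ S V → ∀ g ∈ V, MulAut.conj g • B ∈ S V := by
    intro V B h g hg
    obtain ⟨⟨x, rfl⟩, -, -⟩ := (hS V B).1 h
    have := (hSsn V _ h).conj_of_mem hg
    exact (hS V _).2 ⟨⟨g * x, H2.conj_smul_conj_smul g x A⟩, this.le, this.isSubnormal_subgroupOf⟩
  have hfin : U.Finite := Set.toFinite U
  -- any two maximal members coincide
  have key : ∀ T : Set (Subgroup G), ∀ U₁ U₂, Maximal (· ∈ U) U₁ → Maximal (· ∈ U) U₂ →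
      S U₁ ∩ S U₂ = T → U₁ = U₂ := by
    intro T
    induction T using WellFoundedGT.induction with
    | ind T ih =>
    intro U₁ U₂ hU₁ hU₂ hT
    obtain ⟨X, hXU, hX⟩ := h3 U₁ hU₁.prop U₂ hU₂.prop
    obtain ⟨U₃, hXU₃, hU₃⟩ := hfin.exists_le_maximal hXU
    rw [hT] at hX
    have hN := hX.trans hXU₃
    have aux : ∀ W, Maximal (· ∈ U) W → T ⊆ S W → W = U₃ := by
      intro W hW hTW
      rcases eq_or_ssubset_of_subset hTW with h | h
      · refine le_antisymm ?_ ?_
        · refine le_trans (fun g hg => H2.mem_normalizer_of_conj_smul_le ?_) hN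
          rw [H2.conj_smul_sSup, h]
          refine sSup_le_sSup ?_
          rintro _ ⟨B, hB, rfl⟩
          exact hSconj W B hB g hg
        · refine hW.le_of_ge hU₃.prop ?_
          refine le_trans (fun g hg => H2.mem_normalizer_of_conj_smul_le ?_) hN
          rw [H2.conj_smul_sSup, h]
          refine sSup_le_sSup ?_
          rintro _ ⟨B, hB, rfl⟩
          exact hSconj W B hB g hg
      · obtain ⟨Y, hY, hYT, hYn⟩ := H2.exists_mem_normalizer_sSup (S W) T (hSsn W) (hSconj W) h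
        have hY3 : Y ∈ S U₃ := h2 U₃ hU₃.prop W hW.prop Y hY (hYn.trans hN)
        refine ih (S W ∩ S U₃) ?_ W U₃ hW hU₃ rfl
        refine lt_of_le_of_ne (fun B hB => ⟨hTW hB, ?_⟩) fun h' => hYT (h' ▸ ⟨hY, hY3⟩)
        exact h2 U₃ hU₃.prop W hW.prop B (hTW hB)
          ((le_sSup hB).trans (Subgroup.le_normalizer.trans hN))
    rw [aux U₁ hU₁ (hT ▸ Set.inter_subset_left), aux U₂ hU₂ (hT ▸ Set.inter_subset_right)]
  obtain ⟨V₀, hV₀⟩ := hU
  obtain ⟨M, -, hM⟩ := hfin.exists_le_maximal hV₀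
  refine ⟨M, hM.prop, fun V hV => ?_⟩
  obtain ⟨M', h1, hM'⟩ := hfin.exists_le_maximal hV
  rw [key _ M M' hM hM' rfl]; exact h1

end Cfsg.Agent.S0540
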