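import Mathlib
import Cfsg.Statements.S0541
import Cfsg.Agent.H2.SubnormalFam

set_option autoImplicit false
open Pointwise
open Cfsg

namespace Cfsg.Agent.S0541

/-- Let Z and Y be subgroups of a finite group G and p a prime. Suppose that for every g in G the subgroup generated by the conjugates of g Z g⁻¹ under Y is a p-group. Then there is a Sylow p-subgroup P of G such that Y normalizes the subgroup generated by all conjugates of Z contained in P. -/
theorem result {G : Type*} [Group G] [Finite G] (p : ℕ) [Fact p.Prime] (Z Y : Subgroup G) (h : ∀ g : G, IsPGroup p ↥(⨆ y ∈ Y, MulAut.conj (y * g) • Z)) : ∃ P : Sylow p G, Y ≤ Subgroup.normalizer ((⨆ g ∈ {g : G | MulAut.conj g • Z ≤ (P : Subgroup G)}, MulAut.conj g • Z : Subgroup G) : Set G) := by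
  set C : Set (Subgroup G) := Set.range fun g : G => MulAut.conj g • Z with hC
  have hCconj : ∀ B ∈ C, ∀ g : G, MulAut.conj g • B ∈ C := by
    rintro _ ⟨x, rfl⟩ g
    exact ⟨g * x, (H2.conj_smul_conj_smul g x Z).symm⟩
  set F : Set (Subgroup G) := {L | IsPGroup p L ∧ Y ≤ Subgroup.normalizer (L : Set G) ∧
    L ≤ sSup {B | B ∈ C ∧ B ≤ L}} with hF
  have hbot : (⊥ : Subgroup G) ∈ F :=
    ⟨IsPGroup.of_bot, by rw [Subgroup.normalizer_eq_top]; exact le_top, bot_le⟩
  obtain ⟨L, -, hL⟩ := (Set.toFinite F).exists_le_maximal hbot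
  obtain ⟨hLp, hLY, hLs⟩ := hL.prop
  obtain ⟨P, hLP⟩ := hLp.exists_le_sylow
  have hLeq : sSup {B | B ∈ C ∧ B ≤ L} = L := le_antisymm (sSup_le fun B hB => hB.2) hLs
  have hall : ∀ B ∈ C, B ≤ (P : Subgroup G) → B ≤ L := by
    by_contra hcon
    push Not at hcon
    obtain ⟨B, hBC, hBP, hBL⟩ := hcon
    have := P.isPGroup'.isNilpotent
    obtain ⟨X, hX, hX0, hXn⟩ := H2.exists_mem_normalizer_sSup (H := (P : Subgroup G))
      {B | B ∈ C ∧ B ≤ (P : Subgroup G)} {B | B ∈ C ∧ B ≤ L}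
      (fun U hU => H2.SN.of_isNilpotent hU.2)
      (fun U hU g hg => ⟨hCconj U hU.1 g, H2.conj_smul_le_of_mem hU.2 hg⟩)
      ⟨fun U hU => ⟨hU.1, hU.2.trans hLP⟩, fun h' => hBL (h' ⟨hBC, hBP⟩).2⟩
    rw [hLeq] at hXn
    obtain ⟨⟨g, rfl⟩, hXP⟩ := hX
    set W : Subgroup G := ⨆ y ∈ Y, MulAut.conj (y * g) • Z with hW
    have hWn : W ≤ Subgroup.normalizer (L : Set G) := by
      refine iSup₂_le fun y hy => ?_
      rw [← H2.conj_smul_conj_smul]
      exact H2.conj_smul_le_of_mem hXn (hLY hy)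
    have hYW : Y ≤ Subgroup.normalizer (W : Set G) := by
      intro x hx
      refine H2.mem_normalizer_of_conj_smul_le ?_
      rw [hW, H2.conj_smul_eq_map]
      simp only [Subgroup.map_iSup]
      refine iSup₂_le fun y hy => ?_
      rw [← H2.conj_smul_eq_map, H2.conj_smul_conj_smul, ← mul_assoc]
      exact le_iSup₂_of_le (x * y) (Y.mul_mem hx hy) le_rfl
    have hmem : W ⊔ L ∈ F := by
      refine ⟨(h g).to_sup_of_normal_right' hLp hWn, Core.le_normalizer_sup hYW hLY, ?_⟩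
      refine sup_le (iSup₂_le fun y hy => le_sSup ⟨⟨y * g, rfl⟩, ?_⟩) (hLs.trans ?_)
      · exact le_trans (le_iSup₂_of_le y hy le_rfl) le_sup_left
      · exact sSup_le_sSup fun B hB => ⟨hB.1, hB.2.trans le_sup_right⟩
    have := hL.le_of_ge hmem le_sup_right
    refine hX0 ⟨⟨g, rfl⟩, le_trans ?_ (le_sup_left.trans this)⟩
    exact le_iSup₂_of_le 1 Y.one_mem (by rw [one_mul])
  refine ⟨P, ?_⟩
  have : (⨆ g ∈ {g : G | MulAut.conj g • Z ≤ (P : Subgroup G)}, MulAut.conj g • Z : Subgroup G) = L := by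
    refine le_antisymm (iSup₂_le fun g hg => hall _ ⟨g, rfl⟩ hg) (hLs.trans (sSup_le ?_))
    rintro _ ⟨⟨g, rfl⟩, hg⟩
    exact le_iSup₂_of_le g (hg.trans hLP) le_rfl
  rw [this]; exact hLY

end Cfsg.Agent.S0541
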