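import Mathlib
import Cfsg.Statements.S0542
import Cfsg.Agent.H2.SubnormalFam

set_option autoImplicit false
open Cfsg

namespace Cfsg.Agent.S0542

/-- A Sylow p-subgroup of a finite group meets every subnormal subgroup H in a Sylow p-subgroup of H. -/
theorem result {G : Type*} [Group G] [Finite G] (p : ℕ) [Fact p.Prime] (H : Subgroup G) (hH : H.IsSubnormal) (S : Sylow p G) : ∃ Q : Sylow p H, (Q : Subgroup H) = (S : Subgroup G).subgroupOf H := by
  have h1 := (H2.SN.top_iff.2 hH).relIndex_dvd (S : Subgroup G)
  rw [Subgroup.relIndex_top_right] at h1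
  exact ⟨(S.isPGroup'.comap_subtype (K := H)).toSylow fun h => S.not_dvd_index (h.trans h1), rfl⟩

end Cfsg.Agent.S0542
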