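import Mathlib
import Cfsg.Statements.S0543
import Cfsg.Agent.H2.SylowSystem

set_option autoImplicit false
open scoped Pointwise commutatorElement
open Pointwise
open Cfsg

namespace Cfsg.Agent.S0543

/-- In a finite solvable group any two Hall complement systems are simultaneously conjugate: one element conjugates every member of the first system to the corresponding member of the second. -/
theorem result {G : Type*} [Group G] [Finite G] [Group.IsSolvable G] (K L : Nat.Primes → Subgroup G) (hK : Cfsg.IsComplementSystem K) (hL : Cfsg.IsComplementSystem L) : ∃ g : G, ∀ p : Nat.Primes, MulAut.conj g • K p = L p := by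
  obtain ⟨g, -, h⟩ := H2.Sys.exists_conj_of_solvable H2.solvable_top
    (H2.isComplementSystem_iff.1 hK) (H2.isComplementSystem_iff.1 hL)
  exact ⟨g, h⟩

end Cfsg.Agent.S0543
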