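import Mathlib
import Cfsg.Statements.S0550
import Cfsg.Agent.H2.Primitive

set_option autoImplicit false
open scoped Pointwise commutatorElement
open Cfsg

namespace Cfsg.Agent.S0550

open Cfsg.Agent.BG Cfsg.Agent.BG.Amb Cfsg.Agent.H2 Subgroup in
theorem aux {G : Type*} [Group G] {U A B : Subgroup G} (h : CoreFree U) (hA : MinN A) (hB : MinN B)
    (hAB : A ≠ B) : 𝐂(B) = A ∧ A ⊓ U = ⊥ ∧ Nonempty (B ≃* ↥((A ⊔ B) ⊓ U)) := by
  have := hA.1
  have := hB.1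
  have h1 := hA.le_cent_of_ne hB hAB
  have h2 : 𝐂(B) = A :=
    ((h.minN_cent hB.2.1 (ne_bot_mono hA.2.1 h1)).eq_of_le hA.1 h1 hA.2.1).symm
  have h3 : A ⊓ U = ⊥ := h2 ▸ h.cent_inf hB.2.1
  refine ⟨h2, h3, nonempty_equiv_of_sup_eq (N := A) (hB.inf_eq_bot_of_ne hA hAB.symm) ?_ ?_⟩
  · rw [eq_bot_iff, ← h3]
    exact le_inf inf_le_right (inf_le_left.trans inf_le_right)
  · have := Core.sup_inf_of_le_left (N := A) (H := U) (K := A ⊔ B) le_norm_of_normal le_sup_left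
    rw [h.sup_eq_top hA.1 hA.2.1, top_inf_eq] at this
    rw [sup_comm B A, sup_comm _ A, inf_comm, ← this]

/-- Let U be a maximal subgroup with trivial normal core in a finite group G, and A ≠ B two minimal normal subgroups. Then A is the centralizer of B and B that of A, U complements each of them, A and B are non-abelian, and A, B and (A ⊔ B) ∩ U are pairwise isomorphic. -/
theorem result {G : Type*} [Group G] [Finite G] (U : Subgroup G) (hU : IsCoatom U) (hcore : U.normalCore = ⊥) (A B : Subgroup G) [A.Normal] [B.Normal] (hA : A ≠ ⊥) (hB : B ≠ ⊥) (hAmin : ∀ K : Subgroup G, K.Normal → K ≤ A → K = ⊥ ∨ K = A) (hBmin : ∀ K : Subgroup G, K.Normal → K ≤ B → K = ⊥ ∨ K = B) (hAB : A ≠ B) : Subgroup.centralizer (B : Set G) = A ∧ Subgroup.centralizer (A : Set G) = B ∧ Subgroup.IsComplement' A U ∧ Subgroup.IsComplement' B U ∧ ¬ IsMulCommutative A ∧ Nonempty (A ≃* B) ∧ Nonempty (A ≃* ↥((A ⊔ B) ⊓ U)) :=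 by
  have h : H2.CoreFree U := ⟨hU, hcore⟩
  have hA' : H2.MinN A := ⟨‹_›, hA, hAmin⟩
  have hB' : H2.MinN B := ⟨‹_›, hB, hBmin⟩
  obtain ⟨h1, h2, ⟨e1⟩⟩ := aux h hA' hB' hAB
  obtain ⟨h3, h4, ⟨e2⟩⟩ := aux h hB' hA' hAB.symm
  rw [sup_comm B A] at e2
  refine ⟨h1, h3, H2.isComplement'_of_normal h2 (h.sup_eq_top ‹_› hA),
    H2.isComplement'_of_normal h4 (h.sup_eq_top ‹_› hB), fun hc => hAB ?_,
    ⟨e2.trans e1.symm⟩, ⟨e2⟩⟩
  rw [← h3, h.cent_eq_of_comm hA hc]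

end Cfsg.Agent.S0550
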