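import Mathlib
import Cfsg.Statements.S0551
import Cfsg.Agent.H2.Primitive

set_option autoImplicit false
open scoped Pointwise commutatorElement
open Pointwise
open Cfsg

namespace Cfsg.Agent.S0551

open Cfsg.Agent.BG Cfsg.Agent.BG.Amb Cfsg.Agent.H2 Subgroup in
theorem aux {G : Type*} [Group G] [Finite G] [Group.IsSolvable G] {U V : Subgroup G}
    (hU : CoreFree U) (hV : CoreFree V) : ∃ g : G, MulAut.conj g • U = V := by
  have ht : (⊤ : Subgroup G) ≠ ⊥ := fun e => hU.1.1 (eq_top_iff.2 (e ▸ bot_le))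
  obtain ⟨N, hN, -⟩ := exists_minN_le ⊤ ht
  have := hN.1
  obtain ⟨p, hp, hel⟩ := hN.elementary inferInstance
  have := Fact.mk hp
  have hNp := Core.IsElementaryAbelian.isPGroup hel
  have hsU := hU.sup_eq_top hN.1 hN.2.1
  have hsV := hV.sup_eq_top hN.1 hN.2.1
  have hdU := hU.inf_eq_bot_of_comm hN.2.1 hel.1
  have hdV := hV.inf_eq_bot_of_comm hN.2.1 hel.1
  by_cases hb : U = ⊥
  · subst hb
    rw [sup_bot_eq] at hsU
    rw [hsU, top_inf_eq] at hdV
    exact ⟨1, by rw [conj_bot, hdV]⟩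
  obtain ⟨q, hq, hQ⟩ := exists_prime_piCoreOf_ne_bot (H := U) inferInstance hb
  have := Fact.mk hq
  set Q := piCoreOf {q} U
  have hQq : IsPGroup q Q := piCoreOf_isPGroup U
  have hqp : q ≠ p := by
    rintro rfl
    exact Core.inf_centralizer_ne_bot_of_isPGroup hNp hQq le_norm_of_normal hN.2.1
      (hU.inf_cent_eq_bot hN.2.1 hel.1 (piCoreOf_le _ _) (le_norm_piCoreOf _ _) hQ)
  have hn : (N ⊔ Q).Normal := Core.normal_of_le_normalizer
    (hsU ▸ sup_le_norm_sup le_norm_of_normal (le_norm_piCoreOf _ _))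
  have hNq : IsPiSubgroup {q}ᶜ N := pi_of_isPGroup hNp hqp.symm
  have h1 : IsSylowOf q Q (N ⊔ Q) := hall_right_of_sup hNq (isPGroup_iff_pi.1 hQq) le_norm_of_normal
  have h2 := Core.sup_inf_of_le_left (N := N) (H := V) (K := N ⊔ Q) le_norm_of_normal le_sup_left
  rw [hsV, top_inf_eq] at h2
  have h3 : IsSylowOf q (V ⊓ (N ⊔ Q)) (N ⊔ Q) := by
    refine hall_of_card_eq h1 inf_le_right ?_
    have c1 := Core.card_sup_of_disjoint (N := N) (H := Q) le_norm_of_normal
      (disjoint_iff.2 (eq_bot_iff.2 (hdU ▸ inf_le_inf_left _ (piCoreOf_le _ _))))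
    have c2 := Core.card_sup_of_disjoint (N := N) (H := V ⊓ (N ⊔ Q)) le_norm_of_normal
      (disjoint_iff.2 (eq_bot_iff.2 (hdV ▸ inf_le_inf_left _ inf_le_left)))
    rw [← h2, c1] at c2
    exact (Nat.eq_of_mul_eq_mul_left Nat.card_pos c2).symm
  obtain ⟨g, -, hg⟩ := sylow_conj h1 h3
  refine ⟨g, ?_⟩
  rw [← hU.eq_norm (piCoreOf_le _ _) (le_norm_piCoreOf _ _) hQ, conj_normalizer, ← hg]
  exact hV.eq_norm inf_le_left (le_norm_inf le_normalizer le_norm_of_normal)
    (hg ▸ conj_ne_bot_iff.2 hQ)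

/-- In a finite solvable group all core-free maximal subgroups are conjugate. -/
theorem result {G : Type*} [Group G] [Finite G] [Group.IsSolvable G] (U V : Subgroup G) (hU : IsCoatom U) (hV : IsCoatom V) (hUc : U.normalCore = ⊥) (hVc : V.normalCore = ⊥) : ∃ g : G, MulAut.conj g • U = V := by
  exact aux ⟨hU, hUc⟩ ⟨hV, hVc⟩

end Cfsg.Agent.S0551
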