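import Mathlib
import Cfsg.Statements.S0553
import Cfsg.Agent.H2.Fratt

set_option autoImplicit false
open scoped Pointwise commutatorElement
open Cfsg

namespace Cfsg.Agent.S0553

open Cfsg.Agent.BG Cfsg.Agent.BG.Amb Cfsg.Agent.H2 Subgroup in
theorem aux {G : Type*} [Group G] [Finite G] [Group.IsSolvable G] [Nontrivial G]
    (h : ∀ M : Subgroup G, IsCoatom M → (Nat.card M).Coprime M.index) :
    ∃ p : ℕ, p.Prime ∧ p ∣ Nat.card G ∧ IsSylowOf p (pCore p G) ⊤ := by
  have : Nontrivial (G ⧸ frattini G) := by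
    rw [QuotientGroup.nontrivial_iff]
    intro e
    exact bot_ne_top (Core.eq_top_of_sup_le_frattini (H := ⊥) le_rfl (by rw [e, bot_sup_eq]))
  obtain ⟨N₀, p, hN₀, hne, hp, hpN⟩ := Core.exists_normal_pGroup (G := G ⧸ frattini G)
  have := Fact.mk hp
  have h1 : ¬ pCore p G ≤ frattini G := fun hle => hne (by
    rw [eq_bot_iff, ← map_mk'_eq_bot_iff.2 hle, ← Core.pCore_quotient_of_le_frattini p _ le_rfl]
    exact Core.le_pCore hN₀ hpN)
  rw [Core.le_frattini_iff] at h1
  push Not at h1
  obtain ⟨M, hM, hle⟩ := h1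
  have hs := coatom_sup_eq_top hM hle
  have h2 : IsPiNat {p} M.index := by
    rw [Core.index_eq_relIndex_of_sup_eq_top' hs]
    exact piNat_of_dvd (isPGroup_iff_pi.1 (Core.pCore_isPGroup p)) (Core.relIndex_dvd_card' _ _)
  have h3 : p ∣ M.index := by
    obtain ⟨q, hq, hd⟩ := Nat.exists_prime_and_dvd (mt index_eq_one.1 hM.1)
    exact h2 q hq hd ▸ hd
  refine ⟨p, hp, h3.trans (index_dvd_card M), sylow_mk le_top (Core.pCore_isPGroup p) fun hd => ?_⟩
  rw [relIndex_top_right, Core.index_eq_relIndex_of_sup_eq_top hs] at hd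
  exact hp.one_lt.ne' (Nat.eq_one_of_dvd_coprimes (h M hM)
    (hd.trans (Core.relIndex_dvd_card' _ _)) h3)

/-- Let G be a nontrivial finite solvable group in which every maximal subgroup has order coprime to its index. Then for some prime p dividing the order of G the Sylow p-subgroups of G are normal. -/
theorem result {G : Type*} [Group G] [Finite G] [Group.IsSolvable G] [Nontrivial G] (h : ∀ M : Subgroup G, IsCoatom M → (Nat.card M).Coprime M.index) : ∃ p : ℕ, p.Prime ∧ p ∣ Nat.card G ∧ ∀ P : Sylow p G, (P : Subgroup G).Normal := by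
  obtain ⟨p, hp, hd, hS⟩ := aux h
  have := Fact.mk hp
  refine ⟨p, hp, hd, fun P => ?_⟩
  rw [BG.Amb.sylow_eq_of_le hS P.isPGroup' (Core.pCore_le_sylow P) le_top]
  infer_instance

end Cfsg.Agent.S0553
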