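import Mathlib
import Cfsg.Statements.S0554
import Cfsg.Agent.H2.Fratt

set_option autoImplicit false
open scoped Pointwise commutatorElement
open Cfsg

namespace Cfsg.Agent.S0554

theorem prod_mul {G : Type*} [Group G] (N : Subgroup G) [N.Normal] (l : List (Set G))
    (h : ∃ s ∈ l, s * (N : Set G) ⊆ s) : l.prod * (N : Set G) ⊆ l.prod := by
  induction l with
  | nil => simp at h
  | cons a l ih =>
    obtain ⟨s, hs, h⟩ := h
    rw [List.prod_cons, mul_assoc]
    rcases List.mem_cons.1 hs with rfl | hs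
    · rw [Subgroup.set_mul_normal_comm, ← mul_assoc]
      exact Set.mul_subset_mul_right h
    · exact Set.mul_subset_mul_left (ih ⟨s, hs, h⟩)

theorem aux.{u} (G : Type u) [Group G] [Finite G] : ∀ [Group.IsSolvable G] (t : ℕ) (p : Fin t → ℕ),
    (∀ i, (p i).Prime) → (∀ q : ℕ, q.Prime → q ∣ Nat.card G → ∃ i, p i = q) →
    ∀ (S : (i : Fin t) → Sylow (p i) G) (g : G),
      g ∈ (List.ofFn fun i => ((S i : Subgroup G) : Set G)).prod := by
  refine Core.induction_on_card (P := fun G _ _ => ∀ [Group.IsSolvable G] (t : ℕ) (p : Fin t → ℕ),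
    (∀ i, (p i).Prime) → (∀ q : ℕ, q.Prime → q ∣ Nat.card G → ∃ i, p i = q) →
    ∀ (S : (i : Fin t) → Sylow (p i) G) (g : G),
      g ∈ (List.ofFn fun i => ((S i : Subgroup G) : Set G)).prod) ?_ G
  intro G _ _ ih _ t p hp hall S g
  rcases subsingleton_or_nontrivial G with _ | _
  · exact Set.mem_prod_list_ofFn.2 ⟨fun i => ⟨1, Subgroup.one_mem _⟩, Subsingleton.elim _ _⟩
  obtain ⟨N, q, hN, hne, hq, hNq⟩ := Core.exists_normal_pGroup (G := G)
  have := Fact.mk hq
  obtain ⟨j, rfl⟩ := hall q hq ((Core.prime_dvd_card_of_isPGroup hNq hne).trans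
    (Subgroup.card_subgroup_dvd_card N))
  have hs := QuotientGroup.mk'_surjective N
  obtain ⟨f, hf⟩ := Set.mem_prod_list_ofFn.1 (ih (G ⧸ N) (Core.card_quotient_lt N hne) t p hp
    (fun q hq hd => hall q hq (hd.trans (Subgroup.card_quotient_dvd_card N)))
    (fun i => haveI := Fact.mk (hp i); (S i).mapSurjective hs) (QuotientGroup.mk' N g))
  choose s hs1 hs2 using fun i => (f i).2
  have h1 : QuotientGroup.mk' N (List.ofFn s).prod = QuotientGroup.mk' N g := by
    rw [map_list_prod, List.map_ofFn, ← hf]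
    congr 2
    exact funext hs2
  obtain ⟨n, hn, rfl⟩ := (QuotientGroup.mk'_eq_mk' N).1 h1
  refine prod_mul N _ ⟨_, List.mem_ofFn.2 ⟨j, rfl⟩, ?_⟩
    (Set.mul_mem_mul (Set.mem_prod_list_ofFn.2 ⟨fun i => ⟨s i, hs1 i⟩, rfl⟩) hn)
  rintro _ ⟨a, ha, b, hb, rfl⟩
  exact (S j : Subgroup G).mul_mem ha ((Core.le_pCore hN hNq).trans (Core.pCore_le_sylow (S j)) hb)

/-- Let G be a finite solvable group and let S assign to each of t distinct primes, including every prime divisor of the order of G, a Sylow subgroup of G. Then every element of G is a product s_0 s_1 ⋯ s_(t-1) with s_i in S i, the factors taken in the given order. -/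
theorem result {G : Type*} [Group G] [Finite G] [Group.IsSolvable G] (t : ℕ) (p : Fin t → ℕ) (hp : ∀ i, (p i).Prime) (hinj : Function.Injective p) (hall : ∀ q : ℕ, q.Prime → q ∣ Nat.card G → ∃ i, p i = q) (S : (i : Fin t) → Sylow (p i) G) : ∀ g : G, ∃ s : (i : Fin t) → G, (∀ i, s i ∈ (S i : Subgroup G)) ∧ g = (List.ofFn s).prod := by
  intro g
  obtain ⟨f, hf⟩ := Set.mem_prod_list_ofFn.1 (aux G t p hp hall S g)
  exact ⟨fun i => f i, fun i => (f i).2, hf.symm⟩

end Cfsg.Agent.S0554
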