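import Mathlib
import Cfsg.Statements.S0555
import Cfsg.Agent.H2.Carter

set_option autoImplicit false
open scoped Pointwise commutatorElement
open Cfsg

namespace Cfsg.Agent.S0555

open Cfsg.Agent.BG Cfsg.Agent.BG.Amb Cfsg.Agent.H2 Subgroup in
theorem cyc_map {G : Type*} [Group G] (A N : Subgroup G) [N.Normal]
    (h : IsCyclic (A ⧸ N.subgroupOf A)) : IsCyclic (A.map (QuotientGroup.mk' N)) :=
  isCyclic_of_surjective (QuotientGroup.lift (N.subgroupOf A)
    ((QuotientGroup.mk' N).subgroupMap A) fun _ hx =>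
      Subtype.ext ((QuotientGroup.eq_one_iff _).2 hx))
    (QuotientGroup.lift_surjective_of_surjective _ _ (MonoidHom.subgroupMap_surjective _ _) _)

open Cfsg.Agent.BG Cfsg.Agent.BG.Amb Cfsg.Agent.H2 Subgroup in
theorem aux {G : Type*} [Group G] {A B C : Subgroup G} [B.Normal] [C.Normal]
    (h₁ : IsCyclic (A ⧸ B.subgroupOf A)) (h : ⁅A, B⁆ ≤ C) : ⁅A, A⁆ ≤ C := by
  obtain ⟨x, hx⟩ := cyclic_iff_exists.1 (cyc_map A B h₁)
  obtain ⟨a, ha, rfl⟩ : x ∈ A.map (QuotientGroup.mk' B) := hx ▸ mem_zpowers x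
  rw [← MonoidHom.map_zpowers] at hx
  have h1 : A ≤ zpowers a ⊔ B := map_mk'_le_iff.1 hx.ge
  have h2 : ⁅A, zpowers a⁆ ≤ C := by
    refine (commutator_mono h1 le_rfl).trans (comm_sup_left_le le_norm_of_normal ?_ ?_)
    · rw [der_eq_bot_iff.2 inferInstance]; exact bot_le
    · rw [commutator_comm]
      exact (commutator_mono (zpowers_le.2 ha) le_rfl).trans h
  exact (commutator_mono le_rfl h1).trans (comm_sup_right_le le_norm_of_normal h2 h)

/-- Let i ≥ 1. If in the derived series of a group the quotient of the i-th term by the (i+1)-st and the quotient of the (i+1)-st by the (i+2)-nd are both cyclic, then the (i+1)-st and (i+2)-nd terms coincide. -/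
theorem result {G : Type*} [Group G] (i : ℕ) (hi : 1 ≤ i) (h₁ : IsCyclic (↥(derivedSeries G i) ⧸ (derivedSeries G (i + 1)).subgroupOf (derivedSeries G i))) (h₂ : IsCyclic (↥(derivedSeries G (i + 1)) ⧸ (derivedSeries G (i + 2)).subgroupOf (derivedSeries G (i + 1)))) : derivedSeries G (i + 1) = derivedSeries G (i + 2) := by
  obtain ⟨i, rfl⟩ := Nat.exists_eq_add_of_le' hi
  refine le_antisymm ?_ (Subgroup.commutator_le_left _ _)
  refine aux h₁ (H2.map_le_cent_map_iff.1 ?_)
  rw [derivedSeries_succ G i, Subgroup.map_commutator]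
  have : ((derivedSeries G (i + 1 + 1)).map (QuotientGroup.mk' (derivedSeries G (i + 1 + 2)))).Normal :=
    Subgroup.Normal.map inferInstance _ (QuotientGroup.mk'_surjective _)
  exact BG.Amb.der_le_cent_of_cyclic (cyc_map _ _ h₂) H2.le_norm_of_normal

end Cfsg.Agent.S0555
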