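import Mathlib
import Cfsg.Statements.S0557
import Cfsg.Agent.Transfer.Focal
-- import your own Cfsg.Agent.* helpers here

set_option autoImplicit false
open Cfsg

namespace Cfsg.Agent.S0557

open Cfsg.Agent.Transfer

/-- Let H be a subgroup of a finite group G with order coprime to its index. If iterating the focal-subgroup construction starting from H reaches the trivial subgroup after finitely many steps, then H has a normal complement in G. -/
theorem result {G : Type*} [Group G] [Finite G] (H : Subgroup G) (hHall : (Nat.card H).Coprime H.index) (n : ℕ) (hfoc : (fun K : Subgroup G => Subgroup.focalSubgroup K)^[n] H = ⊥) : ∃ N : Subgroup G, N.Normal ∧ Subgroup.IsComplement' N H := by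
  have hp : IsPGroup (Nat.card H) H := fun g => ⟨1, by rw [pow_one, pow_card_eq_one']⟩
  refine ⟨_, inferInstance, isComplement'_pResidual_card_of_inf_eq_bot hHall ?_⟩
  set K := H ⊓ pResidual (Nat.card H) G with hK
  have h1 : K ≤ K.focalSubgroup := inf_pResidual_le_of_forall hHall hp fun x hx g _ hg' =>
    inv_mul_conj_mem_focalSubgroup hx
      ⟨hg', (inferInstance : (pResidual (Nat.card H) G).Normal).conj_mem x hx.2 g⟩
  rw [eq_bot_iff, ← hfoc]
  clear hfoc
  induction n with
  | zero => exact inf_le_left
  | succ n ih =>
    rw [Function.iterate_succ_apply']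
    exact h1.trans (focalSubgroup_le_of_forall fun x hx g hg =>
      inv_mul_conj_mem_focalSubgroup (ih hx) (ih hg))

end Cfsg.Agent.S0557
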