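import Mathlib
import Cfsg.Statements.S0558
import Cfsg.Agent.Transfer.Wielandt
import Cfsg.Agent.Core.Fitting
-- import your own Cfsg.Agent.* helpers here

set_option autoImplicit false
open Cfsg

namespace Cfsg.Agent.S0558

open Cfsg.Agent.Transfer

/-- Let H be a subgroup of a finite group G that is not a Sylow subgroup of G for any prime, and suppose that for every prime p dividing the order of H and every Sylow p-subgroup P of H the normalizer of P in G is exactly H. Then some normal subgroup of G is a complement to H. -/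
theorem result {G : Type*} [Group G] [Finite G] (H : Subgroup G) (hnot : ∀ p : ℕ, p.Prime → ∀ P : Sylow p G, (P : Subgroup G) ≠ H) (hnorm : ∀ p : ℕ, p.Prime → p ∣ Nat.card H → ∀ P : Sylow p H, Subgroup.normalizer (((P : Subgroup H).map H.subtype : Subgroup G) : Set G) = H) : ∃ N : Subgroup G, N.Normal ∧ Subgroup.IsComplement' N H := by
  have hsyl : ∀ (p : ℕ) [Fact p.Prime], p ∣ Nat.card H → ∃ P : Sylow p G, (P : Subgroup G) ≤ H ∧
      Subgroup.normalizer ((P : Subgroup G) : Set G) = H := fun p _ hp => by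
    obtain ⟨P⟩ := (inferInstance : Nonempty (Sylow p H))
    have h1 := hnorm p Fact.out hp P
    have h2 : Core.IsSylowOf p ((P : Subgroup H).map H.subtype) ⊤ :=
      Core.IsSylowOf.of_normalizer (by rw [h1, top_inf_eq]; exact Core.isSylowOf_map_subtype P)
    obtain ⟨S, hS⟩ := h2.exists_sylow_top
    exact ⟨S, hS ▸ Subgroup.map_subtype_le _, hS ▸ h1⟩
  have hHall : (Nat.card H).Coprime H.index := Nat.coprime_of_dvd fun p hp hd hd' => by
    have := Fact.mk hp
    obtain ⟨P, hP, -⟩ := hsyl p hd
    exact P.not_dvd_index (hd'.trans (Subgroup.index_dvd_of_le hP))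
  have hnil : Group.IsNilpotent H := Core.nilpotent_of_sylow_normal fun p _ P => by
    by_cases hp : p ∣ Nat.card H
    · have h1 := hnorm p Fact.out hp P
      have h2 := (Subgroup.normal_subgroupOf_iff_le_normalizer (Subgroup.map_subtype_le _)).2 h1.ge
      rwa [Subgroup.subgroupOf, Subgroup.comap_map_eq_self_of_injective H.subtype_injective] at h2
    · have : (P : Subgroup H) = ⊥ := by
        simpa using inf_eq_bot_of_not_dvd (N := ⊤) P.2 (by simpa using hp)
      rw [this]; infer_instance
  have key : ∀ p : ℕ, p.Prime → p ∣ Nat.card H → Cfsg.HasNormalPComplement p G := fun p hp hd => by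
    have := Fact.mk hp
    obtain ⟨P, hP, -⟩ := hsyl p hd
    obtain ⟨q, hq, hqp, hqH⟩ : ∃ q : ℕ, q.Prime ∧ q ≠ p ∧ q ∣ Nat.card H := by
      by_contra hcon
      push Not at hcon
      have h1 : IsPGroup p H := IsPGroup.of_card (Nat.eq_prime_pow_of_unique_prime_dvd
        Nat.card_pos.ne' fun {d} h1 h2 => by_contra fun h3 => hcon d h1 h3 h2)
      exact hnot p hp P (P.3 h1 hP).symm
    have := Fact.mk hq
    obtain ⟨Q, hQ, hQn⟩ := hsyl q hqH
    have hc : ∀ x ∈ (P : Subgroup G), ∀ y ∈ (Q : Subgroup G), x * y = y * x := fun x hx y hy =>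
      le_centralizer_of_nilpotent hnil P.2 hP (not_dvd_card_of_isPGroup hp hqp.symm Q.2) hQ hy x hx
    refine hasNormalPComplement_of_control P hP (fun x hx g hg => ?_)
      hasNormalPComplement_of_isNilpotent
    obtain ⟨c, hc1, hc2⟩ := exists_smul_sylow_eq_of_le (P := g • Q) (Q := Q)
      (H := Subgroup.centralizer ({g * x * g⁻¹} : Set G)) (fun y hy => by
        rintro _ rfl
        have := hc x hx _ (mem_smul_sylow_iff.1 hy)
        calc g * x * g⁻¹ * y = g * (x * (g⁻¹ * y * g)) * g⁻¹ := by group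
          _ = _ := by rw [this]; group) (fun y hy => by rintro _ rfl; exact hc _ hg y hy)
    refine ⟨c * g, ?_, ?_⟩
    · rw [← hQn]
      exact Sylow.smul_eq_iff_mem_normalizer.1 (by rw [mul_smul, hc2])
    · calc c * g * x * (c * g)⁻¹ = c * (g * x * g⁻¹) * c⁻¹ := by group
        _ = _ := by rw [← hc1 _ rfl]; group
  refine ⟨_, inferInstance, isComplement'_pResidual_card_of_inf_eq_bot hHall ?_⟩
  rw [eq_bot_iff]
  rintro x ⟨hx, hx'⟩
  rw [Subgroup.mem_bot, ← orderOf_eq_one_iff]
  by_contra h1
  obtain ⟨p, hp, hpx⟩ := Nat.exists_prime_and_dvd h1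
  have hd := hpx.trans (Subgroup.orderOf_dvd_natCard H hx)
  have := Fact.mk hp
  have h2 : x ∈ pResidual p G := pResidual_le_iff.2
    (fun g hg => mem_pResidual_of_coprime (hg.coprime_dvd_right hd)) hx'
  exact hp.one_lt.ne' (Nat.eq_one_of_dvd_coprimes
    ((mem_pResidual_iff_coprime (key p hp hd)).1 h2) hpx dvd_rfl)

end Cfsg.Agent.S0558
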