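import Mathlib
import Cfsg.Statements.S0561
import Cfsg.Agent.H2.Fratt

set_option autoImplicit false
open scoped Pointwise commutatorElement
open Pointwise
open Cfsg

namespace Cfsg.Agent.S0561

open Cfsg.Agent.BG Cfsg.Agent.BG.Amb Cfsg.Agent.H2 Subgroup in
theorem aux {G : Type*} [Group G] [Finite G] [Group.IsSolvable G] {H K A B : Subgroup G}
    (h : Fac H K ⊤) (hA : H ≤ 𝐍(A)) (hB : K ≤ 𝐍(B)) (hAh : (Nat.card A).Coprime A.index)
    (hBh : (Nat.card B).Coprime B.index) : ∃ S, Fac A B S := by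
  rw [← relIndex_top_right] at hAh hBh
  have h1 := hall_of_coprime le_top hAh
  have h2 := hall_of_coprime le_top hBh
  obtain ⟨R, hR, hAR⟩ := exists_hall_ge (π := {p | p ∣ Nat.card A} ∪ {p | p ∣ Nat.card B})
    solvable_top (pi_of_subset (hall_pi h1) Set.subset_union_left) le_top
  obtain ⟨g, hg, hBR⟩ := hall_conj_le solvable_top hR
    (pi_of_subset (hall_pi h2) Set.subset_union_right) le_top
  obtain ⟨x, hx, y, hy, h3, h4⟩ := h.exists_conj_le hg hAR hBR
  rw [conj_eq_of_mem_normalizer (hA hx)] at h3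
  rw [conj_eq_of_mem_normalizer (hB hy)] at h4
  refine ⟨_, fac_of_coprime h3 h4 (piNat_coprime_of_disjoint
    (piNat_inter (hall_index (hall_of_le h1 h3 le_top))
      (piNat_of_dvd (isPiSubgroup_conj.2 (hall_pi hR)) (Core.relIndex_dvd_card' _ _)))
    (hall_index (hall_of_le h2 h4 le_top)) ?_)⟩
  rintro r ⟨hr, hr' | hr'⟩
  · exact (hr hr').elim
  · exact fun h => h hr'

/-- Let the finite solvable group G be the product HK of subgroups, and let A be normal in H and B normal in K, where A and B are Hall subgroups of G (order coprime to index). Then for all x, y the product set of xAx⁻¹ and yBy⁻¹ is a subgroup of G. -/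
theorem result {G : Type*} [Group G] [Finite G] [Group.IsSolvable G] (H K A B : Subgroup G) (hHK : ∀ g : G, ∃ h ∈ H, ∃ k ∈ K, g = h * k) (hA : A ≤ H) (hAn : (A.subgroupOf H).Normal) (hB : B ≤ K) (hBn : (B.subgroupOf K).Normal) (hAh : (Nat.card A).Coprime A.index) (hBh : (Nat.card B).Coprime B.index) (x y : G) : ∃ S : Subgroup G, (S : Set G) = ((MulAut.conj x • A : Subgroup G) : Set G) * ((MulAut.conj y • B : Subgroup G) : Set G) := by
  have h := H2.fac_top hHK
  obtain ⟨S, hS⟩ := aux h ((Subgroup.normal_subgroupOf_iff_le_normalizer hA).1 hAn)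
    ((Subgroup.normal_subgroupOf_iff_le_normalizer hB).1 hBn) hAh hBh
  obtain ⟨a, ha, b, hb, e⟩ := hHK (x⁻¹ * y)
  have h1 := (hS.conj (x * a)).coe_eq
  have e2 : x * a = y * b⁻¹ := by
    calc x * a = x * (a * b) * b⁻¹ := by group
      _ = y * b⁻¹ := by rw [← e]; group
  refine ⟨MulAut.conj (x * a) • S, ?_⟩
  rw [h1, ← BG.Amb.conj_conj x a A, BG.Amb.conj_eq_of_mem_normalizer
    ((Subgroup.normal_subgroupOf_iff_le_normalizer hA).1 hAn ha), e2, ← BG.Amb.conj_conj y b⁻¹ B,
    BG.Amb.conj_eq_of_mem_normalizer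
    ((Subgroup.normal_subgroupOf_iff_le_normalizer hB).1 hBn (K.inv_mem hb))]

end Cfsg.Agent.S0561
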