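import Mathlib
import Cfsg.Statements.S0562
import Cfsg.Agent.H2.Fratt

set_option autoImplicit false
open scoped Pointwise commutatorElement
open Cfsg

namespace Cfsg.Agent.S0562

open Cfsg.Agent.BG Cfsg.Agent.BG.Amb Cfsg.Agent.H2 Subgroup in
theorem aux {G : Type*} [Group G] [Finite G] {A B : Subgroup G} {h k : G} (hA : h ∈ 𝐍(A))
    (hB : k ∈ 𝐍(B)) (hg : h * k ∈ 𝐍(A ⊔ B)) : k ∈ 𝐍(A ⊔ B) := by
  rw [← Subgroup.inv_mem_iff]
  refine mem_normalizer_of_conj_le ?_
  rw [← le_conj_iff]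
  refine sup_le ?_ ?_
  · rw [mem_normalizer_iff_conj, ← Amb.conj_conj, conj_eq_iff] at hg
    rw [hg, le_conj_iff, inv_inv, conj_eq_of_mem_normalizer hA]
    exact le_sup_left
  · rw [conj_sup, conj_eq_of_mem_normalizer hB]
    exact le_sup_right

/-- Let the finite group G be the product HK of subgroups, A normal in H, B normal in K, and L the normalizer of the subgroup generated by A and B. Then every element of L is a product of an element of L ∩ H and an element of L ∩ K. -/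
theorem result {G : Type*} [Group G] [Finite G] (H K A B : Subgroup G) (hHK : ∀ g : G, ∃ h ∈ H, ∃ k ∈ K, g = h * k) (hA : A ≤ H) (hAn : (A.subgroupOf H).Normal) (hB : B ≤ K) (hBn : (B.subgroupOf K).Normal) : ∀ g ∈ Subgroup.normalizer ((A ⊔ B : Subgroup G) : Set G), ∃ h ∈ Subgroup.normalizer ((A ⊔ B : Subgroup G) : Set G) ⊓ H, ∃ k ∈ Subgroup.normalizer ((A ⊔ B : Subgroup G) : Set G) ⊓ K, g = h * k := by
  intro g hg
  obtain ⟨h, hh, k, hk, rfl⟩ := hHK g
  have := aux ((Subgroup.normal_subgroupOf_iff_le_normalizer hA).1 hAn hh)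
    ((Subgroup.normal_subgroupOf_iff_le_normalizer hB).1 hBn hk) hg
  exact ⟨h, ⟨(Subgroup.mul_mem_cancel_right _ this).1 hg, hh⟩, k, ⟨this, hk⟩, rfl⟩

end Cfsg.Agent.S0562
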