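import Mathlib
import Cfsg.Statements.S0563
import Cfsg.Agent.H2.KW

set_option autoImplicit false
open scoped Pointwise commutatorElement
open Pointwise
open Cfsg

namespace Cfsg.Agent.S0563

/-- If a finite group G is the product AB of two nilpotent subgroups of coprime orders, then G is solvable, and for every Sylow p-subgroup P of A and Sylow q-subgroup Q of B the product set PQ is a subgroup. -/
theorem result {G : Type*} [Group G] [Finite G] (A B : Subgroup G) (hA : Group.IsNilpotent A) (hB : Group.IsNilpotent B) (hcop : (Nat.card A).Coprime (Nat.card B)) (hAB : ∀ g : G, ∃ a ∈ A, ∃ b ∈ B, g = a * b) : Group.IsSolvable G ∧ ∀ (p q : ℕ) [Fact p.Prime] [Fact q.Prime] (P : Sylow p A) (Q : Sylow q B), ∃ S : Subgroup G, (S : Set G) = (((P : Subgroup A).map A.subtype : Subgroup G) : Set G) * (((Q : Subgroup B).map B.subtype : Subgroup G) : Set G) := by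
  have hf := H2.fac_top hAB
  have := H2.kegel_wielandt_top G A B hA hB hf
  refine ⟨this, fun p q _ _ P Q => ⟨_, (H2.Prm.fac ?_).coe_eq⟩⟩
  have hP := BG.Amb.isSylowOf_sylow P
  have hQ := BG.Amb.isSylowOf_sylow Q
  have hA' := hf.hall_left (BG.Amb.pi_self A) (BG.Amb.piNat_of_coprime hcop)
  have hB' := hf.symm.hall_left (BG.Amb.pi_self B) (BG.Amb.piNat_of_coprime hcop.symm)
  by_cases hp : p ∣ Nat.card A
  swap
  · rw [(BG.Amb.hall_eq_bot_iff hP).2 ((BG.Amb.pi_compl_singleton Fact.out).2 hp)]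
    exact H2.prm_bot.symm
  by_cases hq : q ∣ Nat.card B
  swap
  · rw [(BG.Amb.hall_eq_bot_iff hQ).2 ((BG.Amb.pi_compl_singleton Fact.out).2 hq)]
    exact H2.prm_bot
  exact hf.prm_of_hall H2.solvable_top (BG.Amb.nil_hall_normal hA hP) (BG.Amb.nil_hall_normal hB hQ)
    (BG.Amb.sylow_of_hall hP hA' hp) (BG.Amb.sylow_of_hall hQ hB' hq)

end Cfsg.Agent.S0563
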