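import Mathlib
import Cfsg.Statements.S0565
import Cfsg.Agent.H2.KW

set_option autoImplicit false
open scoped Pointwise commutatorElement
open Cfsg

namespace Cfsg.Agent.S0565

open Cfsg.Agent.BG Cfsg.Agent.BG.Amb Cfsg.Agent.H2 Subgroup in
theorem of_nilpotent {G : Type*} [Group G] [Finite G] (hG : Group.IsNilpotent G) {A : Subgroup G}
    (hA : A ≠ ⊤) : ∃ N : Subgroup G, N.Normal ∧ N ≠ ⊤ ∧ A ≤ N := by
  obtain ⟨M, hM, hle⟩ := (eq_top_or_exists_le_coatom A).resolve_left hA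
  refine ⟨M, Core.normal_of_le_normalizer ?_, hM.1, hle⟩
  have := lt_inf_normalizer_of_nilpotent (K := ⊤) inferInstance hM.lt_top
  rw [top_inf_eq] at this
  exact (hM.2 _ this).ge

open Cfsg.Agent.BG Cfsg.Agent.BG.Amb Cfsg.Agent.H2 Subgroup in
theorem aux.{u} (G : Type u) [Group G] [Finite G] : ∀ [Group.IsSolvable G] (A B : Subgroup G),
    Group.IsNilpotent A → Group.IsNilpotent B → Fac A B ⊤ → A ≠ ⊤ ∨ B ≠ ⊤ →
      ∃ N : Subgroup G, N.Normal ∧ N ≠ ⊤ ∧ (A ≤ N ∨ B ≤ N) := by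
  refine Core.induction_on_card (P := fun G _ _ => ∀ [Group.IsSolvable G] (A B : Subgroup G),
    Group.IsNilpotent A → Group.IsNilpotent B → Fac A B ⊤ → A ≠ ⊤ ∨ B ≠ ⊤ →
      ∃ N : Subgroup G, N.Normal ∧ N ≠ ⊤ ∧ (A ≤ N ∨ B ≤ N)) ?_ G
  intro G _ _ ih _ A B hA hB hf hne
  suffices Group.IsNilpotent G ∨ ∃ N : Subgroup G, N.Normal ∧ N ≠ ⊤ ∧ (A ≤ N ∨ B ≤ N) by
    rcases this with h | h
    · rcases hne with h1 | h1
      · obtain ⟨N, h2, h3, h4⟩ := of_nilpotent h h1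
        exact ⟨N, h2, h3, Or.inl h4⟩
      · obtain ⟨N, h2, h3, h4⟩ := of_nilpotent h h1
        exact ⟨N, h2, h3, Or.inr h4⟩
    · exact h
  rcases subsingleton_or_nontrivial G with _ | _
  · left; infer_instance
  obtain ⟨N, p, hN, hN0, hp, hNp⟩ := Core.exists_normal_pGroup (G := G)
  have := Fact.mk hp
  by_cases ht : A.map (QuotientGroup.mk' N) ≠ ⊤ ∨ B.map (QuotientGroup.mk' N) ≠ ⊤
  · obtain ⟨M, hM, hM', hle⟩ := ih _ (Core.card_quotient_lt N hN0) _ _ (Core.nilpotent_map hA _)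
      (Core.nilpotent_map hB _) (hf.map_top (QuotientGroup.mk'_surjective N)) ht
    refine Or.inr ⟨M.comap (QuotientGroup.mk' N), inferInstance, fun e => hM' ?_,
      hle.imp map_le_iff_le_comap.1 map_le_iff_le_comap.1⟩
    rw [← map_comap_mk' M, e, map_mk'_top]
  left
  push Not at ht
  have key : ∀ C : Subgroup G, Group.IsNilpotent C → C.map (QuotientGroup.mk' N) = ⊤ →
      IsPiHallOf {p}ᶜ (piCoreOf {p}ᶜ C) ⊤ := fun C hC e => by
    have h1 := hall_of_sup_pgroup hNp (nil_piCoreOf_hall {p}ᶜ hC)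
    rwa [sup_comm, map_mk'_eq_top_iff.1 e] at h1
  obtain ⟨g, -, hg⟩ := hall_conj solvable_top (key A hA ht.1) (key B hB ht.2)
  have h1 := (hf.conj_conj (x := g) (y := 1) trivial trivial).sup_eq
  rw [conj_one] at h1
  have h2 := (carter_key solvable_top le_top hNp (by
    rw [map_mk'_top, ← ht.1]; exact Core.nilpotent_map hA _) (key B hB ht.2)).1
  have h3 : ⊤ ≤ 𝐍(piCoreOf {p}ᶜ B) := h1 ▸ sup_le (by
    rw [hg]; exact conj_le_normalizer_conj (le_norm_piCoreOf _ _)) (le_norm_piCoreOf _ _)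
  rw [inf_eq_left.2 h3] at h2
  exact Group.nilpotent_of_mulEquiv topEquiv

/-- Let the finite group G be the product AB of nilpotent subgroups A and B, not both equal to G. Then there is a proper normal subgroup of G containing A or containing B. -/
theorem result {G : Type*} [Group G] [Finite G] (A B : Subgroup G) (hA : Group.IsNilpotent A) (hB : Group.IsNilpotent B) (hAB : ∀ g : G, ∃ a ∈ A, ∃ b ∈ B, g = a * b) (hproper : A ≠ ⊤ ∨ B ≠ ⊤) : ∃ N : Subgroup G, N.Normal ∧ N ≠ ⊤ ∧ (A ≤ N ∨ B ≤ N) := by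
  have := H2.kegel_wielandt_top G A B hA hB (H2.fac_top hAB)
  exact aux G A B hA hB (H2.fac_top hAB) hproper

end Cfsg.Agent.S0565
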