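import Mathlib
import Cfsg.Statements.S0567
import Cfsg.Agent.H2.Subnormal

set_option autoImplicit false
open scoped Pointwise commutatorElement
open Cfsg

namespace Cfsg.Agent.S0567

/-- A subgroup H of a group G is subnormal exactly when, for some m, the subgroup obtained from G by taking the commutator with H m times in succession is contained in H. -/
theorem result {G : Type*} [Group G] (H : Subgroup G) : H.IsSubnormal ↔ ∃ m : ℕ, (fun K : Subgroup G => ⁅K, H⁆)^[m] ⊤ ≤ H := by
  have hmono : ∀ (A B : Subgroup G), A ≤ B → ∀ m : ℕ,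
      (fun K : Subgroup G => ⁅K, A⁆)^[m] ⊤ ≤ (fun K : Subgroup G => ⁅K, B⁆)^[m] ⊤ := by
    intro A B h m
    induction m with
    | zero => exact le_rfl
    | succ m ih =>
      rw [Function.iterate_succ_apply', Function.iterate_succ_apply']
      exact Subgroup.commutator_mono ih h
  rw [← H2.SN.top_iff]
  constructor
  · intro h
    induction h with
    | top => exact ⟨0, le_rfl⟩
    | step A K h1 h2 _ ih =>
      obtain ⟨m, hm⟩ := ih
      refine ⟨m + 1, ?_⟩
      rw [Function.iterate_succ_apply']
      refine (Subgroup.commutator_mono ((hmono A K h1 m).trans hm) le_rfl).trans ?_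
      exact Subgroup.le_normalizer_iff_commutator_le_right.1 h2
  · rintro ⟨m, hm⟩
    have key : ∀ m : ℕ, H2.SN ⊤ ((fun K : Subgroup G => ⁅K, H⁆)^[m] ⊤ ⊔ H) := by
      intro m
      induction m with
      | zero => simpa using H2.SN.top
      | succ m ih =>
        rw [Function.iterate_succ_apply']
        set X := (fun K : Subgroup G => ⁅K, H⁆)^[m] ⊤
        refine H2.SN.step _ _ (sup_le (Subgroup.commutator_le_sup _ _) le_sup_right) ?_ ih
        refine sup_le ?_ (le_sup_right.trans Subgroup.le_normalizer)
        intro x hx
        have hx' : ∀ y ∈ X, MulAut.conj y • (⁅X, H⁆ ⊔ H) ≤ ⁅X, H⁆ ⊔ H := by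
          intro y hy
          rw [Subgroup.smul_sup,
            H2.mem_normalizer_iff_conj_smul.1 (Subgroup.normalizer_commutator_ge_left _ _ hy)]
          refine sup_le le_sup_left fun z hz => ?_
          rw [H2.mem_conj_smul] at hz
          have e : z = ⁅y, y⁻¹ * z * y⁆ * (y⁻¹ * z * y) := by
            rw [commutatorElement_def]; group
          rw [e]
          exact Subgroup.mul_mem_sup (Subgroup.commutator_mem_commutator hy hz) hz
        rw [H2.mem_normalizer_iff_conj_smul]
        refine le_antisymm (hx' x hx) ?_
        have := H2.conj_smul_mono x (hx' x⁻¹ (X.inv_mem hx))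
        rwa [H2.conj_smul_conj_smul, mul_inv_cancel, H2.conj_one_smul] at this
    have := key m
    rwa [sup_of_le_right hm] at this

end Cfsg.Agent.S0567
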