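import Mathlib
import Cfsg.Statements.S0568
import Cfsg.Agent.H2.Primitive
import Cfsg.Agent.H2.SylowSystem

set_option autoImplicit false
open scoped Pointwise commutatorElement
open Cfsg

namespace Cfsg.Agent.S0568

open Cfsg.Agent.BG Cfsg.Agent.BG.Amb Cfsg.Agent.H2 Subgroup in
theorem aux {G : Type*} [Group G] [Finite G] [Group.IsSolvable G] {K : Nat.Primes → Subgroup G}
    (hK : Sys K ⊤) {V : Subgroup G} (hV : MinN V) (hnc : ¬ ⊤ ≤ 𝐂(V)) :
    V ⊓ systemNormalizer K = ⊥ := by
  have := hV.1
  obtain ⟨p, hp, hel⟩ := hV.elementary inferInstance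
  have := Fact.mk hp
  have hVp := Core.IsElementaryAbelian.isPGroup hel
  rw [eq_bot_iff, ← hV.inf_cent_hall hVp (hK ⟨p, hp⟩) hnc, ← inf_norm_eq_inf_cent le_norm_of_normal
    (pi_inf_eq_bot (isPGroup_iff_pi.1 hVp) (hall_pi (hK ⟨p, hp⟩)))]
  exact inf_le_inf_left _ (systemNormalizer_le K ⟨p, hp⟩)

/-- Let D be the system normalizer of a Hall complement system of a finite solvable group G, and let A < B be normal subgroups with no normal subgroup of G strictly between them (a chief factor). If G centralizes B modulo A then B ≤ A ⊔ D (D covers the factor); otherwise B ∩ D ≤ A (D avoids it). -/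
theorem result {G : Type*} [Group G] [Finite G] [Group.IsSolvable G] (K : Nat.Primes → Subgroup G) (hK : Cfsg.IsComplementSystem K) (A B : Subgroup G) [A.Normal] [B.Normal] (hAB : A < B) (hchief : ∀ N : Subgroup G, N.Normal → A ≤ N → N ≤ B → N = A ∨ N = B) : (⁅B, (⊤ : Subgroup G)⁆ ≤ A → B ≤ A ⊔ Cfsg.systemNormalizer K) ∧ (¬ ⁅B, (⊤ : Subgroup G)⁆ ≤ A → B ⊓ Cfsg.systemNormalizer K ≤ A) := by
  have hK' := H2.isComplementSystem_iff.1 hK
  refine ⟨H2.le_sup_systemNormalizer hK', fun h => ?_⟩
  have hs := QuotientGroup.mk'_surjective A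
  have hV : H2.MinN (B.map (QuotientGroup.mk' A)) := by
    refine ⟨Subgroup.Normal.map ‹_› _ hs, ?_, fun N hN hle => ?_⟩
    · rw [Ne, Subgroup.map_eq_bot_iff, QuotientGroup.ker_mk']
      exact hAB.2
    · have h1 : A ≤ N.comap (QuotientGroup.mk' A) := by
        conv_lhs => rw [← QuotientGroup.ker_mk' A]
        exact Subgroup.ker_le_comap _ _
      have h2 : N.comap (QuotientGroup.mk' A) ≤ B := by
        refine (Subgroup.comap_mono hle).trans ?_
        rw [Subgroup.comap_map_eq, QuotientGroup.ker_mk', sup_eq_left.2 hAB.le]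
      rw [← Subgroup.map_comap_eq_self_of_surjective hs N]
      rcases hchief _ inferInstance h1 h2 with e | e
      · left; rw [e, Subgroup.map_eq_bot_iff, QuotientGroup.ker_mk']
      · right; rw [e]
  have := aux (hK'.map_mk' A) hV fun hle => h (by
    rw [BG.Amb.le_cent_iff_comm_eq_bot', ← Subgroup.map_top_of_surjective _ hs,
      ← Subgroup.map_commutator, Subgroup.map_eq_bot_iff, QuotientGroup.ker_mk'] at hle
    exact hle)
  rw [H2.systemNormalizer_map hK'] at this
  rw [← QuotientGroup.ker_mk' A, ← Subgroup.map_eq_bot_iff, eq_bot_iff, ← this]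
  exact Subgroup.map_inf_le _ _ _

end Cfsg.Agent.S0568
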