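import Mathlib
import Cfsg.Statements.S0569
import Cfsg.Agent.H2.Carter

set_option autoImplicit false
open scoped Pointwise commutatorElement
open Cfsg

namespace Cfsg.Agent.S0569

/-- In a finite solvable group: each nilpotent self-normalizing subgroup contains the system normalizer of some Hall complement system, and the system normalizer of any Hall complement system lies in some nilpotent self-normalizing subgroup. -/
theorem result {G : Type*} [Group G] [Finite G] [Group.IsSolvable G] : (∀ C : Subgroup G, Cfsg.IsCarterSubgroup C → ∃ K : Nat.Primes → Subgroup G, Cfsg.IsComplementSystem K ∧ Cfsg.systemNormalizer K ≤ C) ∧ ∀ K : Nat.Primes → Subgroup G, Cfsg.IsComplementSystem K → ∃ C : Subgroup G, Cfsg.IsCarterSubgroup C ∧ Cfsg.systemNormalizer K ≤ C := by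
  refine ⟨fun C hC => ?_, fun K hK => (H2.exists_carter_ge_systemNormalizer G K
    (H2.isComplementSystem_iff.1 hK)).imp fun C h => ⟨H2.carterIn_top.1 h.1, h.2⟩⟩
  obtain ⟨K, hK⟩ := H2.exists_sys (H2.solvable_top (G := G))
  obtain ⟨D, hD, hle⟩ := H2.exists_carter_ge_systemNormalizer G K hK
  obtain ⟨g, rfl⟩ := H2.carter_conj_top G D C hD (H2.carterIn_top.2 hC)
  refine ⟨_, H2.isComplementSystem_iff.2 (hK.conj (g := g) (by rw [BG.Amb.norm_top]; trivial)), ?_⟩
  rw [H2.systemNormalizer_conj]
  exact BG.Amb.conj_mono g hle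

end Cfsg.Agent.S0569
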