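import Mathlib
import Cfsg.Statements.S0570
import Cfsg.Agent.H2.Carter
import Cfsg.Agent.H2.Perm

set_option autoImplicit false
open scoped Pointwise commutatorElement
open Cfsg

namespace Cfsg.Agent.S0570

open Cfsg.Agent.BG Cfsg.Agent.BG.Amb Cfsg.Agent.H2 Subgroup in
theorem aux {G : Type*} [Group G] [Finite G] [Group.IsSolvable G] (F : Subgroup G) [F.Normal]
    (hF : Group.IsNilpotent F) (hGF : Group.IsNilpotent (G ⧸ F)) {C : Subgroup G}
    (hC : CarterIn C ⊤) : ∃ K, Sys K ⊤ ∧ C = systemNormalizer K := by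
  have hs := hC.sup_eq_top hGF
  have hn : ∀ π : Set ℕ, (piCoreOf π F).Normal := fun π =>
    Core.normal_of_le_normalizer (le_norm_piCoreOf_of π le_norm_of_normal)
  have hK : Sys (fun p => piCoreOf {(p : ℕ)}ᶜ F ⊔ piCoreOf {(p : ℕ)}ᶜ C) ⊤ := by
    intro p
    have := hn {(p : ℕ)}ᶜ
    refine hall_mk le_top (pi_sup (piCoreOf_pi _ _) (piCoreOf_pi _ _) le_norm_of_normal) ?_
    set K := piCoreOf {(p : ℕ)}ᶜ F ⊔ piCoreOf {(p : ℕ)}ᶜ C
    -- `[G : K] = [G : KF] [KF : K]`
    rw [← relIndex_mul_relIndex K (F ⊔ K) ⊤ le_sup_right le_top]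
    refine piNat_mul ?_ ?_
    · rw [Core.relIndex_sup_eq_relIndex le_norm_of_normal]
      exact piNat_of_dvd (hall_index (nil_piCoreOf_hall {(p : ℕ)}ᶜ hF))
        (relIndex_dvd_of_le_left _ le_sup_left)
    · have h1 : Fac C (F ⊔ K) ⊤ := by
        have := fac_of_le_norm' (A := C) (B := F) le_norm_of_normal
        rw [hs] at this
        exact this.mono le_rfl le_sup_left le_top le_top
      rw [← h1.relIndex_eq]
      exact piNat_of_dvd (hall_index (nil_piCoreOf_hall {(p : ℕ)}ᶜ hC.2.1))
        (relIndex_dvd_of_le_left _ (le_sup_right.trans le_sup_right))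
  refine ⟨_, hK, hC.eq_of_nilpotent (le_systemNormalizer.2 fun p => ?_) le_top
    (hK.nilpotent_of_le_norm le_top (systemNormalizer_le _))⟩
  have := hn {(p : ℕ)}ᶜ
  exact le_norm_sup le_norm_of_normal (le_norm_piCoreOf _ _)

/-- Let G be a finite group with a nilpotent normal subgroup F such that G modulo F is nilpotent (nilpotent length at most two). Then a subgroup of G is a Carter subgroup if and only if it is the system normalizer of some Hall complement system. -/
theorem result {G : Type*} [Group G] [Finite G] (F : Subgroup G) [F.Normal] (hF : Group.IsNilpotent F) (hGF : Group.IsNilpotent (G ⧸ F)) (C : Subgroup G) : Cfsg.IsCarterSubgroup C ↔ ∃ K : Nat.Primes → Subgroup G, Cfsg.IsComplementSystem K ∧ C = Cfsg.systemNormalizer K := by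
  have : Group.IsSolvable G := H2.solvable_of_normal_quotient F inferInstance inferInstance
  constructor
  · intro hC
    obtain ⟨K, hK, e⟩ := aux F hF hGF (H2.carterIn_top.2 hC)
    exact ⟨K, H2.isComplementSystem_iff.2 hK, e⟩
  · rintro ⟨K, hK, rfl⟩
    obtain ⟨D, hD⟩ := H2.exists_carter_top G
    obtain ⟨L, hL, rfl⟩ := aux F hF hGF hD
    obtain ⟨g, -, hg⟩ := hL.exists_conj_of_solvable H2.solvable_top (H2.isComplementSystem_iff.1 hK)
    rw [← funext hg, H2.systemNormalizer_conj]
    exact H2.carterIn_top.1 (hD.conj (by rw [BG.Amb.norm_top]; trivial))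

end Cfsg.Agent.S0570
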