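import Mathlib
import Cfsg.Statements.S0573
import Cfsg.Agent.H2.Kegel
import Cfsg.Agent.S0572

set_option autoImplicit false
open scoped Pointwise commutatorElement
open Cfsg

namespace Cfsg.Agent.S0573

open Cfsg.Agent.BG Cfsg.Agent.BG.Amb Cfsg.Agent.H2 Subgroup in
theorem aux {G : Type*} [Group G] [Finite G] {A B D : Subgroup G} (hA : IsMulCommutative A)
    (hB : IsMulCommutative B) (hf : Fac A B ⊤) (hD : ⁅(⊤ : Subgroup G), (⊤ : Subgroup G)⁆ ≤ D)
    (h : ∀ N : Subgroup G, N.Normal → N ≤ A ∨ N ≤ B → N = ⊥) {a : G} (ha : a ∈ A)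
    (hc : a ∈ 𝐂(B ⊓ (A ⊔ D))) : a = 1 := by
  have hn : (A ⊔ D).Normal :=
    Core.normal_of_le_normalizer (le_norm_of_der_le (hD.trans le_sup_right) le_top)
  have h1 : (A ⊔ D) ⊓ 𝐂(A ⊔ D) ≤ A := by
    intro w hw
    obtain ⟨a', ha', b', hb', rfl⟩ := hf.top w
    have h2 : b' ∈ 𝐂(A) := (Subgroup.mul_mem_cancel_left _ (comm_le_cent hA ha')).1
      (cent_anti le_sup_left hw.2)
    have h3 : zpowers b' = ⊥ := h _ (normal_of_sup_le_norm hf.sup_eq
      (le_norm_of_le_cent (le_cent_symm (zpowers_le.2 h2)))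
      (le_norm_of_le_cent (le_cent_symm (zpowers_le.2 (comm_le_cent hB hb')))))
      (Or.inr (zpowers_le.2 hb'))
    rwa [zpowers_eq_bot.1 h3, mul_one]
  rw [← mem_bot, ← h _ inferInstance (Or.inl h1)]
  refine ⟨mem_sup_left ha, ?_⟩
  rw [← (hf.inf_right le_sup_left le_top).sup_eq, cent_sup]
  exact ⟨comm_le_cent hA ha, hc⟩

open Cfsg.Agent.BG Cfsg.Agent.BG.Amb Cfsg.Agent.H2 Subgroup in
theorem aux2 {G : Type*} [Group G] [Finite G] {A B D : Subgroup G} (hA : IsMulCommutative A)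
    (hB : IsMulCommutative B) (hf : Fac A B ⊤) (hD : ⁅(⊤ : Subgroup G), (⊤ : Subgroup G)⁆ ≤ D)
    [D.Normal] (hDc : IsMulCommutative D)
    (h : ∀ N : Subgroup G, N.Normal → N ≤ A ∨ N ≤ B → N = ⊥) : D = ⊥ := by
  by_contra hne
  set X := (A ⊔ D) ⊓ (B ⊔ D)
  have hDX : D ≤ X := le_inf le_sup_right le_sup_right
  have h1 : Fac (A ⊓ X) (B ⊓ X) X := ⟨inf_le_right, inf_le_right, fun g hg => by
    obtain ⟨a, ha, b, hb, rfl⟩ := hf.top g
    exact ⟨a, ⟨ha, mem_sup_left ha, (Subgroup.mul_mem_cancel_right _ (mem_sup_left hb)).1 hg.2⟩,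
      b, ⟨hb, (Subgroup.mul_mem_cancel_left _ (mem_sup_left ha)).1 hg.1, mem_sup_left hb⟩, rfl⟩⟩
  have h2 := nilpotent_of_triple h1
    ((fac_of_le_norm' (A := A) (B := D) le_norm_of_normal).inf_left hDX inf_le_left)
    ((fac_of_le_norm' (A := B) (B := D) le_norm_of_normal).inf_left hDX inf_le_right)
    le_norm_of_normal (nilpotent_of_comm (comm_mono hA inf_le_left))
    (nilpotent_of_comm (comm_mono hB inf_le_left)) (nilpotent_of_comm hDc)
  obtain ⟨z, hz, hz1⟩ := exists_mem_ne_one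
    (Core.inf_centralizer_ne_bot_of_nilpotent h2 hDX le_rfl le_norm_of_normal hne)
  obtain ⟨a, ha, b, hb, rfl⟩ := h1.2.2 z (hDX hz.1)
  have h3 : a = 1 := aux hA hB hf hD h ha.1 ((Subgroup.mul_mem_cancel_right _
    (cent_anti inf_le_left (comm_le_cent hB hb.1))).1
    (cent_anti (le_inf inf_le_right (inf_le_left.trans le_sup_left)) hz.2))
  have h4 : b = 1 := aux hB hA hf.symm hD (fun N hN h' => h N hN h'.symm) hb.1
    ((Subgroup.mul_mem_cancel_left _ (cent_anti inf_le_left (comm_le_cent hA ha.1))).1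
    (cent_anti (le_inf (inf_le_left.trans le_sup_left) inf_le_right) hz.2))
  exact hz1 (by rw [h3, h4, mul_one])

/-- If a nontrivial finite group G is the product AB of abelian subgroups A and B, then some nontrivial normal subgroup of G is contained in A or in B. -/
theorem result {G : Type*} [Group G] [Finite G] [Nontrivial G] (A B : Subgroup G) [IsMulCommutative A] [IsMulCommutative B] (hAB : ∀ g : G, ∃ a ∈ A, ∃ b ∈ B, g = a * b) : ∃ N : Subgroup G, N.Normal ∧ N ≠ ⊥ ∧ (N ≤ A ∨ N ≤ B) := by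
  by_contra hc
  have h : ∀ N : Subgroup G, N.Normal → N ≤ A ∨ N ≤ B → N = ⊥ := fun N hN h' => by
    by_contra hne; exact hc ⟨N, hN, hne, h'⟩
  have hf := H2.fac_top hAB
  have h1 := aux2 (D := ⁅(⊤ : Subgroup G), (⊤ : Subgroup G)⁆) ‹_› ‹_› hf le_rfl
    (BG.Amb.der_eq_bot_iff.1 (S0572.result A B hAB)) h
  have h2 : ∀ N : Subgroup G, N.Normal := fun N => Core.normal_of_le_normalizer
    (BG.Amb.le_norm_of_der_le (h1 ▸ bot_le) le_top)
  have := hf.sup_eq
  rw [h A (h2 A) (Or.inl le_rfl), h B (h2 B) (Or.inr le_rfl), bot_sup_eq] at this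
  exact bot_ne_top this

end Cfsg.Agent.S0573
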