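import Mathlib
import Cfsg.Agent.Core.Super
import Cfsg.Agent.S0573
import Cfsg.Statements.S0571
-- import your own Cfsg.Agent.* helpers here

set_option autoImplicit false
open Cfsg

namespace Cfsg.Agent.S0571

theorem aux.{u} (G : Type u) [Group G] [Finite G] : ∀ (A B : Subgroup G), IsCyclic A → IsCyclic B →
    (∀ g : G, ∃ a ∈ A, ∃ b ∈ B, g = a * b) → Cfsg.IsSupersolvable G := by
  refine Core.induction_on_card (P := fun G _ _ => ∀ (A B : Subgroup G), IsCyclic A → IsCyclic B →
    (∀ g : G, ∃ a ∈ A, ∃ b ∈ B, g = a * b) → Cfsg.IsSupersolvable G)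
    (fun G _ _ ih A B hA hB hAB => ?_) G
  rcases subsingleton_or_nontrivial G with _ | _
  · exact Core.isSupersolvable_of_subsingleton
  obtain ⟨N, hN, hne, hle⟩ := Cfsg.Agent.S0573.result A B hAB
  refine Core.isSupersolvable_of_quotient N
    (hle.elim (fun h => Subgroup.isCyclic_of_le h) fun h => Subgroup.isCyclic_of_le h)
    (ih _ (Core.card_quotient_lt N hne) (A.map (QuotientGroup.mk' N)) (B.map (QuotientGroup.mk' N))
      (isCyclic_of_surjective _ (MonoidHom.subgroupMap_surjective _ A))
      (isCyclic_of_surjective _ (MonoidHom.subgroupMap_surjective _ B)) fun g => ?_)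
  obtain ⟨g, rfl⟩ := QuotientGroup.mk'_surjective N g
  obtain ⟨a, ha, b, hb, rfl⟩ := hAB g
  exact ⟨_, ⟨a, ha, rfl⟩, _, ⟨b, hb, rfl⟩, map_mul _ _ _⟩

/-- If a finite group G is the product AB of two cyclic subgroups (every element is a product ab), then G is supersolvable. -/
theorem result {G : Type*} [Group G] [Finite G] (A B : Subgroup G) [IsCyclic A] [IsCyclic B] (hAB : ∀ g : G, ∃ a ∈ A, ∃ b ∈ B, g = a * b) : Cfsg.IsSupersolvable G := by
  exact aux G A B inferInstance inferInstance hAB

end Cfsg.Agent.S0571
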