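import Mathlib
import Cfsg.Statements.S0574
import Cfsg.Agent.H2.KW
import Cfsg.Agent.S0572

set_option autoImplicit false
open scoped Pointwise commutatorElement
open Cfsg

namespace Cfsg.Agent.S0574

open Cfsg.Agent.BG Cfsg.Agent.BG.Amb Cfsg.Agent.H2 Subgroup in
theorem ito {G : Type*} [Group G] {A B L : Subgroup G} (hA : IsMulCommutative A)
    (hB : IsMulCommutative B) (hf : Fac A B L) : ⁅⁅L, L⁆, ⁅L, L⁆⁆ = ⊥ := by
  have h := congrArg (map L.subtype) (S0572.result _ _ hf.subgroupOf.top)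
  rwa [derivedSeries_succ, derivedSeries_one, map_commutator, Core.map_commutator_subtype,
    Subgroup.map_bot] at h

open Cfsg.Agent.BG Cfsg.Agent.BG.Amb Cfsg.Agent.H2 Subgroup in
theorem exists_normal {G : Type*} [Group G] [Finite G] {A B : Subgroup G} (hA : IsMulCommutative A)
    (hB : ⁅B, B⁆ ≤ 𝐂(B)) (hf : Fac A B ⊤) (hne : ⁅B, B⁆ ≠ ⊥) :
    ∃ M : Subgroup G, M.Normal ∧ M ⊓ ⁅B, B⁆ ≠ ⊥ ∧ ⁅⁅M, M⁆, ⁅M, M⁆⁆ = ⊥ := by
  have hs := kegel_wielandt_top G A B (nilpotent_of_comm hA)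
    (Core.nilpotent_of_commutator_le_centralizer hB) hf
  obtain ⟨M, ⟨hM, hM0⟩, hmin⟩ := (wellFounded_lt (α := Subgroup G)).has_min
    {M | M.Normal ∧ M ⊓ ⁅B, B⁆ ≠ ⊥} ⟨⊤, inferInstance, by rwa [top_inf_eq]⟩
  refine ⟨M, hM, hM0, ?_⟩
  obtain ⟨z, hz, hz1⟩ := exists_mem_ne_one hM0
  have h1 : ⁅M, M⁆ ⊓ ⁅B, B⁆ = ⊥ := by
    by_contra h
    exact hmin _ ⟨inferInstance, h⟩ (der_lt inferInstance (ne_bot_mono hM0 inf_le_left))
  have h2 : normalClosure ((zpowers z : Subgroup G) : Set G) = M := by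
    refine eq_of_le_of_not_lt (normalClosure_le_normal (zpowers_le.2 hz.1)) (hmin _ ⟨inferInstance,
      ne_bot_of_mem (mem_inf.2 ⟨le_normalClosure (mem_zpowers z), hz.2⟩) hz1⟩)
  set f := QuotientGroup.mk' ⁅M, M⁆
  have hMc : IsMulCommutative (M.map f) := comm_of_le_cent (map_le_cent_map_iff.2 le_rfl)
  have h3 : (B ⊓ (A ⊔ M)).map f ≤ (A.map f ⊓ 𝐂(M.map f)) ⊔ M.map f := by
    rintro _ ⟨b, ⟨hb, hb'⟩, rfl⟩
    obtain ⟨a, ha, m, hm, rfl⟩ := (Core.mem_sup_of_le_normalizer' le_norm_of_normal).1 hb'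
    rw [map_mul]
    refine mul_mem_sup (mem_inf.2 ⟨mem_map_of_mem f ha, ?_⟩) (mem_map_of_mem f hm)
    rw [← le_cent1_iff, map_le_iff_le_comap]
    refine h2.ge.trans <| (hf.symm.mono le_rfl (B' := (𝐂[f a]).comap f) (map_le_iff_le_comap.1
      (le_cent1_iff.2 (comm_le_cent inferInstance (mem_map_of_mem f ha)))) le_top
      le_top).normalClosure_le (le_norm_of_le_cent (le_cent_symm (zpowers_le.2 (hB hz.2))))
      (zpowers_le.2 (mem_comap.2 (mem_cent1_comm.1 ?_)))
    have e1 : f (a * m) ∈ 𝐂[f z] := mem_cent1.2 (by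
      rw [← map_mul, ← map_mul, mem_cent.1 (hB hz.2) _ hb])
    rw [map_mul] at e1
    exact (Subgroup.mul_mem_cancel_right _ (mem_cent1_of_mem_cent
      (comm_le_cent hMc (mem_map_of_mem f hm)) (mem_map_of_mem f hz.1))).1 e1
  have h4 : IsMulCommutative (B ⊓ (A ⊔ M) : Subgroup G) := by
    refine der_eq_bot_iff.1 (eq_bot_iff.2 (h1 ▸ le_inf (map_le_cent_map_iff.1 (comm_le_cent
      (comm_mono (comm_sup (comm_mono inferInstance inf_le_left) hMc inf_le_right) h3)))
      (der_mono inf_le_left)))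
  exact eq_bot_iff.2 (ito hA h4 (hf.inf_right le_sup_left le_top) ▸ der_mono (der_mono le_sup_right))

open Cfsg.Agent.BG Cfsg.Agent.BG.Amb Cfsg.Agent.H2 Subgroup in
theorem aux.{u} (n : ℕ) : ∀ (G : Type u) [Group G] [Finite G] (A B : Subgroup G),
    IsMulCommutative A → ⁅B, B⁆ ≤ 𝐂(B) → Fac A B ⊤ →
    ArithmeticFunction.cardFactors (Nat.card ↥⁅B, B⁆) ≤ n → derivedSeries G (2 * (1 + n)) = ⊥ := by
  have base : ∀ (n : ℕ) (G : Type u) [Group G] [Finite G] (A B : Subgroup G),
      IsMulCommutative A → Fac A B ⊤ → ⁅B, B⁆ = ⊥ → derivedSeries G (2 * (1 + n)) = ⊥ := by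
    intro n G _ _ A B hA hf h
    have := der_eq_bot_iff.1 h
    exact eq_bot_iff.2 (S0572.result A B hf.top ▸ derivedSeries_antitone G (by omega))
  induction n with
  | zero =>
    intro G _ _ A B hA hB hf h
    refine base 0 G A B hA hf (eq_bot_of_card_eq _ ?_)
    exact (ArithmeticFunction.cardFactors_eq_zero_iff_eq_zero_or_one.1
      (Nat.le_zero.1 h)).resolve_left Nat.card_pos.ne'
  | succ n ih =>
    intro G _ _ A B hA hB hf h
    by_cases hne : ⁅B, B⁆ = ⊥
    · exact base _ G A B hA hf hne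
    obtain ⟨M, hM, hM0, hM2⟩ := exists_normal hA hB hf hne
    have hs := QuotientGroup.mk'_surjective M
    have h1 := ih (G ⧸ M) (A.map (QuotientGroup.mk' M)) (B.map (QuotientGroup.mk' M)) inferInstance
      (by rw [← map_commutator, map_le_cent_map_iff, le_cent_iff_comm_eq_bot.1 hB]; exact bot_le)
      (hf.map_top hs) (by
        have e := Core.card_inf_mul_relIndex M ⁅B, B⁆
        have e2 : M.relIndex ⁅B, B⁆ = Nat.card (⁅B, B⁆.map (QuotientGroup.mk' M)) := by
          rw [← relIndex_ker, QuotientGroup.ker_mk']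
        rw [← e, e2, ArithmeticFunction.cardFactors_mul Nat.card_pos.ne' Nat.card_pos.ne',
          map_commutator] at h
        have := ArithmeticFunction.cardFactors_pos_iff_one_lt.2 ((one_lt_card_iff_ne_bot _).2 hM0)
        omega)
    rw [← map_derivedSeries_eq hs, map_mk'_eq_bot_iff] at h1
    rw [show 2 * (1 + (n + 1)) = 2 * (1 + n) + 1 + 1 by ring, derivedSeries_succ, derivedSeries_succ,
      eq_bot_iff, ← hM2]
    exact der_mono (der_mono h1)

/-- Let the finite group G be the product AB of an abelian subgroup A and a subgroup B of nilpotency class at most two, and let Ω be the number of prime factors, with multiplicity, of the order of the commutator subgroup of B. Then the term of index 2(1 + Ω) of the derived series of G is trivial. -/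
theorem result {G : Type*} [Group G] [Finite G] (A B : Subgroup G) [IsMulCommutative A] (hB : commutator ↥B ≤ Subgroup.center ↥B) (hAB : ∀ g : G, ∃ a ∈ A, ∃ b ∈ B, g = a * b) : derivedSeries G (2 * (1 + (Nat.card ↥(commutator ↥B)).primeFactorsList.length)) = ⊥ := by
  refine aux _ G A B ‹_› ?_ (H2.fac_top hAB) ?_
  · rw [← Core.map_commutator_subtype]
    rintro _ ⟨x, hx, rfl⟩
    exact BG.Amb.mem_cent.2 fun y hy =>
      congrArg Subtype.val (Subgroup.mem_center_iff.1 (hB hx) ⟨y, hy⟩)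
  · rw [← Core.map_commutator_subtype, Core.card_map_subtype, ArithmeticFunction.cardFactors_apply]

end Cfsg.Agent.S0574
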