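import Mathlib
import Cfsg.Statements.S0576
import Cfsg.Agent.H2.Fratt

set_option autoImplicit false
open scoped Pointwise commutatorElement
open Cfsg

namespace Cfsg.Agent.S0576

/-- Let H be a normal subgroup of a finite group G with H contained in the Frattini subgroup of G. Then the group of inner automorphisms of H is contained in the Frattini subgroup of the automorphism group of H. -/
theorem result {G : Type*} [Group G] [Finite G] (H : Subgroup G) [H.Normal] (hH : H ≤ frattini G) : (MulAut.conj : ↥H →* MulAut ↥H).range ≤ frattini (MulAut ↥H) := by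
  rw [Core.le_frattini_iff]
  intro M hM
  by_contra hle
  have hn : (MulAut.conj : ↥H →* MulAut ↥H).range.Normal := ⟨by
    rintro _ ⟨x, rfl⟩ φ
    exact ⟨φ x, by ext y; simp⟩⟩
  have hs := H2.coatom_sup_eq_top hM hle
  have h1 : M.comap (MulAut.conjNormal : G →* MulAut H) ⊔ H = ⊤ := by
    rw [eq_top_iff]
    intro g _
    obtain ⟨_, ⟨x, rfl⟩, m, hm, e⟩ := (Core.mem_sup_of_le_normalizer H2.le_norm_of_normal).1
      (hs ▸ Subgroup.mem_top (MulAut.conjNormal g : MulAut H))
    have : (x : G)⁻¹ * g ∈ M.comap (MulAut.conjNormal : G →* MulAut H) := by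
      rw [Subgroup.mem_comap, map_mul, map_inv, MulAut.conjNormal_val, e, inv_mul_cancel_left]
      exact hm
    rw [← mul_inv_cancel_left (x : G) g]
    exact Subgroup.mul_mem _ (Subgroup.mem_sup_right x.2) (Subgroup.mem_sup_left this)
  have h2 := Core.eq_top_of_sup_le_frattini hH h1
  refine hle ?_
  rintro _ ⟨x, rfl⟩
  rw [← MulAut.conjNormal_val]
  exact (h2 ▸ Subgroup.mem_top (x : G) : (x : G) ∈ M.comap (MulAut.conjNormal : G →* MulAut H))

end Cfsg.Agent.S0576
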