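import Mathlib
import Cfsg.Statements.S0577
import Cfsg.Agent.H2.Schmidt

set_option autoImplicit false
open scoped Pointwise commutatorElement
open Cfsg

namespace Cfsg.Agent.S0577

open Cfsg.Agent.BG Cfsg.Agent.BG.Amb Cfsg.Agent.H2 Subgroup in
theorem aux {G : Type*} [Group G] [Finite G] (hG : Cfsg.IsMinimalNonNilpotent G) (q : ℕ)
    [Fact q.Prime] (hq : q ∣ Nat.card G) {Q : Subgroup G} (hQ : IsSylowOf q Q ⊤) [Q.Normal]
    (K : Subgroup G) (hK : K ≠ ⊤) : ⁅K, K⁆ ≤ ⁅Q, Q⁆ := by
  obtain ⟨p, r, R, x, hp, hr, hpr, hR, hx, hn, hc, ht⟩ := H2.schmidt hG.1 hG.2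
  have := Fact.mk hp
  have := Fact.mk hr
  have hd : q ∣ Nat.card R * Nat.card (zpowers x) := by
    refine hq.trans ?_
    rw [← card_top, ← ht]
    exact Core.card_sup_dvd le_norm_of_normal
  rcases (Nat.Prime.dvd_mul Fact.out).1 hd with hd | hd
  swap
  · obtain rfl : q = p := hall_pi hx q Fact.out hd
    exact (hc (le_cent_of_disjoint (A := Q) le_norm_of_normal le_norm_of_normal
      (pi_inf_eq_bot (hall_pi hQ) (pi_of_isPGroup (sylow_isPGroup hR) hpr.symm))
      (by rw [← normal_hall_unique hQ le_norm_of_normal hx]; exact mem_zpowers x))).elim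
  obtain rfl : q = r := hall_pi hR q Fact.out hd
  obtain rfl := normal_hall_unique hQ le_norm_of_normal hR
  have h1 : ⁅(⊤ : Subgroup G), (⊤ : Subgroup G)⁆ ≤ R :=
    ht ▸ der_sup_le_of_comm le_norm_of_normal inferInstance
  obtain ⟨h2, -, h3⟩ := nil_dProd {q} (hG.2 K hK)
  rw [← h2]
  refine der_sup_le le_norm_of_normal (der_mono (le_normal_hall hQ le_norm_of_normal le_top
    (piCoreOf_pi _ _))) ?_ ?_
  · rw [le_cent_iff_comm_eq_bot'.1 h3]; exact bot_le
  · rw [eq_bot_of_le_of_pi (hall_pi hQ) (piCoreOf_pi {q}ᶜ K) ((der_mono le_top).trans h1) (der_le _)]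
    exact bot_le

/-- Let G be a finite minimal non-nilpotent group and Q a normal Sylow q-subgroup of G, and let D be the commutator subgroup of Q regarded in G (a normal subgroup). Then G modulo D is non-abelian and all its proper subgroups are abelian. -/
theorem result {G : Type*} [Group G] [Finite G] (hG : Cfsg.IsMinimalNonNilpotent G) (q : ℕ) [Fact q.Prime] (hq : q ∣ Nat.card G) (Q : Sylow q G) (hQ : (Q : Subgroup G).Normal) (D : Subgroup G) [D.Normal] (hD : D = (commutator ↥(Q : Subgroup G)).map (Q : Subgroup G).subtype) : ¬ IsMulCommutative (G ⧸ D) ∧ ∀ K : Subgroup (G ⧸ D), K ≠ ⊤ → IsMulCommutative K := by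
  rw [Core.map_commutator_subtype] at hD
  subst hD
  constructor
  · intro h
    exact hG.1 (Core.nilpotent_of_quotient_of_le_frattini _ (H2.der_le_frattini_of_nilpotent
      (BG.Amb.nilpotent_of_isPGroup Q.isPGroup'))
      (Group.nilpotent_of_mulEquiv (_h := BG.Amb.nilpotent_of_comm inferInstance) Subgroup.topEquiv))
  · intro K hK
    rw [← H2.map_comap_mk' K]
    refine BG.Amb.comm_of_le_cent (H2.map_le_cent_map_iff.2
      (aux hG q hq (BG.Amb.isSylowOf_top Q) _ fun e => hK ?_))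
    rw [← H2.map_comap_mk' K, e, H2.map_mk'_top]

end Cfsg.Agent.S0577
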