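import Mathlib
import Cfsg.Statements.S0578
import Cfsg.Agent.H2.Schmidt

set_option autoImplicit false
open scoped Pointwise commutatorElement
open Cfsg

namespace Cfsg.Agent.S0578

open Cfsg.Agent.BG Cfsg.Agent.BG.Amb Cfsg.Agent.H2 Subgroup in
theorem aux {G : Type*} [Group G] [Finite G] (h : ∀ A : Subgroup G, IsMulCommutative A → 𝐍(A) = 𝐂(A))
    (H : Subgroup G) : IsMulCommutative H := by
  induction H using (wellFounded_lt (α := Subgroup G)).induction with
  | _ H ih =>
  by_cases hb : H = ⊥
  · subst hb; exact comm_of_le_cent bot_le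
  have hs : Group.IsSolvable H :=
    solvable_of_forall_lt_nilpotent fun K hK => nilpotent_of_comm (ih K hK)
  have key : ∀ K, ⁅H, H⁆ ≤ K → K < H → H ≤ 𝐂(K) := fun K h1 h2 =>
    h K (ih K h2) ▸ le_norm_of_der_le h1 h2.le
  refine comm_of_le_cent fun x hx => ?_
  rcases (sup_le (der_le H) (zpowers_le.2 hx)).lt_or_eq with h1 | h1
  · exact le_cent_symm (key _ le_sup_left h1) (le_sup_right (a := ⁅H, H⁆) (mem_zpowers x))
  · rw [← h1, cent_sup]
    exact ⟨key _ le_rfl (der_lt hs hb) hx, comm_le_cent inferInstance (mem_zpowers x)⟩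

/-- If in a finite group the normalizer of each abelian subgroup coincides with its centralizer, then the group is abelian. -/
theorem result {G : Type*} [Group G] [Finite G] (h : ∀ A : Subgroup G, IsMulCommutative A → Subgroup.normalizer (A : Set G) = Subgroup.centralizer (A : Set G)) : IsMulCommutative G := by
  have := aux h ⊤
  exact ⟨⟨fun a b => Core.comm_of_isMulCommutative this trivial trivial⟩⟩

end Cfsg.Agent.S0578
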