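import Mathlib
import Cfsg.Statements.S0587
import Cfsg.Agent.H2.Primitive

set_option autoImplicit false
open scoped Pointwise commutatorElement
open Cfsg

namespace Cfsg.Agent.S0587

/-- Let G be a finite group whose largest normal p-subgroup L is nontrivial, and M a maximal subgroup of G with trivial normal core. Then L is elementary abelian, M is a complement to L, L is a minimal normal subgroup of G, the centralizer of L is L, and for every prime q such that the largest normal q-subgroup of M is nontrivial, the order of L is congruent to 1 modulo q and q ≠ p. -/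
theorem result {G : Type*} [Group G] [Finite G] (p : ℕ) [Fact p.Prime] (hL : Cfsg.pCore p G ≠ ⊥) (M : Subgroup G) (hM : IsCoatom M) (hcore : M.normalCore = ⊥) : Cfsg.IsElementaryAbelian p (Cfsg.pCore p G) ∧ Subgroup.IsComplement' (Cfsg.pCore p G) M ∧ (∀ K : Subgroup G, K.Normal → K ≤ Cfsg.pCore p G → K = ⊥ ∨ K = Cfsg.pCore p G) ∧ Subgroup.centralizer ((Cfsg.pCore p G : Subgroup G) : Set G) = Cfsg.pCore p G ∧ ∀ (q : ℕ) [Fact q.Prime], Cfsg.pCore q ↥M ≠ ⊥ → Nat.card (Cfsg.pCore p G) % q = 1 % q ∧ q ≠ p := by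
  have h : H2.CoreFree M := ⟨hM, hcore⟩
  have hc := h.comm_of_nilpotent (Core.pCore_nilpotent (G := G) p)
  have hmin := h.minN_of_comm hL hc
  have hd := Core.prime_dvd_card_of_isPGroup (Core.pCore_isPGroup (G := G) p) hL
  refine ⟨?_, H2.isComplement'_of_normal (h.inf_eq_bot_of_comm hL hc) (h.sup_eq_top hmin.1 hL),
    hmin.2.2, h.cent_eq_of_comm hL hc, fun q _ hq => ?_⟩
  · obtain ⟨r, hr, hel⟩ := hmin.elementary (BG.Amb.solvable_of_comm hc)
    have := Fact.mk hr
    obtain rfl : p = r := BG.Amb.isPGroup_iff_pi.1 (Core.IsElementaryAbelian.isPGroup hel) p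
      Fact.out hd
    exact hel
  · have h0 : piCoreOf {q} M ≠ ⊥ := by
      rw [BG.Amb.piCoreOf_singleton_eq, Ne, Subgroup.map_eq_bot_iff_of_injective _
        M.subtype_injective]
      exact hq
    have h1 := H2.card_modEq_inf_cent (L := pCore p G) (BG.Amb.piCoreOf_isPGroup (p := q) M)
      H2.le_norm_of_normal
    rw [h.inf_cent_eq_bot hL hc (BG.Amb.piCoreOf_le _ _) (BG.Amb.le_norm_piCoreOf _ _) h0,
      Subgroup.card_bot] at h1
    refine ⟨h1, ?_⟩
    rintro rfl
    exact (Fact.out : q.Prime).one_lt.ne' (Nat.dvd_one.1 ((h1.dvd_iff dvd_rfl).1 hd))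

end Cfsg.Agent.S0587
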