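import Mathlib
import Cfsg.Statements.S0588
import Cfsg.Agent.H2.Frobenius

set_option autoImplicit false
open scoped Pointwise commutatorElement
open Cfsg

namespace Cfsg.Agent.S0588

/-- If a subgroup H of a finite group G contains the centralizer of every non-identity element of H, then the order of H is coprime to its index. -/
theorem result {G : Type*} [Group G] [Finite G] (H : Subgroup G) (h : ∀ x ∈ H, x ≠ 1 → Subgroup.centralizer ({x} : Set G) ≤ H) : (Nat.card H).Coprime H.index := by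
  by_contra hcon
  obtain ⟨p, hp, h1, h2⟩ := Nat.Prime.not_coprime_iff_dvd.1 hcon
  have := Fact.mk hp
  obtain ⟨Q⟩ : Nonempty (Sylow p H) := inferInstance
  obtain ⟨P, hP⟩ := Q.exists_comap_subtype_eq
  have hQ : (Q : Subgroup H) ≠ ⊥ := Q.ne_bot_of_dvd_card h1
  obtain ⟨⟨x, hx⟩, hx1⟩ := (Subgroup.ne_bot_iff_exists_ne_one).1 hQ
  have hxP : (x : G) ∈ (P : Subgroup G) := by
    rw [← hP] at hx; exact hx
  have hx1' : (x : G) ≠ 1 := fun h => hx1 (Subtype.ext (Subtype.ext h))
  have hnt : Nontrivial (P : Subgroup G) := ⟨⟨⟨x, hxP⟩, 1, fun h => hx1' (congrArg Subtype.val h)⟩⟩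
  have := P.isPGroup'.center_nontrivial
  obtain ⟨⟨z, hz⟩, hz1⟩ := exists_ne (1 : Subgroup.center (P : Subgroup G))
  have hzc : ∀ y ∈ (P : Subgroup G), y ∈ Subgroup.centralizer {(z : G)} := fun y hy => by
    rw [Subgroup.mem_centralizer_singleton_iff]
    exact congrArg Subtype.val (Subgroup.mem_center_iff.1 hz ⟨y, hy⟩)
  have hzH : (z : G) ∈ H := h x x.2 hx1' (by
    rw [Subgroup.mem_centralizer_singleton_iff]
    exact (Subgroup.mem_centralizer_singleton_iff.1 (hzc x hxP)).symm)
  have hPH : (P : Subgroup G) ≤ H := fun y hy =>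
    h z hzH (fun h => hz1 (Subtype.ext (Subtype.ext h))) (hzc y hy)
  exact P.not_dvd_index (h2.trans (Subgroup.index_dvd_of_le hPH))

end Cfsg.Agent.S0588
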