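import Mathlib
import Cfsg.Statements.S0590
import Cfsg.Agent.PLocal.Replace
import Cfsg.Agent.PLocal.Stable

set_option autoImplicit false
open Cfsg

namespace Cfsg.Agent.S0590

/-- Quadratic action on an elementary abelian p-group forces the acting group modulo the kernel of the action to be elementary abelian. -/
theorem result {G : Type*} [Group G] [Finite G] {p : ℕ} [Fact p.Prime] (V H : Subgroup G) (hV : Cfsg.IsElementaryAbelian p V) (hHV : H ≤ Subgroup.normalizer (V : Set G)) (hq : ⁅⁅V, H⁆, H⁆ = ⊥) : ⁅H, H⁆ ≤ Subgroup.centralizer (V : Set G) ∧ ∀ a ∈ H, a ^ p ∈ Subgroup.centralizer (V : Set G) := by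
  refine ⟨LocalEven.commutator_eq_bot_iff.1 (Subgroup.commutator_commutator_eq_bot_of_rotate ?_ hq),
    fun a haH v hv => ?_⟩
  · rwa [Subgroup.commutator_comm H V]
  · have h2 := PLocal.Quad.of_commutator hq haH v hv
    rw [commutatorElement_eq_one_iff_commute] at h2
    have h3 := (PGrp.commutator_pow_left_of_commute h2 p).trans
      (hV.2 _ (V.mul_mem (Core.conj_mem_of_le_normalizer hHV haH hv) (V.inv_mem hv)))
    rw [commutatorElement_eq_one_iff_mul_comm] at h3
    exact h3.symm

end Cfsg.Agent.S0590
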