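import Mathlib
import Cfsg.Statements.S0591
import Cfsg.Agent.PLocal.Replace
import Cfsg.Agent.PLocal.Stable

set_option autoImplicit false
open Cfsg

namespace Cfsg.Agent.S0591

/-- For a quadratically acting element a on an elementary abelian p-group V, the fixed points C_V(a) have order at least the square root of the order of V. -/
theorem result {G : Type*} [Group G] [Finite G] {p : ℕ} [Fact p.Prime] (V : Subgroup G) (hV : Cfsg.IsElementaryAbelian p V) (a : G) (ha : a ∈ Subgroup.normalizer (V : Set G)) (hq : ⁅⁅V, Subgroup.zpowers a⁆, Subgroup.zpowers a⁆ = ⊥) : Nat.card V ≤ Nat.card ↥(V ⊓ Subgroup.centralizer (Subgroup.zpowers a : Set G)) ^ 2 := by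
  have h1 := PGrp.relIndex_centralizer_singleton_le (H := V)
    (W := V ⊓ Subgroup.centralizer (Subgroup.zpowers a : Set G)) (x := a) fun g hg => by
      have h2 := Subgroup.commutator_mem_commutator hg (Subgroup.mem_zpowers a)
      exact ⟨LocalEven.commutator_le_left_of_le_normalizer (Subgroup.zpowers_le.2 ha) h2,
        LocalEven.commutator_eq_bot_iff.1 hq h2⟩
  rw [← Core.card_inf_mul_relIndex (Subgroup.centralizer {a}) V, sq, inf_comm,
    ← PGrp.centralizer_zpowers]
  rw [← PGrp.centralizer_zpowers] at h1
  exact Nat.mul_le_mul_left _ h1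

end Cfsg.Agent.S0591
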