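import Mathlib
import Cfsg.Statements.S0592
import Cfsg.Agent.PLocal.SL2
import Cfsg.Agent.Classical.SL2Basic

set_option autoImplicit false
open Cfsg

namespace Cfsg.Agent.S0592

open Polynomial in
theorem exists_eigenvalue {K : Type*} [Field K] [Fintype K] {p : ℕ} [Fact p.Prime] [CharP K p]
    {W : Type*} [AddCommGroup W] [Module K W] [FiniteDimensional K W] [Nontrivial W]
    (g : Module.End K W) {e : ℕ} (hg : g ^ (p ^ e * (Fintype.card K - 1)) = 1) :
    IsNilpotent (g - 1) ∨ ∃ μ : K, μ ≠ 1 ∧ g.HasEigenvalue μ := by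
  haveI : CharP (Module.End K W) p := charP_of_injective_algebraMap' K p
  have h1 : aeval g ((X ^ Nat.card K - X : K[X]) ^ p ^ e) = 0 := by
    rw [sub_pow_char_pow, map_sub, map_pow, map_pow, map_pow, aeval_X, ← pow_mul,
      Nat.card_eq_fintype_card]
    obtain ⟨q, hq⟩ : ∃ q, Fintype.card K = q + 1 := Nat.exists_eq_succ_of_ne_zero Fintype.card_ne_zero
    rw [hq] at hg ⊢
    rw [add_mul, pow_add, mul_comm q, ← Nat.add_sub_cancel q 1, hg, one_mul, one_mul, sub_self]
  have h2 : Splits (minpoly K g) := ((Polynomial.splits_X_pow_nat_card_sub_X (K := K)).pow _).of_dvd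
    (pow_ne_zero _ (FiniteField.X_pow_card_sub_X_ne_zero K Finite.one_lt_card)) (minpoly.dvd K g h1)
  by_contra hcon
  push Not at hcon
  apply hcon.1
  have h3 : (minpoly K g).roots = Multiset.replicate (minpoly K g).roots.card 1 :=
    Multiset.eq_replicate_card.2 fun μ hμ => by
      by_contra h
      exact hcon.2 μ h (Module.End.hasEigenvalue_of_isRoot (isRoot_of_mem_roots hμ))
  have h4 := h2.eq_prod_roots_of_monic (minpoly.monic (LinearMap.isIntegral g))
  rw [h3, Multiset.map_replicate, Multiset.prod_replicate] at h4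
  refine ⟨(minpoly K g).roots.card, ?_⟩
  have h5 := minpoly.aeval K g
  rw [h4] at h5
  simpa using h5

/-- Two quadratically acting generators of a linear group that is not a p-group, with the p'-part of the order of their product dividing q - 1, give a homomorphism onto a subgroup of SL(2, q) that is not a p-group. -/
theorem result {K : Type*} [Field K] [Fintype K] {p : ℕ} [Fact p.Prime] [CharP K p] {W : Type*} [AddCommGroup W] [Module K W] [FiniteDimensional K W] [Finite W] [Nontrivial W] (H : Subgroup (W ≃ₗ[K] W)) (a b : W ≃ₗ[K] W) (hH : H = Subgroup.closure {a, b}) (ha : ∀ w : W, a (a w - w) = a w - w) (hb : ∀ w : W, b (b w - w) = b w - w) (hnp : ¬ IsPGroup p H) (hk : ∃ e k : ℕ, orderOf (a * b) = p ^ e * k ∧ k ∣ Fintype.card K - 1) : ∃ φ : H →* Matrix.SpecialLinearGroup (Fin 2) K, ¬ IsPGroup p φ.range := by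
  obtain ⟨e, k, hek, hk⟩ := hk
  let ρ : (W ≃ₗ[K] W) →* Module.End K W := LinearEquiv.automorphismGroup.toLinearMapMonoidHom
  have hρ : Function.Injective ρ := LinearEquiv.toLinearMap_injective
  haveI : CharP (Module.End K W) p := charP_of_injective_algebraMap' K p
  set A₀ := ρ a - 1 with hA₀
  set B₀ := ρ b - 1 with hB₀
  have ha' : A₀ * A₀ = 0 := LinearMap.ext fun w => sub_eq_zero.2 (ha w)
  have hb' : B₀ * B₀ = 0 := LinearMap.ext fun w => sub_eq_zero.2 (hb w)
  set C₀ := A₀ * B₀ + B₀ * A₀ with hC₀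
  let T : Subalgebra K (Module.End K W) := Subalgebra.centralizer K {C₀}
  have hAT : A₀ ∈ T := by
    intro x hx
    rw [Set.mem_singleton_iff.mp hx, hC₀, add_mul, mul_add, mul_assoc B₀, ha', ← mul_assoc,
      ← mul_assoc, ha']; simp
  have hBT : B₀ ∈ T := by
    intro x hx
    rw [Set.mem_singleton_iff.mp hx, hC₀, add_mul, mul_add, mul_assoc A₀, hb', ← mul_assoc,
      ← mul_assoc, hb']; simp
  let A : T := ⟨A₀, hAT⟩
  let B : T := ⟨B₀, hBT⟩
  have hA : A * A = 0 := Subtype.ext ha'
  have hB : B * B = 0 := Subtype.ext hb'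
  have hcen : ∀ x : T, Commute (A * B + B * A) x := fun x => Subtype.ext (x.2 C₀ rfl)
  letI : Algebra (Polynomial K) T := (Polynomial.aeval (A * B + B * A)).toRingHom.toAlgebra'
    fun z x => by
      induction z using Polynomial.induction_on' with
      | add u v hu hv => rw [map_add, add_mul, mul_add, hu, hv]
      | monomial n c =>
        change Polynomial.aeval _ _ * x = x * Polynomial.aeval _ _
        rw [Polynomial.aeval_monomial]
        exact (Commute.mul_left (Algebra.commutes c x) ((hcen x).pow_left n)).eq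
  have hsm : ∀ z : Polynomial K, z • (1 : T) = Polynomial.aeval (A * B + B * A) z :=
    fun z => mul_one _
  have hC : A * B + B * A = (Polynomial.X : Polynomial K) • (1 : T) := by
    rw [hsm, Polynomial.aeval_X]
  have ha'' : ρ a = T.val.toRingHom (1 + A) := by simp [A, hA₀]
  have hb'' : ρ b = T.val.toRingHom (1 + B) := by simp [B, hB₀]
  have hg : ρ (a * b) = (1 + A₀) * (1 + B₀) := by simp [hA₀, hB₀]
  have hgC : ρ (a * b) * C₀ = (ρ (a * b) - 1) ^ 2 := by
    rw [hg, hC₀]
    have e1 : ∀ x, A₀ * (A₀ * x) = 0 := fun x => by rw [← mul_assoc, ha', zero_mul]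
    have e2 : ∀ x, B₀ * (B₀ * x) = 0 := fun x => by rw [← mul_assoc, hb', zero_mul]
    simp only [sq, mul_add, add_mul, mul_sub, sub_mul, mul_one, one_mul, mul_assoc, e1, e2, ha', hb',
      mul_zero]
    abel
  have hpow : ρ (a * b) ^ (p ^ e * (Fintype.card K - 1)) = 1 := by
    rw [← map_pow, orderOf_dvd_iff_pow_eq_one.1 (hek ▸ Nat.mul_dvd_mul_left _ hk), map_one]
  rcases exists_eigenvalue (ρ (a * b)) hpow with h | ⟨μ, hμ, h⟩
  · exfalso
    apply hnp
    have hnil : IsNilpotent ((Polynomial.X : Polynomial K) • (1 : T)) := by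
      rw [← hC]
      refine (IsNilpotent.map_iff (f := T.val) Subtype.val_injective).1 ?_
      change IsNilpotent C₀
      have e1 : C₀ = ρ (a * b)⁻¹ * (ρ (a * b) - 1) ^ 2 := by
        rw [← hgC, ← mul_assoc, ← map_mul, inv_mul_cancel, map_one, one_mul]
      rw [e1]
      refine Commute.isNilpotent_mul_left ?_ (h.pow_succ 1)
      exact (Commute.sub_right ((Commute.refl (a * b)).inv_left.map ρ) (Commute.one_right _)).pow_right 2
    intro g
    obtain ⟨j, hj⟩ := PLocal.pow_eq_one_of_nilpotent T.val.toRingHom ρ hA hB hC ha'' hb'' hnil p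
      (CharP.cast_eq_zero _ p) g (hH ▸ g.2)
    exact ⟨j, Subtype.ext (hρ (hj.trans (map_one ρ).symm))⟩
  · obtain ⟨w, hw⟩ := h.exists_hasEigenvector
    have hw1 : ρ (a * b) w = μ • w := hw.apply_eq_smul
    have hμ0 : μ ≠ 0 := by
      rintro rfl
      rw [zero_smul] at hw1
      exact hw.2 ((a * b).map_eq_zero_iff.1 hw1)
    have hw2 : C₀ w = ((μ - 1) ^ 2 / μ) • w := by
      apply (a * b).injective
      change ρ (a * b) (C₀ w) = ρ (a * b) _
      rw [← Module.End.mul_apply, hgC, map_smul, hw1, sq, Module.End.mul_apply]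
      simp only [LinearMap.sub_apply, Module.End.one_apply, hw1, map_sub, map_smul, smul_smul]
      rw [div_mul_cancel₀ _ hμ0]
      all_goals module
    have hl : (μ - 1) ^ 2 / μ ≠ 0 := div_ne_zero (pow_ne_zero _ (sub_ne_zero.2 hμ)) hμ0
    obtain ⟨φ, h1, h2, -⟩ := PLocal.exists_hom_SL2 T.val.toRingHom Subtype.val_injective ρ hA hB hC
      ha'' hb'' (Polynomial.evalRingHom ((μ - 1) ^ 2 / μ)) (fun z hz => by
        rw [hsm] at hz
        have h3 : Polynomial.aeval C₀ z = 0 := by
          have := congrArg T.val hz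
          rwa [← Polynomial.aeval_algHom_apply, map_zero] at this
        have h4 := Module.End.aeval_apply_of_hasEigenvector (p := z)
          (⟨Module.End.mem_eigenspace_iff.2 hw2, hw.2⟩ : C₀.HasEigenvector _ w)
        rw [h3, LinearMap.zero_apply] at h4
        exact (smul_eq_zero.1 h4.symm).resolve_right hw.2) (by simpa using hl)
    subst hH
    refine ⟨φ, fun hP => hl ?_⟩
    obtain ⟨j, hj⟩ := hP ⟨_, mul_mem ⟨_, h1⟩ ⟨_, h2⟩⟩
    have h3 := PLocal.SL_trace_eq_two_of_pow p _ j (congrArg Subtype.val hj)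
    rw [Classical.SL2Basic.mul_apply, Classical.SL2Basic.mul_apply] at h3
    simp only [PLocal.upT, PLocal.loT, Polynomial.coe_evalRingHom, Polynomial.eval_X] at h3
    simp at h3
    linear_combination h3

end Cfsg.Agent.S0592
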