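import Mathlib
import Cfsg.Statements.S0594
import Cfsg.Agent.PLocal.PStable

set_option autoImplicit false
open Cfsg

namespace Cfsg.Agent.S0594

/-- For odd p, two quadratic generators of a faithful group that is not a p-group, one of which acts nontrivially on a normal subgroup of order prime to p, force p = 3 and a section isomorphic to SL(2,3). -/
theorem result {G : Type*} [Group G] [Finite G] {p : ℕ} [Fact p.Prime] (hp : p ≠ 2) (V H : Subgroup G) (hV : Cfsg.IsElementaryAbelian p V) (hHV : H ≤ Subgroup.normalizer (V : Set G)) (hf : H ⊓ Subgroup.centralizer (V : Set G) = ⊥) (a b : G) (hab : H = Subgroup.closure {a, b}) (ha : ⁅⁅V, Subgroup.zpowers a⁆, Subgroup.zpowers a⁆ = ⊥) (hb : ⁅⁅V, Subgroup.zpowers b⁆, Subgroup.zpowers b⁆ = ⊥) (hnp : ¬ IsPGroup p H) (Q : Subgroup G) (hQH : Q ≤ H) (hQn : H ≤ Subgroup.normalizer (Q : Set G)) (hQ : (Nat.card Q).Coprime p) (hQa : ⁅Q, Subgroup.zpowers a⁆ ≠ ⊥) : p = 3 ∧ ∃ (K L : Subgroup G) (hL : (L.subgroupOf K).Normal), K ≤ H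 ∧ Nonempty ((K ⧸ L.subgroupOf K) ≃* Matrix.SpecialLinearGroup (Fin 2) (ZMod 3)) := by
  have haH : a ∈ H := hab ▸ Subgroup.subset_closure (by simp)
  have hle : Q ⊔ Subgroup.zpowers a ≤ H := sup_le hQH (Subgroup.zpowers_le.2 haH)
  have hap : a ^ p = 1 := by
    have h1 : a ^ p ∈ H ⊓ Subgroup.centralizer (V : Set G) := by
      refine ⟨H.pow_mem haH p, fun v hv => ?_⟩
      have h2 := PLocal.Quad.of_zpowers ha v hv
      rw [commutatorElement_eq_one_iff_commute] at h2
      have h3 := PGrp.commutator_pow_left_of_commute h2 p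
      replace h3 := h3.trans
        (hV.2 _ (V.mul_mem (Core.conj_mem_of_le_normalizer hHV haH hv) (V.inv_mem hv)))
      rw [commutatorElement_eq_one_iff_mul_comm] at h3
      exact h3.symm
    rwa [hf] at h1
  have hpa : IsPGroup p (Subgroup.zpowers a) := LocalEven.isPGroup_zpowers (k := 1) (by simpa using hap)
  have hn : Q ⊔ Subgroup.zpowers a ≤ Subgroup.normalizer (Q : Set G) := hle.trans hQn
  have hs : Cfsg.IsPSolvable p ↥(Q ⊔ Subgroup.zpowers a) := by
    haveI := (Subgroup.normal_subgroupOf_iff_le_normalizer le_sup_left).2 hn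
    refine LocalEven.isPSolvable_of_quotient (Q.subgroupOf _)
      (Or.inr (by rwa [Core.card_subgroupOf_of_le le_sup_left])) (LocalEven.isPSolvable_of_isPGroup ?_)
    obtain ⟨k, hk⟩ := IsPGroup.iff_card.1 hpa
    have h1 : Nat.card (↥(Q ⊔ Subgroup.zpowers a) ⧸ Q.subgroupOf (Q ⊔ Subgroup.zpowers a)) ∣ p ^ k := by
      change Q.relIndex _ ∣ _
      rw [Core.relIndex_sup_of_le_normalizer (le_sup_right.trans hn), ← hk]
      exact Core.relIndex_dvd_card' _ _
    obtain ⟨j, -, hj⟩ := (Nat.dvd_prime_pow Fact.out).1 h1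
    exact IsPGroup.of_card hj
  have hna : a ∉ Cfsg.pCoreOf p (Q ⊔ Subgroup.zpowers a) := by
    intro h
    apply hQa
    have h1 : Disjoint Q (Cfsg.pCoreOf p (Q ⊔ Subgroup.zpowers a)) :=
      Core.disjoint_of_coprime (Core.coprime_of_isPGroup (LocalEven.isPGroup_pCoreOf _) hQ)
    refine le_bot_iff.1 (le_trans (le_inf ?_ ?_) h1.le_bot)
    · exact LocalEven.commutator_le_left_of_le_normalizer (le_sup_right.trans hn)
    · exact (Subgroup.commutator_mono le_rfl (Subgroup.zpowers_le.2 h)).trans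
        (LocalEven.commutator_le_right_of_le_normalizer
          (le_sup_left.trans (LocalEven.le_normalizer_pCoreOf _)))
  obtain ⟨h1, h2⟩ := PLocal.isSectionOf_of_quad hp (LocalEven.isPGroup_of_elemAb hV) (hle.trans hHV)
    (IsPGroup.of_bot.to_le ((inf_le_inf_right _ hle).trans hf.le))
    (Subgroup.mem_sup_right (Subgroup.mem_zpowers a)) (PLocal.Quad.of_zpowers ha) hna
  obtain rfl := h2 hs
  exact ⟨rfl, PLocal.exists_le_of_isSectionOf ((PLocal.isSectionOf_of_le hle).trans h1)⟩

end Cfsg.Agent.S0594
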