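import Mathlib
import Cfsg.Statements.S0595
import Cfsg.Agent.PLocal.Stable

set_option autoImplicit false
open Cfsg

namespace Cfsg.Agent.S0595

/-- For odd p, a faithful action on an elementary abelian p-group that is not p-stable forces non-abelian Sylow 2-subgroups. -/
theorem result {G : Type*} [Group G] [Finite G] {p : ℕ} [Fact p.Prime] (hp : p ≠ 2) (V H : Subgroup G) (hV : Cfsg.IsElementaryAbelian p V) (hHV : H ≤ Subgroup.normalizer (V : Set G)) (hf : H ⊓ Subgroup.centralizer (V : Set G) = ⊥) (a : G) (haH : a ∈ H) (hq : ⁅⁅V, Subgroup.zpowers a⁆, Subgroup.zpowers a⁆ = ⊥) (hna : a ∉ (Cfsg.pCore p H).map H.subtype) (T : Sylow 2 H) : ¬ IsMulCommutative T := by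
  intro hT
  have hN := (PLocal.AbelianTwo.of_sylow T hT).noQuadPair hp
  apply hna
  refine ⟨⟨a, haH⟩, H2.baer_suzuki_elem fun g => ?_, rfl⟩
  have hq' := PLocal.Quad.of_zpowers hq
  rcases PLocal.quadPair_or_pow_of_elementary hV (hHV haH)
    (hHV (H.mul_mem (H.mul_mem g.2 haH) (H.inv_mem g.2))) hq' (hq'.conj (hHV g.2)) with h | h
  · exfalso
    obtain ⟨K, _, _, _, l, φ, hl, h1, h2⟩ := h
    have hle : Subgroup.closure ({a, (g : G) * a * (g : G)⁻¹} : Set G) ≤ H := by
      rw [Subgroup.closure_le]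
      rintro _ (rfl | rfl)
      · exact haH
      · exact H.mul_mem (H.mul_mem g.2 haH) (H.inv_mem g.2)
    exact PLocal.QuadPair.not_abelianTwo hp ⟨K, inferInstance, inferInstance, inferInstance, l, φ,
      hl, h1, h2⟩ ((PLocal.AbelianTwo.of_sylow T hT).of_le hle)
  · rintro ⟨x, hx⟩
    have hx' : (x : G) ∈ Subgroup.closure ({a, (g : G) * a * (g : G)⁻¹} : Set G) := by
      have := Subgroup.mem_map_of_mem H.subtype hx
      rwa [MonoidHom.map_closure, Set.image_pair] at this
    obtain ⟨k, hk⟩ := h x hx'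
    refine ⟨k, Subtype.ext (Subtype.ext ?_)⟩
    have : (x : G) ^ p ^ k ∈ H ⊓ Subgroup.centralizer (V : Set G) := ⟨H.pow_mem x.2 _, hk⟩
    rw [hf] at this
    simpa using this

end Cfsg.Agent.S0595
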