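import Mathlib
import Cfsg.Statements.S0615
import Cfsg.Agent.PLocal.FF3

set_option autoImplicit false
open Cfsg

namespace Cfsg.Agent.S0615

/-- Two subnormal subgroups acting irreducibly on their incomparable commutator modules, in a faithful group with trivial largest normal p-subgroup, generate their direct product, and the commutator module splits accordingly. -/
theorem result {G : Type*} [Group G] [Finite G] {p : ℕ} [Fact p.Prime] (V E E₁ E₂ : Subgroup G) (hV : Cfsg.IsElementaryAbelian p V) (hEV : E ≤ Subgroup.normalizer (V : Set G)) (hf : E ⊓ Subgroup.centralizer (V : Set G) = ⊥) (hgen : E = E₁ ⊔ E₂) (hs₁ : (E₁.subgroupOf E).IsSubnormal) (hs₂ : (E₂.subgroupOf E).IsSubnormal) (hOp : Cfsg.pCore p ↥E = ⊥) (hirr₁ : (∀ U : Subgroup G, U ≤ ⁅V, E₁⁆ → E₁ ≤ Subgroup.normalizer (U : Set G) → U = ⊥ ∨ U = ⁅V, E₁⁆)) (hirr₂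 : (∀ U : Subgroup G, U ≤ ⁅V, E₂⁆ → E₂ ≤ Subgroup.normalizer (U : Set G) → U = ⊥ ∨ U = ⁅V, E₂⁆)) (h12 : ¬ ⁅V, E₁⁆ ≤ ⁅V, E₂⁆) (h21 : ¬ ⁅V, E₂⁆ ≤ ⁅V, E₁⁆) (hc₁ : 2 < Nat.card E₁) (hc₂ : 2 < Nat.card E₂) : ⁅E₁, E₂⁆ = ⊥ ∧ E₁ ⊓ E₂ = ⊥ ∧ ⁅V, E₁⁆ ⊓ ⁅V, E₂⁆ = ⊥ ∧ ⁅V, E⁆ = ⁅V, E₁⁆ ⊔ ⁅V, E₂⁆ := by
  have h₁ : E₁ ≤ E := hgen ▸ le_sup_left
  have h₂ : E₂ ≤ E := hgen ▸ le_sup_right
  obtain ⟨h1, h2⟩ := PLocal.prod_of_irrOn hV hEV hf (LocalEven.pCoreOf_eq_bot_iff.2 hOp)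
    (H2.SN.of_subgroupOf h₁ hs₁) (H2.SN.of_subgroupOf h₂ hs₂) hirr₁ hirr₂ h12 h21 hc₁ hc₂
  refine ⟨h1, PLocal.eq_bot_of_le_centralizer hf (inf_le_left.trans h₁) ?_, h2, ?_⟩
  · rw [Core.le_centralizer_iff_commutator_eq_bot, ← le_bot_iff, ← h2]
    exact le_inf (Subgroup.commutator_mono le_rfl inf_le_left)
      (Subgroup.commutator_mono le_rfl inf_le_right)
  · rw [hgen, PLocal.commutator_sup_eq (h₁.trans hEV) (h₂.trans hEV)]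

end Cfsg.Agent.S0615
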