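import Mathlib
import Cfsg.Statements.S0620
import Cfsg.Agent.PLocal.FF8

set_option autoImplicit false
open Cfsg

namespace Cfsg.Agent.S0620

/-- Under coprime action of an elementary abelian q-group X on a p-separable group K with trivial p'-core, K is generated by the normalizer of J(S), the centralizer of Ω₁(Z(S)) and the fixed points of X. -/
theorem result {G : Type*} [Group G] [Finite G] {p : ℕ} [Fact p.Prime] {q : ℕ} [Fact q.Prime] (K X : Subgroup G) (hXK : X ≤ Subgroup.normalizer (K : Set G)) (hX : Cfsg.IsElementaryAbelian q X) (hq : ¬ q ∣ Nat.card K) (hsep : Cfsg.IsPSolvable p ↥K) (hO : Cfsg.pPrimeCore p ↥K = ⊥) (S : Sylow p ↥K) : (Subgroup.normalizer (Cfsg.thompsonSubgroupOf p (S : Subgroup ↥K) : Set ↥K) ⊔ Subgroup.centralizer (Cfsg.omegaOne p ((S : Subgroup ↥K) ⊓ Subgroup.centralizer ((S : Subgroup ↥K) : Set ↥K)) : Set ↥K) ⊔ (Subgroup.centralizer (X : Set G)).subgroupOf K) = ⊤ := by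
  have hc := Core.IsPSolvable.centralizer_pCore_le hsep hO
  haveI := PLocal.omegaClosure_characteristic (G := K) (p := p)
  have hXq := LocalEven.isPGroup_of_elemAb hX
  have hcop : (Nat.card X).Coprime (Nat.card K) := (Core.coprime_of_isPGroup hXq
    ((Nat.Prime.coprime_iff_not_dvd Fact.out).2 hq).symm).symm
  have hJ := PLocal.thompson_le_of_fixed_le hXK hcop (Core.solvable_of_isPGroup hXq) hsep
    (Transfer.ea_omegaClosure hc) Transfer.pCore_quotient_centralizer_omegaClosure S
    (M := Subgroup.normalizer (Cfsg.thompsonSubgroupOf p (S : Subgroup ↥K) : Set ↥K) ⊔ Subgroup.centralizer (Cfsg.omegaOne p ((S : Subgroup ↥K) ⊓ Subgroup.centralizer ((S : Subgroup ↥K) : Set ↥K)) : Set ↥K) ⊔ (Subgroup.centralizer (X : Set G)).subgroupOf K)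
    ((Subgroup.le_normalizer.trans (Transfer.normalizer_le_normalizer_thompsonSubgroupOf _)).trans
      (le_sup_left.trans le_sup_left))
    ((Subgroup.centralizer_le (SetLike.coe_subset_coe.2
      (Transfer.omegaOneCenter_le_omegaClosure S))).trans (le_sup_right.trans le_sup_left))
    le_sup_right
  rw [eq_top_iff]
  intro g _
  obtain ⟨c, hc, n, hn, rfl⟩ := Transfer.exists_mul_normalizer_thompsonSubgroupOf S
    (thompsonSubgroup p K) (Transfer.thompsonSubgroupOf_sylow_le S) g
  exact Subgroup.mul_mem _ (hJ hc) (Subgroup.mem_sup_left (Subgroup.mem_sup_left hn))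

end Cfsg.Agent.S0620
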