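import Mathlib
import Cfsg.Statements.S0621
import Cfsg.Agent.PLocal.FF8

set_option autoImplicit false
open Cfsg

namespace Cfsg.Agent.S0621

/-- Let K be p-separable with O_p'(K) = 1, normalized by an elementary abelian q-group X for a prime q not dividing the order of K. If the Thompson factorization fails in K, then p is 2 or 3 and the fixed points of X contain a plane W of order p² and a subgroup inducing SL(2, p) on it. -/
theorem result {G : Type*} [Group G] [Finite G] {p : ℕ} [Fact p.Prime] {q : ℕ} [Fact q.Prime] (K X : Subgroup G) (hXK : X ≤ Subgroup.normalizer (K : Set G)) (hX : Cfsg.IsElementaryAbelian q X) (hq : ¬ q ∣ Nat.card K) (hsep : Cfsg.IsPSolvable p ↥K) (hO : Cfsg.pPrimeCore p ↥K = ⊥) (hnf : ¬ Cfsg.IsThompsonFactorizable p ↥K) : (p = 2 ∨ p = 3) ∧ ∃ W D : Subgroup G, W ≤ K ⊓ Subgroup.centralizer (X : Set G) ∧ D ≤ K ⊓ Subgroup.centralizer (X : Set G) ∧ Cfsg.IsElementaryAbelian p W ∧ Nat.card W = p ^ 2 ∧ D ≤ Subgroup.normalizer (W : Set G) ∧ ∃ hn : ((Subgroup.centralizer (W : Set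 G)).subgroupOf D).Normal, Nonempty ((↥D ⧸ (Subgroup.centralizer (W : Set G)).subgroupOf D) ≃* Matrix.SpecialLinearGroup (Fin 2) (ZMod p)) := by
  have hc := Core.IsPSolvable.centralizer_pCore_le hsep hO
  haveI := PLocal.omegaClosure_characteristic (G := K) (p := p)
  have hXq := LocalEven.isPGroup_of_elemAb hX
  have hcop : (Nat.card X).Coprime (Nat.card K) := (Core.coprime_of_isPGroup hXq
    ((Nat.Prime.coprime_iff_not_dvd Fact.out).2 hq).symm).symm
  have hJ : ¬ thompsonSubgroup p K ≤ Subgroup.centralizer (Transfer.omegaClosure p K : Set K) :=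
    fun h => hnf ((Transfer.isThompsonFactorizable_iff hO).2 h)
  exact ⟨(PLocal.exists_SL2_of_not_le hsep (Transfer.ea_omegaClosure hc)
    Transfer.pCore_quotient_centralizer_omegaClosure hJ).1,
    PLocal.exists_fixed_SL2 hXK hcop (Core.solvable_of_isPGroup hXq) hsep
      (Transfer.ea_omegaClosure hc) Transfer.pCore_quotient_centralizer_omegaClosure hJ⟩

end Cfsg.Agent.S0621
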