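import Mathlib
import Cfsg.Statements.S0632
import Cfsg.Agent.PLocal.PStable

set_option autoImplicit false
open Cfsg

namespace Cfsg.Agent.S0632

/-- For a group with a nontrivial normal p-subgroup, p-stability passes to and from the quotient by the largest normal subgroup of order prime to p. -/
theorem result {G : Type*} [Group G] [Finite G] {p : ℕ} [Fact p.Prime] (hO : Cfsg.pCore p G ≠ ⊥) : Cfsg.IsPStable p G ↔ Cfsg.IsPStable p (G ⧸ Cfsg.pPrimeCore p G) := by
  rw [PLocal.isPStable_iff_quotient,
    PLocal.isPStable_iff_of_eq_bot (Core.pPrimeCore_quotient_pPrimeCore p)]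
  refine and_congr_right fun _ => and_congr_left fun _ => ⟨fun _ h => hO ?_, fun _ => hO⟩
  have h1 := Core.map_pCore_le p (QuotientGroup.mk'_surjective (Cfsg.pPrimeCore p G))
  rw [h, le_bot_iff, Subgroup.map_eq_bot_iff, QuotientGroup.ker_mk'] at h1
  exact (Core.pCore_disjoint_pPrimeCore p).eq_bot_of_le h1

end Cfsg.Agent.S0632
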