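import Cfsg.Statements.S0633
import Cfsg.Agent.H23.HHB
-- import your own Cfsg.Agent.* helpers here

set_option autoImplicit false
open Cfsg

namespace Cfsg.Agent.S0633

/-- Theorem B of Hall and Higman on the minimal polynomial of a p-element of order p^n in a p-solvable linear group on a nonzero vector space in characteristic p with no nontrivial normal p-subgroup: its degree is p^n, except when some p^n₀ - 1 (n₀ ≤ n) is a power of a prime q for which the Sylow q-subgroups are non-abelian, in which case the degree is at least p^(n-n₀)(p^n₀ - 1). -/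
theorem result {F : Type*} [Field F] {p : ℕ} [Fact p.Prime] [CharP F p] {V : Type*} [AddCommGroup V] [Module F V] [FiniteDimensional F V] [Nontrivial V] (H : Subgroup (V ≃ₗ[F] V)) [Finite H] (hsol : Cfsg.IsPSolvable p H) (hOp : Cfsg.pCore p H = ⊥) (x : V ≃ₗ[F] V) (hx : x ∈ H) (n : ℕ) (hn : orderOf x = p ^ n) (r : ℕ) (hr : minpoly F (x : Module.End F V) = (Polynomial.X - 1) ^ r) : r = p ^ n ∨ ∃ n₀ q m : ℕ, 1 ≤ n₀ ∧ n₀ ≤ n ∧ q.Prime ∧ 1 ≤ m ∧ p ^ n₀ - 1 = q ^ m ∧ (∀ Q : Sylow q H, ¬ IsMulCommutative Q) ∧ p ^ (n - n₀) * (p ^ n₀ - 1) ≤ r := by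

  classical
  have hp : p.Prime := Fact.out
  let k := AlgebraicClosure F
  let ρ : Representation k H (TensorProduct F k V) :=
    (Module.End.baseChangeHom F k V).toMonoidHom.comp
      ((LinearEquiv.automorphismGroup.toLinearMapMonoidHom).comp H.subtype)
  have hρ : ∀ g : H, ρ g = Module.End.baseChangeHom F k V ((g : V ≃ₗ[F] V) : Module.End F V) :=
    fun g => rfl
  have hinj : Function.Injective (Module.End.baseChangeHom F k V) := by
    rw [injective_iff_map_eq_zero]
    intro f hf
    ext v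
    have h1 : (1 : k) ⊗ₜ[F] f v = 0 := LinearMap.congr_fun hf ((1 : k) ⊗ₜ[F] v)
    exact (Module.FaithfullyFlat.one_tmul_eq_zero_iff F V (f v)).1 h1
  have hnt : Nontrivial (TensorProduct F k V) := by
    obtain ⟨v, hv⟩ := exists_ne (0 : V)
    exact ⟨⟨(1 : k) ⊗ₜ[F] v, 0, fun h =>
      hv ((Module.FaithfullyFlat.one_tmul_eq_zero_iff F V v).1 h)⟩⟩
  have h0 : ((x : Module.End F V) - 1) ^ r = 0 := by
    have := minpoly.aeval F (x : Module.End F V)
    rw [hr] at this
    simpa using this
  have hle : r ≤ p ^ n := by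
    have h1 : minpoly F (x : Module.End F V) ∣ (Polynomial.X - 1) ^ p ^ n := by
      apply minpoly.dvd
      rw [map_pow, map_sub, Polynomial.aeval_X, map_one, H23.HH.sub_one_pow_char, sub_eq_zero]
      have h2 : x ^ p ^ n = 1 := hn ▸ pow_orderOf_eq_one x
      have := congrArg (LinearEquiv.automorphismGroup.toLinearMapMonoidHom (R := F) (M := V)) h2
      rw [map_pow, map_one] at this
      exact this
    rw [hr] at h1
    have h3 := Polynomial.natDegree_le_of_dvd h1 (pow_ne_zero _ (Polynomial.X_sub_C_ne_zero 1))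
    have h4 : ((Polynomial.X : Polynomial F) - 1).natDegree = 1 := Polynomial.natDegree_X_sub_C 1
    rwa [Polynomial.natDegree_pow, Polynomial.natDegree_pow, h4, mul_one, mul_one] at h3
  refine hle.eq_or_lt.imp_right fun hlt => ?_
  obtain ⟨n₀, q, m, h1, h2, hq, -, h3, h4, ⟨Q, -, hQ, hQc⟩, h5⟩ :=
    H23.HH.theoremB (ρ := ρ) (x := ⟨x, hx⟩) (r := r) hsol hOp
      (fun g _ hg => by
        rw [hρ, ← map_one (Module.End.baseChangeHom F k V)] at hg
        exact Subtype.ext (LinearEquiv.toLinearMap_injective (hinj hg)))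
      (by rw [← Subgroup.orderOf_coe]; exact hn)
      (by
        rw [hρ]
        simpa only [map_pow, map_sub, map_one, map_zero] using
          congrArg (Module.End.baseChangeHom F k V) h0)
      hlt
  refine ⟨n₀, q, m, h1, h2, hq, h3, by omega, fun S hS => hQc ?_, by rw [h4]; simpa using h5⟩
  have := Fact.mk hq
  obtain ⟨S', hS'⟩ := hQ.exists_le_sylow
  obtain ⟨g, rfl⟩ := MulAction.exists_smul_eq H S S'
  exact BG.Amb.comm_mono (BG.Amb.isMulCommutative_conj.2 hS) hS'

end Cfsg.Agent.S0633
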