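import Mathlib
import Cfsg.Statements.S0642
import Cfsg.Agent.Inv.Reg

set_option autoImplicit false
open Cfsg

namespace Cfsg.Agent.S0642

open Inv.Rg Subgroup
open scoped commutatorElement

/-- Among finite 2-groups the regular ones are exactly the abelian ones. -/
theorem result {G : Type*} [Group G] [Finite G] (hG : IsPGroup 2 G) : Cfsg.IsRegularPGroup 2 G ↔ ∀ a b : G, a * b = b * a := by
  haveI : Fact (Nat.Prime 2) := ⟨Nat.prime_two⟩
  constructor
  · intro h a b
    obtain ⟨c, hc, e⟩ := (reg_of_regular h).2 a trivial b trivial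
    have hK : IsPGroup 2 ↥⁅pr a b, pr a b⁆ := hG.to_subgroup _
    have hn : ∀ g ∈ pr a b, g ∈ normalizer (Inv.Es.Ph ⁅pr a b, pr a b⁆ : Set G) := fun g hg =>
      Inv.Es.nz_le_nz_Ph _ (normalizer_commutator_ge_left _ _ hg)
    have h1 : c ∈ Inv.Es.Ph ⁅pr a b, pr a b⁆ :=
      pc_le_iff.2 (fun x hx => by rw [pow_one]; exact Inv.Es.pow_mem_Ph hK hx) hc
    have h2 : ⁅a, b⁆ ∈ Inv.Es.Ph ⁅pr a b, pr a b⁆ := by
      have h3 : c = (a * a * (b * b))⁻¹ * (a * b * (a * b)) := by
        rw [← pow_two, ← pow_two, ← pow_two, e]; group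
      have h4 := PGrp.conj_mem_of_mem_normalizer (hn (a * b * b) (mul_mem (mul_mem (mem_pr_left a b)
        (mem_pr_right a b)) (mem_pr_right a b))) (inv_mem h1)
      convert h4 using 1
      rw [h3, commutatorElement_def]
      group
    have h5 := PGrp.commutator_closure_pair_le (hn a (mem_pr_left a b)) (hn b (mem_pr_right a b)) h2
    have h6 := Inv.Es.eq_of_sup_Ph (M := ⊥) bot_le (by rwa [bot_sup_eq])
    exact commutatorElement_eq_one_iff_mul_comm.1 (mem_bot.1 (h6.ge
      (commutator_mem_commutator (mem_pr_left a b) (mem_pr_right a b))))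
  · exact fun h => ⟨hG, fun a b n => ⟨1, one_mem _, by rw [mul_one, Commute.mul_pow (h a b)]⟩⟩

end Cfsg.Agent.S0642
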