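import Mathlib
import Cfsg.Statements.S0645
import Cfsg.Agent.PGrp.CyclicOdd
-- import your own Cfsg.Agent.* helpers here

set_option autoImplicit false
open Cfsg

namespace Cfsg.Agent.S0645

/-- Classification of p-groups with a cyclic maximal subgroup, odd p: a non-abelian one of order p^n has generators a of order p^(n-1) and b of order p, b outside the cyclic subgroup generated by a, with b a b⁻¹ = a^(1 + p^(n-2)). -/
theorem result {G : Type*} [Group G] [Finite G] {p : ℕ} [Fact p.Prime] (hp : p ≠ 2) (n : ℕ) (hn : 3 ≤ n) (hG : Nat.card G = p ^ n) (C : Subgroup G) (hC : IsCyclic C) (hCi : C.index = p) (hna : ∃ x y : G, x * y ≠ y * x) : ∃ a b : G, orderOf a = p ^ (n - 1) ∧ orderOf b = p ∧ b ∉ Subgroup.zpowers a ∧ b * a * b⁻¹ = a ^ (1 + p ^ (n - 2)) := by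
  have hp' : p.Prime := Fact.out
  have hP : IsPGroup p G := IsPGroup.of_card hG
  have hnc : ¬ IsCyclic (⊤ : Subgroup G) := fun h => by
    have := PGrp.isCyclic_top_iff.mp h
    obtain ⟨x, y, hxy⟩ := hna
    exact hxy (IsCyclic.isMulCommutative.is_comm.comm x y)
  have hi : C.relIndex ⊤ = p := by rwa [Subgroup.relIndex_top_right]
  obtain ⟨b, -, hbC, hbp⟩ := PGrp.exists_pow_eq_one_notMem (hP.to_subgroup ⊤) hC le_top hi hnc
    (PGrp.class_two_of_cyclic_relIndex hp (hP.to_subgroup ⊤) hC le_top hi).2.2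
  obtain ⟨a, rfl⟩ := PGrp.exists_zpowers_eq_of_isCyclic hC
  have hN := PGrp.normal_of_index_eq_prime hP hCi
  have ha : orderOf a = p ^ (n - 1) := by
    have := (Subgroup.zpowers a).card_mul_index
    rw [Nat.card_zpowers, hCi, hG, show n = (n - 1) + 1 by omega, pow_succ] at this
    exact Nat.eq_of_mul_eq_mul_right hp'.pos this
  obtain ⟨c, h1, h2, h3, h4, h5, -⟩ := PGrp.commutator_of_cyclic_odd hp' hp ha
    (Subgroup.le_normalizer_of_normal (K := ⊤) (Subgroup.mem_top b)) (by rw [hbp]; simp)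
  have hc : ¬ (p : ℤ) ∣ c := by
    rintro ⟨d, rfl⟩
    have h6 : Commute b a := by
      rw [← commutatorElement_eq_one_iff_commute, h2, ← orderOf_dvd_iff_zpow_eq_one, ha]
      refine ⟨d, ?_⟩
      obtain ⟨m, rfl⟩ : ∃ m, n = m + 2 := ⟨n - 2, by omega⟩
      simp only [show m + 2 - 1 = m + 1 by omega, Nat.add_sub_cancel]
      push_cast
      ring
    have h7 := PGrp.isMulCommutative_sup_zpowers (H := Subgroup.zpowers a) (x := b) inferInstance
      (by rw [PGrp.centralizer_zpowers, Subgroup.mem_centralizer_singleton_iff]; exact h6)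
    rw [PGrp.sup_zpowers_eq_top_of_index_prime hp' hCi hbC] at h7
    obtain ⟨x, y, hxy⟩ := hna
    exact hxy (PGrp.isMulCommutative_iff_forall.mp h7 x trivial y trivial)
  obtain ⟨t, ht⟩ : ∃ t : ℕ, (p : ℤ) ∣ c * t - 1 := by
    have h0 : (c : ZMod p) ≠ 0 := by rwa [Ne, ZMod.intCast_zmod_eq_zero_iff_dvd]
    refine ⟨((c : ZMod p)⁻¹).val, ?_⟩
    rw [← ZMod.intCast_zmod_eq_zero_iff_dvd]
    push_cast
    rw [ZMod.natCast_zmod_val, mul_inv_cancel₀ h0, sub_self]
  have hpt : ¬ p ∣ t := by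
    rintro ⟨s, rfl⟩
    have : (p : ℤ) ∣ 1 := by
      have h8 : (p : ℤ) ∣ c * ((p * s : ℕ) : ℤ) := ⟨c * s, by push_cast; ring⟩
      simpa using dvd_sub h8 ht
    exact hp'.one_lt.ne' (Nat.dvd_one.mp (Int.natCast_dvd_natCast.mp this))
  have hbt : b ^ t ∉ Subgroup.zpowers a := fun h =>
    hpt (PGrp.dvd_of_pow_mem hp' (by rw [hbp]; exact Subgroup.one_mem _) hbC h)
  refine ⟨a, b ^ t, ha, ?_, hbt, ?_⟩
  · refine orderOf_eq_prime (by rw [← pow_mul, mul_comm, pow_mul, hbp, one_pow]) ?_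
    intro h
    exact hbt (h ▸ Subgroup.one_mem _)
  · rw [PGrp.conj_eq_commutator_mul, PGrp.commutator_pow_left_of_commute h5, h2, ← zpow_natCast,
      ← zpow_mul, ← zpow_add_one, ← zpow_natCast, zpow_eq_zpow_iff_modEq, ha]
    obtain ⟨d, hd⟩ := ht
    refine (Int.modEq_iff_dvd.mpr ⟨d, ?_⟩).symm
    obtain ⟨m, rfl⟩ : ∃ m, n = m + 2 := ⟨n - 2, by omega⟩
    simp only [show m + 2 - 1 = m + 1 by omega, Nat.add_sub_cancel]
    push_cast
    linear_combination (p : ℤ) ^ m * hd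

end Cfsg.Agent.S0645
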