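import Mathlib
import Cfsg.Statements.S0646
import Cfsg.Agent.PGrp.CyclicTwo
-- import your own Cfsg.Agent.* helpers here

set_option autoImplicit false
open Cfsg

namespace Cfsg.Agent.S0646

/-- Classification of non-abelian 2-groups with a cyclic maximal subgroup: dihedral, generalized quaternion, and for order at least 16 the modular group and the semidihedral group, each given by generators a (of index 2) and b with the stated relations. -/
theorem result {G : Type*} [Group G] [Finite G] (n : ℕ) (hn : 3 ≤ n) (hG : Nat.card G = 2 ^ n) (C : Subgroup G) (hC : IsCyclic C) (hCi : C.index = 2) (hna : ∃ x y : G, x * y ≠ y * x) : ∃ a b : G, orderOf a = 2 ^ (n - 1) ∧ b ∉ Subgroup.zpowers a ∧ ((b ^ 2 = 1 ∧ b * a * b⁻¹ = a⁻¹) ∨ (b ^ 2 = a ^ (2 ^ (n - 2)) ∧ b * a * b⁻¹ = a⁻¹) ∨ (4 ≤ n ∧ b ^ 2 = 1 ∧ b * a * b⁻¹ = a ^ (1 + 2 ^ (n - 2))) ∨ (4 ≤ n ∧ b ^ 2 = 1 ∧ b * a * b⁻¹ = a ^ (2 ^ (n - 2) - 1))) := by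
  have : Finite G := inferInstance
  obtain ⟨a, rfl⟩ := PGrp.exists_zpowers_eq_of_isCyclic hC
  obtain ⟨m, rfl⟩ : ∃ m, n = m + 2 := ⟨n - 2, by omega⟩
  have ha : orderOf a = 2 ^ (m + 1) := by
    have h := (Subgroup.zpowers a).card_mul_index
    rw [Nat.card_zpowers, hCi, hG, pow_succ 2 (m + 1)] at h
    exact Nat.eq_of_mul_eq_mul_right two_pos h
  have hN := Subgroup.normal_of_index_eq_two hCi
  obtain ⟨g, hg⟩ : ∃ g, g ∉ Subgroup.zpowers a := by
    by_contra hcon
    push Not at hcon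
    have : Subgroup.zpowers a = ⊤ := eq_top_iff.mpr fun g _ => hcon g
    rw [this, Subgroup.index_top] at hCi
    omega
  have hag : ¬ Commute a g := by
    intro h
    obtain ⟨x, y, hxy⟩ := hna
    apply hxy
    have h1 : ⁅Subgroup.closure ({a, g} : Set G), Subgroup.closure ({a, g} : Set G)⁆ ≤ ⊥ :=
      PGrp.commutator_closure_pair_le (PGrp.mem_normalizer_of_normal _ _)
        (PGrp.mem_normalizer_of_normal _ _)
        (Subgroup.mem_bot.mpr (commutatorElement_eq_one_iff_commute.mpr h))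
    rw [Classical.DihRecog.closure_eq_top_of_index_two hCi hg] at h1
    exact commutatorElement_eq_one_iff_mul_comm.mp (Subgroup.mem_bot.mp
      (h1 (Subgroup.commutator_mem_commutator (Subgroup.mem_top x) (Subgroup.mem_top y))))
  obtain ⟨hm, t, h⟩ := PGrp.exists_normal_form_two ha (PGrp.mem_normalizer_of_normal _ g)
    (Subgroup.sq_mem_of_index_two hCi g) hag
  refine ⟨a, a ^ t * g, ha, PGrp.zpow_mul_notMem hg t, ?_⟩
  have e : m + 2 - 2 = m := by omega
  rw [e]
  rcases h with h | h | h | h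
  · exact Or.inl ⟨h.1, PGrp.conj_zpow_mul_of_inverts h.2 t⟩
  · exact Or.inr (Or.inl ⟨h.1, PGrp.conj_zpow_mul_of_inverts h.2 t⟩)
  · refine Or.inr (Or.inr (Or.inl ⟨by omega, h.2.1, ?_⟩))
    rw [PGrp.conj_zpow_mul_of_conj_eq h.2.2 t, ← zpow_natCast]
    push_cast
    rfl
  · refine Or.inr (Or.inr (Or.inr ⟨by omega, h.2.1, ?_⟩))
    rw [PGrp.conj_zpow_mul_of_conj_eq h.2.2 t, ← zpow_natCast, Nat.cast_sub Nat.one_le_two_pow]
    push_cast
    rfl

end Cfsg.Agent.S0646
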