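import Mathlib
import Cfsg.Statements.S0658
import Cfsg.Agent.PLocal.PStable

set_option autoImplicit false
open Cfsg

namespace Cfsg.Agent.S0658

/-- In a group of characteristic p type all of whose p-locals are p-stable (p odd), the normalizer of Z(J(P)) contains the normalizer of every nontrivial subgroup of the Sylow p-subgroup P. -/
theorem result {G : Type*} [Group G] [Finite G] {p : ℕ} [Fact p.Prime] (hp : p ≠ 2) (hloc : ∀ Q : Subgroup G, IsPGroup p Q → Q ≠ ⊥ → Cfsg.pPrimeCore p ↥(Subgroup.normalizer (Q : Set G)) = ⊥ ∧ Cfsg.IsPConstrained p ↥(Subgroup.normalizer (Q : Set G)) ∧ Cfsg.IsPStable p ↥(Subgroup.normalizer (Q : Set G))) (P : Sylow p G) (Q : Subgroup G) (hQP : Q ≤ (P : Subgroup G)) (hQ1 : Q ≠ ⊥) : Subgroup.normalizer (Q : Set G) ≤ Subgroup.normalizer (Cfsg.centerThompsonAOf ((P : Subgroup G)) : Set G) := by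
  rw [PLocal.centerThompsonAOf_eq]
  set M := Subgroup.normalizer (PLocal.zOf (PLocal.jn 0 (P : Subgroup G)) : Set G) with hM
  have hZ : ∀ T : Subgroup G, Subgroup.normalizer (T : Set G) ≤
      Subgroup.normalizer (PLocal.zOf (PLocal.jn 0 T) : Set G) := fun T =>
    (PLocal.normalizer_le_normalizer_jn 0 T).trans (PLocal.normalizer_le_normalizer_zOf _)
  have hzj : ∀ Q R : Subgroup G, IsPGroup p Q → Q ≠ ⊥ →
      LocalEven.IsSylowIn p R (Subgroup.normalizer (Q : Set G)) →
      Subgroup.normalizer (Q : Set G) ≤ Subgroup.normalizer (PLocal.zOf (PLocal.jn 0 R) : Set G) := by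
    intro Q R h1 h2 h3
    obtain ⟨c1, c2, c3⟩ := hloc Q h1 h2
    exact PLocal.le_normalizer_zOf_jn hp (Or.inl rfl) ((PLocal.isPStable_iff_of_eq_bot c1).1 c3).2.2
      ((PLocal.isPConstrained_iff_charP_of_eq_bot c1).1 c2) h3
  have hPM : LocalEven.IsSylowIn p (P : Subgroup G) M :=
    LocalEven.isSylowIn_of_sylow_le P (Subgroup.le_normalizer.trans (hZ _))
  have key : ∀ (n : ℕ) (R : Subgroup G), R.index = n → IsPGroup p R → R ≠ ⊥ → R ≤ M →
      ∀ Q : Subgroup G, IsPGroup p Q → Q ≠ ⊥ → R ≤ Subgroup.normalizer (Q : Set G) →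
        Subgroup.normalizer (Q : Set G) ≤ M := by
    intro n
    induction n using Nat.strong_induction_on with
    | _ n ih =>
    intro R hn hR hR1 hRM Q hQ hQ1 hRQ
    have ih' : ∀ R' : Subgroup G, R < R' → IsPGroup p R' → R' ≤ M →
        ∀ Q : Subgroup G, IsPGroup p Q → Q ≠ ⊥ → R' ≤ Subgroup.normalizer (Q : Set G) →
          Subgroup.normalizer (Q : Set G) ≤ M := fun R' h1 h2 h3 =>
      ih _ (hn ▸ Subgroup.index_strictAnti h1) R' rfl h2 (ne_bot_of_gt h1) h3
    obtain ⟨R₁, h1, h2⟩ := LocalEven.exists_isSylowIn_le hR (le_inf hRQ hRM)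
    rcases h2.lt_or_eq with h3 | rfl
    · exact ih' R₁ h3 h1.pgrp (h1.le.trans inf_le_right) Q hQ hQ1 (h1.le.trans inf_le_left)
    obtain ⟨P₁, h4, h5⟩ := LocalEven.exists_isSylowIn_le hR hRM
    rcases h5.lt_or_eq with h6 | rfl
    · have h7 := LocalEven.lt_inf_normalizer h4.pgrp h6
      have h8 := ih' _ h7 (h4.pgrp.to_le inf_le_left) (inf_le_left.trans h4.le)
      have h9 := h8 R hR hR1 inf_le_right
      have h10 : LocalEven.IsSylowIn p R (Subgroup.normalizer (Q : Set G)) :=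
        (h1.mono (le_inf hRQ Subgroup.le_normalizer) (inf_le_inf_left _ h9)).of_normalizer
      exact (hzj Q R hQ hQ1 h10).trans (h8 _ (hR.to_le ((PLocal.zOf_le _).trans (PLocal.jn_le _)))
        (PLocal.zOf_jn_ne_bot (Or.inl rfl) hR hR1) (inf_le_right.trans (hZ R)))
    · obtain ⟨m, hm, rfl⟩ := hPM.conj h4
      have h7 : LocalEven.IsSylowIn p (LocalEven.cj m (P : Subgroup G)) ⊤ :=
        (LocalEven.isSylowIn_top P).cj_of_mem trivial
      refine (hzj Q _ hQ hQ1 (h7.mono hRQ le_top)).trans (le_of_eq ?_)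
      rw [← PLocal.map_jn _ (MulAut.conj m).injective, ← PLocal.map_zOf _ (by
        rw [(MonoidHom.ker_eq_bot_iff _).2 (MulAut.conj m).injective]; exact disjoint_bot_right)]
      rw [PLocal.mem_normalizer_iff_map_conj.1 hm]
  exact key _ Q rfl (P.isPGroup'.to_le hQP) hQ1 (hQP.trans hPM.le) Q (P.isPGroup'.to_le hQP) hQ1
    Subgroup.le_normalizer

end Cfsg.Agent.S0658
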