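import Mathlib
import Cfsg.Statements.S0661
import Cfsg.Agent.PLocal.PStable

set_option autoImplicit false
open Cfsg

namespace Cfsg.Agent.S0661

/-- If, modulo the largest normal subgroup of order prime to p, the largest normal p-subgroup contains its centralizer, then for every p-subgroup P the p'-core of N_G(P) is just O_p'(G) ∩ N_G(P). -/
theorem result {G : Type*} [Group G] [Finite G] {p : ℕ} [Fact p.Prime] (hc : Subgroup.centralizer (Cfsg.pCore p (G ⧸ Cfsg.pPrimeCore p G) : Set (G ⧸ Cfsg.pPrimeCore p G)) ≤ Cfsg.pCore p (G ⧸ Cfsg.pPrimeCore p G)) (P : Subgroup G) (hP : IsPGroup p P) : (Cfsg.pPrimeCore p ↥(Subgroup.normalizer (P : Set G))).map (Subgroup.normalizer (P : Set G)).subtype = Cfsg.pPrimeCore p G ⊓ Subgroup.normalizer (P : Set G) := by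
  apply le_antisymm
  · refine le_inf ?_ (Subgroup.map_subtype_le _)
    have h1 := Comp2.map_pPrimeCore_map_subtype (p := p) (QuotientGroup.mk' (Cfsg.pPrimeCore p G))
      (H := Subgroup.normalizer (P : Set G)) (by
        rw [QuotientGroup.ker_mk']
        exact (Core.pPrimeCore_coprime p).coprime_dvd_left (Subgroup.card_dvd_of_le inf_le_left))
    rw [← Core.normalizer_map_mk' _ _ (Core.coprime_pPrimeCore_of_isPGroup hP)
      (Or.inl (Core.solvable_of_isPGroup hP))] at h1
    have h2 := Comp2.genFitting_normalizer_eq_pCore p ((Comp2.genFitting_eq_pCore_iff p).2 hc)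
      (hP.map (QuotientGroup.mk' (Cfsg.pPrimeCore p G)))
    rw [((Comp2.genFitting_eq_pCore_iff' p).1 h2).1, Subgroup.map_bot, Subgroup.map_eq_bot_iff,
      QuotientGroup.ker_mk'] at h1
    exact h1
  · rw [← Subgroup.subgroupOf_map_subtype]
    exact Subgroup.map_mono (Core.pPrimeCore_subgroupOf_le p _)

end Cfsg.Agent.S0661
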