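import Mathlib
import Cfsg.Statements.S0663
import Cfsg.Agent.PGrp.IndexP
-- import your own Cfsg.Agent.* helpers here

set_option autoImplicit false
open Cfsg

namespace Cfsg.Agent.S0663

/-- A p-group acts uniserially on a p-group N of order p^n exactly when the iterated commutator chain from N has length n; in that case the chain terms are all the invariant subgroups of N and they are normal in N. -/
theorem result {L : Type*} [Group L] [Finite L] {p : ℕ} [Fact p.Prime] (N G : Subgroup L) (hN : IsPGroup p N) (hG : IsPGroup p G) (hGN : G ≤ Subgroup.normalizer (N : Set L)) (n : ℕ) (hn : Nat.card N = p ^ n) : ((∀ H : Subgroup L, H ≤ N → G ≤ Subgroup.normalizer (H : Set L) → H ≠ ⊥ → (⁅H, G⁆).relIndex H = p) ↔ Cfsg.iterCommutator N G (n - 1) ≠ ⊥ ∨ n = 0) ∧ ((∀ H : Subgroup L, H ≤ N → G ≤ Subgroup.normalizer (H : Set L) → H ≠ ⊥ → (⁅H, G⁆).relIndex H = p) → ∀ H : Subgroup L, H ≤ N → G ≤ Subgroup.normalizer (H : Set L) → (∃ i ≤ n, H = Cfsg.iterCommutator N G i) ∧ N ≤ Subgroup.normalizer (H : Set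 L)) := by
  have hp : p.Prime := Fact.out
  have hB : (∀ H : Subgroup L, H ≤ N → G ≤ Subgroup.normalizer (H : Set L) → H ≠ ⊥ →
      (⁅H, G⁆).relIndex H = p) → ∀ i ≤ n, Nat.card (Cfsg.iterCommutator N G i) = p ^ (n - i) := by
    intro h i
    induction i with
    | zero => intro _; exact hn
    | succ i ih =>
      intro hi
      have h1 := ih (by omega)
      have h2 := h _ (Glaub.iter_le hGN i) (Glaub.le_norm_iter hGN i) (fun hb => by
        rw [hb, Subgroup.card_bot, eq_comm, pow_eq_one_iff] at h1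
        have := hp.one_lt
        omega)
      have h3 := PGrp.card_eq_card_mul_relIndex (PGrp.iterCommutator_le hGN i)
      rw [h1, Glaub.iter_succ, h2, show n - i = n - (i + 1) + 1 by omega, pow_succ] at h3
      exact (Nat.eq_of_mul_eq_mul_right hp.pos h3).symm
  refine ⟨⟨fun h => ?_, fun h H hHN hGH hH => ?_⟩, fun h H hHN hGH => ?_⟩
  · rcases Nat.eq_zero_or_pos n with h0 | h0
    · exact Or.inr h0
    · refine Or.inl fun hb => ?_
      have := hB h (n - 1) (by omega)
      rw [hb, Subgroup.card_bot, eq_comm, pow_eq_one_iff] at this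
      have := hp.one_lt
      omega
  · have hc := PGrp.card_iterCommutator_of_ne_bot hN hG hGN hn h
    obtain ⟨i, hi, rfl⟩ := (PGrp.uniserial_of_card hN hG hGN hc).2 H hHN hGH
    refine PGrp.relIndex_iterCommutator hGN hc (lt_of_le_of_ne hi fun he => hH ?_)
    have := hc i hi
    rwa [he, Nat.sub_self, pow_zero, Subgroup.card_eq_one, ← he] at this
  · obtain ⟨h1, h2⟩ := PGrp.uniserial_of_card hN hG hGN (hB h)
    obtain ⟨i, hi, rfl⟩ := h2 H hHN hGH
    exact ⟨⟨i, hi, rfl⟩, h1 i⟩

end Cfsg.Agent.S0663
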