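import Cfsg.Statements.S0666
import Cfsg.Agent.BG.FrobAmb

set_option autoImplicit false
open Cfsg

namespace Cfsg.Agent.S0666

open Cfsg.Agent.BG Cfsg.Agent.BG.Amb

/-- A Frobenius group acting on a nontrivial abelian group of order prime to that of its kernel, with the kernel acting without nontrivial fixed points, has a complement with a nontrivial fixed point. -/
theorem result {G : Type*} [Group G] [Finite G] (V F : Subgroup G) (hVab : IsMulCommutative V) (hV1 : V ≠ ⊥) (hFV : F ≤ Subgroup.normalizer (V : Set G)) (H : Subgroup ↥F) (hH : Cfsg.IsFrobeniusComplement H) (hcop : (Nat.card V).Coprime (Nat.card (Cfsg.frobeniusKernel H))) (hCK : V ⊓ Subgroup.centralizer (Subtype.val '' Cfsg.frobeniusKernel H : Set G) = ⊥) : V ⊓ Subgroup.centralizer ((H.map F.subtype : Subgroup G) : Set G) ≠ ⊥ := by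
  obtain ⟨K, h1, h2, h3, h4, h5, -⟩ := FrobAmb.exists_kernel hH
  intro hC
  obtain ⟨p, hp, X, hX, hXp⟩ := Rank.exists_card_prime_le_of_ne_bot hV1
  have := Fact.mk hp
  have hd := dvd_card_of_le hXp hX
  have hF := Rank.le_normalizer_omegaOne (p := p) hFV
  have h6 := Sec3Rep.frob_cent hp (Rank.omegaOne_elem hVab) ((le_sup_left.trans h3.le).trans hF)
    ((le_sup_right.trans h3.le).trans hF) h5.2.2.1 h5.2.2.2
    (Sec3Rep.not_dvd_of_coprime hp (h2 ▸ hcop) hd)
    (le_bot_iff.1 ((inf_le_inf_right _ (Rank.omegaOne_le p V)).trans hC.le))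
  rw [← h1] at hCK
  exact Rank.omegaOne_ne_bot hd
    (le_bot_iff.1 ((le_inf (Rank.omegaOne_le p V) (le_cent_symm h6)).trans hCK.le))

end Cfsg.Agent.S0666
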