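import Mathlib
import Cfsg.Statements.S0668

set_option autoImplicit false
open Cfsg

namespace Cfsg.Agent.S0668


/-- The equivariant linear maps between the permutation modules of two finite `G`-sets form a space whose dimension is the number of `G`-orbits on the product of the two sets. -/
theorem result {G : Type*} [Group G] {K : Type*} [Field K] {Ω₁ Ω₂ : Type*} [Fintype Ω₁] [Fintype Ω₂] [MulAction G Ω₁] [MulAction G Ω₂] : Module.finrank K ((Cfsg.permRep K G Ω₁).linHom (Cfsg.permRep K G Ω₂)).invariants = Nat.card (MulAction.orbitRel.Quotient G (Ω₁ × Ω₂)) := by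
  classical
  have hmem : ∀ T : (Ω₁ → K) →ₗ[K] (Ω₂ → K),
      T ∈ ((Cfsg.permRep K G Ω₁).linHom (Cfsg.permRep K G Ω₂)).invariants ↔
        ∀ (g : G) (x : Ω₁) (y : Ω₂), T (Pi.single (g • x) 1) (g • y) = T (Pi.single x 1) y := by
    intro T
    have hs : ∀ (g : G) (x : Ω₁), Cfsg.permRep K G Ω₁ g⁻¹ (Pi.single (g • x) 1) = Pi.single x 1 := by
      intro g x
      ext z
      change (Pi.single (g • x) (1 : K) : Ω₁ → K) (g⁻¹⁻¹ • z) = _
      simp [Pi.single_apply]
    rw [Representation.mem_invariants]
    constructor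
    · intro h g x y
      conv_lhs => rw [← h g]
      rw [Representation.linHom_apply]
      simp only [LinearMap.comp_apply, hs]
      change T (Pi.single x 1) (g⁻¹ • g • y) = _
      rw [inv_smul_smul]
    · intro h g
      apply LinearMap.pi_ext'
      intro x
      ext y
      obtain ⟨x, rfl⟩ := MulAction.surjective g x
      obtain ⟨y, rfl⟩ := MulAction.surjective g y
      rw [Representation.linHom_apply]
      simp only [LinearMap.comp_apply, LinearMap.single_apply, hs, h]
      change T (Pi.single x 1) (g⁻¹ • g • y) = _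
      rw [inv_smul_smul]
  let f : (MulAction.orbitRel.Quotient G (Ω₁ × Ω₂) → K) →ₗ[K] ((Ω₁ → K) →ₗ[K] (Ω₂ → K)) :=
    (Matrix.toLin' (R := K) (m := Ω₂) (n := Ω₁)).toLinearMap ∘ₗ
      { toFun := fun φ => Matrix.of fun y x => φ (Quotient.mk'' (x, y))
        map_add' := fun _ _ => rfl
        map_smul' := fun _ _ => rfl }
  have hf : ∀ φ x y, f φ (Pi.single x 1) y = φ (Quotient.mk'' (x, y)) := by
    intro φ x y
    simp [f]
    rfl
  have hinj : Function.Injective f := by
    intro φ ψ h
    ext q
    induction q using Quotient.inductionOn' with | h q => ?_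
    rw [← hf φ q.1 q.2, h, hf]
  have hrange : LinearMap.range f =
      ((Cfsg.permRep K G Ω₁).linHom (Cfsg.permRep K G Ω₂)).invariants := by
    ext T
    rw [hmem]
    constructor
    · rintro ⟨φ, rfl⟩ g x y
      rw [hf, hf]
      congr 1
      exact Quotient.sound' ⟨g, rfl⟩
    · intro h
      refine ⟨fun q => Quotient.liftOn' q (fun z => T (Pi.single z.1 1) z.2) ?_, ?_⟩
      · rintro a b ⟨g, rfl⟩
        exact h g b.1 b.2
      · apply LinearMap.pi_ext'
        intro x
        ext y
        simp only [LinearMap.comp_apply, LinearMap.single_apply, hf]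
        rfl
  rw [← hrange, LinearMap.finrank_range_of_inj hinj]
  haveI := Fintype.ofFinite (MulAction.orbitRel.Quotient G (Ω₁ × Ω₂))
  rw [Module.finrank_fintype_fun_eq_card, Nat.card_eq_fintype_card]

end Cfsg.Agent.S0668
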