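import Mathlib
import Cfsg.Statements.S0672
import Cfsg.Agent.Perm.PermModule
import Cfsg.Agent.Perm.Multi
import Cfsg.Agent.Perm.PrimeDegree

set_option autoImplicit false
open Cfsg

namespace Cfsg.Agent.S0672

theorem const_of_kernel {G : Type*} [Group G] {K : Type*} [Field K] {Ω E : Type*} [Fintype Ω]
    [DecidableEq Ω] [MulAction G Ω] [MulAction G E]
    (h : ∀ f : Representation.IntertwiningMap (Cfsg.permSumZero K G Ω).toRepresentation
      (Cfsg.permRep K G E), (∀ v : (Cfsg.permSumZero K G Ω).toSubmodule,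
        (v : Ω → K) ∈ (Cfsg.permConstants K G Ω).toSubmodule → f v = 0) → f = 0)
    (μ : Ω → E → K) (hμ : ∀ (g : G) x e, μ (g • x) (g • e) = μ x e) (hsum : ∀ e, ∑ x, μ x e = 0)
    (x y : Ω) (e : E) : μ x e = μ y e := by
  let T : (Ω → K) →ₗ[K] (E → K) :=
    { toFun := fun v y => ∑ x, v x * μ x y
      map_add' := fun u v => by ext y; simp [add_mul, Finset.sum_add_distrib]
      map_smul' := fun r v => by ext y; simp [Finset.mul_sum, mul_assoc] }
  have hT : ∀ (g : G) v, T (Cfsg.permRep K G Ω g v) = Cfsg.permRep K G E g (T v) := by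
    intro g v
    ext y
    change ∑ x, v (g⁻¹ • x) * μ x y = ∑ x, v x * μ x (g⁻¹ • y)
    symm
    apply Fintype.sum_equiv (MulAction.toPerm g)
    intro x
    simp only [MulAction.toPerm_apply, inv_smul_smul]
    rw [← hμ g, smul_inv_smul]
  have := h (LinearMap.intertwiningMap_of_isIntertwiningMap _ _
    (T ∘ₗ (Cfsg.permSumZero K G Ω).toSubmodule.subtype) (fun g v => hT g v)) (by
      intro v hv
      obtain ⟨c, hc⟩ := (Perm.mem_permConstants _).mp hv
      ext e
      change ∑ x, v.1 x * μ x e = 0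
      simp [hc, ← Finset.mul_sum, hsum])
  have h2 := congrArg (fun f : Representation.IntertwiningMap (Cfsg.permSumZero K G Ω).toRepresentation
      (Cfsg.permRep K G E) => f ⟨Pi.single x 1 - Pi.single y 1, by
        rw [Perm.mem_permSumZero]; simp [Finset.sum_sub_distrib]⟩ e) this
  change ∑ z, (Pi.single x 1 - Pi.single y 1 : Ω → K) z * μ z e = 0 at h2
  simpa [sub_mul, Finset.sum_sub_distrib, Pi.single_apply, sub_eq_zero] using h2


/-- Let a finite group act faithfully and doubly transitively with point stabilisers of even order, and let `K` have characteristic `p` dividing the degree. If the heart of the permutation module admits no non-zero equivariant map to the permutation module on unordered pairs (phrased: every intertwining map from the sum-zero functions vanishing on the constants is zero), the action is triply transitive. -/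
theorem result {G : Type*} [Group G] [Finite G] {K : Type*} [Field K] {p : ℕ} [Fact p.Prime] [CharP K p] {Ω : Type*} [Fintype Ω] [DecidableEq Ω] [MulAction G Ω] [FaithfulSMul G Ω] (h2 : MulAction.IsMultiplyPretransitive G Ω 2) (hp : p ∣ Fintype.card Ω) (heven : ∀ a : Ω, Even (Nat.card (MulAction.stabilizer G a))) (h : ∀ f : Representation.IntertwiningMap (Cfsg.permSumZero K G Ω).toRepresentation (Cfsg.permRep K G (Set.powersetCard Ω 2)), (∀ v : (Cfsg.permSumZero K G Ω).toSubmodule, (v : Ω → K) ∈ (Cfsg.permConstants K G Ω).toSubmodule → f v = 0) → f = 0) : MulAction.IsMultiplyPretransitive G Ω 3 := by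
  classical
  have hn : (Fintype.card Ω : K) = 0 := (CharP.cast_eq_zero_iff K p _).mpr hp
  let pr : ∀ {x y : Ω}, x ≠ y → Set.powersetCard Ω 2 := fun {x y} h => ⟨{x, y}, Finset.card_pair h⟩
  have hpr : ∀ (g : G) {x y : Ω} (h : x ≠ y) (h' : g • x ≠ g • y), g • pr h = pr h' := by
    intro g x y h h'
    apply Subtype.ext
    rw [Set.powersetCard.coe_smul]
    simp only [pr, Finset.smul_finset_insert, Finset.smul_finset_singleton]
  have hprs : ∀ e : Set.powersetCard Ω 2, ∃ x y, ∃ h : x ≠ y, e = pr h := by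
    rintro ⟨e, he⟩
    obtain ⟨x, y, h, rfl⟩ := Finset.card_eq_two.mp he
    exact ⟨x, y, h, rfl⟩
  have hmem : ∀ (g : G) (x : Ω) (e : Set.powersetCard Ω 2), g • x ∈ (g • e).1 ↔ x ∈ e.1 := by
    intro g x e
    rw [Set.powersetCard.coe_smul]; exact Finset.smul_mem_smul_finset_iff g
  have hEtr : ∀ e e' : Set.powersetCard Ω 2, ∃ g : G, g • e = e' := by
    intro e e'
    obtain ⟨x, y, h, rfl⟩ := hprs e
    obtain ⟨x', y', h', rfl⟩ := hprs e'
    obtain ⟨g, rfl, rfl⟩ := Perm.two_trans h2 h h'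
    exact ⟨g, hpr g h h'⟩
  -- transitivity on antiflags
  have key : ∀ (a : Ω) (e : Set.powersetCard Ω 2) (a' : Ω) (e' : Set.powersetCard Ω 2),
      a ∉ e.1 → a' ∉ e'.1 → ∃ g : G, g • a = a' ∧ g • e = e' := by
    intro a e a' e' ha ha'
    by_contra hno
    let O : Ω → Set.powersetCard Ω 2 → Prop := fun x f => ∃ g : G, g • a = x ∧ g • e = f
    have hO : ∀ (g : G) x y, O (g • x) (g • y) ↔ O x y := by
      intro g x y
      constructor
      · rintro ⟨k, h1, h2⟩
        exact ⟨g⁻¹ * k, by rw [mul_smul, h1, inv_smul_smul], by rw [mul_smul, h2, inv_smul_smul]⟩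
      · rintro ⟨k, h1, h2⟩
        exact ⟨g * k, by rw [mul_smul, h1], by rw [mul_smul, h2]⟩
    let s : K := ∑ x, if O x e then 1 else 0
    have hs : ∀ f, (∑ x, if O x f then (1 : K) else 0) = s := by
      intro f
      obtain ⟨g, rfl⟩ := hEtr e f
      symm
      apply Fintype.sum_equiv (MulAction.toPerm g)
      intro y
      simp [hO]
    have h2s : ∀ f : Set.powersetCard Ω 2, (∑ x, if x ∈ f.1 then (1 : K) else 0) = 2 := by
      intro f
      have : f.1.card = 2 := f.2
      simp [this]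
    by_cases h20 : (2 : K) = 0
    · obtain ⟨x, y, hxy, rfl⟩ := hprs e
      have := const_of_kernel h (fun x f => if x ∈ f.1 then 1 else 0)
        (fun g x f => by simp only [hmem]) (fun f => by rw [h2s, h20]) a x (pr hxy)
      rw [if_neg ha, if_pos (by simp [pr])] at this
      exact zero_ne_one this
    · obtain ⟨g, hg⟩ := hEtr e e'
      have := const_of_kernel h
        (fun x f => 2 * (if O x f then 1 else 0) - s * (if x ∈ f.1 then 1 else 0))
        (fun g x f => by simp only [hmem, hO])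
        (fun f => by
          rw [Finset.sum_sub_distrib, ← Finset.mul_sum, ← Finset.mul_sum, hs, h2s]; ring)
        (g • a) a' e'
      have h1 : O (g • a) e' := ⟨g, rfl, hg⟩
      have h3 : g • a ∉ e'.1 := by rw [← hg, hmem]; exact ha
      have h4 : ¬ O a' e' := hno
      simp only [if_pos h1, if_neg h3, if_neg ha', if_neg h4] at this
      apply h20
      simpa using this
  have key2 : ∀ a b c a' b' c' : Ω, a ≠ b → a ≠ c → b ≠ c → a' ≠ b' → a' ≠ c' → b' ≠ c' →
      ∃ g : G, g • a = a' ∧ ((g • b = b' ∧ g • c = c') ∨ (g • b = c' ∧ g • c = b')) := by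
    intro a b c a' b' c' hab hac hbc hab' hac' hbc'
    obtain ⟨g, hg, hg'⟩ := key a (pr hbc) a' (pr hbc') (by simp [pr, hab, hac])
      (by simp [pr, hab', hac'])
    refine ⟨g, hg, ?_⟩
    rw [hpr g hbc (fun h => hbc (MulAction.injective g h))] at hg'
    have h3 : ({g • b, g • c} : Set Ω) = {b', c'} := by
      have := congrArg (fun s : Set.powersetCard Ω 2 => (s.1 : Set Ω)) hg'
      simpa [pr] using this
    exact Set.pair_eq_pair_iff.mp h3
  rw [Perm.three_trans_iff]
  intro a b c a' b' c' hab hac hbc hab' hac' hbc'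
  haveI : Fact (Nat.Prime 2) := ⟨Nat.prime_two⟩
  obtain ⟨t, ht⟩ := exists_prime_orderOf_dvd_card' 2 (even_iff_two_dvd.mp (heven a))
  rw [← Subgroup.orderOf_coe] at ht
  have hta : t.1 • a = a := t.2
  obtain ⟨u, hu⟩ : ∃ u : Ω, t.1 • u ≠ u := by
    by_contra hc
    push Not at hc
    rw [Perm.eq_one_of_forall_smul hc, orderOf_one] at ht
    exact absurd ht (by decide)
  have htt : ∀ x : Ω, t.1 • t.1 • x = x := fun x => by
    rw [← mul_smul, ← pow_two, ← ht, pow_orderOf_eq_one, one_smul]
  have hau : a ≠ u := by rintro rfl; exact hu hta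
  have hatu : a ≠ t.1 • u := fun h => hau (by rw [← htt u, ← h, hta])
  have key3 : ∀ a₁ b₁ c₁ : Ω, a₁ ≠ b₁ → a₁ ≠ c₁ → b₁ ≠ c₁ →
      ∃ g : G, g • a₁ = a ∧ g • b₁ = u ∧ g • c₁ = t.1 • u := by
    intro a₁ b₁ c₁ h1 h2 h3
    obtain ⟨g, hg, h | h⟩ := key2 a₁ b₁ c₁ a u (t.1 • u) h1 h2 h3 hau hatu hu.symm
    · exact ⟨g, hg, h⟩
    · exact ⟨t.1 * g, by rw [mul_smul, hg, hta], by rw [mul_smul, h.1, htt],
        by rw [mul_smul, h.2]⟩
  obtain ⟨g, g1, g2, g3⟩ := key3 a b c hab hac hbc
  obtain ⟨k, k1, k2, k3⟩ := key3 a' b' c' hab' hac' hbc'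
  exact ⟨k⁻¹ * g, by rw [mul_smul, g1, inv_smul_eq_iff, k1], by rw [mul_smul, g2, inv_smul_eq_iff, k2],
    by rw [mul_smul, g3, inv_smul_eq_iff, k3]⟩

end Cfsg.Agent.S0672
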