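import Mathlib
import Cfsg.Statements.S0676
import Cfsg.Agent.Perm.Burnside
import Cfsg.Agent.S0672

set_option autoImplicit false
open Cfsg

namespace Cfsg.Agent.S0676

open scoped Pointwise


/-- A non-solvable transitive permutation group of prime degree `p` whose Sylow `p`-normaliser has even order is triply transitive. -/
theorem result {α : Type*} [Fintype α] [DecidableEq α] {p : ℕ} [Fact p.Prime] (hα : Fintype.card α = p) (G : Subgroup (Equiv.Perm α)) [MulAction.IsPretransitive G α] (hG : ¬ Group.IsSolvable G) (P : Sylow p G) (heven : Even (Nat.card (Subgroup.normalizer ((P : Subgroup G) : Set G)))) : MulAction.IsMultiplyPretransitive G α 3 := by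
  have hp : p.Prime := Fact.out
  have hc : Nat.card α = p := Nat.card_eq_fintype_card.trans hα
  obtain ⟨e, τ, hP, hτ, he⟩ := Perm.exists_translation hc P
  have h2 := (Perm.burnside_prime_degree hc).resolve_left hG
  have hirr := (Perm.heart_irreducible_or_affine (K := ZMod p) he).resolve_left
    (fun h => hG (Perm.solvable_of_affine e h))
  by_cases hp2 : p = 2
  · rw [MulAction.isMultiplyPretransitive_iff]
    intro x
    have := Fintype.card_le_of_embedding x
    simp only [Fintype.card_fin] at this
    omega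
  rw [hP] at heven
  obtain ⟨t, b, ht⟩ := Perm.exists_reflection he hp2 heven
  have h2ne : (2 : ZMod p) ≠ 0 := by
    intro h
    have : ((2 : ℕ) : ZMod p) = 0 := by exact_mod_cast h
    rw [ZMod.natCast_eq_zero_iff] at this
    exact hp2 ((Nat.prime_dvd_prime_iff_eq hp Nat.prime_two).mp this)
  apply S0672.result (K := ZMod p) (p := p) h2 (hα ▸ dvd_rfl)
  · intro a
    have h1 := Perm.card_mul_card_stabilizer (G := G) a
    have h3 : Even (Nat.card G) :=
      even_iff_two_dvd.mpr ((even_iff_two_dvd.mp heven).trans (Subgroup.card_subgroup_dvd_card _))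
    rw [← h1, hc, Nat.even_mul] at h3
    exact h3.resolve_left (fun h => hp2 (hp.even_iff.mp h))
  intro f hf
  have hsum : ∑ x, e x = 0 := by
    rw [Equiv.sum_comp e (fun x => x)]
    have h3 : 2 < p := lt_of_le_of_ne hp.two_le (Ne.symm hp2)
    have := FiniteField.sum_pow_lt_card_sub_one (K := ZMod p) 1 (by rw [ZMod.card]; omega)
    simpa using this
  let v : (Cfsg.permSumZero (ZMod p) G α).toSubmodule := ⟨e, hsum⟩
  have hact : ∀ (g : G) (s : Set.powersetCard α 2),
      f ((Cfsg.permSumZero (ZMod p) G α).toRepresentation g⁻¹ v) s = f v (g • s) := by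
    intro g s
    rw [Representation.IntertwiningMap.isIntertwining, Perm.permRep_apply, inv_inv]
    rfl
  have hτv : ∀ s : Set.powersetCard α 2, f v (τ • s) = f v s := by
    intro s
    rw [← hact, ← sub_eq_zero, ← Pi.sub_apply, ← map_sub, hf]
    · rfl
    · refine (Perm.mem_permConstants _).mpr ⟨1, fun x => ?_⟩
      change e (τ⁻¹⁻¹ • x) - e x = 1
      rw [inv_inv, he]; ring
  have hτn : ∀ (n : ℕ) (s : Set.powersetCard α 2), f v (τ ^ n • s) = f v s := by
    intro n s
    induction n with
    | zero => simp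
    | succ n ih => rw [pow_succ', mul_smul, hτv, ih]
  have htv : ∀ s : Set.powersetCard α 2, f v (t • s) + f v s = 0 := by
    intro s
    rw [← hact, ← Pi.add_apply, ← map_add, hf]
    · rfl
    · refine (Perm.mem_permConstants _).mpr ⟨b, fun x => ?_⟩
      change e (t⁻¹⁻¹ • x) + e x = b
      rw [inv_inv, ht]; ring
  have hv0 : f v = 0 := by
    ext ⟨s, hs⟩
    obtain ⟨x, y, hxy, rfl⟩ := Finset.card_eq_two.mp hs
    have : t • (⟨{x, y}, hs⟩ : Set.powersetCard α 2) = τ ^ (b - e x - e y).val • ⟨{x, y}, hs⟩ := by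
      apply Subtype.ext
      change t • ({x, y} : Finset α) = τ ^ (b - e x - e y).val • ({x, y} : Finset α)
      simp only [Finset.smul_finset_insert, Finset.smul_finset_singleton]
      have e1 : t • x = τ ^ (b - e x - e y).val • y := e.injective (by
        rw [ht, Perm.coord_pow he]; simp)
      have e2 : t • y = τ ^ (b - e x - e y).val • x := e.injective (by
        rw [ht, Perm.coord_pow he]; simp; ring)
      rw [e1, e2, Finset.pair_comm]
    have h4 := htv ⟨{x, y}, hs⟩
    rw [this, hτn, ← two_mul] at h4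
    exact (mul_eq_zero.mp h4).resolve_left h2ne
  let W : Subrepresentation (Cfsg.permRep (ZMod p) G α) :=
    ⟨(f.ker.toSubmodule).map (Cfsg.permSumZero (ZMod p) G α).toSubmodule.subtype, by
      rintro g _ ⟨u, hu, rfl⟩
      exact ⟨_, f.ker.apply_mem_toSubmodule g hu, rfl⟩⟩
  have hcs : (Cfsg.permConstants (ZMod p) G α).toSubmodule ≤
      (Cfsg.permSumZero (ZMod p) G α).toSubmodule := by
    intro u hu
    obtain ⟨c, hc⟩ := (Perm.mem_permConstants _).mp hu
    rw [Perm.mem_permSumZero]
    simp [hc, hα]
  rcases hirr W (fun u hu => ⟨⟨u, hcs hu⟩, hf _ hu, rfl⟩) (Submodule.map_subtype_le _ _) with h | h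
  · exfalso
    have : (e : α → ZMod p) ∈ W.toSubmodule := ⟨v, hv0, rfl⟩
    rw [h, Perm.mem_permConstants] at this
    obtain ⟨c, hc⟩ := this
    have h0 := hc (e.symm 0)
    have h1 := hc (e.symm 1)
    rw [Equiv.apply_symm_apply] at h0 h1
    exact zero_ne_one (h0.trans h1.symm)
  · ext1
    ext1 u
    have : u.1 ∈ W.toSubmodule := by rw [h]; exact u.2
    obtain ⟨w, hw, hw'⟩ := this
    have : w = u := Subtype.ext hw'
    subst this
    exact hw

end Cfsg.Agent.S0676
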