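import Mathlib
import Cfsg.Statements.S0677
import Cfsg.Agent.Perm.Burnside
import Cfsg.Agent.Perm.Sharp4

set_option autoImplicit false
open Cfsg

namespace Cfsg.Agent.S0677

theorem zmod_aux {p : ℕ} [hp : Fact p.Prime] (hp2 : p ≠ 2) (D : Set (ZMod p)) (c : ZMod p)
    (hD : ∀ y, y ∈ D → c - y ∈ D) (δ : ZMod p) (m : ZMod p) (hm : 2 * m = c - δ) :
    Even {d | d ∈ D ∧ d + δ ∈ D}.ncard ↔ m ∉ D := by
  have h2ne : (2 : ZMod p) ≠ 0 := by
    intro h
    have : ((2 : ℕ) : ZMod p) = 0 := by exact_mod_cast h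
    rw [ZMod.natCast_eq_zero_iff] at this
    exact hp2 ((Nat.prime_dvd_prime_iff_eq hp.out Nat.prime_two).mp this)
  have hev : Even ({d | d ∈ D ∧ d + δ ∈ D} \ {m}).ncard := by
    apply Perm.even_ncard_of_involution (fun d => c - d - δ) _ (Set.toFinite _)
    · intro x _; ring
    · rintro x ⟨⟨h1, h2⟩, h3⟩
      refine ⟨⟨by simpa [sub_sub] using hD _ h2, by simpa using hD _ h1⟩, fun h => h3 ?_⟩
      have h' : c - x - δ = m := h
      change x = m
      linear_combination -h' - hm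
    · rintro x ⟨_, h3⟩ h
      apply h3
      change x = m
      apply mul_left_cancel₀ h2ne
      linear_combination -h - hm
  by_cases hmD : m ∈ D
  · have hmem : m ∈ {d | d ∈ D ∧ d + δ ∈ D} := ⟨hmD, by
      have := hD m hmD
      rwa [show c - m = m + δ by linear_combination -hm] at this⟩
    rw [← Set.ncard_diff_singleton_add_one hmem, Nat.even_add_one]
    simp [hev, hmD]
  · rw [Set.diff_singleton_eq_self (fun h => hmD h.1)] at hev
    simp [hev, hmD]


/-- In a transitive permutation group of prime degree `p` whose Sylow `p`-normaliser has even order, the point stabilisers are the only subgroups of index `p`. -/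
theorem result {α : Type*} [Fintype α] [DecidableEq α] {p : ℕ} [Fact p.Prime] (hα : Fintype.card α = p) (G : Subgroup (Equiv.Perm α)) [MulAction.IsPretransitive G α] (P : Sylow p G) (heven : Even (Nat.card (Subgroup.normalizer ((P : Subgroup G) : Set G)))) (H : Subgroup G) (hH : H.index = p) : ∃ a : α, H = MulAction.stabilizer G a := by
  classical
  have hp : p.Prime := Fact.out
  have hc : Nat.card α = p := Nat.card_eq_fintype_card.trans hα
  obtain ⟨e, τ, hP, hτ, he⟩ := Perm.exists_translation hc P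
  have hcardG : p * Nat.card H = Nat.card G := by rw [← hH]; exact H.index_mul_card
  have hnd : ¬ p ∣ Nat.card H := by
    intro h
    apply Perm.not_sq_dvd_card (G := G) (α := α) (p := p) (by have := hp.pos; omega)
    rw [← hcardG, pow_two]; exact Nat.mul_dvd_mul_left p h
  have hHτ : ∀ h ∈ H, h ∈ Subgroup.zpowers τ → h = 1 := by
    intro h hh hz
    have h1 : orderOf h ∣ p := hτ ▸ orderOf_dvd_of_mem_zpowers hz
    rcases (Nat.dvd_prime hp).mp h1 with h2 | h2
    · exact orderOf_eq_one_iff.mp h2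
    · exact absurd (h2 ▸ H.orderOf_dvd_natCard hh) hnd
  suffices ∃ a : α, ∀ h ∈ H, h • a = a by
    obtain ⟨a, ha⟩ := this
    refine ⟨a, Subgroup.eq_of_le_of_card_ge ha (le_of_eq ?_)⟩
    have := Perm.card_mul_card_stabilizer (G := G) a
    rw [hc, ← hcardG] at this
    exact Nat.eq_of_mul_eq_mul_left hp.pos this
  rcases Perm.affine_or_two_trans he with haff | h2
  · by_cases hb : H = ⊥
    · exact ⟨e.symm 0, fun h hh => by rw [hb, Subgroup.mem_bot] at hh; rw [hh, one_smul]⟩
    obtain ⟨⟨h, hh⟩, h1⟩ := (Subgroup.ne_bot_iff_exists_ne_one).mp hb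
    have h1' : h ≠ 1 := fun e => h1 (Subtype.ext e)
    obtain ⟨a, b, hab⟩ := haff h
    have ha : 1 - a ≠ 0 := by
      intro ha
      rw [← sub_eq_zero.mp ha] at hab
      simp only [one_mul] at hab
      exact h1' (hHτ h hh (Perm.eq_pow_of_translation he hab ▸ Subgroup.npow_mem_zpowers τ _))
    refine ⟨e.symm (b / (1 - a)), fun k hk => ?_⟩
    obtain ⟨c, d, hcd⟩ := haff k
    have hcomm : h * k * (k * h)⁻¹ = 1 := by
      apply hHτ _ (H.mul_mem (H.mul_mem hh hk) (H.inv_mem (H.mul_mem hk hh)))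
      rw [Perm.eq_pow_of_translation he (g := h * k * (k * h)⁻¹) (b := a * d + b - (c * b + d))]
      · exact Subgroup.npow_mem_zpowers τ _
      · intro x
        obtain ⟨x, rfl⟩ := MulAction.surjective (k * h) x
        simp only
        rw [← mul_smul, inv_mul_cancel_right, mul_smul, mul_smul, hab, hcd, hcd, hab]; ring
    rw [mul_inv_eq_one] at hcomm
    have h0 : h • e.symm (b / (1 - a)) = e.symm (b / (1 - a)) := e.injective (by
      rw [hab, Equiv.apply_symm_apply]; field_simp; ring)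
    have h3 : h • k • e.symm (b / (1 - a)) = k • e.symm (b / (1 - a)) := by
      rw [← mul_smul, hcomm, mul_smul, h0]
    have h4 := hab (k • e.symm (b / (1 - a)))
    rw [h3] at h4
    rw [← e.apply_eq_iff_eq_symm_apply, eq_div_iff ha]
    linear_combination h4
  by_contra hno
  push Not at hno
  let Δ : Set α := MulAction.orbit H (e.symm 0)
  have hΔ : ∀ h ∈ H, ∀ x, h • x ∈ Δ ↔ x ∈ Δ := fun h hh x =>
    ⟨fun hx => by
      have := MulAction.mem_orbit_of_mem_orbit (⟨h, hh⟩ : H)⁻¹ hx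
      change h⁻¹ • h • x ∈ _ at this
      rwa [inv_smul_smul] at this,
    fun hx => MulAction.mem_orbit_of_mem_orbit (⟨h, hh⟩ : H) hx⟩
  have hnu : ∃ y, y ∉ Δ := by
    by_contra hall
    push Not at hall
    haveI : MulAction.IsPretransitive H α :=
      (MulAction.isPretransitive_iff_orbit_eq_univ _).mpr (Set.eq_univ_iff_forall.mpr hall)
    haveI : Nonempty α := ⟨e.symm 0⟩
    have := Perm.dvd_card_of_transitive (G := H) (α := α)
    rw [hc] at this
    exact hnd this
  have hin : ∀ m : α, ∃ x ∈ Δ, x ≠ m := by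
    intro m
    obtain ⟨h, hh, hne⟩ := hno (e.symm 0)
    by_cases hm : e.symm 0 = m
    · exact ⟨_, (hΔ h hh _).mpr (MulAction.mem_orbit_self _), hm ▸ hne⟩
    · exact ⟨_, MulAction.mem_orbit_self _, hm⟩
  have hout : ∀ m : α, ∃ x ∉ Δ, x ≠ m := by
    intro m
    obtain ⟨y, hy⟩ := hnu
    obtain ⟨h, hh, hne⟩ := hno y
    by_cases hm : y = m
    · exact ⟨_, mt (hΔ h hh _).mp hy, hm ▸ hne⟩
    · exact ⟨_, hy, hm⟩
  have hp2 : p ≠ 2 := by
    rintro rfl
    obtain ⟨x, hx, -⟩ := hin (e.symm 0)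
    obtain ⟨x', hx', hxx⟩ := hin x
    obtain ⟨y, hy, -⟩ := hout x
    have : ({x, x', y} : Finset α).card = 3 := Finset.card_eq_three.mpr
      ⟨x, x', y, hxx.symm, fun h => hy (h ▸ hx), fun h => hy (h ▸ hx'), rfl⟩
    have h4 := Finset.card_le_univ ({x, x', y} : Finset α)
    omega
  rw [hP] at heven
  obtain ⟨t, b, ht⟩ := Perm.exists_reflection he hp2 heven
  let φ : H × ZMod p → G := fun x => x.1.1 * τ ^ x.2.val
  have hφ : Function.Bijective φ := by
    apply Function.Injective.bijective_of_nat_card_le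
    · rintro ⟨h, i⟩ ⟨k, j⟩ hij
      simp only [φ] at hij
      have h1 : k.1⁻¹ * h.1 = τ ^ j.val * (τ ^ i.val)⁻¹ := by
        rw [inv_mul_eq_iff_eq_mul, ← mul_assoc, ← hij]; simp
      have h3 := hHτ _ (H.mul_mem (H.inv_mem k.2) h.2) (h1 ▸ Subgroup.mul_mem _
        (Subgroup.npow_mem_zpowers τ _) (Subgroup.inv_mem _ (Subgroup.npow_mem_zpowers τ _)))
      rw [inv_mul_eq_one] at h3
      rw [h3, mul_right_inj] at hij
      have h4 := congrArg (fun g : G => e (g • e.symm 0)) hij
      simp only [Perm.coord_pow he] at h4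
      simp only [Equiv.apply_symm_apply, ZMod.natCast_val, ZMod.cast_id', id_eq, zero_add] at h4
      exact Prod.ext (Subtype.ext h3.symm) h4
    · rw [Nat.card_prod, ← hcardG, mul_comm]; simp
  let D : Set (ZMod p) := {y | e.symm y ∈ Δ}
  have hφD : ∀ (h : H) (i : ZMod p) (x : α), φ (h, i) • x ∈ Δ ↔ e x + i ∈ D := by
    intro h i x
    simp only [φ, mul_smul, hΔ h.1 h.2, D, Set.mem_setOf_eq]
    have : τ ^ i.val • x = e.symm (e x + i) := by
      rw [Equiv.eq_symm_apply, Perm.coord_pow he]; simp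
    rw [this]
  obtain ⟨⟨h, i⟩, hti⟩ := hφ.2 t
  have hD : ∀ y, y ∈ D → (b + i) - y ∈ D := by
    intro y hy
    have := (hφD h i (e.symm (b - y))).mp (by
      rw [hti]
      have : t • e.symm (b - y) = e.symm y := by rw [Equiv.eq_symm_apply, ht]; simp
      rw [this]; exact hy)
    rw [Equiv.apply_symm_apply] at this
    rwa [show b + i - y = b - y + i by ring]
  have hcount : ∀ δ : ZMod p, Nat.card {g : G // g • e.symm 0 ∈ Δ ∧ g • e.symm δ ∈ Δ} =
      Nat.card H * {d | d ∈ D ∧ d + δ ∈ D}.ncard := by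
    intro δ
    rw [← Nat.card_coe_set_eq, ← Nat.card_prod]
    symm
    apply Nat.card_eq_of_bijective (fun x => ⟨φ (x.1, x.2.1), by
      rw [hφD, hφD]; simpa [add_comm] using x.2.2⟩)
    constructor
    · rintro ⟨h1, i1, hi1⟩ ⟨h2, i2, hi2⟩ hh
      have := hφ.1 (congrArg Subtype.val hh)
      simp only [Prod.mk.injEq] at this
      obtain ⟨rfl, rfl⟩ := this
      rfl
    · rintro ⟨g, hg⟩
      obtain ⟨⟨h1, i1⟩, rfl⟩ := hφ.2 g
      rw [hφD, hφD] at hg
      exact ⟨⟨h1, i1, by simpa [add_comm] using hg⟩, rfl⟩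
  have hconst : ∀ δ : ZMod p, δ ≠ 0 → {d | d ∈ D ∧ d + δ ∈ D}.ncard = {d | d ∈ D ∧ d + 1 ∈ D}.ncard := by
    intro δ hδ
    obtain ⟨g, hg0, hg1⟩ := Perm.two_trans h2 (a := e.symm 0) (b := e.symm 1) (c := e.symm 0)
      (d := e.symm δ) (by simp) (by simpa using hδ.symm)
    apply Nat.eq_of_mul_eq_mul_left (Nat.card_pos (α := H))
    rw [← hcount, ← hcount]
    apply Nat.card_congr
    exact (Equiv.mulRight g).subtypeEquiv (fun k => by simp [mul_smul, hg0, hg1])
  have h2ne : (2 : ZMod p) ≠ 0 := by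
    intro h
    have : ((2 : ℕ) : ZMod p) = 0 := by exact_mod_cast h
    rw [ZMod.natCast_eq_zero_iff] at this
    exact hp2 ((Nat.prime_dvd_prime_iff_eq hp Nat.prime_two).mp this)
  obtain ⟨x, hx, hxm⟩ := hin (e.symm ((b + i) / 2))
  obtain ⟨y, hy, hym⟩ := hout (e.symm ((b + i) / 2))
  have hne : ∀ z : α, z ≠ e.symm ((b + i) / 2) → b + i - 2 * e z ≠ 0 := by
    intro z hz h0
    apply hz
    rw [Equiv.eq_symm_apply, eq_div_iff h2ne]
    linear_combination -h0
  have e1 := zmod_aux hp2 D (b + i) hD (b + i - 2 * e x) (e x) (by ring)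
  have e2 := zmod_aux hp2 D (b + i) hD (b + i - 2 * e y) (e y) (by ring)
  rw [hconst _ (hne x hxm)] at e1
  rw [hconst _ (hne y hym)] at e2
  simp only [D, Set.mem_setOf_eq, Equiv.symm_apply_apply] at e1 e2
  exact e1.mp (e2.mpr hy) hx

end Cfsg.Agent.S0677
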