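import Mathlib
import Cfsg.Statements.S0680
import Cfsg.Agent.Perm.Sharp2

set_option autoImplicit false
open Cfsg

namespace Cfsg.Agent.S0680


/-- A finite sharply doubly transitive permutation group has degree a prime power `p ^ j`; a Sylow `p`-subgroup is normal, elementary abelian and regular, and consists of the identity together with the elements without fixed points. (Frobenius' Theorem is not needed.) -/
theorem result {α : Type*} [Fintype α] [DecidableEq α] (G : Subgroup (Equiv.Perm α)) [MulAction.IsMultiplyPretransitive G α 2] (hsharp : ∀ x : Fin 2 ↪ α, MulAction.stabilizer G x = ⊥) (h2 : 2 ≤ Fintype.card α) : ∃ p j : ℕ, p.Prime ∧ 1 ≤ j ∧ Fintype.card α = p ^ j ∧ ∀ (hp : Fact p.Prime) (P : Sylow p G), (P : Subgroup G).Normal ∧ IsMulCommutative (P : Subgroup G) ∧ (∀ x ∈ (P : Subgroup G), x ^ p = 1) ∧ MulAction.IsPretransitive (P : Subgroup G) α ∧ (∀ a : α, MulAction.stabilizer (P : Subgroup G) a = ⊥) ∧ ∀ g : G, g ∈ (P : Subgroup G) ↔ g = 1 ∨ ∀ a : α, g •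 a ≠ a := by
  haveI : Nontrivial α := Fintype.one_lt_card_iff_nontrivial.mp h2
  obtain ⟨K, hKn, hK, hcomm, htr, hKc, hGc, p, hp, hpow, j, hj, hcard⟩ :=
    Perm.sharp2_kernel (G := G) (α := α) inferInstance hsharp
  refine ⟨p, j, hp, hj, by rw [← hcard, Nat.card_eq_fintype_card], fun _ P => ?_⟩
  have hidx : K.index = p ^ j - 1 := by
    have := K.index_mul_card
    rw [hKc, hGc, mul_comm] at this
    rw [← hcard]
    exact Nat.eq_of_mul_eq_mul_left (by rw [Nat.card_eq_fintype_card]; omega) this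
  have hKp : IsPGroup p K := IsPGroup.of_card (hKc.trans hcard)
  have hnd : ¬ p ∣ K.index := by
    rw [hidx]
    intro h
    have h1 : p ∣ p ^ j := dvd_pow_self p (by omega)
    have h3 : 1 ≤ p ^ j := Nat.one_le_pow _ _ hp.pos
    have := (Nat.dvd_sub_iff_right h3 h1).mp h
    exact hp.one_lt.ne' (Nat.dvd_one.mp this)
  let Q := hKp.toSylow hnd
  have hQ : (Q : Subgroup G) = K := rfl
  haveI : (Q : Subgroup G).Normal := hKn
  haveI := Sylow.unique_of_normal Q this
  have hP : (P : Subgroup G) = K := by rw [Subsingleton.elim P Q, hQ]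
  rw [hP]
  refine ⟨hKn, ⟨⟨fun x y => Subtype.ext (hcomm _ x.2 _ y.2)⟩⟩, hpow, ⟨fun a b => ?_⟩, fun a => ?_, hK⟩
  · obtain ⟨g, hg, hg'⟩ := htr a b
    exact ⟨⟨g, hg⟩, hg'⟩
  · rw [eq_bot_iff]
    intro g hg
    rcases (hK g).mp g.2 with h | h
    · exact Subgroup.mem_bot.mpr (Subtype.ext h)
    · exact absurd hg (h a)

end Cfsg.Agent.S0680
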