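import Mathlib
import Cfsg.Statements.S0681
import Cfsg.Agent.Perm.Multi

set_option autoImplicit false
open Cfsg

namespace Cfsg.Agent.S0681

theorem zero_mul' {F : Type*} [Cfsg.NearField F] (a : F) : 0 * a = 0 := by
  have := NearField.right_distrib (0 : F) 0 a
  rw [add_zero] at this
  exact left_eq_add.mp this

theorem neg_mul' {F : Type*} [Cfsg.NearField F] (x a : F) : (-x) * a = -(x * a) := by
  have := NearField.right_distrib (-x) x a
  rw [neg_add_cancel, zero_mul'] at this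
  exact eq_neg_of_add_eq_zero_left this.symm

theorem sub_mul' {F : Type*} [Cfsg.NearField F] (x y a : F) : (x - y) * a = x * a - y * a := by
  rw [sub_eq_add_neg, NearField.right_distrib, neg_mul', sub_eq_add_neg]

theorem mul_ne_zero' {F : Type*} [Cfsg.NearField F] {x a : F} (hx : x ≠ 0) (ha : a ≠ 0) :
    x * a ≠ 0 := by
  intro h
  obtain ⟨b, hb, -⟩ := NearField.exists_inv a ha
  apply hx
  rw [← mul_one x, ← hb, ← mul_assoc, h, zero_mul']

theorem inv_ne_zero' {F : Type*} [Cfsg.NearField F] {a b : F} (h : a * b = 1) : b ≠ 0 := by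
  rintro rfl
  rw [NearField.mul_zero] at h
  exact NearField.zero_ne_one h


/-- The affine maps `x ↦ x * a + b`, `a ≠ 0`, of a near-field form a sharply doubly transitive permutation group. -/
theorem result {F : Type*} [Cfsg.NearField F] : ∃ H : Subgroup (Equiv.Perm F), (∀ σ : Equiv.Perm F, σ ∈ H ↔ ∃ a b : F, a ≠ 0 ∧ ∀ x : F, σ x = x * a + b) ∧ MulAction.IsMultiplyPretransitive H F 2 ∧ ∀ x : Fin 2 ↪ F, MulAction.stabilizer H x = ⊥ := by
  let H : Subgroup (Equiv.Perm F) :=
    { carrier := {σ | ∃ a b : F, a ≠ 0 ∧ ∀ x : F, σ x = x * a + b}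
      one_mem' := ⟨1, 0, NearField.zero_ne_one.symm, fun x => by simp⟩
      mul_mem' := by
        rintro σ τ ⟨a, b, ha, hσ⟩ ⟨c, d, hc, hτ⟩
        refine ⟨c * a, d * a + b, mul_ne_zero' hc ha, fun x => ?_⟩
        rw [Equiv.Perm.mul_apply, hσ, hτ, NearField.right_distrib, mul_assoc, add_assoc]
      inv_mem' := by
        rintro σ ⟨a, b, ha, hσ⟩
        obtain ⟨c, hc, hc'⟩ := NearField.exists_inv a ha
        refine ⟨c, (-b) * c, inv_ne_zero' hc, fun x => ?_⟩
        rw [Equiv.Perm.inv_eq_iff_eq, hσ, ← NearField.right_distrib, mul_assoc, hc', mul_one,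
          neg_add_cancel_right] }
  refine ⟨H, fun σ => Iff.rfl, ?_, ?_⟩
  · rw [MulAction.is_two_pretransitive_iff]
    intro x₁ x₂ y₁ y₂ hx hy
    obtain ⟨c, hc, hc'⟩ := NearField.exists_inv (x₁ - x₂) (sub_ne_zero.mpr hx)
    have ha : c * (y₁ - y₂) ≠ 0 := mul_ne_zero' (inv_ne_zero' hc) (sub_ne_zero.mpr hy)
    set a := c * (y₁ - y₂) with ha'
    obtain ⟨a', h1, h2⟩ := NearField.exists_inv a ha
    let σ : Equiv.Perm F :=
      { toFun := fun x => x * a + (-(x₁ * a) + y₁)
        invFun := fun y => (y - (-(x₁ * a) + y₁)) * a'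
        left_inv := fun x => by simp only [add_sub_cancel_right, mul_assoc, h1, mul_one]
        right_inv := fun y => by simp only [mul_assoc, h2, mul_one, sub_add_cancel] }
    refine ⟨⟨σ, a, _, ha, fun x => rfl⟩, ?_, ?_⟩
    · change x₁ * a + (-(x₁ * a) + y₁) = y₁
      simp
    · change x₂ * a + (-(x₁ * a) + y₁) = y₂
      have : x₁ * a - x₂ * a = y₁ - y₂ := by
        rw [← sub_mul', ha', ← mul_assoc, hc, one_mul]
      rw [← add_assoc, ← sub_eq_add_neg, ← neg_sub, this, neg_sub, sub_add_cancel]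
  · apply Perm.sharp_of_forall
    rintro x hx ⟨σ, a, b, ha, hσ⟩ hg
    have h0 : σ (x 0) = x 0 := hg 0
    have h1 : σ (x 1) = x 1 := hg 1
    rw [hσ] at h0 h1
    have hne : x 0 - x 1 ≠ 0 := sub_ne_zero.mpr (hx.ne (by decide))
    obtain ⟨c, hc, hc'⟩ := NearField.exists_inv _ hne
    have h2 : (x 0 - x 1) * a = x 0 - x 1 := by
      rw [sub_mul']
      conv_rhs => rw [← h0, ← h1]
      rw [add_sub_add_right_eq_sub]
    have ha1 : a = 1 := by rw [← one_mul a, ← hc', mul_assoc, h2]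
    rw [ha1, mul_one, add_eq_left] at h0
    ext y
    change σ y = y
    rw [hσ, ha1, h0, mul_one, add_zero]

end Cfsg.Agent.S0681
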