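import Mathlib
import Cfsg.Statements.S0682
import Cfsg.Agent.Perm.Sharp2
import Cfsg.Agent.S0681

set_option autoImplicit false
open Cfsg

namespace Cfsg.Agent.S0682


/-- A finite near-field has prime-power order; its additive group is commutative of prime exponent. -/
theorem result {F : Type*} [Cfsg.NearField F] [Finite F] : ∃ p j : ℕ, p.Prime ∧ 1 ≤ j ∧ Nat.card F = p ^ j ∧ (∀ x y : F, x + y = y + x) ∧ ∀ x : F, p • x = 0 := by
  obtain ⟨H, hH, h2, hs⟩ := S0681.result (F := F)
  haveI : Nontrivial F := ⟨⟨0, 1, NearField.zero_ne_one⟩⟩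
  obtain ⟨K, hKn, hK, hcomm, htr, hKc, hGc, p, hp, hpow, j, hj, hcard⟩ :=
    Perm.sharp2_kernel (G := H) (α := F) h2 hs
  let t : F → H := fun b => ⟨Equiv.addRight b, (hH _).mpr ⟨1, b, NearField.zero_ne_one.symm,
    fun x => by simp⟩⟩
  have ht : ∀ b x : F, t b • x = x + b := fun b x => rfl
  have htK : ∀ b, t b ∈ K := by
    intro b
    rw [hK]
    by_cases hb : b = 0
    · left; ext x; simp [t, hb]
    · right; intro a ha; rw [ht] at ha; exact hb (add_eq_left.mp ha)
  refine ⟨p, j, hp, hj, hcard, fun x y => ?_, fun x => ?_⟩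
  · have := congrArg (fun g : H => g • (0 : F)) (hcomm _ (htK y) _ (htK x))
    simpa only [mul_smul, ht, zero_add] using this
  · have h1 : ∀ n : ℕ, (t x ^ n) • (0 : F) = n • x := by
      intro n
      induction n with
      | zero => simp
      | succ n ih => rw [pow_succ', mul_smul, ih, ht, succ_nsmul]
    rw [← h1, hpow _ (htK x), one_smul]

end Cfsg.Agent.S0682
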