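import Mathlib
import Cfsg.Statements.S0683
import Cfsg.Agent.Perm.Sharp2

set_option autoImplicit false
open Cfsg

namespace Cfsg.Agent.S0683


/-- A finite sharply doubly transitive permutation group is the affine group of a near-field: the permuted set carries a near-field structure for which the group consists exactly of the maps `x ↦ x * a + b` with `a ≠ 0`. -/
theorem result {α : Type*} [Fintype α] [DecidableEq α] (H : Subgroup (Equiv.Perm α)) [MulAction.IsMultiplyPretransitive H α 2] (hsharp : ∀ x : Fin 2 ↪ α, MulAction.stabilizer H x = ⊥) (h2 : 2 ≤ Fintype.card α) : ∃ _ : Cfsg.NearField α, ∀ σ : Equiv.Perm α, σ ∈ H ↔ ∃ a b : α, a ≠ 0 ∧ ∀ x : α, σ x = x * a + b := by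
  classical
  haveI : Nontrivial α := Fintype.one_lt_card_iff_nontrivial.mp h2
  have h2t : MulAction.IsMultiplyPretransitive H α 2 := inferInstance
  obtain ⟨K, hKn, hK, hcomm, htr, -⟩ := Perm.sharp2_kernel (G := H) (α := α) h2t hsharp
  obtain ⟨o, e, hoe⟩ := exists_pair_ne α
  choose t htK ht using htr o
  have Kuniq : ∀ x ∈ K, ∀ y ∈ K, ∀ a : α, x • a = y • a → x = y := by
    intro x hx y hy a h
    rcases (hK _).mp (K.mul_mem (K.inv_mem hy) hx) with h1 | h1
    · exact (inv_mul_eq_one.mp h1).symm
    · exact absurd (by rw [mul_smul, h, inv_smul_smul]) (h1 a)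
  have tmul : ∀ x ∈ K, t (x • o) = x := fun x hx => Kuniq _ (htK _) _ hx o (ht _)
  choose! m hm using fun (a : α) (ha : o ≠ a) => 
    (Perm.two_trans h2t hoe ha : ∃ g : H, g • o = o ∧ g • e = a)
  have muniq : ∀ g : H, g • o = o → m (g • e) = g := by
    intro g hg
    have hne : o ≠ g • e := fun h => hoe (MulAction.injective g (hg.trans h))
    have : g⁻¹ * m (g • e) = 1 := Perm.sharp2 hsharp hoe
      (by rw [mul_smul, (hm _ hne).1, inv_smul_eq_iff, hg])
      (by rw [mul_smul, (hm _ hne).2, inv_smul_smul])
    exact (inv_mul_eq_one.mp this).symm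
  have hmne : ∀ a x, o ≠ a → o ≠ x → o ≠ m a • x := fun a x ha hx h =>
    hx (MulAction.injective (m a) ((hm a ha).1.trans h))
  letI iAdd : Add α := ⟨fun x y => t y • x⟩
  letI iZero : Zero α := ⟨o⟩
  letI iNeg : Neg α := ⟨fun x => (t x)⁻¹ • o⟩
  have add_def : ∀ x y : α, x + y = t y • x := fun _ _ => rfl
  letI iAG : AddGroup α := AddGroup.ofLeftAxioms
    (fun x y z => by
      simp only [add_def]
      conv_rhs => rw [← ht y, ← mul_smul, tmul _ (K.mul_mem (htK z) (htK y)), mul_smul])
    (fun x => ht x)
    (fun x => smul_inv_smul (t x) o)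
  letI iMon : Monoid α :=
    { mul := fun x a => if o = a then o else m a • x
      one := e
      mul_assoc := fun x a b => by
        change (if o = b then o else m b • (if o = a then o else m a • x)) =
          (if o = (if o = b then o else m b • a) then o else m (if o = b then o else m b • a) • x)
        by_cases hb : o = b
        · simp [hb]
        by_cases ha : o = a
        · subst ha; simp [hb, (hm b hb).1]
        simp only [if_neg ha, if_neg hb, if_neg (hmne b a hb ha)]
        have := muniq (m b * m a) (by rw [mul_smul, (hm a ha).1, (hm b hb).1])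
        rw [mul_smul, (hm a ha).2] at this
        rw [this, mul_smul]
      one_mul := fun a => by
        change (if o = a then o else m a • e) = a
        by_cases ha : o = a
        · simp [ha]
        · rw [if_neg ha, (hm a ha).2]
      mul_one := fun a => by
        change (if o = e then o else m e • a) = a
        have := muniq 1 (one_smul _ _)
        rw [one_smul] at this
        rw [if_neg hoe, this, one_smul] }
  have mul_def : ∀ x a : α, x * a = if o = a then o else m a • x := fun _ _ => rfl
  have hconj : ∀ (g : H) (y : α), g • o = o → t (g • y) = g * t y * g⁻¹ := by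
    intro g y hg
    apply Kuniq _ (htK _) _ (hKn.conj_mem _ (htK y) g) o
    rw [ht, mul_smul, mul_smul, inv_smul_eq_iff.mpr hg.symm, ht]
  refine ⟨{ iAG, iMon with
    right_distrib := fun a b c => ?_
    mul_zero := fun a => ?_
    zero_ne_one := hoe
    exists_inv := fun a ha => ?_ }, fun σ => ⟨fun hσ => ?_, ?_⟩⟩
  · simp only [mul_def, add_def]
    by_cases hc : o = c
    · simp only [if_pos hc, ht]
    · simp only [if_neg hc]
      rw [hconj _ _ (hm c hc).1, mul_smul, mul_smul, inv_smul_smul]
  · exact if_pos rfl
  · have ha' : o ≠ a := Ne.symm ha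
    have h0 : (m a)⁻¹ • o = o := inv_smul_eq_iff.mpr (hm a ha').1.symm
    have hne : o ≠ (m a)⁻¹ • e := fun h => hoe (MulAction.injective _ (h0.trans h))
    refine ⟨(m a)⁻¹ • e, ?_, ?_⟩
    · rw [mul_def, if_neg hne, muniq _ h0, inv_smul_eq_iff]
      exact (hm a ha').2.symm
    · rw [mul_def, if_neg ha', smul_inv_smul]; rfl
  · let g : H := (t (σ o))⁻¹ * ⟨σ, hσ⟩
    have hg : g • o = o := by
      rw [mul_smul, inv_smul_eq_iff, ht]; rfl
    have hne : o ≠ g • e := fun h => hoe (MulAction.injective _ (hg.trans h))
    refine ⟨g • e, σ o, hne.symm, fun x => ?_⟩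
    change σ x = t (σ o) • (if o = g • e then o else m (g • e) • x)
    rw [if_neg hne, muniq g hg, mul_smul, smul_inv_smul]; rfl
  · rintro ⟨a, b, ha, hσ⟩
    have : σ = (t b * m a).1 := by
      ext x
      rw [hσ]
      change t b • (if o = a then o else m a • x) = _
      rw [if_neg (show ¬ o = a from Ne.symm ha)]; rfl
    rw [this]; exact (t b * m a).2

end Cfsg.Agent.S0683
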