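import Mathlib
import Cfsg.Statements.S0691
import Cfsg.Agent.Perm.RegularGL2

set_option autoImplicit false
open Cfsg

namespace Cfsg.Agent.S0691

def look (T : ℕ) (x y : ZMod 5) : ℕ := (T >>> (6 * (x.val * 5 + y.val))) % 64
def c1 : ℕ := 0x31010800c40420031010800c40420010c2100
def c2 : ℕ := 0x20820840410410841041030c30c3040000000
def rr : ℕ := 0x31040820830c30c40821010c30c1003082040
def gg : ℕ := 0x2082040080042002082080082082001001040
def p1 : ℕ := 0x4043042044082103002101002101004002040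
def p2 : ℕ := 0x1030400410830020401000c2040000040000
def c (x y : ZMod 5) : ZMod 5 × ZMod 5 := ((look c1 x y : ℕ), (look c2 x y : ℕ))
theorem hc0 : ∀ x y : ZMod 5, (x ≠ 0 ∨ y ≠ 0) → c ((2) * x + (0) * y) ((0) * x + (-2) * y) =
    ((2) * (c x y).1 + (0) * (c x y).2, (0) * (c x y).1 + (-2) * (c x y).2) := by decide +kernel
theorem hc1 : ∀ x y : ZMod 5, (x ≠ 0 ∨ y ≠ 0) → c ((0) * x + (-1) * y) ((1) * x + (0) * y) =
    ((0) * (c x y).1 + (-1) * (c x y).2, (1) * (c x y).1 + (0) * (c x y).2) := by decide +kernel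
theorem hc2 : ∀ x y : ZMod 5, (x ≠ 0 ∨ y ≠ 0) → c ((1) * x + (2) * y) ((1) * x + (-2) * y) =
    ((1) * (c x y).1 + (2) * (c x y).2, (1) * (c x y).1 + (-2) * (c x y).2) := by decide +kernel
theorem hr : ∀ x y : ZMod 5, (x ≠ 0 ∨ y ≠ 0) → (x = 1 ∧ y = 0) ∨
    (look rr (look p1 x y : ℕ) (look p2 x y : ℕ) < look rr x y ∧ (((2) * ((look p1 x y : ℕ) : ZMod 5) + (0) * ((look p2 x y : ℕ) : ZMod 5) = x ∧ (0) * ((look p1 x y : ℕ) : ZMod 5) + (-2) * ((look p2 x y : ℕ) : ZMod 5) = y) ∨ ((0) * ((look p1 x y : ℕ) : ZMod 5) + (-1) * ((look p2 x y : ℕ) : ZMod 5) = x ∧ (1) * ((look p1 x y : ℕ) : ZMod 5) + (0) * ((look p2 x y : ℕ) : ZMod 5) = y) ∨ ((1) * ((look p1 x y : ℕ) : ZMod 5) + (2) * ((look p2 x y : ℕ) : ZMod 5) = x ∧ (1) * ((look p1 x y : ℕ) : ZMod 5) + (-2) * ((look p2 x y : ℕ) : ZMod 5) = y))) := by decide +kernel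
theorem hc10 : c 1 0 = (0, 1) := by decide +kernel

/-- An exceptional sharply doubly transitive group of degree 5^2: the listed matrices generate a subgroup of GL(2,5) of order 24 acting regularly on the non-zero vectors. -/
theorem result (A : Matrix.GeneralLinearGroup (Fin 2) (ZMod 5)) (B : Matrix.GeneralLinearGroup (Fin 2) (ZMod 5)) (C : Matrix.GeneralLinearGroup (Fin 2) (ZMod 5)) (hA : (A : Matrix (Fin 2) (Fin 2) (ZMod 5)) = !![2, 0; 0, -2]) (hB : (B : Matrix (Fin 2) (Fin 2) (ZMod 5)) = !![0, -1; 1, 0]) (hC : (C : Matrix (Fin 2) (Fin 2) (ZMod 5)) = !![1, 2; 1, -2]) : Nat.card (Subgroup.closure ({A, B, C} : Set (Matrix.GeneralLinearGroup (Fin 2) (ZMod 5)))) = 24 ∧ ∀ v w : Fin 2 → ZMod 5, v ≠ 0 → w ≠ 0 → ∃! h : Subgroup.closure ({A, B, C} : Set (Matrix.GeneralLinearGroup (Fin 2) (ZMod 5))), Matrix.mulVec ((h : Matrix.GeneralLinearGroup (Fin 2) (ZMod 5)) : Matrix (Fin 2) (Fin 2) (ZMod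 5)) v = w := by
  haveI : Fact (Nat.Prime 5) := ⟨by norm_num⟩
  refine Perm.regular_of_cert (p := 5) _ c (look rr) hc10 ?_ ?_
  · rintro g (rfl | rfl | rfl)
    · exact ⟨_, _, _, _, hA, hc0⟩
    · exact ⟨_, _, _, _, hB, hc1⟩
    · exact ⟨_, _, _, _, hC, hc2⟩
  · intro x y hxy
    refine (hr x y hxy).imp id ?_
    rintro ⟨h1, h | h | h⟩
    · exact ⟨A, by simp, _, _, by rw [hA, Perm.mulVec_fin_two, h.1, h.2], h1⟩
    · exact ⟨B, by simp, _, _, by rw [hB, Perm.mulVec_fin_two, h.1, h.2], h1⟩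
    · exact ⟨C, by simp, _, _, by rw [hC, Perm.mulVec_fin_two, h.1, h.2], h1⟩

end Cfsg.Agent.S0691
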