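import Mathlib
import Cfsg.Statements.S0692
import Cfsg.Agent.Perm.RegularGL2

set_option autoImplicit false
open Cfsg

namespace Cfsg.Agent.S0692

def look (T : ℕ) (x y : ZMod 11) : ℕ := (T >>> (6 * (x.val * 11 + y.val))) % 64
def c1 : ℕ := 0xa0441c51880832401c920a1460020c11072482821431060010062072411020c52892851c62000c108424a2000c51060421c62091ca0840c50010051c818904308428a2090051810c21070882431461072810011840c90881c5280
def c2 : ℕ := 0x904014208010404a0c318304114208a1420840831830c31c72000c400410104420618504814224618214508918328614524728a1c70072000c310820814824724910124918a2881482062871c02491802820401012841c1287000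
def rr : ℕ := 0x72093071881421820ca30420914b24714220a14c14b24b20924630b1093040cb2071862851032c72872092851872c820914c14230b18c2881ca1892c91cb0c82842852c91c728628c0471040ca20928718500318a248187204040
def gg : ℕ := 0x41040000040040000001040041001041000041041040041041001041040000040000041041041041041040040040041041001001041040041041040001041041040041000000040040000041040000000041041041041000
def p1 : ℕ := 0xa2482011440c228028920718804324200218a1c60042011401490861831c010100a0481c618a0c70040042011450832811c31c01c814524218018a0c70051011490890882831440c204004920718a0c308100a201149086283040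
def p2 : ℕ := 0x10411020010410c10020820812821840812880c308024714308024710304a2041050451451020091c51020091c60c62861850c11c81c408024718408024820304a20714904a24924900920a28a0091ca28a0001c50c1288184000
def c (x y : ZMod 11) : ZMod 11 × ZMod 11 := ((look c1 x y : ℕ), (look c2 x y : ℕ))
theorem hc0 : ∀ x y : ZMod 11, (x ≠ 0 ∨ y ≠ 0) → c ((0) * x + (-1) * y) ((1) * x + (0) * y) =
    ((0) * (c x y).1 + (-1) * (c x y).2, (1) * (c x y).1 + (0) * (c x y).2) := by decide +kernel
theorem hc1 : ∀ x y : ZMod 11, (x ≠ 0 ∨ y ≠ 0) → c ((2) * x + (4) * y) ((1) * x + (-3) * y) =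
    ((2) * (c x y).1 + (4) * (c x y).2, (1) * (c x y).1 + (-3) * (c x y).2) := by decide +kernel
theorem hr : ∀ x y : ZMod 11, (x ≠ 0 ∨ y ≠ 0) → (x = 1 ∧ y = 0) ∨
    (look rr (look p1 x y : ℕ) (look p2 x y : ℕ) < look rr x y ∧ (((0) * ((look p1 x y : ℕ) : ZMod 11) + (-1) * ((look p2 x y : ℕ) : ZMod 11) = x ∧ (1) * ((look p1 x y : ℕ) : ZMod 11) + (0) * ((look p2 x y : ℕ) : ZMod 11) = y) ∨ ((2) * ((look p1 x y : ℕ) : ZMod 11) + (4) * ((look p2 x y : ℕ) : ZMod 11) = x ∧ (1) * ((look p1 x y : ℕ) : ZMod 11) + (-3) * ((look p2 x y : ℕ) : ZMod 11) = y))) := by decide +kernel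
theorem hc10 : c 1 0 = (0, 1) := by decide +kernel

/-- An exceptional sharply doubly transitive group of degree 11^2: the listed matrices generate a subgroup of GL(2,11) of order 120 acting regularly on the non-zero vectors. -/
theorem result (A : Matrix.GeneralLinearGroup (Fin 2) (ZMod 11)) (B : Matrix.GeneralLinearGroup (Fin 2) (ZMod 11)) (hA : (A : Matrix (Fin 2) (Fin 2) (ZMod 11)) = !![0, -1; 1, 0]) (hB : (B : Matrix (Fin 2) (Fin 2) (ZMod 11)) = !![2, 4; 1, -3]) : Nat.card (Subgroup.closure ({A, B} : Set (Matrix.GeneralLinearGroup (Fin 2) (ZMod 11)))) = 120 ∧ ∀ v w : Fin 2 → ZMod 11, v ≠ 0 → w ≠ 0 → ∃! h : Subgroup.closure ({A, B} : Set (Matrix.GeneralLinearGroup (Fin 2) (ZMod 11))), Matrix.mulVec ((h : Matrix.GeneralLinearGroup (Fin 2) (ZMod 11)) : Matrix (Fin 2) (Fin 2) (ZMod 11)) v = w := by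
  haveI : Fact (Nat.Prime 11) := ⟨by norm_num⟩
  refine Perm.regular_of_cert (p := 11) _ c (look rr) hc10 ?_ ?_
  · rintro g (rfl | rfl)
    · exact ⟨_, _, _, _, hA, hc0⟩
    · exact ⟨_, _, _, _, hB, hc1⟩
  · intro x y hxy
    refine (hr x y hxy).imp id ?_
    rintro ⟨h1, h | h⟩
    · exact ⟨A, by simp, _, _, by rw [hA, Perm.mulVec_fin_two, h.1, h.2], h1⟩
    · exact ⟨B, by simp, _, _, by rw [hB, Perm.mulVec_fin_two, h.1, h.2], h1⟩

end Cfsg.Agent.S0692
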