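import Mathlib
import Cfsg.Statements.S0694

set_option autoImplicit false
open Cfsg

namespace Cfsg.Agent.S0694

open Finset

theorem em {q r i : ℕ} (hq : 2 ≤ q) (hr : r.Prime) (h : r ∣ q - 1) (h2 : r = 2 → 4 ∣ q - 1) :
    emultiplicity r (∑ j ∈ range i, q ^ j) = emultiplicity r i := by
  obtain ⟨t, rfl⟩ : ∃ t, q = t + 1 := ⟨q - 1, by omega⟩
  simp only [Nat.add_sub_cancel] at h h2
  have hr' : Prime (r : ℤ) := Nat.prime_iff_prime_int.1 hr
  have h3 : ¬ (r : ℤ) ∣ ((t + 1 : ℕ) : ℤ) := fun e => hr.ne_one (Nat.dvd_one.1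
    ((Nat.dvd_add_right h).1 (Int.natCast_dvd_natCast.1 e)))
  have h4 : emultiplicity (r : ℤ) (((t + 1 : ℕ) : ℤ) ^ i - 1 ^ i) =
      emultiplicity (r : ℤ) (((t + 1 : ℕ) : ℤ) - 1) + emultiplicity r i := by
    rcases hr.eq_two_or_odd' with rfl | ho
    · rw [← Int.natCast_emultiplicity]
      exact Int.two_pow_sub_pow' i (by simpa using Int.natCast_dvd_natCast.2 (h2 rfl)) h3
    · exact Int.emultiplicity_pow_sub_pow hr ho (by simpa using Int.natCast_dvd_natCast.2 h) h3 i
  rw [one_pow, ← mul_geom_sum, emultiplicity_mul hr'] at h4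
  have h5 : emultiplicity (r : ℤ) (((t + 1 : ℕ) : ℤ) - 1) ≠ ⊤ := finiteMultiplicity_iff_emultiplicity_ne_top.1
    (Int.finiteMultiplicity_iff.2 ⟨by simpa using hr.ne_one, by simp; omega⟩)
  rw [← WithTop.add_left_cancel h5 h4, ← Int.natCast_emultiplicity]
  push_cast; rfl


/-- The Dickson pair condition: for a prime power `q` and `n > 1`, (every prime factor of `n` divides `q - 1`, and `4 ∣ n → 4 ∣ q - 1`) holds exactly when `q ^ n ≡ 1` modulo `n * (q - 1)` but `q ^ i` is not, for `0 < i < n`. -/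
theorem result (q n : ℕ) (hq : IsPrimePow q) (hn : 1 < n) : ((∀ r : ℕ, r.Prime → r ∣ n → r ∣ q - 1) ∧ (4 ∣ n → 4 ∣ q - 1)) ↔ (q ^ n ≡ 1 [MOD n * (q - 1)] ∧ ∀ i : ℕ, 0 < i → i < n → ¬ q ^ i ≡ 1 [MOD n * (q - 1)]) := by
  have hq2 := hq.two_le
  let s : ℕ → ℕ := fun i => ∑ j ∈ range i, q ^ j
  have hs : ∀ i, q ^ i = s i * (q - 1) + 1 := fun i => by
    have := geom_sum_mul_add (q - 1) i
    rw [Nat.sub_add_cancel (by omega)] at this
    exact this.symm
  have key : ∀ i, q ^ i ≡ 1 [MOD n * (q - 1)] ↔ n ∣ s i := fun i => by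
    rw [hs, Nat.ModEq.comm, Nat.modEq_iff_dvd' (by omega), Nat.add_sub_cancel,
      Nat.mul_dvd_mul_iff_right (by omega)]
  simp only [key]
  constructor
  · rintro ⟨h1, h2⟩
    have h3 : ∀ r k i : ℕ, r.Prime → r ^ k ∣ n → (r ^ k ∣ s i ↔ r ^ k ∣ i) := fun r k i hr hk => by
      rcases k with _ | k
      · simp
      have h4 := h1 r hr ((dvd_pow_self r k.succ_ne_zero).trans hk)
      by_cases h5 : r = 2 → 4 ∣ q - 1
      · rw [pow_dvd_iff_le_emultiplicity, pow_dvd_iff_le_emultiplicity, em hq2 hr h4 h5]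
      · push Not at h5
        obtain ⟨rfl, h5⟩ := h5
        rcases k with _ | k
        · have : ∀ i, s i % 2 = i % 2 := fun i => by
            induction i with
            | zero => rfl
            | succ i ih =>
              have : q ^ i % 2 = 1 := Nat.odd_iff.1 (Odd.pow (Nat.odd_iff.2 (by omega)))
              simp only [s, sum_range_succ] at ih ⊢; omega
          have := this i
          simp only [zero_add, pow_one]; omega
        · exact absurd (h2 (Dvd.dvd.trans ⟨2 ^ k, by ring⟩ hk)) h5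
    refine ⟨(Nat.dvd_iff_prime_pow_dvd_dvd _ _).2 fun r k hr hk => (h3 r k n hr hk).2 hk, fun i h4 h5 h6 => ?_⟩
    have := Nat.le_of_dvd h4 ((Nat.dvd_iff_prime_pow_dvd_dvd i n).2 fun r k hr hk => (h3 r k i hr hk).1 (hk.trans h6))
    omega
  · rintro ⟨h1, h2⟩
    have hco : n.Coprime q := Nat.coprime_of_dvd fun r hr h3 h4 => by
      have h5 : r ∣ s n * (q - 1) + 1 := hs n ▸ dvd_pow h4 (by omega)
      exact hr.ne_one (Nat.dvd_one.1 ((Nat.dvd_add_right ((h3.trans h1).mul_right _)).1 h5))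
    haveI : NeZero n := ⟨by omega⟩
    have hlt : ∀ i j : Fin n, i < j → (s i : ZMod n) ≠ s j := fun i j hij e => by
      obtain ⟨d, hd⟩ : ∃ d, j.1 = i.1 + d := ⟨j - i, by have : i.1 < j.1 := hij; omega⟩
      have h3 : s j = s i + q ^ i.1 * s d := by
        simp only [s]; rw [hd, sum_range_add, mul_sum]; simp only [pow_add]
      rw [h3, Nat.cast_add, left_eq_add, ZMod.natCast_eq_zero_iff] at e
      have : i.1 < j.1 := hij
      exact h2 d (by omega) (by omega) ((hco.pow_right _).dvd_of_dvd_mul_left e)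
    have hsurj : Function.Surjective fun i : Fin n => (s i : ZMod n) :=
      ((Nat.bijective_iff_injective_and_card _).2 ⟨fun i j e => by
        rcases lt_trichotomy i j with h | h | h
        exacts [absurd e (hlt i j h), h, absurd e.symm (hlt j i h)], by simp⟩).2
    have h3 : ∀ a : ℕ, ∃ i, s i ≡ a [MOD n] := fun a => by
      obtain ⟨i, hi⟩ := hsurj a
      exact ⟨i, (ZMod.natCast_eq_natCast_iff _ _ _).1 hi⟩
    have h4 : ∀ r : ℕ, r.Prime → r ∣ n → r ∣ q - 1 := fun r hr h => by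
      by_contra hc
      haveI := Fact.mk hr
      obtain ⟨i, hi⟩ := h3 (-((q - 1 : ℕ) : ZMod r)⁻¹).val
      have h5 := (ZMod.natCast_eq_natCast_iff _ _ _).2 (hi.of_dvd h)
      have h6 : ((q ^ i : ℕ) : ZMod r) = 0 := by
        rw [hs, Nat.cast_add, Nat.cast_mul, h5, ZMod.natCast_zmod_val, neg_mul,
          inv_mul_cancel₀ (fun e => hc ((ZMod.natCast_eq_zero_iff _ _).1 e))]; simp
      exact hr.ne_one (Nat.eq_one_of_dvd_coprimes hco h (hr.dvd_of_dvd_pow ((ZMod.natCast_eq_zero_iff _ _).1 h6)))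
    refine ⟨h4, fun h => ?_⟩
    by_contra hc
    have h5 := h4 2 Nat.prime_two (Dvd.dvd.trans (by norm_num) h)
    obtain ⟨t, rfl⟩ : ∃ t, q = 4 * t + 3 := ⟨q / 4, by omega⟩
    have h6 : ∀ i, s i % 4 = 0 ∨ s i % 4 = 1 := fun i => by
      induction i with
      | zero => left; rfl
      | succ i ih =>
        have : s (i + 1) = 4 * (t * s i) + 3 * s i + 1 := by simp only [s]; rw [geom_sum_succ]; ring
        omega
    obtain ⟨i, hi⟩ := h3 2
    have := hi.of_dvd h
    have := h6 i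
    unfold Nat.ModEq at *; omega

end Cfsg.Agent.S0694
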