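import Mathlib
import Cfsg.Statements.S0695
import Cfsg.Agent.Perm.NormalSub

set_option autoImplicit false
open Cfsg

namespace Cfsg.Agent.S0695


/-- A regular normal subgroup of a doubly primitive group of finite degree at least 2 is an elementary abelian 2-group (and the degree is a power of 2), unless the degree is 3. -/
theorem result {G : Type*} [Group G] {X : Type*} [Fintype X] [MulAction G X] (hX : 2 ≤ Fintype.card X) (h2 : MulAction.IsMultiplyPreprimitive G X 2) (N : Subgroup G) [N.Normal] (htrans : MulAction.IsPretransitive N X) (hreg : ∀ x : X, MulAction.stabilizer N x = ⊥) : Fintype.card X = 3 ∨ (IsMulCommutative N ∧ (∀ n ∈ N, n ^ 2 = 1) ∧ ∃ m : ℕ, Fintype.card X = 2 ^ m) := by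
  rw [← Nat.card_eq_fintype_card] at hX ⊢
  refine (Perm.two_prim_regular_normal hX h2 N htrans hreg).imp id fun h => ⟨Perm.mul_comm_of_sq h, h, ?_⟩
  obtain ⟨a⟩ : Nonempty X := (Nat.card_ne_zero.mp (by omega)).1
  have hc := Perm.card_eq_of_regular N htrans hreg a
  haveI : Finite N := Nat.finite_of_card_ne_zero (by omega)
  haveI : Fact (Nat.Prime 2) := ⟨Nat.prime_two⟩
  have hp : IsPGroup 2 N := fun n => ⟨1, Subtype.ext (by simpa using h n.1 n.2)⟩
  obtain ⟨m, hm⟩ := IsPGroup.iff_card.mp hp
  exact ⟨m, hc ▸ hm⟩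

end Cfsg.Agent.S0695
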