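import Mathlib
import Cfsg.Statements.S0698
import Cfsg.Agent.Perm.NormalSub

set_option autoImplicit false
open Cfsg

namespace Cfsg.Agent.S0698

open MulAction

/-- Jordan's Theorem on normal subgroups of multiply transitive groups: if `G` is `k`-transitive (`k > 1`) of degree greater than `k`, a non-trivial normal subgroup is `(k-1)`-transitive, except possibly for `k = 3` when it may be an elementary abelian 2-group. -/
theorem result {α : Type*} [Fintype α] [DecidableEq α] (G : Subgroup (Equiv.Perm α)) {k : ℕ} (hk : 1 < k) (hdeg : k < Fintype.card α) (hG : MulAction.IsMultiplyPretransitive G α k) (N : Subgroup G) [N.Normal] (hN : N ≠ ⊥) : MulAction.IsMultiplyPretransitive N α (k - 1) ∨ (k = 3 ∧ IsMulCommutative N ∧ ∀ n ∈ N, n ^ 2 = 1) := by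
  rw [← Nat.card_eq_fintype_card] at hdeg
  obtain ⟨j, rfl⟩ : ∃ j, k = j + 2 := ⟨k - 2, by omega⟩
  change IsMultiplyPretransitive N α (j + 1) ∨ _
  have hk' : ((j + 2 : ℕ) : ℕ∞) ≤ ENat.card α := by
    rw [ENat.card_eq_coe_natCard]; exact_mod_cast hdeg.le
  have hp : IsMultiplyPreprimitive G α (j + 1) :=
    isMultiplyPreprimitive_of_isMultiplyPretransitive_succ G α hk'
  have hk'' : ((j + 1 : ℕ) : ℕ∞) ≤ ENat.card α := by
    rw [ENat.card_eq_coe_natCard]; exact_mod_cast (by omega)
  haveI : IsPreprimitive G α := (is_one_preprimitive_iff _ _).mp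
    (isMultiplyPreprimitive_of_le G α hp (by omega) hk'')
  have htr : IsPretransitive N α := Perm.transitive_of_normal N hN
  rcases Nat.eq_zero_or_pos j with rfl | hj
  · exact Or.inl (is_one_pretransitive_iff.mpr htr)
  have h2 : IsMultiplyPreprimitive G α 2 := isMultiplyPreprimitive_of_le G α hp (by omega) hk''
  by_cases hreg : ∀ a : α, stabilizer N a = ⊥
  · right
    rcases (show j = 1 ∨ 2 ≤ j by omega) with rfl | hj2
    · rcases Perm.two_prim_regular_normal (by omega) h2 N htr hreg with h | h
      · omega
      · exact ⟨rfl, Perm.mul_comm_of_sq h, h⟩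
    · have h3 : IsMultiplyPreprimitive G α 3 := isMultiplyPreprimitive_of_le G α hp (by omega) hk''
      have := Perm.three_prim_regular_normal (by omega) h3 N htr hreg
      omega
  · left
    push Not at hreg
    obtain ⟨a, ha⟩ := hreg
    rcases (show j = 1 ∨ 2 ≤ j by omega) with rfl | hj2
    · exact Perm.two_trans_of_normal_nonregular (by omega) h2 N ha
    by_cases hc : Nat.card G = (Nat.card α).factorial
    · have : G = ⊤ := Subgroup.eq_top_of_card_eq _ (by rw [hc, Nat.card_perm])
      subst this
      haveI : (N.map (⊤ : Subgroup (Equiv.Perm α)).subtype).Normal :=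
        Subgroup.Normal.map ‹_› _ (fun x => ⟨⟨x, trivial⟩, rfl⟩)
      have hle := Equiv.Perm.alternatingGroup_le_of_normal (α := α) (by omega)
        (N := N.map (⊤ : Subgroup (Equiv.Perm α)).subtype) (by
          rw [Subgroup.nontrivial_iff_ne_bot]
          rwa [Ne, Subgroup.map_eq_bot_iff_of_injective _ (Subgroup.subtype_injective _)])
      have hA := alternatingGroup.isMultiplyPretransitive α
      rw [Perm.multi_iff]
      intro x y hx hy
      obtain ⟨g, hg⟩ := Perm.multi_exists_le hA (by omega) (by rw [Nat.card_fin]; omega) x y hx hy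
      obtain ⟨n, hn, e⟩ := hle g.2
      refine ⟨⟨n, hn⟩, fun i => ?_⟩
      rw [← hg i]
      change n.1 (x i) = g.1 (x i)
      rw [← e]; rfl
    · exact Perm.multi_of_normal_nonregular j (by omega) hp hc N ha

end Cfsg.Agent.S0698
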