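import Mathlib
import Cfsg.Statements.S0705
import Cfsg.Agent.Perm.Multi
import Cfsg.Agent.Perm.Homog

set_option autoImplicit false
open scoped Pointwise
open Cfsg

namespace Cfsg.Agent.S0705

theorem swap_elt {α : Type*} [Fintype α] [DecidableEq α] (G : Subgroup (Equiv.Perm α)) {k : ℕ}
    (hgen : ∀ s : Finset α, s.card = k + 1 → ∀ σ : Equiv.Perm ↥s, ∃ g ∈ G, ∀ x : ↥s, g (x : α) = σ x)
    (s : Finset α) (hs : s.card = k + 1) (σ : Equiv.Perm α) (hσ : ∀ x, σ x ∈ s ↔ x ∈ s) :
    ∃ g ∈ G, ∀ x ∈ s, g x = σ x := by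
  obtain ⟨g, hg, h⟩ := hgen s hs (σ.subtypePerm hσ)
  exact ⟨g, hg, fun x hx => h ⟨x, hx⟩⟩

theorem swap_mem_iff {α : Type*} [DecidableEq α] (s : Finset α) {a b : α} (ha : a ∈ s) (hb : b ∈ s)
    (x : α) : Equiv.swap a b x ∈ s ↔ x ∈ s := by
  rw [Equiv.swap_apply_def]
  split_ifs with h1 h2
  · simp [h1, ha, hb]
  · simp [h2, ha, hb]
  · rfl

theorem multi {α : Type*} [Fintype α] [DecidableEq α] (G : Subgroup (Equiv.Perm α)) {k : ℕ}
    (hk : k < Fintype.card α)
    (hgen : ∀ s : Finset α, s.card = k + 1 → ∀ σ : Equiv.Perm ↥s, ∃ g ∈ G, ∀ x : ↥s, g (x : α) = σ x) :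
    MulAction.IsMultiplyPretransitive G α k := by
  rw [Perm.multi_iff]
  intro x y hx hy
  have key : ∀ j ≤ k, ∃ g : G, ∀ i : Fin k, i.val < j → g • x i = y i := by
    intro j
    induction j with
    | zero => intro _; exact ⟨1, fun i hi => absurd hi (Nat.not_lt_zero _)⟩
    | succ j ih =>
      intro hj
      obtain ⟨g, hg⟩ := ih (by omega)
      let j' : Fin k := ⟨j, hj⟩
      have hinj : Function.Injective (fun i => g • x i) := (MulAction.injective g).comp hx
      obtain ⟨s, hs1, -, hs3⟩ := Finset.exists_subsuperset_card_eq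
        (s := insert (y j') (Finset.univ.image fun i => g • x i)) (t := Finset.univ) (n := k + 1)
        (Finset.subset_univ _) ((Finset.card_insert_le _ _).trans (by
          rw [Finset.card_image_of_injective _ hinj]; simp)) (by simpa using hk)
      have m1 : ∀ i, g • x i ∈ s := fun i => hs1 (by simp)
      obtain ⟨h, hh, hh'⟩ := swap_elt G hgen s hs3 (Equiv.swap (g • x j') (y j'))
        (swap_mem_iff s (m1 _) (hs1 (by simp)))
      refine ⟨⟨h, hh⟩ * g, fun i hi => ?_⟩
      rw [mul_smul]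
      change h (g • x i) = y i
      rw [hh' _ (m1 i)]
      by_cases hij : i = j'
      · rw [hij, Equiv.swap_apply_left]
      · have hlt : i.val < j := by
          have : i.val ≠ j := fun h => hij (Fin.ext h)
          omega
        rw [Equiv.swap_apply_of_ne_of_ne (hinj.ne hij) (by rw [hg i hlt]; exact hy.ne hij), hg i hlt]
  obtain ⟨g, hg⟩ := key k le_rfl
  exact ⟨g, fun i => hg i i.2⟩


/-- A generously `k`-transitive permutation group (every `(k+1)`-subset has its full symmetric group induced by the setwise stabiliser) of degree greater than `k` is `k`-transitive, and for a `k`-subset the setwise and pointwise stabilisers have the same orbits outside it. -/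
theorem result {α : Type*} [Fintype α] [DecidableEq α] (G : Subgroup (Equiv.Perm α)) {k : ℕ} (hk : k < Fintype.card α) (hgen : ∀ s : Finset α, s.card = k + 1 → ∀ σ : Equiv.Perm ↥s, ∃ g ∈ G, ∀ x : ↥s, g (x : α) = σ x) : MulAction.IsMultiplyPretransitive G α k ∧ ∀ s : Finset α, s.card = k → ∀ a b : α, a ∉ s → b ∉ s → (∃ g ∈ G, g • s = s ∧ g a = b) → ∃ g ∈ G, (∀ x ∈ s, g x = x) ∧ g a = b := by
  refine ⟨multi G hk hgen, ?_⟩
  rintro s hs a b ha hb ⟨g, hg, hgs, hgab⟩
  have hgmem : ∀ x, g x ∈ s ↔ x ∈ s := by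
    intro x
    conv_lhs => rw [← hgs]
    exact Finset.smul_mem_smul_finset_iff g
  have hgmem' : ∀ x, g⁻¹ x ∈ s ↔ x ∈ s := fun x => by rw [← hgmem]; simp
  let σ := Equiv.Perm.ofSubtype (g⁻¹.subtypePerm hgmem')
  have hσ1 : ∀ x ∈ s, σ x = g⁻¹ x := fun x hx => Equiv.Perm.ofSubtype_apply_of_mem _ hx
  have hσ2 : ∀ x ∉ s, σ x = x := fun x hx => Equiv.Perm.ofSubtype_apply_of_not_mem _ hx
  obtain ⟨h, hh, hh'⟩ := swap_elt G hgen (insert b s) (by rw [Finset.card_insert_of_notMem hb, hs])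
    σ (fun x => by
      by_cases hx : x ∈ s
      · rw [hσ1 x hx]
        exact iff_of_true (Finset.mem_insert_of_mem ((hgmem' x).mpr hx)) (Finset.mem_insert_of_mem hx)
      · rw [hσ2 x hx])
  refine ⟨h * g, G.mul_mem hh hg, fun x hx => ?_, ?_⟩
  · have : g x ∈ s := (hgmem x).mpr hx
    rw [Equiv.Perm.mul_apply, hh' _ (Finset.mem_insert_of_mem this), hσ1 _ this]; simp
  · rw [Equiv.Perm.mul_apply, hgab, hh' _ (Finset.mem_insert_self _ _), hσ2 b hb]

end Cfsg.Agent.S0705
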