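import Mathlib
import Cfsg.Statements.S0706
import Cfsg.Agent.S0705
import Cfsg.Agent.Perm.PFixed
import Cfsg.Agent.Perm.Conj

set_option autoImplicit false
open Cfsg

namespace Cfsg.Agent.S0706

open scoped Pointwise


/-- In a generously `k`-transitive permutation group, for a prime `p ≤ k` and a `k`-set `Γ`, there are no `p` points outside `Γ` lying in distinct orbits of the pointwise stabiliser of `Γ` all of length prime to `p` (at most `p - 1` such orbits). -/
theorem result {α : Type*} [Fintype α] [DecidableEq α] (G : Subgroup (Equiv.Perm α)) {k : ℕ} (hk : k < Fintype.card α) (hgen : ∀ s : Finset α, s.card = k + 1 → ∀ σ : Equiv.Perm ↥s, ∃ g ∈ G, ∀ x : ↥s, g (x : α) = σ x) {p : ℕ} (hp : p.Prime) (hpk : p ≤ k) (Γ : Finset α) (hΓ : Γ.card = k) (f : Fin p → α) (hf : ∀ i, f i ∉ Γ) (hdist : ∀ i j, i ≠ j → f j ∉ MulAction.orbit (fixingSubgroup G (Γ : Set α)) (f i)) : ∃ i, p ∣ Nat.card (MulAction.orbit (fixingSubgroup G (Γ : Set α)) (f i)) := by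
  classical
  haveI := Fact.mk hp
  obtain ⟨htr, hgen2⟩ := S0705.result G hk hgen
  by_contra hcon
  push Not at hcon
  set K := fixingSubgroup G (Γ : Set α) with hK
  obtain ⟨T, hTΓ, hT⟩ := Finset.exists_subset_card_eq (s := Γ) (n := p) (by omega)
  obtain ⟨c, hc, hcs⟩ : ∃ c : Equiv.Perm α, c.IsCycle ∧ c.support = T := by
    refine ⟨T.toList.formPerm, List.isCycle_formPerm T.nodup_toList (by simpa [hT] using hp.two_le), ?_⟩
    rw [List.support_formPerm_of_nodup _ T.nodup_toList]
    · simp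
    · intro x hx
      have := congrArg List.length hx
      simp [hT] at this
      exact hp.one_lt.ne' this
  have hcΓ : ∀ (n : ℤ) x, x ∈ Γ → (c ^ n) x ∈ Γ := by
    intro n x hx
    by_cases h : x ∈ c.support
    · exact hTΓ (hcs ▸ Equiv.Perm.zpow_apply_mem_support.mpr h)
    · rwa [Equiv.Perm.zpow_apply_eq_self_of_apply_eq_self (Equiv.Perm.notMem_support.mp h)]
  let H : Subgroup G :=
    { carrier := {g | ∃ n : ℤ, ∀ x ∈ Γ, g.1 x = (c ^ n) x}
      one_mem' := ⟨0, fun x _ => rfl⟩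
      mul_mem' := by
        rintro g h ⟨n, hn⟩ ⟨m, hm⟩
        refine ⟨n + m, fun x hx => ?_⟩
        rw [Subgroup.coe_mul, Equiv.Perm.mul_apply, hm x hx, hn _ (hcΓ m x hx), zpow_add,
          Equiv.Perm.mul_apply]
      inv_mem' := by
        rintro g ⟨n, hn⟩
        refine ⟨-n, fun x hx => ?_⟩
        rw [InvMemClass.coe_inv, Equiv.Perm.inv_eq_iff_eq, hn _ (hcΓ _ x hx), zpow_neg]; simp }
  obtain ⟨γ, hγ, hγ'⟩ := id hc
  have hγT : γ ∈ T := hcs ▸ Equiv.Perm.mem_support.mpr hγ
  have horb : MulAction.orbit H γ = (T : Set α) := by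
    ext y
    constructor
    · rintro ⟨⟨g, n, hn⟩, rfl⟩
      change g.1 γ ∈ T
      rw [hn γ (hTΓ hγT), ← hcs, Equiv.Perm.zpow_apply_mem_support, hcs]; exact hγT
    · intro hy
      have hy' : c y ≠ y := Equiv.Perm.mem_support.mp (hcs ▸ hy)
      obtain ⟨n, rfl⟩ := hγ' hy'
      obtain ⟨g, hg⟩ := Perm.multi_finset htr (by rw [Nat.card_eq_fintype_card]; omega) Γ hΓ.le
        (c ^ n : Equiv.Perm α) (c ^ n).injective.injOn
      exact ⟨⟨g, n, hg⟩, hg γ (hTΓ hγT)⟩
  have hdvd : p * Nat.card K ∣ Nat.card H := by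
    rw [← Perm.card_orbit_mul_card_stabilizer (G := H) γ, horb, Nat.card_coe_set_eq,
      Set.ncard_coe_finset, hT]
    apply Nat.mul_dvd_mul_left
    have hKH : K ≤ H := fun g hg => ⟨0, fun x hx => (mem_fixingSubgroup_iff G).mp hg x hx⟩
    refine Subgroup.card_dvd_of_injective ((Subgroup.inclusion hKH).codRestrict
      (MulAction.stabilizer H γ) fun g => (mem_fixingSubgroup_iff G).mp g.2 γ (hTΓ hγT)) ?_
    intro x y h
    have h' := congrArg Subtype.val h
    exact Subgroup.inclusion_injective hKH h'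
  obtain ⟨Q⟩ : Nonempty (Sylow p H) := inferInstance
  have hQd : p ^ ((Nat.card K).factorization p + 1) ∣ Nat.card Q := by
    apply Q.pow_dvd_card_of_pow_dvd_card
    rw [pow_succ']
    exact (Nat.mul_dvd_mul_left p (Nat.ordProj_dvd _ _)).trans hdvd
  let Q' := (Q : Subgroup H).map H.subtype
  have hQ' : IsPGroup p Q' := Q.isPGroup'.map _
  have hQH : Q' ≤ H := Subgroup.map_subtype_le _
  have hfix : ∀ i, ∃ x ∈ MulAction.orbit K (f i), ∀ q ∈ Q', q • x = x := by
    intro i
    apply Perm.exists_fixed_of_not_dvd Q' hQ' _ _ (hcon i)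
    rintro q hq _ ⟨u, rfl⟩
    obtain ⟨n, hn⟩ := hQH hq
    have hu : ∀ x, u.1.1 x ∈ Γ ↔ x ∈ Γ := by
      intro x
      constructor
      · intro h
        have : u.1.1 (u.1.1 x) = u.1.1 x := (mem_fixingSubgroup_iff G).mp u.2 _ h
        rwa [u.1.1.injective this] at h
      · intro h
        have : u.1.1 x = x := (mem_fixingSubgroup_iff G).mp u.2 _ h
        rwa [this]
    have hqΓ : q.1 • Γ = Γ := by
      apply Finset.eq_of_subset_of_card_le _ (by rw [Finset.card_smul_finset])
      intro y hy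
      obtain ⟨x, hx, rfl⟩ := Finset.mem_smul_finset.mp hy
      change q.1 x ∈ Γ
      rw [hn x hx]; exact hcΓ n x hx
    have h1 : u.1.1 (f i) ∉ Γ := mt (hu _).mp (hf i)
    obtain ⟨g, hg, hg1, hg2⟩ := hgen2 Γ hΓ (u.1.1 (f i)) (q.1 (u.1.1 (f i))) h1 (by
      rw [← hqΓ]
      exact mt (Finset.smul_mem_smul_finset_iff q.1).mp h1) ⟨q.1, q.2, hqΓ, rfl⟩
    exact ⟨⟨⟨g, hg⟩, (mem_fixingSubgroup_iff G).mpr hg1⟩ * u, hg2⟩
  choose δ hδ hδfix using hfix
  have hδinj : Function.Injective δ := by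
    intro i j hij
    by_contra hne
    apply hdist i j hne
    have h1 := hδ i
    rw [hij] at h1
    rw [← MulAction.orbit_eq_iff.mpr h1, MulAction.orbit_eq_iff.mpr (hδ j)]
    exact MulAction.mem_orbit_self _
  have hδΓ : ∀ i, δ i ∉ Γ := by
    intro i h
    obtain ⟨u, hu⟩ := hδ i
    have h2 : u • δ i = δ i := (mem_fixingSubgroup_iff G).mp u.2 _ h
    have h3 : u • f i = δ i := hu
    rw [← h3] at h2
    rw [← h3, MulAction.injective u h2] at h
    exact hf i h
  let Γ' := (Γ \ T) ∪ Finset.univ.image δ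
  have hΓ' : Γ'.card = k := by
    rw [Finset.card_union_of_disjoint, Finset.card_sdiff_of_subset hTΓ,
      Finset.card_image_of_injective _ hδinj]
    · simp; omega
    · rw [Finset.disjoint_right]
      intro x hx
      obtain ⟨i, -, rfl⟩ := Finset.mem_image.mp hx
      exact fun h => hδΓ i (Finset.mem_sdiff.mp h).1
  have hle : Q' ≤ fixingSubgroup G (Γ' : Set α) := by
    intro q hq
    rw [mem_fixingSubgroup_iff]
    intro y hy
    rcases Finset.mem_union.mp hy with hy | hy
    · obtain ⟨n, hn⟩ := hQH hq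
      rw [Finset.mem_sdiff] at hy
      change q.1 y = y
      rw [hn y hy.1, Equiv.Perm.zpow_apply_eq_self_of_apply_eq_self
        (Equiv.Perm.notMem_support.mp (hcs ▸ hy.2))]
    · obtain ⟨i, -, rfl⟩ := Finset.mem_image.mp hy
      exact hδfix i q hq
  have hcardeq : Nat.card (fixingSubgroup G (Γ' : Set α)) = Nat.card K := by
    have i1 := htr.index_of_fixingSubgroup_mul (s := (Γ' : Set α)) (by simpa using hΓ')
    have i2 := htr.index_of_fixingSubgroup_mul (s := (Γ : Set α)) (by simpa using hΓ)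
    have i3 := Nat.eq_of_mul_eq_mul_right (Nat.factorial_pos _) (i1.trans i2.symm)
    have j1 := (fixingSubgroup G (Γ' : Set α)).index_mul_card
    have j2 := K.index_mul_card
    rw [i3, ← j2] at j1
    exact Nat.eq_of_mul_eq_mul_left (Nat.pos_of_ne_zero Subgroup.index_ne_zero_of_finite) j1
  have := Subgroup.card_dvd_of_le hle
  rw [hcardeq, Subgroup.card_map_of_injective H.subtype_injective] at this
  exact Nat.pow_succ_factorization_not_dvd Nat.card_pos.ne' hp (hQd.trans this)

end Cfsg.Agent.S0706
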