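import Mathlib
import Cfsg.Statements.S0699
import Cfsg.Agent.Perm.NormalSub
import Cfsg.Agent.Perm.PFixed
import Cfsg.Agent.S0698
import Cfsg.Agent.S0706

set_option autoImplicit false
open Cfsg

namespace Cfsg.Agent.S0699

open MulAction

/-- Wagner's Theorem: a non-trivial normal subgroup of a triply transitive permutation group of odd degree at least 5 is triply transitive. -/
theorem result {α : Type*} [Fintype α] [DecidableEq α] (G : Subgroup (Equiv.Perm α)) (hodd : Odd (Fintype.card α)) (h5 : 5 ≤ Fintype.card α) (hG : MulAction.IsMultiplyPretransitive G α 3) (N : Subgroup G) [N.Normal] (hN : N ≠ ⊥) : MulAction.IsMultiplyPretransitive N α 3 := by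
  classical
  haveI : Fact (Nat.Prime 2) := ⟨Nat.prime_two⟩
  have hcard := Nat.card_eq_fintype_card (α := α)
  have hno : ¬ 2 ∣ Nat.card α := by rw [hcard]; exact hodd.not_two_dvd_nat
  have hG2 : IsMultiplyPretransitive G α 2 := isMultiplyPretransitive_of_le (n := 3) (by omega) (by omega)
  haveI := isPreprimitive_of_is_two_pretransitive hG2
  have htr : IsPretransitive N α := Perm.transitive_of_normal N hN
  have h2 : IsMultiplyPretransitive N α 2 := by
    rcases S0698.result G (k := 3) (by omega) (by omega) hG N hN with h | ⟨-, -, h⟩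
    · exact h
    · exfalso
      have hp : IsPGroup 2 N := fun n => ⟨1, Subtype.ext (by simpa using h n.1 n.2)⟩
      obtain ⟨x, -, hx⟩ := Perm.exists_fixed_of_not_dvd N hp (Set.univ : Set α) (by simp)
        (by rwa [Set.ncard_univ])
      obtain ⟨y, hy, -⟩ := Perm.exists_ne_ne (α := α) (by omega) x x
      obtain ⟨g, hg⟩ := exists_smul_eq N x y
      exact hy (hg.symm.trans (hx g.1 g.2))
  obtain ⟨t, ht⟩ : ∃ t : N, orderOf t = 2 := by
    apply exists_prime_orderOf_dvd_card'
    obtain ⟨x⟩ := Perm.nonempty_embedding_fin (Ω := α) (k := 2) (by omega)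
    rw [Perm.card_eq_descFactorial_mul h2 x]
    exact Dvd.dvd.mul_right (Nat.factorial_dvd_descFactorial _ 2) _
  have ht2 : t ^ 2 = 1 := ht ▸ pow_orderOf_eq_one t
  have htt : ∀ x : α, t • t • x = x := fun x => by rw [← mul_smul, ← pow_two, ht2, one_smul]
  obtain ⟨c, -, hc⟩ := Perm.exists_fixed_of_not_dvd (Subgroup.zpowers t)
    (Perm.isPGroup_zpowers_of_pow (p := 2) (k := 1) (by simpa using ht2)) (Set.univ : Set α) (by simp)
    (by rwa [Set.ncard_univ])
  have hc' : t • c = c := hc t (Subgroup.mem_zpowers t)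
  obtain ⟨a, ha⟩ : ∃ a : α, t • a ≠ a := by
    by_contra h
    push Not at h
    have : t = 1 := Perm.eq_one_of_forall_smul h
    simp [this] at ht
  have hswap : ∀ x y z : α, x ≠ y → x ≠ z → y ≠ z → ∃ n : N, n • x = y ∧ n • y = x ∧ n • z = z := by
    intro x y z hxy hxz hyz
    obtain ⟨g, g1, g2, g3⟩ := Perm.three_trans hG (a := a) (b := t • a) (c := c) ha.symm
      (by rintro rfl; exact ha hc') (fun h => ha (by
        have := MulAction.injective t (h.trans hc'.symm)
        rw [this, hc'])) hxy hxz hyz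
    refine ⟨⟨g * t * g⁻¹, Subgroup.Normal.conj_mem ‹_› _ t.2 g⟩, ?_, ?_, ?_⟩
    · change (g * t * g⁻¹) • x = y
      rw [← g1, mul_smul, mul_smul, inv_smul_smul]; exact g2
    · change (g * t * g⁻¹) • y = x
      rw [← g2, mul_smul, mul_smul, inv_smul_smul, ← g1]; exact congrArg _ (htt a)
    · change (g * t * g⁻¹) • z = z
      rw [← g3, mul_smul, mul_smul, inv_smul_smul]; exact congrArg _ hc'
  set N' := N.map G.subtype with hN'
  have hgen : ∀ s : Finset α, s.card = 2 + 1 → ∀ σ : Equiv.Perm ↥s, ∃ g ∈ N', ∀ x : ↥s,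
      g (x : α) = σ x := by
    intro s hs σ
    induction σ using Equiv.Perm.swap_induction_on with
    | one => exact ⟨1, N'.one_mem, fun x => rfl⟩
    | swap_mul f x y hxy ih =>
      obtain ⟨g, hg, hgf⟩ := ih
      obtain ⟨z, hzx, hzy⟩ := Perm.exists_ne_ne (α := s) (by simp [hs]) x y
      obtain ⟨n, n1, n2, n3⟩ := hswap x y z (fun h => hxy (Subtype.ext h))
        (fun h => hzx (Subtype.ext h.symm)) (fun h => hzy (Subtype.ext h.symm))
      refine ⟨n.1.1 * g, N'.mul_mem ⟨n.1, n.2, rfl⟩ hg, fun w => ?_⟩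
      rw [Equiv.Perm.mul_apply, hgf, Equiv.Perm.mul_apply]
      generalize f w = u
      have : (Finset.univ : Finset s) = {x, y, z} := by
        symm
        apply Finset.eq_univ_of_card
        rw [Finset.card_eq_three.mpr ⟨x, y, z, hxy, hzx.symm, hzy.symm, rfl⟩]
        simp [hs]
      have hu : u ∈ ({x, y, z} : Finset s) := this ▸ Finset.mem_univ u
      simp only [Finset.mem_insert, Finset.mem_singleton] at hu
      rcases hu with rfl | rfl | rfl
      · rw [Equiv.swap_apply_left]; exact n1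
      · rw [Equiv.swap_apply_right]; exact n2
      · rw [Equiv.swap_apply_of_ne_of_ne hzx hzy]; exact n3
  rw [Perm.three_trans_iff]
  intro a b c a' b' c' hab hac hbc hab' hac' hbc'
  obtain ⟨g, ga, gb⟩ := Perm.two_trans h2 hab hab'
  suffices ∃ h : N, h • a' = a' ∧ h • b' = b' ∧ h • g • c = c' by
    obtain ⟨h, h1, h2, h3⟩ := this
    exact ⟨h * g, by rw [mul_smul, ga, h1], by rw [mul_smul, gb, h2], by rw [mul_smul, h3]⟩
  have hca : g • c ≠ a' := by rw [← ga]; exact fun h => hac (MulAction.injective g h).symm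
  have hcb : g • c ≠ b' := by rw [← gb]; exact fun h => hbc (MulAction.injective g h).symm
  generalize g • c = d at hca hcb
  by_contra hcon
  set K := fixingSubgroup N' ((({a', b'} : Finset α)) : Set α) with hK
  have hmem : ∀ u v : α, v ∈ orbit K u ↔ ∃ h : N, h • a' = a' ∧ h • b' = b' ∧ h • u = v := by
    intro u v
    constructor
    · rintro ⟨⟨⟨_, n, hn, rfl⟩, hk⟩, rfl⟩
      rw [mem_fixingSubgroup_iff] at hk
      exact ⟨⟨n, hn⟩, hk a' (by simp), hk b' (by simp), rfl⟩
    · rintro ⟨h, h1, h2, rfl⟩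
      refine ⟨⟨⟨_, h.1, h.2, rfl⟩, ?_⟩, rfl⟩
      rw [mem_fixingSubgroup_iff]
      intro y hy
      simp only [Finset.coe_insert, Finset.coe_singleton, Set.mem_insert_iff,
        Set.mem_singleton_iff] at hy
      rcases hy with rfl | rfl
      exacts [h1, h2]
  obtain ⟨i, hi⟩ := S0706.result N' (k := 2) (by omega) hgen Nat.prime_two le_rfl {a', b'}
    (Finset.card_pair hab') ![d, c'] (by
      intro i
      fin_cases i <;> simp [hca, hcb, hac'.symm, hbc'.symm]) (by
      intro i j hij
      fin_cases i <;> fin_cases j <;> simp only [Fin.zero_eta, Fin.mk_one, ne_eq, not_true_eq_false] at hij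
      · exact fun h => hcon ((hmem _ _).mp h)
      · exact fun h => hcon ((hmem _ _).mp (mem_orbit_symm.mp h)))
  have hu : ∀ u : α, u ≠ a' → u ≠ b' → ¬ 2 ∣ Nat.card (orbit K u) := by
    intro u hua hub h
    have := Perm.ncard_orbit_dvd (stabilizer G a' ⊓ stabilizer G b') (N ⊓ (stabilizer G a' ⊓ stabilizer G b'))
      (fun g hg m hm => ⟨Subgroup.Normal.conj_mem ‹_› _ hm.1 g,
        Subgroup.mul_mem _ (Subgroup.mul_mem _ hg hm.2) (Subgroup.inv_mem _ hg)⟩) inf_le_right
      ({a', b'}ᶜ : Set α) (by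
        intro g hg x hx
        simp only [Set.mem_compl_iff, Set.mem_insert_iff, Set.mem_singleton_iff, not_or] at hx ⊢
        exact ⟨fun h => hx.1 (MulAction.injective g (h.trans (Eq.symm hg.1))),
          fun h => hx.2 (MulAction.injective g (h.trans (Eq.symm hg.2)))⟩) (by
        intro x hx y hy
        simp only [Set.mem_compl_iff, Set.mem_insert_iff, Set.mem_singleton_iff, not_or] at hx hy
        obtain ⟨g, g1, g2, g3⟩ := Perm.three_trans hG hab' (Ne.symm hx.1) (Ne.symm hx.2) hab'
          (Ne.symm hy.1) (Ne.symm hy.2)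
        exact ⟨g, ⟨g1, g2⟩, g3⟩) (x := u) (by simp [hua, hub])
    have e : orbit K u = orbit (↥(N ⊓ (stabilizer G a' ⊓ stabilizer G b'))) u := by
      ext v
      rw [hmem]
      constructor
      · rintro ⟨h, h1, h2, rfl⟩
        exact ⟨⟨h.1, h.2, h1, h2⟩, rfl⟩
      · rintro ⟨h, rfl⟩
        exact ⟨⟨h.1, h.2.1⟩, h.2.2.1, h.2.2.2, rfl⟩
    rw [Nat.card_coe_set_eq, e] at h
    have h' := h.trans this
    have := Set.ncard_add_ncard_compl ({a', b'} : Set α)
    rw [Set.ncard_pair hab'] at this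
    omega
  fin_cases i
  · exact hu _ hca hcb hi
  · exact hu _ hac'.symm hbc'.symm hi

end Cfsg.Agent.S0699
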