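import Mathlib
import Cfsg.Statements.S0702
import Cfsg.Agent.S0701

set_option autoImplicit false
open Cfsg

namespace Cfsg.Agent.S0702


/-- For a transitive permutation group `G` on a finite set, the centraliser of `G` in the symmetric group is isomorphic to `N_G(G_ω)/G_ω`, and its orbit of `ω` is the set of fixed points of `G_ω`. -/
theorem result {α : Type*} [Finite α] (G : Subgroup (Equiv.Perm α)) [MulAction.IsPretransitive G α] (a : α) : Nonempty (Subgroup.centralizer (G : Set (Equiv.Perm α)) ≃* Subgroup.normalizer ((MulAction.stabilizer G a : Subgroup G) : Set G) ⧸ (MulAction.stabilizer G a).subgroupOf (Subgroup.normalizer ((MulAction.stabilizer G a : Subgroup G) : Set G))) ∧ MulAction.orbit (Subgroup.centralizer (G : Set (Equiv.Perm α))) a = MulAction.fixedPoints (MulAction.stabilizer G a) α := by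
  classical
  choose t ht using fun x : α => MulAction.exists_smul_eq G a x
  set N := Subgroup.normalizer ((MulAction.stabilizer G a : Subgroup G) : Set G) with hN
  have key : ∀ (n : N) (g : G), (t (g • a) * n.1) • a = (g * n.1) • a := by
    intro n g
    have h1 : g⁻¹ * t (g • a) ∈ MulAction.stabilizer G a := by
      rw [MulAction.mem_stabilizer_iff, mul_smul, ht, inv_smul_smul]
    have h2 := (Subgroup.mem_normalizer_iff.mp (N.inv_mem n.2) _).mp h1
    rw [MulAction.mem_stabilizer_iff, inv_inv, mul_smul, mul_smul, mul_smul, inv_smul_eq_iff,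
      inv_smul_eq_iff] at h2
    rw [mul_smul, mul_smul, h2]
  let c : N → Equiv.Perm α := fun n =>
    { toFun := fun x => (t x * n.1⁻¹) • a
      invFun := fun x => (t x * n.1) • a
      left_inv := fun x => by
        simp only
        rw [key, inv_mul_cancel_right, ht]
      right_inv := fun x => by
        simp only
        have := key n⁻¹ (t x * n.1)
        simp only [InvMemClass.coe_inv] at this
        rw [this, mul_inv_cancel_right, ht] }
  have hc : ∀ (n : N) (g : G), c n (g • a) = (g * n.1⁻¹) • a := fun n g => key n⁻¹ g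
  have hcmem : ∀ n, c n ∈ Subgroup.centralizer (G : Set (Equiv.Perm α)) := by
    intro n
    rw [Subgroup.mem_centralizer_iff]
    intro g hg
    ext x
    obtain ⟨h, rfl⟩ := MulAction.exists_smul_eq G a x
    have e1 : g (h • a) = ((⟨g, hg⟩ : G) * h) • a := rfl
    simp only [Equiv.Perm.coe_mul, Function.comp_apply]
    rw [e1, hc, hc, mul_assoc]
    rfl
  let φ : N →* Subgroup.centralizer (G : Set (Equiv.Perm α)) := MonoidHom.mk' (fun n => ⟨c n, hcmem n⟩) (by
    intro n m
    ext x
    obtain ⟨h, rfl⟩ := MulAction.exists_smul_eq G a x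
    simp only [Subgroup.coe_mul, Equiv.Perm.coe_mul, Function.comp_apply]
    rw [hc, hc, hc, Subgroup.coe_mul, mul_inv_rev, mul_assoc])
  have hfix : ∀ (n : G), (∀ h ∈ MulAction.stabilizer G a, h • n • a = n • a) → n ∈ N := by
    intro n hn
    rw [← inv_mem_iff]
    apply Subgroup.mem_normalizer_fintype
    intro h hh
    rw [SetLike.mem_coe, MulAction.mem_stabilizer_iff, inv_inv, mul_smul, mul_smul, hn h hh, inv_smul_smul]
  have hcfix : ∀ d ∈ Subgroup.centralizer (G : Set (Equiv.Perm α)), ∀ (h : G) (x : α),
      h • d x = d (h • x) := by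
    intro d hd h x
    have := Subgroup.mem_centralizer_iff.mp hd h h.2
    exact congrArg (fun u : Equiv.Perm α => u x) this
  have hsurj : Function.Surjective φ := by
    rintro ⟨d, hd⟩
    obtain ⟨n, hn⟩ := MulAction.exists_smul_eq G a (d a)
    have hnN : n ∈ N := hfix n (fun h hh => by
      rw [hn, hcfix d hd, MulAction.mem_stabilizer_iff.mp hh])
    refine ⟨⟨n, hnN⟩⁻¹, ?_⟩
    ext x
    obtain ⟨h, rfl⟩ := MulAction.exists_smul_eq G a x
    change c _ _ = d _
    rw [hc, ← hcfix d hd, ← hn, mul_smul]
    simp
  have hker : φ.ker = (MulAction.stabilizer G a).subgroupOf N := by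
    ext n
    rw [MonoidHom.mem_ker, Subgroup.mem_subgroupOf, MulAction.mem_stabilizer_iff]
    constructor
    · intro h
      have h1 : c n a = a := by
        have : c n = 1 := congrArg Subtype.val h
        rw [this]; rfl
      have h2 := hc n 1
      rw [one_smul, one_mul, h1, eq_inv_smul_iff] at h2
      exact h2
    · intro h
      ext x
      obtain ⟨g, rfl⟩ := MulAction.exists_smul_eq G a x
      change c _ _ = g • a
      rw [hc, mul_smul, inv_smul_eq_iff.mpr h.symm]
  constructor
  · exact ⟨((QuotientGroup.quotientMulEquivOfEq hker.symm).trans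
      (QuotientGroup.quotientKerEquivOfSurjective φ hsurj)).symm⟩
  · ext x
    constructor
    · rintro ⟨d, rfl⟩ h
      change h.1 • d.1 a = d.1 a
      rw [hcfix d.1 d.2, MulAction.mem_stabilizer_iff.mp h.2]
    · intro hx
      obtain ⟨n, rfl⟩ := MulAction.exists_smul_eq G a x
      have hnN : n ∈ N := hfix n (fun h hh => hx ⟨h, hh⟩)
      refine ⟨φ ⟨n, hnN⟩⁻¹, ?_⟩
      have := hc ⟨n, hnN⟩⁻¹ 1
      simp only [one_smul, one_mul, InvMemClass.coe_inv, inv_inv] at this
      exact this

end Cfsg.Agent.S0702
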