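import Mathlib
import Cfsg.Statements.S0703
import Cfsg.Agent.Perm.Regular

set_option autoImplicit false
open Cfsg

namespace Cfsg.Agent.S0703


/-- An abelian transitive minimal normal subgroup `M` of a permutation group on a finite set is self-centralising in the symmetric group, regular, elementary abelian, and is the unique minimal normal subgroup. -/
theorem result {α : Type*} [Finite α] (G : Subgroup (Equiv.Perm α)) (M : Subgroup G) [M.Normal] (hM : M ≠ ⊥) (hmin : ∀ L : Subgroup G, L.Normal → L ≤ M → L = ⊥ ∨ L = M) (hab : IsMulCommutative M) (htrans : MulAction.IsPretransitive M α) : Subgroup.centralizer ((M.map G.subtype : Subgroup (Equiv.Perm α)) : Set (Equiv.Perm α)) = M.map G.subtype ∧ (∀ a : α, MulAction.stabilizer M a = ⊥) ∧ (∃ p : ℕ, p.Prime ∧ ∀ m ∈ M, m ^ p = 1) ∧ ∀ L : Subgroup G, L.Normal → L ≠ ⊥ → (∀ L' : Subgroup G, L'.Normal → L' ≤ L → L' = ⊥ ∨ L' = L) → L = M := by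
  have hMt := Perm.isPretransitive_map_subtype G M htrans
  have hle : M.map G.subtype ≤ Subgroup.centralizer ((M.map G.subtype : Subgroup (Equiv.Perm α)) : Set (Equiv.Perm α)) := by
    rintro _ ⟨n, hn, rfl⟩
    rw [Subgroup.mem_centralizer_iff]
    rintro _ ⟨m, hm, rfl⟩
    exact congrArg (fun x : M => (x.1.1 : Equiv.Perm α)) (hab.is_comm.comm (⟨m, hm⟩ : M) ⟨n, hn⟩)
  have hc := Perm.eq_centralizer_of_transitive _ _ hMt hMt hle
  refine ⟨hc, Perm.stabilizer_eq_bot_of_le_centralizer G M M htrans hle,
    Perm.exists_prime_pow_eq_one_of_minimal_normal M hM hmin hab, ?_⟩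
  intro L hL hL0 hLmin
  rcases hmin (M ⊓ L) inferInstance inf_le_left with h | h
  · have h2 := Perm.map_le_centralizer_of_inf_eq_bot G M L h
    rw [hc, Subgroup.map_le_map_iff_of_injective G.subtype_injective] at h2
    exact (hmin L hL h2).resolve_left hL0
  · have : M ≤ L := inf_eq_left.mp h
    exact ((hLmin M inferInstance this).resolve_left hM).symm

end Cfsg.Agent.S0703
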