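import Mathlib
import Cfsg.Statements.S0704
import Cfsg.Agent.Perm.Regular

set_option autoImplicit false
open Cfsg

namespace Cfsg.Agent.S0704


/-- Two distinct transitive minimal normal subgroups `M`, `N` of a permutation group are regular, non-abelian, isomorphic, each other's centraliser in the symmetric group, and the only minimal normal subgroups. -/
theorem result {α : Type*} (G : Subgroup (Equiv.Perm α)) (M N : Subgroup G) [M.Normal] [N.Normal] (hM : M ≠ ⊥) (hN : N ≠ ⊥) (hMmin : ∀ L : Subgroup G, L.Normal → L ≤ M → L = ⊥ ∨ L = M) (hNmin : ∀ L : Subgroup G, L.Normal → L ≤ N → L = ⊥ ∨ L = N) (hMN : M ≠ N) (hMt : MulAction.IsPretransitive M α) (hNt : MulAction.IsPretransitive N α) : (∀ a : α, MulAction.stabilizer M a = ⊥) ∧ (∀ a : α, MulAction.stabilizer N a = ⊥) ∧ ¬ IsMulCommutative M ∧ Nonempty (M ≃* N) ∧ Subgroup.centralizer ((M.map G.subtype : Subgroup (Equiv.Perm α)) : Set (Equiv.Perm α)) = N.map G.subtype ∧ Subgroup.centralizer ((N.map G.subtype : Subgroup (Equiv.Perm α)) : Set (Equiv.Perm α)) = M.map G.subtype ∧ ∀ L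 : Subgroup G, L.Normal → L ≠ ⊥ → (∀ L' : Subgroup G, L'.Normal → L' ≤ L → L' = ⊥ ∨ L' = L) → L = M ∨ L = N := by
  have hMt' := Perm.isPretransitive_map_subtype G M hMt
  have hNt' := Perm.isPretransitive_map_subtype G N hNt
  have hinf : M ⊓ N = ⊥ := by
    rcases hMmin (M ⊓ N) inferInstance inf_le_left with h | h
    · exact h
    · exact absurd ((hNmin M inferInstance (inf_eq_left.mp h)).resolve_left hM) hMN
  have hNC := Perm.map_le_centralizer_of_inf_eq_bot G M N hinf
  have hMC := Perm.map_le_centralizer_of_inf_eq_bot G N M (by rw [inf_comm]; exact hinf)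
  have hcM := Perm.eq_centralizer_of_transitive _ _ hMt' hNt' hNC
  have hcN := Perm.eq_centralizer_of_transitive _ _ hNt' hMt' hMC
  have hregM := Perm.stabilizer_eq_bot_of_le_centralizer G N M hNt hMC
  have hregN := Perm.stabilizer_eq_bot_of_le_centralizer G M N hMt hNC
  refine ⟨hregM, hregN, ?_, ?_, hcM, hcN, ?_⟩
  · intro hab
    have hle : M.map G.subtype ≤ Subgroup.centralizer ((M.map G.subtype : Subgroup (Equiv.Perm α)) : Set (Equiv.Perm α)) := by
      rintro _ ⟨n, hn, rfl⟩
      rw [Subgroup.mem_centralizer_iff]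
      rintro _ ⟨m, hm, rfl⟩
      exact congrArg (fun x : M => (x.1.1 : Equiv.Perm α)) (hab.is_comm.comm (⟨m, hm⟩ : M) ⟨n, hn⟩)
    rw [hcM, Subgroup.map_le_map_iff_of_injective G.subtype_injective] at hle
    exact hMN ((hNmin M inferInstance hle).resolve_left hM)
  · rcases isEmpty_or_nonempty α with hα | ⟨⟨a⟩⟩
    · exact absurd (Subsingleton.elim M N) hMN
    have injM : ∀ g h : M, g • a = h • a → g = h := by
      intro g h hgh
      have : h⁻¹ * g ∈ MulAction.stabilizer M a := by
        rw [MulAction.mem_stabilizer_iff, mul_smul, hgh, inv_smul_smul]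
      rw [hregM a, Subgroup.mem_bot, inv_mul_eq_one] at this
      exact this.symm
    have injN : ∀ g h : N, g • a = h • a → g = h := by
      intro g h hgh
      have : h⁻¹ * g ∈ MulAction.stabilizer N a := by
        rw [MulAction.mem_stabilizer_iff, mul_smul, hgh, inv_smul_smul]
      rw [hregN a, Subgroup.mem_bot, inv_mul_eq_one] at this
      exact this.symm
    have comm : ∀ (m : M) (n : N) (x : α), m • n • x = n • m • x := by
      intro m n x
      have := Subgroup.commute_of_normal_of_disjoint M N inferInstance inferInstance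
        (disjoint_iff.mpr hinf) m n m.2 n.2
      change (m.1 * n.1) • x = (n.1 * m.1) • x
      rw [this]
    choose f hf using fun m : M => MulAction.exists_smul_eq N a (m⁻¹ • a)
    have hmul : ∀ m m' : M, f (m * m') = f m * f m' := by
      intro m m'
      apply injN
      rw [hf, mul_smul, hf, ← comm, hf, mul_inv_rev, mul_smul]
    refine ⟨MulEquiv.ofBijective (MonoidHom.mk' f hmul) ⟨?_, ?_⟩⟩
    · intro m m' h
      have h' : f m = f m' := h
      have := hf m
      rw [h', hf] at this
      exact inv_injective (injM _ _ this).symm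
    · intro n
      obtain ⟨m, hm⟩ := MulAction.exists_smul_eq M a (n • a)
      refine ⟨m⁻¹, injN _ _ ?_⟩
      change f m⁻¹ • a = _
      rw [hf, inv_inv, hm]
  · intro L hL hL0 hLmin
    rcases hMmin (M ⊓ L) inferInstance inf_le_left with h | h
    · have h2 := Perm.map_le_centralizer_of_inf_eq_bot G M L h
      rw [hcM, Subgroup.map_le_map_iff_of_injective G.subtype_injective] at h2
      exact Or.inr ((hNmin L hL h2).resolve_left hL0)
    · have : M ≤ L := inf_eq_left.mp h
      exact Or.inl ((hLmin M inferInstance this).resolve_left hM).symm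

end Cfsg.Agent.S0704
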