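import Mathlib
import Cfsg.Statements.S0707

set_option autoImplicit false
open Cfsg

namespace Cfsg.Agent.S0707


/-- In a primitive permutation group, distinct points have distinct stabilisers unless the group is regular of prime degree. -/
theorem result {α : Type*} (G : Subgroup (Equiv.Perm α)) [MulAction.IsPreprimitive G α] (h : ¬ (Nat.card α).Prime ∨ ∃ a : α, MulAction.stabilizer G a ≠ ⊥) {a b : α} (hab : a ≠ b) : MulAction.stabilizer G a ≠ MulAction.stabilizer G b := by
  intro heq
  haveI : Nontrivial α := ⟨⟨a, b, hab⟩⟩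
  have hco := MulAction.IsPreprimitive.isCoatom_stabilizer_of_isPreprimitive (G := G) a
  obtain ⟨g, hg⟩ := MulAction.exists_smul_eq G a b
  -- g normalises the stabiliser
  have hgn : g ∈ Subgroup.normalizer ((MulAction.stabilizer G a : Subgroup G) : Set G) := by
    rw [Subgroup.mem_normalizer_iff]
    intro h
    constructor
    · intro hh
      rw [heq, MulAction.mem_stabilizer_iff, ← hg, mul_smul, mul_smul, inv_smul_smul,
        MulAction.mem_stabilizer_iff.mp hh]
    · intro hh
      rw [heq, MulAction.mem_stabilizer_iff, ← hg, mul_smul, mul_smul, inv_smul_smul] at hh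
      exact MulAction.mem_stabilizer_iff.mpr (MulAction.injective g hh)
  have hgna : g ∉ MulAction.stabilizer G a := by
    rw [MulAction.mem_stabilizer_iff, hg]; exact hab.symm
  have htop : Subgroup.normalizer ((MulAction.stabilizer G a : Subgroup G) : Set G) = ⊤ :=
    hco.2 _ (lt_of_le_of_ne Subgroup.le_normalizer (fun h => hgna (h ▸ hgn)))
  have hnormal : (MulAction.stabilizer G a).Normal := Subgroup.normalizer_eq_top_iff.mp htop
  have hall : ∀ c : α, MulAction.stabilizer G c = ⊥ := by
    intro c
    rw [eq_bot_iff]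
    intro k hk
    rw [Subgroup.mem_bot]
    ext x
    obtain ⟨u, rfl⟩ := MulAction.exists_smul_eq G a c
    obtain ⟨v, rfl⟩ := MulAction.exists_smul_eq G a x
    have h1 : u⁻¹ * k * u ∈ MulAction.stabilizer G a := by
      rw [MulAction.mem_stabilizer_iff, mul_smul, mul_smul, MulAction.mem_stabilizer_iff.mp hk, inv_smul_smul]
    have h2 := hnormal.conj_mem _ h1 (v⁻¹ * u)
    rw [MulAction.mem_stabilizer_iff] at h2
    have h3 : (v⁻¹ * u * (u⁻¹ * k * u) * (v⁻¹ * u)⁻¹) = v⁻¹ * k * v := by group
    rw [h3, mul_smul, mul_smul, inv_smul_eq_iff] at h2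
    exact h2
  rcases h with h | ⟨c, hc⟩
  · apply h
    rw [hall a] at hco
    haveI : IsSimpleOrder (Subgroup G) := isSimpleOrder_iff_isCoatom_bot.mpr hco
    have hcard : Nat.card G = Nat.card α := by
      have := (MulAction.stabilizer G a).index_mul_card
      rw [MulAction.index_stabilizer_of_transitive, hall a] at this
      simpa using this.symm
    rw [← hcard]
    haveI : Nontrivial G := (Subgroup.nontrivial_iff).mp inferInstance
    obtain ⟨x, hx⟩ := exists_ne (1 : G)
    have hz : Subgroup.zpowers x = ⊤ :=
      (eq_bot_or_eq_top (Subgroup.zpowers x)).resolve_left (by simpa using hx)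
    haveI : IsCyclic G := isCyclic_iff_exists_zpowers_eq_top.mpr ⟨x, hz⟩
    haveI : IsSimpleGroup G := ⟨fun H _ => eq_bot_or_eq_top H⟩
    exact Group.is_simple_iff_prime_card.mp inferInstance
  · exact hc (hall c)

end Cfsg.Agent.S0707
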