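import Mathlib
import Cfsg.Statements.S0709
import Cfsg.Agent.Perm.Witt
import Cfsg.Agent.Perm.Multi

set_option autoImplicit false
open Cfsg

namespace Cfsg.Agent.S0709

open MulAction

/-- Witt's Lemma for constructing transitive extensions. Points `q 1, …, q t` (`t ≥ 2`) of a finite set are given; `G` fixes `q i` for `i ≥ 3` and is doubly transitive on the remaining points; `s 1 ∈ G` swaps `q 1, q 2`; for `2 ≤ i ≤ t-1`, `s i` swaps `q i, q (i+1)` and fixes the other `q j`; with `H` the stabiliser of `q 1, q 2` in `G`: `s i ^ 2 ∈ H`, `(s i * s (i+1)) ^ 3 ∈ H`, `(s i * s j) ^ 2 ∈ H` for `j ≥ i + 2`, and `s i` (`i ≥ 2`) normalises the stabiliser of `q 2` in `G`. Then `G` and the `s i` generate a `t`-transitive group whose pointwise stabiliser of the `q`'s is `H`. -/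
theorem result {α : Type*} [Fintype α] [DecidableEq α] (t : ℕ) (ht : 2 ≤ t) (q : ℕ → α) (hq : ∀ i j : ℕ, 1 ≤ i → i ≤ t → 1 ≤ j → j ≤ t → q i = q j → i = j) (G : Subgroup (Equiv.Perm α)) (hfix : ∀ g ∈ G, ∀ i : ℕ, 3 ≤ i → i ≤ t → g (q i) = q i) (h2 : ∀ a b c d : α, (∀ i, 3 ≤ i → i ≤ t → a ≠ q i ∧ b ≠ q i ∧ c ≠ q i ∧ d ≠ q i) → a ≠ b → c ≠ d → ∃ g ∈ G, g a = c ∧ g b = d) (s : ℕ → Equiv.Perm α) (hs1 : s 1 ∈ G) (hs1q : s 1 (q 1) = q 2 ∧ s 1 (q 2) = q 1) (hsq : ∀ i : ℕ, 2 ≤ i → i + 1 ≤ t → s i (q i) = q (i + 1) ∧ s i (q (i + 1)) = q i ∧ ∀ j : ℕ, 1 ≤ j → j ≤ t → j ≠ i → j ≠ i + 1 → s i (q j) = q j) (H : Subgroup (Equiv.Perm α)) (hH : H = G ⊓ MulAction.stabilizer (Equiv.Perm α) (q 1) ⊓ MulAction.stabilizer (Equiv.Perm α) (q 2)) (hsq2 : ∀ i : ℕ, 1 ≤ i → i + 1 ≤ t → s i ^ 2 ∈ H) (hbraid : ∀ i : ℕ, 1 ≤ i → i + 2 ≤ t → (s i * s (i + 1)) ^ 3 ∈ H) (hcomm : ∀ i j : ℕ, 1 ≤ i → i + 2 ≤ j → j + 1 ≤ t → (s i * s j) ^ 2 ∈ H ∧ (s j * s i)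 ^ 2 ∈ H) (hnorm : ∀ i : ℕ, 2 ≤ i → i + 1 ≤ t → ∀ g ∈ G ⊓ MulAction.stabilizer (Equiv.Perm α) (q 2), s i * g * (s i)⁻¹ ∈ G ⊓ MulAction.stabilizer (Equiv.Perm α) (q 2)) : MulAction.IsMultiplyPretransitive ↥(Subgroup.closure ((G : Set (Equiv.Perm α)) ∪ {x | ∃ i : ℕ, 2 ≤ i ∧ i + 1 ≤ t ∧ x = s i})) α t ∧ Subgroup.closure ((G : Set (Equiv.Perm α)) ∪ {x | ∃ i : ℕ, 2 ≤ i ∧ i + 1 ≤ t ∧ x = s i}) ⊓ fixingSubgroup (Equiv.Perm α) {x | ∃ i : ℕ, 1 ≤ i ∧ i ≤ t ∧ x = q i} = H := by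
  set G1 := G ⊓ MulAction.stabilizer (Equiv.Perm α) (q 2) with hG1
  let K : ℕ → Subgroup (Equiv.Perm α) := fun i =>
    Subgroup.closure ((G1 : Set (Equiv.Perm α)) ∪ {x | ∃ j : ℕ, 1 ≤ j ∧ j + 1 ≤ i ∧ x = s j})
  have hG1K : ∀ i, G1 ≤ K i := fun i f hf => Subgroup.subset_closure (Or.inl hf)
  have hsK : ∀ i j, 1 ≤ j → j + 1 ≤ i → s j ∈ K i := fun i j h1 h2 =>
    Subgroup.subset_closure (Or.inr ⟨j, h1, h2, rfl⟩)
  have hKle : ∀ i (L : Subgroup (Equiv.Perm α)), G1 ≤ L → (∀ j, 1 ≤ j → j + 1 ≤ i → s j ∈ L) → K i ≤ L :=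
    fun i L h1 h2 => (Subgroup.closure_le _).mpr (by
      rintro f (hf | ⟨j, a, b, rfl⟩)
      exacts [h1 hf, h2 j a b])
  have hHG : H ≤ G1 := fun f hf => by rw [hH] at hf; exact ⟨hf.1.1, hf.2⟩
  have hK1 : K 1 = G1 := le_antisymm (hKle _ _ le_rfl fun j h1 h2 => by omega) (hG1K 1)
  have hKsucc : ∀ i, 1 ≤ i → K (i + 1) = Subgroup.closure ((K i : Set (Equiv.Perm α)) ∪ {s i}) := by
    intro i hi
    apply le_antisymm
    · refine hKle _ _ (fun f hf => Subgroup.subset_closure (Or.inl (hG1K i hf))) fun j h1 h2 => ?_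
      by_cases hj : j = i
      · exact Subgroup.subset_closure (Or.inr (hj ▸ rfl))
      · exact Subgroup.subset_closure (Or.inl (hsK i j h1 (by omega)))
    · rw [Subgroup.closure_le]
      rintro f (hf | rfl)
      · exact hKle i _ (hG1K _) (fun j h1 h2 => hsK _ j h1 (by omega)) hf
      · exact hsK _ _ hi le_rfl
  have hmono : ∀ i, K i ≤ K (i + 1) := fun i => hKle i _ (hG1K _) fun j h1 h2 => hsK _ j h1 (by omega)
  have hq12 : q 1 ≠ q 2 := fun e => by have := hq 1 2 (by omega) (by omega) (by omega) ht e; omega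
  have hswap : ∀ i, 1 ≤ i → i + 1 ≤ t → s i (q i) = q (i + 1) ∧ s i (q (i + 1)) = q i := fun i h1 h2 => by
    by_cases h : i = 1
    · subst h; exact hs1q
    · exact ⟨(hsq i (by omega) h2).1, (hsq i (by omega) h2).2.1⟩
  have hKfix : ∀ i, 1 ≤ i → ∀ j, i < j → j ≤ t → ∀ f ∈ K i, f (q j) = q j := by
    intro i hi j hij hj
    refine hKle i (stabilizer _ (q j)) (fun f hf => ?_) fun l h1 h2 => ?_
    · by_cases h : j = 2
      · subst h; exact hf.2
      · exact hfix f hf.1 j (by omega) hj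
    · by_cases h : l = 1
      · subst h; exact hfix _ hs1 j (by omega) hj
      · exact (hsq l (by omega) (by omega)).2.2 j (by omega) hj (by omega) (by omega)
  have hGav : ∀ f ∈ G, ∀ a, (∀ i, 3 ≤ i → i ≤ t → a ≠ q i) → ∀ i, 3 ≤ i → i ≤ t → f a ≠ q i :=
    fun f hf a ha i h1 h2 e => ha i h1 h2 (f.injective (e.trans (hfix f hf i h1 h2).symm))
  have hqav : ∀ j, 1 ≤ j → ∀ i, j < i → i ≤ t → q j ≠ q i := fun j hj i h1 h2 e => by
    have := hq j i hj (by omega) (by omega) h2 e; omega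
  have htr : ∀ i, 1 ≤ i → i ≤ t → ∀ a, (∀ j, i < j → j ≤ t → a ≠ q j) → ∃ f ∈ K i, f a = q i := by
    intro i hi
    induction i, hi using Nat.le_induction with
    | base =>
      intro _ a ha
      obtain ⟨g, hg, e1, e2⟩ := h2 a (q 2) (q 1) (q 2) (fun i h1 h2 => ⟨ha i (by omega) h2,
        hqav 2 (by omega) i h1 h2, hqav 1 le_rfl i (by omega) h2, hqav 2 (by omega) i h1 h2⟩)
        (ha 2 (by omega) ht) hq12
      exact ⟨g, hG1K 1 ⟨hg, e2⟩, e1⟩
    | succ i hi ih =>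
      intro hit a ha
      by_cases h : a = q (i + 1)
      · exact ⟨1, one_mem _, h⟩
      obtain ⟨f, hf, e⟩ := ih (by omega) a fun j h1 h2 => by
        by_cases hj : j = i + 1
        · rwa [hj]
        · exact ha j (by omega) h2
      exact ⟨s i * f, mul_mem (hsK _ i hi le_rfl) (hmono i hf), by
        rw [Equiv.Perm.mul_apply, e, (hswap i hi hit).1]⟩
  have hK2 : K 2 = G := by
    refine le_antisymm (hKle _ _ inf_le_left fun j h1 h2 => by rwa [show j = 1 by omega]) fun g hg => ?_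
    obtain ⟨f, hf, e⟩ := htr 2 (by omega) ht (g (q 2)) (hGav g hg _ fun i h1 h2 => hqav 2 (by omega) i h1 h2)
    have hfG : f ∈ G := hKle 2 G inf_le_left (fun j h1 h2 => by rwa [show j = 1 by omega]) hf
    simpa using mul_mem (inv_mem hf) (hG1K 2 (show f * g ∈ G1 from ⟨mul_mem hfG hg, e⟩))
  have hstab : ∀ i, 1 ≤ i → i + 1 ≤ t → ∀ f ∈ K (i + 1), f (q (i + 1)) = q (i + 1) ↔ f ∈ K i := by
    intro i hi
    induction i, hi using Nat.le_induction with
    | base =>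
      intro _ f hf
      rw [hK2] at hf
      rw [hK1]
      exact ⟨fun e => ⟨hf, e⟩, fun e => e.2⟩
    | succ i hi ih =>
      intro hit
      rw [hKsucc (i + 1) (by omega)]
      have hav : ∀ f ∈ K (i + 1), ∀ a, (∀ j, i + 1 < j → j ≤ t → a ≠ q j) → f a ≠ q (i + 1) →
          ∀ j, i < j → j ≤ t → f a ≠ q j := fun f hf a ha h j h1 h2 e => by
        by_cases hj : j = i + 1
        · exact h (hj ▸ e)
        · exact ha j (by omega) h2 (f.injective (e.trans (hKfix _ (by omega) j (by omega) h2 f hf).symm))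
      refine Perm.witt_step (K (i + 1)) (q (i + 1 + 1)) (q (i + 1)) (hKfix _ (by omega) _ (by omega) hit)
        (s (i + 1)) (s i) (hsK _ i hi le_rfl) (hswap _ (by omega) hit).2
        (hqav _ (by omega) _ (by omega) hit) (fun f hf hx => ?_)
        (hG1K _ (hHG (hbraid i hi hit))) (hG1K _ (hHG (hsq2 _ (by omega) hit))) fun f hf hx => ?_
      · obtain ⟨u, hu, e⟩ := htr i hi (by omega) _
          (hav f hf _ (fun j h1 h2 => hqav _ (by omega) j h1 h2) hx)
        refine ⟨u⁻¹, hmono i (inv_mem hu), hKfix i hi _ (by omega) (by omega) _ (inv_mem hu), ?_⟩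
        change u⁻¹ (s i (q (i + 1))) = f (q (i + 1))
        rw [(hswap i hi (by omega)).2, Equiv.Perm.inv_eq_iff_eq, e]
      · have hsq' : s (i + 1) ^ 2 ∈ K i := hG1K _ (hHG (hsq2 _ (by omega) hit))
        have : K i ≤ (K i).comap (MulAut.conj (s (i + 1))).toMonoidHom := by
          refine hKle i _ (fun g hg => hG1K _ (hnorm _ (by omega) hit g hg)) fun j h1 h2 => ?_
          have := mul_mem (mul_mem (inv_mem (hsK i j h1 h2))
            (hG1K i (hHG (hcomm j (i + 1) h1 (by omega) hit).1))) (inv_mem hsq')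
          simpa [pow_two, mul_assoc, Subgroup.mem_comap] using this
        have := mul_mem (Subgroup.mem_comap.mp (this ((ih (by omega) f hf).mp hx))) hsq'
        exact hmono i (by simpa [pow_two, mul_assoc] using this)
  have hKt : Subgroup.closure ((G : Set (Equiv.Perm α)) ∪ {x | ∃ i : ℕ, 2 ≤ i ∧ i + 1 ≤ t ∧ x = s i}) =
      K t := by
    apply le_antisymm
    · rw [Subgroup.closure_le]
      rintro f (hf | ⟨j, h1, h2, rfl⟩)
      · exact hKle 2 (K t) (hG1K _) (fun j h1 h2 => hsK _ j h1 (by omega)) (hK2 ▸ hf)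
      · exact hsK _ j (by omega) h2
    · refine hKle _ _ (fun f hf => Subgroup.subset_closure (Or.inl hf.1)) fun j h1 h2 => ?_
      by_cases hj : j = 1
      · exact Subgroup.subset_closure (Or.inl (hj ▸ hs1))
      · exact Subgroup.subset_closure (Or.inr ⟨j, by omega, h2, rfl⟩)
  rw [hKt]
  have hM : ∀ i, 1 ≤ i → i ≤ t → ∀ x : Fin i → α, Function.Injective x →
      (∀ l j, i < j → j ≤ t → x l ≠ q j) → ∃ f ∈ K i, ∀ l, f (x l) = q (l + 1) := by
    intro i hi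
    induction i, hi using Nat.le_induction with
    | base =>
      intro h1 x _ hx
      obtain ⟨f, hf, e⟩ := htr 1 le_rfl h1 (x 0) (hx 0)
      exact ⟨f, hf, fun l => by rw [Subsingleton.elim l 0]; exact e⟩
    | succ i hi ih =>
      intro hit x hxi hx
      obtain ⟨f, hf, e⟩ := htr (i + 1) (by omega) hit (x (Fin.last i)) (hx _)
      obtain ⟨g, hg, e'⟩ := ih (by omega) (fun l => f (x l.castSucc))
        (f.injective.comp (hxi.comp (Fin.castSucc_injective _))) fun l j h1 h2 h => by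
          by_cases hj : j = i + 1
          · rw [hj, ← e] at h
            exact (Fin.castSucc_lt_last l).ne (hxi (f.injective h))
          · exact hx _ j (by omega) h2 (f.injective (h.trans (hKfix _ (by omega) j (by omega) h2 f hf).symm))
      refine ⟨g * f, mul_mem (hmono i hg) hf, fun l => ?_⟩
      refine Fin.lastCases ?_ (fun l => e' l) l
      rw [Equiv.Perm.mul_apply, e]
      exact hKfix i hi _ (by omega) hit g hg
  constructor
  · rw [Perm.multi_iff]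
    intro x y hx hy
    obtain ⟨f, hf, e⟩ := hM t (by omega) le_rfl x hx (fun l j h1 h2 => by omega)
    obtain ⟨g, hg, e'⟩ := hM t (by omega) le_rfl y hy (fun l j h1 h2 => by omega)
    refine ⟨⟨g⁻¹ * f, mul_mem (inv_mem hg) hf⟩, fun l => ?_⟩
    change g⁻¹ (f (x l)) = y l
    rw [Equiv.Perm.inv_eq_iff_eq, e, e']
  · ext f
    rw [Subgroup.mem_inf, mem_fixingSubgroup_iff]
    constructor
    · rintro ⟨hf, hx⟩
      have hx' : ∀ i, 1 ≤ i → i ≤ t → f (q i) = q i := fun i h1 h2 => hx _ ⟨i, h1, h2, rfl⟩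
      have : ∀ i, 1 ≤ i → i ≤ t → f ∈ K i → f ∈ K 1 := by
        intro i hi
        induction i, hi using Nat.le_induction with
        | base => exact fun _ h => h
        | succ i hi ih => exact fun hit h => ih (by omega) ((hstab i hi hit f h).mp (hx' _ (by omega) hit))
      have := this t (by omega) le_rfl hf
      rw [hK1] at this
      rw [hH]
      exact ⟨⟨this.1, hx' 1 le_rfl (by omega)⟩, this.2⟩
    · intro hf
      refine ⟨hG1K _ (hHG hf), ?_⟩
      rintro _ ⟨i, h1, h2, rfl⟩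
      by_cases h : i = 1
      · rw [hH] at hf; rw [h]; exact hf.1.2
      · exact hKfix 1 le_rfl i (by omega) h2 f (hG1K _ (hHG hf))

end Cfsg.Agent.S0709
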