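import Mathlib
import Cfsg.Statements.S0716
import Cfsg.Agent.Fil.B

set_option autoImplicit false
open Cfsg

namespace Cfsg.Agent.S0716

open Finset MulAction Cfsg.Agent.Char Cfsg.Agent.Inv.CR Cfsg.Agent.Fil

theorem part1 {G : Type*} [Group G] [Fintype G] {Ω : Type*} [Fintype Ω] [MulAction G Ω] [IsPretransitive G Ω]
    (a : Ω) (f : ℕ)
    (hf : ∀ χ : G → ℂ, IsIrrCharacter G χ → χ ≠ (fun _ => 1) → classInner (pc G Ω) χ ≠ 0 → χ 1 = f) :
    (∀ χ : G → ℂ, IsIrrCharacter G χ → classInner (pc G Ω) χ = 0 ∨ classInner (pc G Ω) χ = 1) ∧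
      ∀ b : Ω, b ≠ a → Nat.card (orbit (stabilizer G a) b) = f := by
  classical
  obtain ⟨m, hm, hm1, hsq, hdeg⟩ := exists_mult (G := G) a
  set o : IrrCharacter G := ⟨fun _ => 1, isIrr_one⟩ with ho
  letI : Fintype (orbitRel.Quotient (stabilizer G a) Ω) := Fintype.ofFinite _
  let k : orbitRel.Quotient (stabilizer G a) Ω → ℕ := fun ω => Nat.card (orbit (stabilizer G a) ω.out)
  let q₀ : orbitRel.Quotient (stabilizer G a) Ω := Quotient.mk'' a
  have hn : Fintype.card Ω = ∑ ω, k ω := by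
    rw [← Nat.card_eq_fintype_card, Nat.card_congr (selfEquivSigmaOrbits (stabilizer G a) Ω), Nat.card_sigma]
  have hk : ∀ b : Ω, k (Quotient.mk'' b) = Nat.card (orbit (stabilizer G a) b) := fun b => by
    have : (Quotient.mk'' b : orbitRel.Quotient (stabilizer G a) Ω).out ∈ orbit (stabilizer G a) b :=
      orbitRel_apply.1 (Quotient.exact' (s₁ := orbitRel (stabilizer G a) Ω) (Quotient.out_eq' _))
    simp only [k]
    rw [orbit_eq_iff.2 this]
  have hk0 : k q₀ = 1 := by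
    rw [hk, Nat.card_eq_one_iff_unique]
    exact ⟨⟨fun x y => Subtype.ext ((eq_of_mem_orbit_self x.2).trans (eq_of_mem_orbit_self y.2).symm)⟩,
      ⟨⟨a, mem_orbit_self a⟩⟩⟩
  have hle : ∀ ω ∈ univ.erase q₀, f ≤ k ω := by
    intro ω hω
    have hne : ω.out ≠ a := fun e => ne_of_mem_erase hω (by rw [← Quotient.out_eq' ω, e])
    haveI : Nonempty (orbit (stabilizer G a) ω.out) := ⟨⟨_, mem_orbit_self _⟩⟩
    exact Nat.le_of_dvd Nat.card_pos (dvd_subdegree f
      (fun χ h1 h2 h3 => ⟨1, by rw [hf χ h1 h2 h3]; simp⟩) a _ hne)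
  have hd : ∀ χ ∈ univ.erase o, (m χ : ℂ) * (χ : G → ℂ) 1 = ((m χ * f : ℕ) : ℂ) := by
    intro χ hχ
    by_cases h : m χ = 0
    · simp [h]
    · rw [hf χ χ.2 (fun e => ne_of_mem_erase hχ (Subtype.ext e)) (by rw [hm]; exact_mod_cast h)]
      push_cast; rfl
  rw [← Finset.add_sum_erase _ _ (mem_univ o), sum_congr rfl hd, hm1, ← Nat.cast_sum, ← sum_mul] at hdeg
  have e1 : 1 + (∑ χ ∈ univ.erase o, m χ) * f = Fintype.card Ω := by
    have : ((1 + (∑ χ ∈ univ.erase o, m χ) * f : ℕ) : ℂ) = Fintype.card Ω := by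
      rw [← hdeg]; push_cast; simp [o]
    exact_mod_cast this
  rw [← Finset.add_sum_erase _ _ (mem_univ o), hm1, Nat.card_eq_fintype_card] at hsq
  rw [← Finset.add_sum_erase _ _ (mem_univ q₀), hk0] at hn
  have e2 := sum_le_sum hle
  have hc : (univ.erase q₀).card = ∑ χ ∈ univ.erase o, m χ ^ 2 := by
    rw [card_erase_of_mem (mem_univ _), card_univ]; omega
  have hle2 : ∀ χ ∈ univ.erase o, m χ ≤ m χ ^ 2 := fun χ _ => Nat.le_self_pow (by norm_num) _
  have e3 := sum_le_sum hle2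
  have e2' := e2
  rw [sum_const, smul_eq_mul, hc] at e2'
  have e4 : (∑ χ ∈ univ.erase o, m χ ^ 2) * f = (∑ χ ∈ univ.erase o, m χ) * f :=
    le_antisymm (by omega) (Nat.mul_le_mul_right _ e3)
  have e5 : ∑ ω ∈ univ.erase q₀, f = ∑ ω ∈ univ.erase q₀, k ω := by
    rw [sum_const, smul_eq_mul, hc]; omega
  refine ⟨fun χ hχ => ?_, fun b hb => ?_⟩
  · by_cases h1 : χ = fun _ => 1
    · right; rw [h1]; exact (hm o).trans (by rw [hm1]; simp)
    by_cases h0 : classInner (pc G Ω) χ = 0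
    · exact Or.inl h0
    right
    have hf0 : 0 < f := by
      have := isIrr_one_ne_zero hχ
      rw [hf χ hχ h1 h0] at this
      exact Nat.pos_of_ne_zero (by exact_mod_cast this)
    have e6 := (sum_eq_sum_iff_of_le hle2).1 (Nat.eq_of_mul_eq_mul_right hf0 e4).symm ⟨χ, hχ⟩
      (mem_erase.2 ⟨fun e => h1 (congrArg Subtype.val e), mem_univ _⟩)
    have e7 := hm ⟨χ, hχ⟩
    change classInner (pc G Ω) χ = _ at e7
    rw [e7] at h0 ⊢
    have h8 : m ⟨χ, hχ⟩ ≠ 0 := by exact_mod_cast h0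
    have : m ⟨χ, hχ⟩ = 1 := by
      rw [sq] at e6
      exact (Nat.eq_of_mul_eq_mul_left (Nat.pos_of_ne_zero h8) (by rw [mul_one]; exact e6)).symm
    rw [this]; simp
  · rw [← hk]
    refine ((sum_eq_sum_iff_of_le hle).1 e5 _ (mem_erase.2 ⟨fun e => hb ?_, mem_univ _⟩)).symm
    exact eq_of_mem_orbit_self (Quotient.exact' e)


/-- (a) If all non-principal irreducible constituents of the permutation character of a transitive group have the same degree `f`, the character is multiplicity-free and all non-trivial subdegrees equal `f`. (b) A transitive group of rank at most 5 has multiplicity-free permutation character. -/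
theorem result {G : Type*} [Group G] [Fintype G] {Ω : Type*} [Fintype Ω] [MulAction G Ω] [MulAction.IsPretransitive G Ω] (a : Ω) : ((f : ℕ) → (∀ χ : G → ℂ, Cfsg.IsIrrCharacter G χ → χ ≠ (fun _ => 1) → Cfsg.classInner (fun g : G => (Nat.card (MulAction.fixedBy Ω g) : ℂ)) χ ≠ 0 → χ 1 = f) → (∀ χ : G → ℂ, Cfsg.IsIrrCharacter G χ → Cfsg.classInner (fun g : G => (Nat.card (MulAction.fixedBy Ω g) : ℂ)) χ = 0 ∨ Cfsg.classInner (fun g : G => (Nat.card (MulAction.fixedBy Ω g) : ℂ)) χ = 1) ∧ ∀ b : Ω, b ≠ a → Nat.card (MulAction.orbit (MulAction.stabilizer G a) b) = f) ∧ (Nat.card (MulAction.orbitRel.Quotient (MulAction.stabilizer G a) Ω) ≤ 5 → ∀ χ : G → ℂ, Cfsg.IsIrrCharacter G χ → Cfsg.classInner (fun g : G => (Nat.card (MulAction.fixedBy Ω g) : ℂ)) χ = 0 ∨ Cfsg.classInner (fun g : G => (Nat.card (MulAction.fixedBy Ω g) : ℂ)) χ = 1) := by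
  classical
  refine ⟨fun f hf => part1 a f hf, fun h5 χ hχ => ?_⟩
  obtain ⟨m, hm, hm1, hsq, -⟩ := exists_mult (G := G) a
  set o : IrrCharacter G := ⟨fun _ => 1, isIrr_one⟩ with ho
  by_contra hcon
  have e7 := hm ⟨χ, hχ⟩
  change classInner (pc G Ω) χ = _ at e7
  have h2 : 2 ≤ m ⟨χ, hχ⟩ := by
    by_contra h
    apply hcon
    change classInner (pc G Ω) χ = 0 ∨ classInner (pc G Ω) χ = 1
    rw [e7]
    rcases (show m ⟨χ, hχ⟩ = 0 ∨ m ⟨χ, hχ⟩ = 1 by omega) with e | e <;> simp [e]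
  have hne : (⟨χ, hχ⟩ : IrrCharacter G) ≠ o := fun e => by rw [e] at h2; omega
  obtain ⟨f, -, hf⟩ := isIrr_degree hχ
  refine hcon ((part1 a f fun ψ hψ h1 h0 => ?_).1 χ hχ)
  by_cases e : ψ = χ
  · rw [e, hf]
  exfalso
  have e8 := hm ⟨ψ, hψ⟩
  change classInner (pc G Ω) ψ = _ at e8
  rw [e8] at h0
  have h8 : m ⟨ψ, hψ⟩ ≠ 0 := by exact_mod_cast h0
  have hs := sum_le_sum_of_subset (f := fun χ => m χ ^ 2) (subset_univ ({o, ⟨χ, hχ⟩, ⟨ψ, hψ⟩} : Finset _))
  have n1 : o ≠ ⟨ψ, hψ⟩ := fun e => h1 (congrArg Subtype.val e).symm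
  have n2 : (⟨χ, hχ⟩ : IrrCharacter G) ≠ ⟨ψ, hψ⟩ := fun e' => e (congrArg Subtype.val e').symm
  rw [sum_insert (by simp [hne.symm, n1]), sum_pair n2, hm1, hsq] at hs
  have := Nat.pow_le_pow_left h2 2
  have := pow_pos (Nat.pos_of_ne_zero h8) 2
  omega

end Cfsg.Agent.S0716
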