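import Mathlib
import Cfsg.Statements.S0717
import Cfsg.Agent.Fil.B

set_option autoImplicit false
open Cfsg

namespace Cfsg.Agent.S0717

open Finset Matrix MulAction Cfsg.Agent.Char Cfsg.Agent.Inv.CR Cfsg.Agent.Fil
open scoped ComplexConjugate

theorem E_transpose {G : Type*} [Group G] [Fintype G] {Ω : Type*} [MulAction G Ω] [DecidableEq Ω] {χ : G → ℂ}
    (h : IsCharacter G χ) : (E Ω χ)ᵀ = E Ω (fun g => conj (χ g)) := by
  ext u v
  have := congrFun (congrFun (E_conjTranspose (Ω := Ω) h) v) u
  rw [transpose_apply, ← this, conjTranspose_apply]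
  simp only [E, Matrix.sum_apply, Matrix.smul_apply, pm, of_apply, smul_eq_mul, star_sum]
  refine sum_congr rfl fun g _ => ?_
  split_ifs <;> simp


/-- All suborbits of a transitive group are self-paired (every pair of points is interchanged by some group element) if and only if the permutation character is multiplicity-free and each of its irreducible constituents is real-valued. -/
theorem result {G : Type*} [Group G] [Fintype G] {Ω : Type*} [Fintype Ω] [MulAction G Ω] [MulAction.IsPretransitive G Ω] : (∀ a b : Ω, ∃ g : G, g • a = b ∧ g • b = a) ↔ ∀ χ : G → ℂ, Cfsg.IsIrrCharacter G χ → Cfsg.classInner (fun g : G => (Nat.card (MulAction.fixedBy Ω g) : ℂ)) χ ≠ 0 → Cfsg.classInner (fun g : G => (Nat.card (MulAction.fixedBy Ω g) : ℂ)) χ = 1 ∧ ∀ g : G, (starRingEnd ℂ) (χ g) = χ g := by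
  classical
  constructor
  · intro h
    have hsym : ∀ M : Matrix Ω Ω ℂ, IsInv G M → Mᵀ = M := by
      intro M hM
      ext u v
      obtain ⟨g, h1, h2⟩ := h u v
      rw [transpose_apply, ← hM g u v, h1, h2]
    have hinv : ∀ S : (Ω → ℂ) →ₗ[ℂ] (Ω → ℂ), S ∈ ((Cfsg.permRep ℂ G Ω).linHom (Cfsg.permRep ℂ G Ω)).invariants →
        IsInv G (LinearMap.toMatrix' S) := by
      intro S hS g u v
      have h1 := hS g
      rw [Representation.linHom_apply] at h1
      conv_lhs => rw [← h1]
      simp only [LinearMap.toMatrix'_apply, LinearMap.comp_apply]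
      change S _ (g⁻¹ • g • u) = _
      rw [inv_smul_smul]
      refine congrArg (fun x => S x u) (funext fun w => ?_)
      change (Pi.single (g • v) (1 : ℂ) : Ω → ℂ) (g⁻¹⁻¹ • w) = _
      simp [Pi.single_apply]
    have hmf := (Cfsg.Agent.S0718.result (G := G) (Ω := Ω)).2 fun S T hS hT => by
      apply LinearMap.toMatrix'.injective
      rw [LinearMap.toMatrix'_comp, LinearMap.toMatrix'_comp, ← hsym _ ((hinv S hS).mul (hinv T hT)),
        transpose_mul, hsym _ (hinv S hS), hsym _ (hinv T hT)]
    intro χ hχ h0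
    refine ⟨(hmf χ hχ).resolve_left h0, fun g => ?_⟩
    have e1 := hsym _ (isInv_E (Ω := Ω) (isIrr_classFun hχ))
    rw [E_transpose (isIrr_isChar hχ)] at e1
    by_contra hne
    have e2 := E_mul_ne (Ω := Ω) (isIrr_conj hχ) hχ (fun e => hne (congrFun e g))
    rw [e1, E_mul_self hχ] at e2
    exact E_ne_zero hχ h0 e2
  · intro h a b
    obtain ⟨θ, hθ⟩ := exists_eq_sum (G := G) (Ω := Ω) (fun χ => by
      by_cases h0 : classInner (pc G Ω) χ = 0
      · exact Or.inl h0
      · exact Or.inr (h χ χ.2 h0).1) (isInv_ob a b)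
    have hs : (ob G a b)ᵀ = ob G a b := by
      rw [hθ, transpose_sum]
      refine sum_congr rfl fun χ _ => ?_
      rw [transpose_smul]
      by_cases h0 : classInner (pc G Ω) χ = 0
      · rw [E_eq_zero χ.2 h0, transpose_zero]
      · rw [E_transpose (irr_isChar χ), funext (h χ χ.2 h0).2]
    have e := congrFun (congrFun hs a) b
    simp only [transpose_apply, ob, of_apply] at e
    rw [if_pos (⟨1, one_smul _ _, one_smul _ _⟩ : ∃ g : G, g • a = a ∧ g • b = b)] at e
    by_contra hc
    rw [if_neg hc] at e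
    exact zero_ne_one e

end Cfsg.Agent.S0717
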