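import Mathlib
import Cfsg.Statements.S0724
import Cfsg.Agent.Perm.Conj

set_option autoImplicit false
open Cfsg

namespace Cfsg.Agent.S0724


/-- Blichfeldt's Theorem: if a finite set `L` of natural numbers contains the number of fixed points of every non-identity element of a permutation group `G` of degree `n`, then the order of `G` divides `∏ (n - l)` over `l ∈ L`. -/
theorem result {α : Type*} [Fintype α] [DecidableEq α] (G : Subgroup (Equiv.Perm α)) (L : Finset ℕ) (hL : ∀ g ∈ G, g ≠ 1 → Nat.card (MulAction.fixedBy α g) ∈ L) : Nat.card G ∣ ∏ l ∈ L, (Fintype.card α - l) := by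
  classical
  by_cases hbig : ∃ l ∈ L, Fintype.card α ≤ l
  · obtain ⟨l, hl, hl'⟩ := hbig
    rw [Finset.prod_eq_zero hl (by omega)]
    exact dvd_zero _
  push Not at hbig
  have hpow : ∀ k : ℕ, (Nat.card G : ℤ) ∣ ∑ g : G, (Nat.card (MulAction.fixedBy α g) : ℤ) ^ k := by
    intro k
    have h1 := Perm.sum_card_fixedBy (G := G) (α := Fin k → α)
    have h2 : ∀ g : G, Nat.card (MulAction.fixedBy (Fin k → α) g) =
        Nat.card (MulAction.fixedBy α g) ^ k := by
      intro g
      have e : MulAction.fixedBy (Fin k → α) g ≃ (Fin k → MulAction.fixedBy α g) :=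
        { toFun := fun f i => ⟨f.1 i, congrFun f.2 i⟩
          invFun := fun f => ⟨fun i => (f i).1, funext fun i => (f i).2⟩
          left_inv := fun f => rfl
          right_inv := fun f => rfl }
      rw [Nat.card_congr e, Nat.card_fun]; simp
    simp only [h2] at h1
    have h3 : (Nat.card G) ∣ ∑ g : G, Nat.card (MulAction.fixedBy α g) ^ k := by
      rw [h1]; exact Dvd.intro_left _ rfl
    exact_mod_cast h3
  have hpoly : ∀ P : Polynomial ℤ,
      (Nat.card G : ℤ) ∣ ∑ g : G, P.eval (Nat.card (MulAction.fixedBy α g) : ℤ) := by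
    intro P
    induction P using Polynomial.induction_on' with
    | add p q hp hq =>
      simp only [Polynomial.eval_add, Finset.sum_add_distrib]; exact dvd_add hp hq
    | monomial n a =>
      simp only [Polynomial.eval_monomial, ← Finset.mul_sum]; exact (hpow n).mul_left a
  have h := hpoly (∏ l ∈ L, (Polynomial.X - Polynomial.C (l : ℤ)))
  rw [Finset.sum_eq_single 1] at h
  · rw [MulAction.fixedBy_one_eq_univ] at h
    simp only [Nat.card_univ, Polynomial.eval_prod, Polynomial.eval_sub, Polynomial.eval_X,
      Polynomial.eval_C, Nat.card_eq_fintype_card (α := α)] at h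
    rw [← Int.natCast_dvd_natCast, Nat.cast_prod]
    convert h using 2 with l hl
    rw [Nat.cast_sub (hbig l hl).le]
  · intro g _ hg
    rw [Polynomial.eval_prod]
    have := hL g.1 g.2 (fun h => hg (Subtype.ext h))
    apply Finset.prod_eq_zero this
    simp only [Polynomial.eval_sub, Polynomial.eval_X, Polynomial.eval_C]
    exact sub_self _
  · simp

end Cfsg.Agent.S0724
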