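import Mathlib
import Cfsg.Statements.S0733

set_option autoImplicit false
open Cfsg

namespace Cfsg.Agent.S0733


/-- A permutation group of affine type — generated by the translations of a finite vector space `V` over `ZMod p` together with a group `G₀` of linear automorphisms — is primitive on `V` if and only if `G₀` is irreducible on `V`. -/
theorem result {p : ℕ} [Fact p.Prime] {V : Type*} [AddCommGroup V] [Module (ZMod p) V] [Finite V] [Nontrivial V] (G₀ : Subgroup (V ≃ₗ[ZMod p] V)) (G : Subgroup (Equiv.Perm V)) (hG : ∀ σ : Equiv.Perm V, σ ∈ G ↔ ∃ g ∈ G₀, ∃ b : V, ∀ x : V, σ x = (g : V ≃ₗ[ZMod p] V) x + b) : MulAction.IsPreprimitive G V ↔ ∀ W : Submodule (ZMod p) V, (∀ g ∈ G₀, ∀ v ∈ W, (g : V ≃ₗ[ZMod p] V) v ∈ W) → W = ⊥ ∨ W = ⊤ := by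
  have htr : ∀ b : V, Equiv.addRight b ∈ G := fun b => (hG _).mpr ⟨1, G₀.one_mem, b, fun x => rfl⟩
  constructor
  · intro hprim W hW
    have hB : MulAction.IsBlock G (W : Set V) := by
      rw [MulAction.isBlock_iff_smul_eq_of_mem]
      intro σ x hx hσx
      obtain ⟨g, hg, b, hσ⟩ := (hG σ.1).mp σ.2
      have hb : b ∈ W := by
        have h1 : σ.1 x ∈ W := hσx
        rw [hσ] at h1
        exact (W.add_mem_iff_right (hW g hg x hx)).mp h1
      apply Set.eq_of_subset_of_ncard_le
      · rintro _ ⟨y, hy, rfl⟩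
        change σ.1 y ∈ W
        rw [hσ]; exact W.add_mem (hW g hg y hy) hb
      · rw [Set.ncard_smul_set]
      · exact Set.toFinite _
    rcases hprim.isTrivialBlock_of_isBlock hB with h | h
    · left
      rw [eq_bot_iff]
      intro x hx
      exact h hx W.zero_mem
    · right
      exact SetLike.coe_injective h
  · intro h
    haveI : MulAction.IsPretransitive G V := ⟨fun x y => ⟨⟨Equiv.addRight (y - x), htr _⟩, by
      change x + (y - x) = y
      abel⟩⟩
    apply MulAction.IsPreprimitive.of_isTrivialBlock_base (0 : V)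
    intro B h0 hB
    have hadd : ∀ b ∈ B, ∀ x, x ∈ B ↔ x + b ∈ B := by
      intro b hb x
      have := MulAction.isBlock_iff_smul_eq_of_mem.mp hB (g := ⟨Equiv.addRight b, htr b⟩) h0
        (by change 0 + b ∈ B; rwa [zero_add])
      conv_rhs => rw [← this]
      exact (Set.smul_mem_smul_set_iff (a := (⟨Equiv.addRight b, htr b⟩ : G))).symm
    let A : AddSubgroup V :=
      { carrier := B
        zero_mem' := h0
        add_mem' := fun {x y} hx hy => (hadd y hy x).mp hx
        neg_mem' := fun {x} hx => (hadd x hx (-x)).mpr (by rwa [neg_add_cancel]) }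
    have hinv : ∀ g ∈ G₀, ∀ v ∈ AddSubgroup.toZModSubmodule p A,
        (g : V ≃ₗ[ZMod p] V) v ∈ AddSubgroup.toZModSubmodule p A := by
      intro g hg v hv
      have hgG : g.toEquiv ∈ G := (hG _).mpr ⟨g, hg, 0, fun x => by simp⟩
      have := MulAction.isBlock_iff_smul_eq_of_mem.mp hB (g := ⟨g.toEquiv, hgG⟩) h0
        (by change g 0 ∈ B; rwa [map_zero])
      change g v ∈ B
      rw [← this]
      exact ⟨v, hv, rfl⟩
    rcases h _ hinv with h1 | h1
    · left
      intro x hx y hy
      have hx' : x ∈ AddSubgroup.toZModSubmodule p A := hx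
      have hy' : y ∈ AddSubgroup.toZModSubmodule p A := hy
      rw [h1, Submodule.mem_bot] at hx' hy'
      rw [hx', hy']
    · right
      rw [Set.eq_univ_iff_forall]
      intro x
      have : x ∈ AddSubgroup.toZModSubmodule p A := by rw [h1]; trivial
      exact this

end Cfsg.Agent.S0733
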