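import Mathlib
import Cfsg.Statements.S0734

set_option autoImplicit false
open Cfsg

namespace Cfsg.Agent.S0734


/-- Higman's criterion for primitivity: a transitive action on a finite set is primitive if and only if every non-trivial orbital graph (edges = images of a fixed pair of distinct points) is connected. -/
theorem result {G : Type*} [Group G] {Ω : Type*} [Finite Ω] [MulAction G Ω] [MulAction.IsPretransitive G Ω] [Nontrivial Ω] : MulAction.IsPreprimitive G Ω ↔ ∀ a b : Ω, a ≠ b → (SimpleGraph.fromRel fun x y : Ω => ∃ g : G, g • a = x ∧ g • b = y).Connected := by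
  constructor
  · intro hprim a b hab
    set Γ := SimpleGraph.fromRel fun x y : Ω => ∃ g : G, g • a = x ∧ g • b = y with hΓ
    have hadj : ∀ (g : G) {x y}, Γ.Adj x y → Γ.Adj (g • x) (g • y) := by
      intro g x y h
      rw [hΓ, SimpleGraph.fromRel_adj] at h ⊢
      refine ⟨fun e => h.1 (MulAction.injective g e), ?_⟩
      rcases h.2 with ⟨k, rfl, rfl⟩ | ⟨k, rfl, rfl⟩
      · exact Or.inl ⟨g * k, mul_smul _ _ _, mul_smul _ _ _⟩
      · exact Or.inr ⟨g * k, mul_smul _ _ _, mul_smul _ _ _⟩
    have hreach : ∀ (g : G) {x y}, Γ.Reachable x y → Γ.Reachable (g • x) (g • y) := by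
      intro g x y h
      exact h.map (⟨fun x => g • x, fun h => hadj g h⟩ : Γ →g Γ)
    have hB : MulAction.IsBlock G {x | Γ.Reachable a x} := by
      rw [MulAction.isBlock_iff_smul_eq_of_mem]
      intro g x hx hgx
      ext y
      rw [Set.mem_smul_set_iff_inv_smul_mem]
      simp only [Set.mem_setOf_eq] at hx hgx ⊢
      constructor
      · intro hy
        have := hreach g (hx.symm.trans hy)
        rw [smul_inv_smul] at this
        exact hgx.trans this
      · intro hy
        have := hreach g⁻¹ (hgx.symm.trans hy)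
        rw [inv_smul_smul] at this
        exact hx.trans this
    have huniv : {x | Γ.Reachable a x} = Set.univ := by
      refine (hprim.isTrivialBlock_of_isBlock hB).resolve_left fun h => hab (h ?_ ?_)
      · exact SimpleGraph.Reachable.refl a
      · apply SimpleGraph.Adj.reachable
        rw [hΓ, SimpleGraph.fromRel_adj]
        exact ⟨hab, Or.inl ⟨1, one_smul _ _, one_smul _ _⟩⟩
    have hall : ∀ x, Γ.Reachable a x := fun x => (Set.eq_univ_iff_forall.mp huniv x)
    haveI : Nonempty Ω := ⟨a⟩
    exact ⟨fun x y => (hall x).symm.trans (hall y)⟩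
  · intro h
    refine ⟨fun {B} hB => ?_⟩
    by_cases hsub : B.Subsingleton
    · exact Or.inl hsub
    right
    rw [Set.not_subsingleton_iff] at hsub
    obtain ⟨a, ha, b, hb, hab⟩ := hsub
    rw [Set.eq_univ_iff_forall]
    intro c
    have hc := (h a b hab).preconnected a c
    rw [SimpleGraph.reachable_iff_reflTransGen] at hc
    induction hc with
    | refl => exact ha
    | tail _ hadj ih =>
      rw [SimpleGraph.fromRel_adj] at hadj
      rcases hadj.2 with ⟨k, rfl, rfl⟩ | ⟨k, rfl, rfl⟩
      · rw [← MulAction.isBlock_iff_smul_eq_of_mem.mp hB ha ih]; exact Set.smul_mem_smul_set hb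
      · rw [← MulAction.isBlock_iff_smul_eq_of_mem.mp hB hb ih]; exact Set.smul_mem_smul_set ha

end Cfsg.Agent.S0734
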