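import Mathlib
import Cfsg.Statements.S0735
import Cfsg.Agent.Perm.Homog

set_option autoImplicit false
open Cfsg

namespace Cfsg.Agent.S0735


/-- A 2-homogeneous permutation group (transitive on 2-subsets) of even order is doubly transitive; a non-trivial 2-homogeneous group is primitive. -/
theorem result {α : Type*} [Fintype α] [DecidableEq α] (G : Subgroup (Equiv.Perm α)) (h2 : MulAction.IsPretransitive G (Set.powersetCard α 2)) (hα : 3 ≤ Fintype.card α) : (Even (Nat.card G) → MulAction.IsMultiplyPretransitive G α 2) ∧ (G ≠ ⊥ → MulAction.IsPreprimitive G α) := by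
  have key : ∀ a b c d : α, a ≠ b → c ≠ d → ∃ g : G, (g • a = c ∧ g • b = d) ∨ (g • a = d ∧ g • b = c) := by
    intro a b c d hab hcd
    obtain ⟨g, h1⟩ := (Perm.homog_iff G 2).mp h2 {a, b} {c, d} (Finset.card_pair hab) (Finset.card_pair hcd)
    simp only [Finset.smul_finset_insert, Finset.smul_finset_singleton] at h1
    refine ⟨g, ?_⟩
    have h3 : ({g • a, g • b} : Set α) = {c, d} := by
      have := congrArg (fun s : Finset α => (s : Set α)) h1
      simpa using this
    exact Set.pair_eq_pair_iff.mp h3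
  constructor
  · intro hev
    haveI : Fact (Nat.Prime 2) := ⟨Nat.prime_two⟩
    obtain ⟨t, ht⟩ := exists_prime_orderOf_dvd_card' 2 (even_iff_two_dvd.mp hev)
    have ht1 : t ≠ 1 := by rintro rfl; simp at ht
    obtain ⟨u, hu⟩ : ∃ u : α, t • u ≠ u := by
      by_contra hc
      push Not at hc
      exact ht1 (Subtype.ext (Equiv.ext hc))
    have htt : ∀ x : α, t • t • x = x := by
      intro x; rw [← mul_smul, ← pow_two, ← ht, pow_orderOf_eq_one, one_smul]
    have key2 : ∀ a b : α, a ≠ b → ∃ g : G, g • a = u ∧ g • b = t • u := by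
      intro a b hab
      obtain ⟨g, h | h⟩ := key a b u (t • u) hab hu.symm
      · exact ⟨g, h⟩
      · exact ⟨t * g, by rw [mul_smul, h.1, htt], by rw [mul_smul, h.2]⟩
    rw [MulAction.is_two_pretransitive_iff]
    intro a b c d hab hcd
    obtain ⟨g, hg⟩ := key2 a b hab
    obtain ⟨k, hk⟩ := key2 c d hcd
    exact ⟨k⁻¹ * g, by rw [mul_smul, hg.1, ← hk.1, inv_smul_smul],
      by rw [mul_smul, hg.2, ← hk.2, inv_smul_smul]⟩
  · intro _
    have h3 : ∀ a b : α, ∃ c, c ≠ a ∧ c ≠ b := by
      intro a b
      by_contra hc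
      push Not at hc
      have : (Finset.univ : Finset α) ⊆ {a, b} := by
        intro c _
        by_cases h : c = a
        · simp [h]
        · simp [hc c h]
      have h1 := Finset.card_le_card this
      have h2 : ({a, b} : Finset α).card ≤ 2 := Finset.card_le_two
      rw [Finset.card_univ] at h1; omega
    haveI htr : MulAction.IsPretransitive G α := by
      constructor
      intro a b
      by_cases hab : a = b
      · exact ⟨1, by simp [hab]⟩
      obtain ⟨c, hca, hcb⟩ := h3 a b
      obtain ⟨g, h | h⟩ := key a c b c hca.symm hcb.symm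
      · exact ⟨g, h.1⟩
      obtain ⟨k, h' | h'⟩ := key a b b c hab hcb.symm
      · exact ⟨k, h'.1⟩
      · exact ⟨g * g, by rw [mul_smul, h.1, h.2]⟩
    refine ⟨fun {B} hB => ?_⟩
    by_cases hsub : B.Subsingleton
    · exact Or.inl hsub
    right
    rw [Set.not_subsingleton_iff] at hsub
    obtain ⟨a, ha, b, hb, hab⟩ := hsub
    rw [Set.eq_univ_iff_forall]
    intro c
    by_cases hca : c = a
    · exact hca ▸ ha
    obtain ⟨g, h | h⟩ := key a b a c hab (Ne.symm hca)
    · have := MulAction.isBlock_iff_smul_eq_of_mem.mp hB ha (h.1.symm ▸ ha)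
      rw [← this, ← h.2]; exact Set.smul_mem_smul_set hb
    · have := MulAction.isBlock_iff_smul_eq_of_mem.mp hB hb (h.2.symm ▸ ha)
      rw [← this, ← h.1]; exact Set.smul_mem_smul_set ha

end Cfsg.Agent.S0735
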