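import Mathlib
import Cfsg.Statements.S0736
import Cfsg.Agent.Perm.Homog

set_option autoImplicit false
open Cfsg

namespace Cfsg.Agent.S0736

open Cfsg.Agent.Perm MulAction Equiv Finset
open scoped Pointwise

theorem choose_mod {p a m : ℕ} (hp : p.Prime) (k : ℕ) (hk : k + 1 = p ^ a * m) (j : ℕ) (hj : j < p ^ a) :
    (p : ℤ) ∣ (k.choose j : ℤ) - (-1) ^ j := by
  induction j with
  | zero => simp
  | succ j ih =>
    have h1 := ih (by omega)
    have h2 : p ∣ (k + 1).choose (j + 1) := by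
      by_contra h
      have h3 : p ^ a ∣ (k + 1).choose (j + 1) * (j + 1) := by
        rw [← Nat.add_one_mul_choose_eq, hk, mul_assoc]; exact dvd_mul_right _ _
      have h4 := (Nat.Coprime.pow_left a ((Nat.Prime.coprime_iff_not_dvd hp).2 h)).dvd_of_dvd_mul_left h3
      exact absurd (Nat.le_of_dvd (by omega) h4) (by omega)
    rw [Nat.choose_succ_succ'] at h2
    have h5 : (p : ℤ) ∣ (k.choose j : ℤ) + k.choose (j + 1) := by exact_mod_cast h2
    have := dvd_sub h5 h1
    rwa [show (k.choose j : ℤ) + k.choose (j + 1) - (k.choose j - (-1) ^ j) = k.choose (j + 1) - (-1) ^ (j + 1) by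
      ring] at this

theorem choose_key {p a m : ℕ} (hp : p.Prime) (hm : ¬ p ∣ m) (k : ℕ) (hk : k + 1 = p ^ a * m) :
    ¬ (p : ℤ) ∣ (k.choose (p ^ a) : ℤ) - (-1) ^ (p ^ a) := by
  intro h
  obtain ⟨j, hj⟩ : ∃ j, p ^ a = j + 1 := ⟨p ^ a - 1, by have := pow_pos hp.pos a; omega⟩
  have h1 := choose_mod hp k hk j (by omega)
  have h2 : (k + 1).choose (j + 1) = m * k.choose j := by
    have h3 := Nat.add_one_mul_choose_eq k j
    rw [hk, hj] at h3
    apply Nat.eq_of_mul_eq_mul_right (show 0 < j + 1 by omega)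
    rw [hk, hj, ← h3]; ring
  rw [Nat.choose_succ_succ'] at h2
  have h4 : (k.choose (j + 1) : ℤ) = m * k.choose j - k.choose j := by
    have : ((k.choose j + k.choose (j + 1) : ℕ) : ℤ) = (m * k.choose j : ℕ) := by rw [h2]
    push_cast at this
    linarith
  rw [hj, h4] at h
  have h5 : (p : ℤ) ∣ m * (-1) ^ j := by
    have := dvd_sub h (h1.mul_left ((m : ℤ) - 1))
    rwa [show (m : ℤ) * k.choose j - k.choose j - (-1) ^ (j + 1) - (m - 1) * (k.choose j - (-1) ^ j) =
      m * (-1) ^ j by ring] at this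
  have h6 : (p : ℤ) ∣ m := by
    rcases neg_one_pow_eq_or ℤ j with e | e <;> rw [e] at h5 <;> simpa using h5
  exact hm (by exact_mod_cast h6)

section
variable {α : Type*} [DecidableEq α]

theorem sum_swap (U : Finset α) (j : ℕ) (F : Finset α → α → ℤ) :
    ∑ K ∈ U.powersetCard (j + 1), ∑ x ∈ K, F K x = ∑ Y ∈ U.powersetCard j, ∑ x ∈ U \ Y, F (insert x Y) x := by
  rw [sum_sigma', sum_sigma']
  refine sum_bij' (fun s _ => ⟨s.1.erase s.2, s.2⟩) (fun s _ => ⟨insert s.2 s.1, s.2⟩) ?_ ?_ ?_ ?_ ?_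
  · rintro ⟨K, x⟩ h
    simp only [mem_sigma, mem_powersetCard, mem_sdiff] at h ⊢
    exact ⟨⟨(erase_subset _ _).trans h.1.1, by rw [card_erase_of_mem h.2, h.1.2]; rfl⟩, h.1.1 h.2, by simp⟩
  · rintro ⟨Y, x⟩ h
    simp only [mem_sigma, mem_powersetCard, mem_sdiff] at h ⊢
    exact ⟨⟨insert_subset h.2.1 h.1.1, by rw [card_insert_of_notMem h.2.2, h.1.2]⟩, mem_insert_self _ _⟩
  · rintro ⟨K, x⟩ h
    simp only [mem_sigma] at h
    simp only [insert_erase h.2]
  · rintro ⟨Y, x⟩ h
    simp only [mem_sigma, mem_sdiff] at h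
    simp only [erase_insert h.2.2]
  · rintro ⟨K, x⟩ h
    simp only [mem_sigma] at h
    simp only [insert_erase h.2]

theorem recur (X Z : Finset α) (hd : Disjoint X Z) (g : Finset α → ℤ)
    (hg : ∀ K : Finset α, K.card = X.card + 1 → ∑ x ∈ K, g (K.erase x) = 0) (i : ℕ) :
    (i + 1 : ℤ) * ∑ Y ∈ (X ∪ Z).powersetCard X.card, (if (Y ∩ Z).card = i + 1 then g Y else 0) +
      (Z.card - i : ℤ) * ∑ Y ∈ (X ∪ Z).powersetCard X.card, (if (Y ∩ Z).card = i then g Y else 0) = 0 := by
  have h1 := sum_swap (X ∪ Z) X.card (fun K x => if (K ∩ Z).card = i + 1 then g (K.erase x) else 0)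
  have h2 : ∑ K ∈ (X ∪ Z).powersetCard (X.card + 1), ∑ x ∈ K,
      (if (K ∩ Z).card = i + 1 then g (K.erase x) else 0) = 0 := by
    refine sum_eq_zero fun K hK => ?_
    split_ifs with h
    · exact hg K (mem_powersetCard.1 hK).2
    · simp
  rw [h2] at h1
  refine Eq.trans ?_ h1.symm
  rw [mul_sum, mul_sum, ← sum_add_distrib]
  refine sum_congr rfl fun Y hY => ?_
  obtain ⟨hYU, hYc⟩ := mem_powersetCard.1 hY
  have hsplit : (X ∪ Z) \ Y = (X \ Y) ∪ (Z \ Y) := union_sdiff_distrib _ _ _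
  have hdis : Disjoint (X \ Y) (Z \ Y) := hd.mono sdiff_subset sdiff_subset
  rw [hsplit, sum_union hdis]
  have e1 : ∀ x ∈ X \ Y, (if (insert x Y ∩ Z).card = i + 1 then g ((insert x Y).erase x) else 0) =
      if (Y ∩ Z).card = i + 1 then g Y else 0 := by
    intro x hx
    rw [mem_sdiff] at hx
    rw [erase_insert hx.2, insert_inter_of_notMem (disjoint_left.1 hd hx.1)]
  have e2 : ∀ x ∈ Z \ Y, (if (insert x Y ∩ Z).card = i + 1 then g ((insert x Y).erase x) else 0) =
      if (Y ∩ Z).card = i then g Y else 0 := by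
    intro x hx
    rw [mem_sdiff] at hx
    rw [erase_insert hx.2, insert_inter_of_mem hx.1, card_insert_of_notMem (fun h => hx.2 (mem_inter.1 h).1)]
    simp
  rw [sum_congr rfl e1, sum_congr rfl e2, sum_const, sum_const]
  have c1 : (Z \ Y).card + (Y ∩ Z).card = Z.card := by rw [inter_comm]; exact card_sdiff_add_card_inter _ _
  have c2 : (X \ Y).card = (Y ∩ Z).card := by
    have d1 := card_sdiff_add_card_inter X Y
    have d2 : (X ∩ Y) ∪ (Y ∩ Z) = Y := by
      rw [inter_comm X, ← inter_union_distrib_left]; exact inter_eq_left.2 hYU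
    have d3 := card_union_of_disjoint (hd.mono (inter_subset_left (s₂ := Y)) (inter_subset_right (s₁ := Y)))
    rw [d2] at d3
    omega
  simp only [nsmul_eq_mul]
  congr 1
  · split_ifs with h
    · rw [c2, h]; push_cast; ring
    · rw [mul_zero, mul_zero]
  · split_ifs with h
    · rw [← c1, h]; push_cast; ring
    · rw [mul_zero, mul_zero]

theorem closed (X Z : Finset α) (hd : Disjoint X Z) (g : Finset α → ℤ)
    (hg : ∀ K : Finset α, K.card = X.card + 1 → ∑ x ∈ K, g (K.erase x) = 0) (i : ℕ) (hi : i ≤ Z.card) :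
    ∑ Y ∈ (X ∪ Z).powersetCard X.card, (if (Y ∩ Z).card = i then g Y else 0) =
      (-1) ^ i * Z.card.choose i * g X := by
  induction i with
  | zero =>
    rw [sum_eq_single X]
    · simp [disjoint_iff_inter_eq_empty.1 hd]
    · intro Y hY hne
      rw [if_neg]
      intro h0
      apply hne
      obtain ⟨hYU, hYc⟩ := mem_powersetCard.1 hY
      refine eq_of_subset_of_card_le (fun y hy => ?_) hYc.ge
      refine (mem_union.1 (hYU hy)).resolve_right fun hz => ?_
      rw [card_eq_zero] at h0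
      exact notMem_empty y (h0 ▸ mem_inter.2 ⟨hy, hz⟩)
    · intro h
      exact absurd (mem_powersetCard.2 ⟨subset_union_left, rfl⟩) h
  | succ i ih =>
    have h1 := recur X Z hd g hg i
    rw [ih (by omega)] at h1
    have h2 : (Z.card.choose (i + 1) : ℤ) * (i + 1) = Z.card.choose i * (Z.card - i) := by
      have := Nat.choose_succ_right_eq Z.card i
      have h3 : ((Z.card - i : ℕ) : ℤ) = Z.card - i := Nat.cast_sub (by omega)
      rw [← h3]; exact_mod_cast this
    apply mul_left_cancel₀ (show (i + 1 : ℤ) ≠ 0 by positivity)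
    linear_combination h1 + (-1) ^ i * g X * h2

theorem count_top (X Z : Finset α) (hd : Disjoint X Z) :
    (((X ∪ Z).powersetCard X.card).filter fun Y => (Y ∩ Z).card = Z.card).card = X.card.choose Z.card := by
  rw [← card_powersetCard]
  have hU : (X ∪ Z).card = X.card + Z.card := card_union_of_disjoint hd
  refine card_bij' (fun Y _ => (X ∪ Z) \ Y) (fun W _ => (X ∪ Z) \ W) ?_ ?_ ?_ ?_
  · intro Y hY
    rw [mem_filter, mem_powersetCard] at hY
    have h1 : Y ∩ Z = Z := eq_of_subset_of_card_le inter_subset_right hY.2.ge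
    refine mem_powersetCard.2 ⟨fun x hx => ?_, by rw [card_sdiff_of_subset hY.1.1]; omega⟩
    rw [mem_sdiff] at hx
    refine (mem_union.1 hx.1).resolve_right fun hz => hx.2 ?_
    exact (mem_inter.1 (h1.symm ▸ hz : x ∈ Y ∩ Z)).1
  · intro W hW
    rw [mem_powersetCard] at hW
    refine mem_filter.2 ⟨mem_powersetCard.2 ⟨sdiff_subset, by
      rw [card_sdiff_of_subset (hW.1.trans subset_union_left)]; omega⟩, ?_⟩
    congr 1
    refine inter_eq_right.2 fun z hz => mem_sdiff.2 ⟨mem_union_right _ hz, fun hw => ?_⟩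
    exact disjoint_left.1 hd (hW.1 hw) hz
  · intro Y hY
    rw [mem_filter, mem_powersetCard] at hY
    exact Finset.sdiff_sdiff_eq_self hY.1.1
  · intro W hW
    rw [mem_powersetCard] at hW
    exact Finset.sdiff_sdiff_eq_self (hW.1.trans subset_union_left)

end


/-- A `k`-homogeneous permutation group of degree `n`, `k ≥ 2`, with `k + q - 1 ≤ n` for every prime power `q` dividing `k`, is `(k-1)`-homogeneous. -/
theorem result {α : Type*} [Fintype α] [DecidableEq α] (G : Subgroup (Equiv.Perm α)) {k : ℕ} (hk : 2 ≤ k) (hG : MulAction.IsPretransitive G (Set.powersetCard α k)) (hq : ∀ q : ℕ, IsPrimePow q → q ∣ k → k + q - 1 ≤ Fintype.card α) : MulAction.IsPretransitive G (Set.powersetCard α (k - 1)) := by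
  classical
  rw [homog_iff] at hG ⊢
  obtain ⟨j, rfl⟩ : ∃ j, k = j + 1 := ⟨k - 1, by omega⟩
  rw [Nat.add_sub_cancel]
  intro X Y hX hY
  obtain ⟨p₀, hp₀, hd₀⟩ := Nat.exists_prime_and_dvd (show j + 1 ≠ 1 by omega)
  have hn : j + 1 ≤ Fintype.card α := by have := hq p₀ hp₀.isPrimePow hd₀; have := hp₀.two_le; omega
  have hext : ∀ W : Finset α, W.card = j → ∃ x, x ∉ W := fun W hW =>
    exists_notMem_of_card_lt W (by rw [Nat.card_eq_fintype_card]; omega)
  let T : Finset α → Prop := fun W => ∃ g : G, g • X = W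
  let cnt : Finset α → ℕ := fun K => (K.filter fun x => T (K.erase x)).card
  have hinv : ∀ (g : G) (K : Finset α), cnt K ≤ cnt (g • K) := by
    intro g K
    refine card_le_card_of_injOn (fun x => g • x) (fun x hx => ?_) (fun a _ b _ h => smul_left_cancel g h)
    rw [coe_filter] at hx ⊢
    obtain ⟨hx1, h, hh⟩ := hx
    refine ⟨smul_mem_smul_finset hx1, g * h, ?_⟩
    rw [mul_smul, hh]
    ext y
    simp only [← inv_smul_mem_iff, mem_erase, ne_eq, inv_smul_eq_iff]
  obtain ⟨x₀, hx₀⟩ := hext X hX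
  set r := cnt (insert x₀ X) with hr
  have hK₀ : (insert x₀ X).card = j + 1 := by rw [card_insert_of_notMem hx₀, hX]
  have hconst : ∀ K : Finset α, K.card = j + 1 → cnt K = r := by
    intro K hK
    obtain ⟨g, hg⟩ := hG K _ hK hK₀
    obtain ⟨g', hg'⟩ := hG _ K hK₀ hK
    exact le_antisymm (by rw [hr, ← hg]; exact hinv g K) (by rw [hr, ← hg']; exact hinv g' _)
  have hr1 : 0 < r := card_pos.2 ⟨x₀, mem_filter.2 ⟨mem_insert_self _ _, 1, by rw [erase_insert hx₀, one_smul]⟩⟩
  have hr2 : r ≤ j + 1 := hK₀ ▸ card_filter_le _ _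
  let g : Finset α → ℤ := fun W => (j + 1) * (if T W then 1 else 0) - r
  have hg : ∀ K : Finset α, K.card = X.card + 1 → ∑ x ∈ K, g (K.erase x) = 0 := by
    intro K hK
    rw [hX] at hK
    have := hconst K hK
    simp only [g, sum_sub_distrib, ← mul_sum, sum_const, hK, nsmul_eq_mul]
    rw [sum_boole, show (K.filter fun x => T (K.erase x)).card = r from this]
    push_cast; ring
  have hdvd : j + 1 ∣ r := by
    rw [Nat.dvd_iff_prime_pow_dvd_dvd]
    intro p b hp hb
    obtain ⟨a, m, hm, hk'⟩ := Nat.exists_eq_pow_mul_and_not_dvd (show j + 1 ≠ 0 by omega) p hp.ne_one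
    have hba : b ≤ a := by
      rw [hk'] at hb
      have := (Nat.Coprime.pow_left b ((Nat.Prime.coprime_iff_not_dvd hp).2 hm)).dvd_of_dvd_mul_right hb
      exact (Nat.pow_dvd_pow_iff_le_right hp.one_lt).1 this
    refine (pow_dvd_pow p hba).trans ?_
    rcases Nat.eq_zero_or_pos a with rfl | ha
    · simp
    have h1 := hq (p ^ a) ⟨p, a, hp.prime, ha, rfl⟩ (hk' ▸ dvd_mul_right _ _)
    obtain ⟨Z, hZ, hZc⟩ := exists_subset_card_eq (s := Xᶜ) (n := p ^ a) (by rw [card_compl]; omega)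
    have hd : Disjoint X Z := disjoint_left.2 fun x hx hz => (mem_compl.1 (hZ hz)) hx
    have h2 := closed X Z hd g hg Z.card le_rfl
    rw [Nat.choose_self, ← sum_filter] at h2
    have hct := count_top X Z hd
    rw [hX, hZc] at hct
    simp only [g, sum_sub_distrib, ← mul_sum, sum_const, nsmul_eq_mul, hX, hZc] at h2
    rw [hct] at h2
    have h3 : ((j + 1 : ℕ) : ℤ) ∣ r * ((j.choose (p ^ a) : ℤ) - (-1) ^ (p ^ a)) := by
      refine ⟨∑ x ∈ ((X ∪ Z).powersetCard j).filter (fun Y => (Y ∩ Z).card = p ^ a), (if T x then 1 else 0) -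
        (-1) ^ (p ^ a) * (if T X then 1 else 0), ?_⟩
      push_cast at h2 ⊢
      linear_combination -h2
    have h4 : ((p : ℤ) ^ a) ∣ r * ((j.choose (p ^ a) : ℤ) - (-1) ^ (p ^ a)) :=
      Dvd.dvd.trans (by rw [hk']; push_cast; exact dvd_mul_right _ _) h3
    have h5 := (Nat.prime_iff_prime_int.1 hp).pow_dvd_of_dvd_mul_right a (choose_key hp hm j hk') h4
    exact_mod_cast h5
  have hrk : r = j + 1 := le_antisymm hr2 (Nat.le_of_dvd hr1 hdvd)
  obtain ⟨y, hy⟩ := hext Y hY
  have hKY : (insert y Y).card = j + 1 := by rw [card_insert_of_notMem hy, hY]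
  have h6 := hconst _ hKY
  rw [hrk, ← hKY] at h6
  have h7 := (card_filter_eq_iff.1 h6) y (mem_insert_self _ _)
  rwa [erase_insert hy] at h7

end Cfsg.Agent.S0736
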