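import Mathlib
import Cfsg.Statements.S0740
import Cfsg.Agent.Perm.Multi
import Cfsg.Agent.Perm.PrimeDegree
import Cfsg.Agent.Perm.PFixed

set_option autoImplicit false
open Cfsg

namespace Cfsg.Agent.S0740


/-- In a finite Zassenhaus group any two points `a ≠ b` are swapped by an involution; every such involution has exactly one fixed point when the degree is odd and 0 or 2 fixed points when the degree is even; and if the two-point stabiliser has even order, some such involution has exactly 2 fixed points. -/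
theorem result {G Ω : Type*} [Group G] [Finite G] [MulAction G Ω] [Fintype Ω] (hZ : Cfsg.IsZassenhausGroup G Ω) {a b : Ω} (hab : a ≠ b) : (∃ s : G, orderOf s = 2 ∧ s • a = b ∧ s • b = a) ∧ (∀ s : G, orderOf s = 2 → s • a = b → s • b = a → (Odd (Fintype.card Ω) → Nat.card (MulAction.fixedBy Ω s) = 1) ∧ (Even (Fintype.card Ω) → Nat.card (MulAction.fixedBy Ω s) = 0 ∨ Nat.card (MulAction.fixedBy Ω s) = 2)) ∧ (Even (Fintype.card Ω) → Even (Nat.card ↥(MulAction.stabilizer G a ⊓ MulAction.stabilizer G b)) → ∃ s : G, orderOf s = 2 ∧ s • a = b ∧ s • b = a ∧ Nat.card (MulAction.fixedBy Ω s) = 2) := by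
  classical
  obtain ⟨hf, h2, h3, -, -⟩ := hZ
  haveI : Fact (Nat.Prime 2) := ⟨Nat.prime_two⟩
  have hconj : ∀ t : G, orderOf t = 2 → ∃ g : G, orderOf (g * t * g⁻¹) = 2 ∧
      (g * t * g⁻¹) • a = b ∧ (g * t * g⁻¹) • b = a := by
    intro t ht
    obtain ⟨u, hu⟩ : ∃ u : Ω, t • u ≠ u := by
      by_contra hc
      push Not at hc
      rw [Perm.eq_one_of_forall_smul hc] at ht
      simp at ht
    obtain ⟨g, g1, g2⟩ := Perm.two_trans h2 hu.symm hab
    have htt : t • t • u = u := by rw [← mul_smul, ← pow_two, ← ht, pow_orderOf_eq_one, one_smul]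
    refine ⟨g, ?_, ?_, ?_⟩
    · rw [← ht]; exact (SemiconjBy.orderOf_eq g (by simp [SemiconjBy])).symm
    · rw [← g1, ← g2, mul_smul, mul_smul, inv_smul_smul]
    · rw [← g1, ← g2, mul_smul, mul_smul, inv_smul_smul, htt]
  have hle : ∀ s : G, s ≠ 1 → (MulAction.fixedBy Ω s).ncard ≤ 2 := by
    intro s hs
    by_contra hc
    obtain ⟨x, y, z, hx, hy, hz, hxy, hxz, hyz⟩ := (Set.two_lt_ncard_iff (s := MulAction.fixedBy Ω s)).mp
      (by omega)
    exact hs (h3 s x y z hxy hyz hxz hx hy hz)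
  refine ⟨?_, ?_, ?_⟩
  · have hev : 2 ∣ Nat.card G := by
      rw [Perm.card_eq_descFactorial_mul h2 ⟨_, Perm.inj2 hab⟩]
      exact Dvd.dvd.mul_right (Nat.factorial_dvd_descFactorial _ 2) _
    obtain ⟨t, ht⟩ := exists_prime_orderOf_dvd_card' 2 hev
    obtain ⟨g, hg⟩ := hconj t ht
    exact ⟨_, hg⟩
  · intro s hs _ _
    have h1 := hle s (by rintro rfl; simp at hs)
    have h4 := Perm.card_modEq_fixedBy (α := Ω) (p := 2) (g := s) (k := 1)
      (by rw [pow_one, ← hs, pow_orderOf_eq_one])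
    rw [Nat.card_eq_fintype_card, Nat.ModEq] at h4
    rw [Nat.card_coe_set_eq, Nat.odd_iff, Nat.even_iff]
    omega
  · intro _ hev
    obtain ⟨t, ht⟩ := exists_prime_orderOf_dvd_card' 2 (even_iff_two_dvd.mp hev)
    rw [← Subgroup.orderOf_coe] at ht
    obtain ⟨g, hg1, hg2, hg3⟩ := hconj t ht
    refine ⟨_, hg1, hg2, hg3, le_antisymm (hle _ (by intro h; rw [h] at hg1; simp at hg1)) ?_⟩
    have : ({g • a, g • b} : Set Ω) ⊆ MulAction.fixedBy Ω (g * t * g⁻¹) := by
      rintro _ (rfl | rfl)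
      · rw [MulAction.mem_fixedBy, mul_smul, mul_smul, inv_smul_smul, show t.1 • a = a from t.2.1]
      · rw [MulAction.mem_fixedBy, mul_smul, mul_smul, inv_smul_smul, show t.1 • b = b from t.2.2]
    have h5 := Set.ncard_le_ncard this
    rwa [Set.ncard_pair (fun h => hab (MulAction.injective g h))] at h5

end Cfsg.Agent.S0740
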