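import Mathlib
import Cfsg.Statements.S0744
import Cfsg.Agent.S0743
import Cfsg.Agent.Perm.Homog

set_option autoImplicit false
open Cfsg

namespace Cfsg.Agent.S0744


/-- If for some `k > 1` the pointwise stabilisers of all `(k-1)`-subsets have the same order `> 1` and those of all `k`-subsets have the same order, then the group is `(k-1)`-transitive. -/
theorem result {α : Type*} [Fintype α] [DecidableEq α] (G : Subgroup (Equiv.Perm α)) {k : ℕ} (hk : 1 < k) (hkn : k ≤ Fintype.card α) (l m : ℕ) (hl : 1 < l) (hkm1 : ∀ s : Finset α, s.card = k - 1 → Nat.card (fixingSubgroup G (s : Set α)) = l) (hkm : ∀ s : Finset α, s.card = k → Nat.card (fixingSubgroup G (s : Set α)) = m) : MulAction.IsMultiplyPretransitive G α (k - 1) := by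
  classical
  have hle : ∀ (s : Finset α) (a : α), fixingSubgroup G ((insert a s : Finset α) : Set α) ≤
      fixingSubgroup G (s : Set α) := fun s a => fixingSubgroup_antitone _ _ (by simp)
  obtain ⟨s₀, -, hs₀⟩ := Finset.exists_subset_card_eq (s := (Finset.univ : Finset α)) (n := k - 1)
    (by simp; omega)
  have hml : m ∣ l := by
    obtain ⟨a, ha⟩ := Perm.exists_notMem_of_card_lt s₀ (by rw [Nat.card_eq_fintype_card]; omega)
    rw [← hkm1 s₀ hs₀, ← hkm (insert a s₀) (by rw [Finset.card_insert_of_notMem ha]; omega)]
    exact Subgroup.card_dvd_of_le (hle s₀ a)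
  have hne : m ≠ l := by
    intro h
    have : fixingSubgroup G (s₀ : Set α) = ⊥ := by
      rw [eq_bot_iff]
      intro g hg
      rw [Subgroup.mem_bot]
      ext a
      by_cases ha : a ∈ s₀
      · exact (mem_fixingSubgroup_iff G).mp hg a ha
      · have := Subgroup.eq_of_le_of_card_ge (hle s₀ a) (by
          rw [hkm1 s₀ hs₀, hkm (insert a s₀) (by rw [Finset.card_insert_of_notMem ha]; omega), h])
        rw [← this] at hg
        exact (mem_fixingSubgroup_iff G).mp hg a (by simp)
    have h2 := hkm1 s₀ hs₀
    rw [this] at h2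
    simp at h2; omega
  obtain ⟨r, rfl⟩ := hml
  obtain ⟨p, hp, hpr⟩ := Nat.exists_prime_and_dvd (n := r) (by rintro rfl; simp at hne)
  haveI := Fact.mk hp
  have hm0 : m ≠ 0 := by rintro rfl; simp at hl
  apply S0743.result G hp (by omega) (by omega)
  intro s hs
  obtain ⟨P⟩ : Nonempty (Sylow p (fixingSubgroup G (s : Set α))) := inferInstance
  refine ⟨(P : Subgroup _).map (fixingSubgroup G (s : Set α)).subtype, P.isPGroup'.map _, ?_⟩
  apply Set.Subset.antisymm
  · intro a ha
    by_contra has
    have h1 : (P : Subgroup _).map (fixingSubgroup G (s : Set α)).subtype ≤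
        fixingSubgroup G ((insert a s : Finset α) : Set α) := by
      intro g hg
      rw [mem_fixingSubgroup_iff]
      intro y hy
      rcases Finset.mem_insert.mp hy with rfl | hy
      · exact ha ⟨g, hg⟩
      · exact (mem_fixingSubgroup_iff G).mp (Subgroup.map_subtype_le _ hg) y hy
    have h2 := Subgroup.card_dvd_of_le h1
    rw [Subgroup.card_map_of_injective (Subgroup.subtype_injective _),
      hkm (insert a s) (by rw [Finset.card_insert_of_notMem has]; omega)] at h2
    have h3 : p ^ (m.factorization p + 1) ∣ Nat.card P := by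
      apply P.pow_dvd_card_of_pow_dvd_card
      rw [hkm1 s hs, pow_succ]
      exact Nat.mul_dvd_mul (Nat.ordProj_dvd _ _) hpr
    exact Nat.pow_succ_factorization_not_dvd hm0 hp (h3.trans h2)
  · intro a ha g
    exact (mem_fixingSubgroup_iff G).mp (Subgroup.map_subtype_le _ g.2) a ha

end Cfsg.Agent.S0744
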