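import Mathlib
import Cfsg.Statements.S0746
import Cfsg.Agent.Isaacs.LW8
import Cfsg.Agent.S0736
-- import your own Cfsg.Agent.* helpers here

set_option autoImplicit false
open Cfsg

namespace Cfsg.Agent.S0746

open Cfsg.Agent.Isaacs

/-- The Livingstone–Wagner Theorem, first form: a `k`-homogeneous group of degree `n` with `4 ≤ 2k ≤ n` is `(k-1)`-transitive. -/
theorem result {α : Type*} [Fintype α] [DecidableEq α] (G : Subgroup (Equiv.Perm α)) {k : ℕ} (hk : 2 ≤ k) (hkn : 2 * k ≤ Fintype.card α) (hh : MulAction.IsPretransitive G (Set.powersetCard α k)) : MulAction.IsMultiplyPretransitive G α (k - 1) := by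
  induction k, hk using Nat.le_induction with
  | base =>
    have h := (Perm.homog_iff G _).1 (S0736.result G le_rfl hh fun q _ hq => by
      have := Nat.le_of_dvd (by omega) hq; omega)
    rw [Perm.multi_iff]
    intro x y _ _
    obtain ⟨g, hg⟩ := h {x 0} {y 0} rfl rfl
    refine ⟨g, fun i => ?_⟩
    rw [show i = 0 from Subsingleton.elim (α := Fin 1) i 0]
    simpa using hg
  | succ k hk ih =>
    have h := S0736.result G (by omega) hh fun q _ hq => by
      have := Nat.le_of_dvd (by omega) hq; omega
    by_contra hnt
    have := LW.lw G (k := k + 1) (by omega) (by omega) (ih (by omega) h) hnt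
      ((Perm.homog_iff G _).1 h) ((Perm.homog_iff G _).1 hh)
    omega

end Cfsg.Agent.S0746
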