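import Mathlib
import Cfsg.Statements.S0756
import Cfsg.Agent.Orth.Plane
-- import your own Cfsg.Agent.* helpers here

set_option autoImplicit false
open Cfsg

namespace Cfsg.Agent.S0756

/-- Classification of symmetric bilinear forms over finite fields of odd characteristic: if B is non-degenerate symmetric on V of dimension n + 1 and α is a fixed non-square of F, there is an orthogonal basis b_0, ..., b_n with B(b_i, b_i) = 1 for i < n and B(b_n, b_n) ∈ {1, α}. -/
theorem result {F V : Type*} [Field F] [Finite F] [AddCommGroup V] [Module F V] [FiniteDimensional F V] (h2 : (2 : F) ≠ 0) (B : LinearMap.BilinForm F V) (hS : B.IsSymm) (hB : B.Nondegenerate) {n : ℕ} (hn : Module.finrank F V = n + 1) (α : F) (hα : ¬ IsSquare α) : ∃ b : Module.Basis (Fin (n + 1)) F V, (∀ i j, i ≠ j → B (b i) (b j) = 0) ∧ (∀ i, i ≠ Fin.last n → B (b i) (b i) = 1) ∧ (B (b (Fin.last n)) (b (Fin.last n)) = 1 ∨ B (b (Fin.last n)) (b (Fin.last n)) = α) := by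
  have hα0 : α ≠ 0 := by rintro rfl; exact hα IsSquare.zero
  let Q : QuadraticForm F V := B.toQuadraticMap
  have hp : ∀ x y, QuadraticMap.polar Q x y = 2 * B x y := fun x y => by
    rw [LinearMap.BilinMap.polar_toQuadraticMap, hS.eq y x]; ring
  have hQ : Orth.ND Q := fun x hx => hB.1 x fun y => by simpa [hp, h2] using hx y
  have key : ∀ a : F, a ≠ 0 → ∀ e : (QuadraticMap.weightedSumSquares F (fun i : Fin (n + 1) => if i = Fin.last n then a else (1 : F))).IsometryEquiv Q, ∃ b : Module.Basis (Fin (n + 1)) F V, (∀ i j, i ≠ j → B (b i) (b j) = 0) ∧ (∀ i, i ≠ Fin.last n → B (b i) (b i) = 1) ∧ B (b (Fin.last n)) (b (Fin.last n)) = a := by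
    intro a ha e
    refine ⟨(Pi.basisFun F _).map e.toLinearEquiv, fun i j hij => ?_, fun i hi => ?_, ?_⟩
    · have := Orth.iso_polar e (Pi.single i 1) (Pi.single j 1)
      rw [hp, Orth.polar_wss] at this
      simpa [h2, Pi.single_apply, hij.symm] using this
    · have := e.map_app (Pi.single i 1)
      have h3 : Q (e (Pi.single i 1)) = 1 := by
        rw [this]; simp [Pi.single_apply, hi, QuadraticMap.weightedSumSquares_apply]
      change B _ _ = 1 at h3
      simpa using h3
    · have := e.map_app (Pi.single (Fin.last n) 1)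
      have h3 : Q (e (Pi.single (Fin.last n) 1)) = a := by
        rw [this]; simp [Pi.single_apply, QuadraticMap.weightedSumSquares_apply]
      change B _ _ = a at h3
      simpa using h3
  have k2 : ∀ a : F, a ≠ 0 → (Nonempty ((QuadraticMap.weightedSumSquares F (fun i : Fin (n + 1) => if i = Fin.last n then a else (1 : F))).IsometryEquiv Q) ↔ IsSquare (a * (2 ^ (n + 1) * (Orth.gram Q (Module.finBasis F V)).det))) := by
    intro a ha
    rw [(Orth.nd_wss h2 (fun i => by split_ifs <;> simp [ha])).iso_iff_disc hQ h2 (by simp [hn])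
      (Pi.basisFun F _) (Module.finBasis F V), Orth.det_gram_wss]
    simp only [Finset.prod_ite_eq', Finset.mem_univ, if_true, Fintype.card_fin]
    rw [show ∀ x y z : F, x * y * z = y * (x * z) from fun _ _ _ => by ring]
  have hd : 2 ^ (n + 1) * (Orth.gram Q (Module.finBasis F V)).det ≠ 0 :=
    mul_ne_zero (pow_ne_zero _ h2) (hQ.det_gram_ne_zero _)
  by_cases h : IsSquare (2 ^ (n + 1) * (Orth.gram Q (Module.finBasis F V)).det)
  · obtain ⟨e⟩ := (k2 1 one_ne_zero).2 (by simpa using h)
    obtain ⟨b, h1, h3, h4⟩ := key 1 one_ne_zero e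
    exact ⟨b, h1, h3, Or.inl h4⟩
  · obtain ⟨e⟩ := (k2 α hα0).2 ((Orth.isSquare_mul_iff hα0 hd).2 (iff_of_false hα h))
    obtain ⟨b, h1, h3, h4⟩ := key α hα0 e
    exact ⟨b, h1, h3, Or.inr h4⟩

end Cfsg.Agent.S0756
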