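import Mathlib
import Cfsg.Statements.S0757
import Cfsg.Agent.Orth.Hyp
-- import your own Cfsg.Agent.* helpers here

set_option autoImplicit false
open Cfsg

namespace Cfsg.Agent.S0757

/-- The two diagonal forms Σ x_i^2 and Σ_(i<n) x_i^2 + α x_n^2 on F^(n+1), with α a non-square and 2 ≠ 0 in F, are inequivalent quadratic forms (so over a finite field of odd order there are exactly two classes of non-singular symmetric bilinear forms in each dimension). -/
theorem result {F : Type*} [Field F] (h2 : (2 : F) ≠ 0) (n : ℕ) (α : F) (hα : ¬ IsSquare α) : ¬ (QuadraticMap.weightedSumSquares F (fun _ : Fin (n + 1) => (1 : F))).Equivalent (QuadraticMap.weightedSumSquares F (fun i : Fin (n + 1) => if i = Fin.last n then α else (1 : F))) := by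
  rintro ⟨e⟩
  obtain ⟨t, ht, h⟩ := Orth.det_gram_change (Q := QuadraticMap.weightedSumSquares F (fun i : Fin (n + 1) => if i = Fin.last n then α else (1 : F)))
    ((Pi.basisFun F _).map e.toLinearEquiv) (Pi.basisFun F _)
  have key : ∀ w : Fin (n + 1) → F, (Orth.gram (QuadraticMap.weightedSumSquares F w) (Pi.basisFun F _)).det = 2 ^ (n + 1) * ∏ i, w i := by
    intro w
    rw [Orth.det_gram_orth]
    · simp [QuadraticMap.weightedSumSquares_apply, Pi.single_apply]
    · intro i j hij
      simp only [QuadraticMap.polar, QuadraticMap.weightedSumSquares_apply, ← Finset.sum_sub_distrib]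
      apply Finset.sum_eq_zero
      intro k _
      by_cases h1 : k = i <;> by_cases h3 : k = j <;> simp_all [Pi.single_apply]
  have h1 : Orth.gram (QuadraticMap.weightedSumSquares F (fun i : Fin (n + 1) => if i = Fin.last n then α else (1 : F))) ((Pi.basisFun F _).map e.toLinearEquiv) = Orth.gram (QuadraticMap.weightedSumSquares F (fun _ : Fin (n + 1) => (1 : F))) (Pi.basisFun F _) := by
    ext i j
    exact Orth.iso_polar e _ _
  rw [h1, key, key] at h
  simp only [Finset.prod_ite_eq', Finset.mem_univ, if_true, Finset.prod_const_one] at h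
  apply hα
  refine ⟨t, mul_left_cancel₀ (pow_ne_zero (n + 1) h2) ?_⟩
  rw [h]; ring

end Cfsg.Agent.S0757
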