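import Mathlib
import Cfsg.Statements.S0758
import Cfsg.Agent.Orth.Hyp
-- import your own Cfsg.Agent.* helpers here

set_option autoImplicit false
open Cfsg

namespace Cfsg.Agent.S0758

/-- For a finite field F of odd order q and a non-square α: the form x² + y² is isotropic iff q ≡ 1 mod 4, and the form x² + α y² is isotropic iff q ≡ 3 mod 4. -/
theorem result {F : Type*} [Field F] [Fintype F] (h2 : (2 : F) ≠ 0) (α : F) (hα : ¬ IsSquare α) : ((∃ x y : F, (x ≠ 0 ∨ y ≠ 0) ∧ x ^ 2 + y ^ 2 = 0) ↔ Fintype.card F % 4 = 1) ∧ ((∃ x y : F, (x ≠ 0 ∨ y ≠ 0) ∧ x ^ 2 + α * y ^ 2 = 0) ↔ Fintype.card F % 4 = 3) := by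
  have key : ∀ a : F, a ≠ 0 → ((∃ x y : F, (x ≠ 0 ∨ y ≠ 0) ∧ x ^ 2 + a * y ^ 2 = 0) ↔ IsSquare (-a)) := by
    intro a ha
    constructor
    · rintro ⟨x, y, h, hxy⟩
      have hy : y ≠ 0 := by
        rintro rfl
        simp at hxy h; exact h hxy
      exact ⟨x / y, by field_simp; linear_combination (-1) * hxy⟩
    · rintro ⟨c, hc⟩
      exact ⟨c, 1, Or.inr one_ne_zero, by linear_combination (-1) * hc⟩
  have hodd := Nat.odd_iff.1 (Orth.odd_card_of_two_ne_zero h2)
  have h1 := FiniteField.isSquare_neg_one_iff (F := F)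
  have hα0 : α ≠ 0 := by rintro rfl; exact hα IsSquare.zero
  constructor
  · have := key 1 one_ne_zero
    simp only [one_mul] at this
    rw [this, h1]; omega
  · rw [key α hα0, ← neg_one_mul, Orth.isSquare_mul_iff (by simp) hα0, h1]
    simp only [hα, iff_false]; omega

end Cfsg.Agent.S0758
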