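import Mathlib
import Cfsg.Statements.S0759
import Cfsg.Agent.Orth.Hyp
-- import your own Cfsg.Agent.* helpers here

set_option autoImplicit false
open Cfsg

namespace Cfsg.Agent.S0759

/-- Type of the orthonormal form: over a finite field of odd order q and for m ≥ 1, the quadratic form Σ_(i<2m) x_i² on F^(2m) admits an m-dimensional subspace on which it vanishes identically if and only if it is not the case that q ≡ 3 (mod 4) and m is odd. -/
theorem result {F : Type*} [Field F] [Fintype F] (h2 : (2 : F) ≠ 0) (m : ℕ) (hm : 1 ≤ m) : (∃ W : Submodule F (Fin (2 * m) → F), Module.finrank F W = m ∧ ∀ w ∈ W, ∑ i, w i ^ 2 = 0) ↔ ¬ (Fintype.card F % 4 = 3 ∧ Odd m) := by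
  let Q := QuadraticMap.weightedSumSquares F (fun _ : Fin (2 * m) => (1 : F))
  have hQ : ∀ w, Q w = ∑ i, w i ^ 2 := fun w => by
    simp [Q, QuadraticMap.weightedSumSquares_apply, pow_two]
  have key : (Orth.gram Q (Pi.basisFun F _)).det = (2 ^ m) ^ 2 := by
    rw [Orth.det_gram_orth]
    · simp [hQ, Pi.single_apply, ← pow_mul, mul_comm]
    · intro i j hij
      simp only [QuadraticMap.polar, hQ, ← Finset.sum_sub_distrib]
      apply Finset.sum_eq_zero
      intro k _
      by_cases h1 : k = i <;> by_cases h3 : k = j <;> simp_all [Pi.single_apply]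
  have hQ' : Orth.ND Q := Orth.nd_of_det_gram_ne_zero (Pi.basisFun F _) (by rw [key]; simp [h2])
  have h := hQ'.isPlus_iff_disc h2 (m := m) (by simp) (Pi.basisFun F _)
  rw [key, Orth.isSquare_sq_mul_iff (by simp [h2]), Orth.isSquare_neg_one_pow_iff h2] at h
  have hodd := Nat.odd_iff.1 (Orth.odd_card_of_two_ne_zero h2)
  have h3 : Fintype.card F ^ m % 4 = 1 ↔ ¬ (Fintype.card F % 4 = 3 ∧ Odd m) := by
    have h4 : Fintype.card F % 4 = 1 ∨ Fintype.card F % 4 = 3 := by omega
    rw [Nat.pow_mod]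
    rcases h4 with h4 | h4
    · simp [h4]
    · rw [h4]
      rcases Nat.even_or_odd' m with ⟨k, rfl | rfl⟩
      · simp [pow_mul, Nat.pow_mod]
      · simp [pow_succ, pow_mul, Nat.pow_mod, Nat.mul_mod]
  rw [← h3, ← h]
  constructor
  · rintro ⟨W, h1, h4⟩
    exact ⟨W, fun w hw => (hQ w).trans (h4 w hw), by simp [h1]⟩
  · rintro ⟨W, h1, h4⟩
    exact ⟨W, by simpa using h4, fun w hw => (hQ w).symm.trans (h1 w hw)⟩

end Cfsg.Agent.S0759
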