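import Mathlib
import Cfsg.Statements.S0763
import Cfsg.Agent.Orth.Hyp
-- import your own Cfsg.Agent.* helpers here

set_option autoImplicit false
open Cfsg

namespace Cfsg.Agent.S0763

/-- Binary quadratic forms in characteristic two over a finite field: if Q is a quadratic form on a 2-dimensional space whose polar form is non-degenerate, then either there are vectors v, w with Q v = Q w = 0 and polar value 1 (Q is xy in these coordinates), or there are v, w and μ with Q v = 1, Q w = μ, polar value 1 and x² + x + μ without roots in F (Q is x² + xy + μy²). -/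
theorem result {F V : Type*} [Field F] [Finite F] [CharP F 2] [AddCommGroup V] [Module F V] (Q : QuadraticForm F V) (h2 : Module.finrank F V = 2) (hQ : (QuadraticMap.polarBilin Q).Nondegenerate) : (∃ v w : V, LinearIndependent F ![v, w] ∧ Q v = 0 ∧ Q w = 0 ∧ QuadraticMap.polar Q v w = 1) ∨ (∃ (v w : V) (μ : F), LinearIndependent F ![v, w] ∧ (∀ x : F, x ^ 2 + x + μ ≠ 0) ∧ Q v = 1 ∧ Q w = μ ∧ QuadraticMap.polar Q v w = 1) := by
  have hQ' := (Orth.nd_iff Q).2 hQ
  have : FiniteDimensional F V := Module.finite_of_finrank_eq_succ h2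
  by_cases h : ∃ v, v ≠ 0 ∧ Q v = 0
  · obtain ⟨v, hv0, hv⟩ := h
    obtain ⟨w, hvw, hw⟩ := hQ'.exists_hyp hv0 hv
    exact Or.inl ⟨v, w, Orth.hyp_linearIndependent hv hw hvw, hv, hw, hvw⟩
  · push Not at h
    obtain ⟨ζ, ⟨e⟩⟩ := hQ'.exists_iso_binQ h2
    have ha := Orth.aniso_of_iso e (fun v hv => by by_contra h0; exact h v h0 hv)
    refine Or.inr ⟨e (Pi.single 0 1), e (Pi.single 1 1), ζ, ?_, Orth.aniso_one_iff.1 ha, ?_, ?_, ?_⟩
    · have := ((Pi.basisFun F (Fin 2)).map e.toLinearEquiv).linearIndependent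
      convert this using 1
      ext i; fin_cases i <;> simp
    · simp [Orth.binQ_apply]
    · simp [Orth.binQ_apply]
    · simp [Orth.polar_binQ]

end Cfsg.Agent.S0763
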