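import Mathlib
import Cfsg.Statements.S0767
import Cfsg.Agent.Classical.SpMat

set_option autoImplicit false
set_option backward.isDefEq.respectTransparency false
open Cfsg

namespace Cfsg.Agent.S0767

/-- The root group of a point: T_v(c) T_v(d) = T_v(c + d), and for A in the symplectic group with A v = a v, the conjugate A T_v(c) A⁻¹ is again some T_v(d). -/
theorem result {F : Type*} [Field F] (m : ℕ) (v : Fin m ⊕ Fin m → F) : (∀ c d : F, Cfsg.sympTransvection m v c * Cfsg.sympTransvection m v d = Cfsg.sympTransvection m v (c + d)) ∧ ∀ (A : Matrix (Fin m ⊕ Fin m) (Fin m ⊕ Fin m) F) (a : F), A ∈ Matrix.symplecticGroup (Fin m) F → A.mulVec v = a • v → ∀ c : F, ∃ d : F, A * Cfsg.sympTransvection m v c * A⁻¹ = Cfsg.sympTransvection m v d := by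
  constructor
  · intro c d
    rw [← Classical.SpMat.spEquiv_symm_tv, ← Classical.SpMat.spEquiv_symm_tv,
      ← Classical.SpMat.spEquiv_symm_tv, Classical.SpWitt.tv_add, map_mul]
    rfl
  · intro A a hA hv c
    refine ⟨a ^ 2 * c, ?_⟩
    have h := Classical.SpWitt.conj_tv Classical.SpMat.sB_alt
      (Classical.SpMat.spEquiv _ _ ⟨A, hA⟩) v c
    rw [Classical.SpMat.spEquiv_apply, hv, Classical.SpWitt.tv_smul] at h
    rw [← Classical.SpMat.spEquiv_symm_tv, ← Classical.SpMat.spEquiv_symm_tv, ← h, map_mul,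
      map_mul, map_inv, MulEquiv.symm_apply_apply, Submonoid.coe_mul, Submonoid.coe_mul,
      SymplecticGroup.coe_inv']

end Cfsg.Agent.S0767
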