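import Mathlib
import Cfsg.Statements.S0771
import Cfsg.Agent.Classical.GLGeom

set_option autoImplicit false
set_option backward.isDefEq.respectTransparency false
open Cfsg

namespace Cfsg.Agent.S0771

/-- Maximal parabolic of GL_n(q): the stabiliser of the coordinate subspace spanned by the first k basis vectors has order q^(k(n-k)) · |GL_k(q)| · |GL_(n-k)(q)| (unipotent radical of order q^(k(n-k)) and Levi complement GL_k × GL_(n-k)). -/
theorem result {F : Type*} [Field F] [Fintype F] {q : ℕ} (hF : Fintype.card F = q) (n k : ℕ) (hk : k ≤ n) : Nat.card ↥(Cfsg.stabilizing (Cfsg.glToMat (Fin n) F) {v : Fin n → F | ∀ i : Fin n, k ≤ (i : ℕ) → v i = 0}) = q ^ (k * (n - k)) * (∏ i : Fin k, (q ^ k - q ^ (i : ℕ))) * ∏ i : Fin (n - k), (q ^ (n - k) - q ^ (i : ℕ)) := by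
  have h := Classical.GLGeom.card_parab (F := F) (fun i : Fin n => (i : ℕ) < k)
  have h1 : Fintype.card {i : Fin n // (i : ℕ) < k} = k := by
    rw [Fintype.card_subtype, Fin.card_filter_val_lt, min_eq_right hk]
  have h2 : Fintype.card {i : Fin n // ¬ (i : ℕ) < k} = n - k := by
    rw [Fintype.card_subtype_compl, h1, Fintype.card_fin]
  rw [Classical.GLGeom.card_GL' h1, Classical.GLGeom.card_GL' h2, Nat.card_fun, Nat.card_fun,
    Nat.card_eq_fintype_card (α := F), Nat.card_eq_fintype_card (α := {i : Fin n // (i : ℕ) < k}),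
    Nat.card_eq_fintype_card (α := {i : Fin n // ¬ (i : ℕ) < k}), h1, h2, hF, ← pow_mul,
    mul_comm (n - k)] at h
  simp only [← not_lt]
  exact h

end Cfsg.Agent.S0771
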