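import Mathlib
import Cfsg.Statements.S0772
import Cfsg.Agent.Classical.GLGeom

set_option autoImplicit false
set_option backward.isDefEq.respectTransparency false
open Cfsg

namespace Cfsg.Agent.S0772

/-- Maximal parabolics are maximal: over a finite field, for 0 < k < n the stabiliser in GL_n of the span of the first k coordinate vectors is a maximal proper subgroup. -/
theorem result {F : Type*} [Field F] [Finite F] (n k : ℕ) (hk0 : 0 < k) (hkn : k < n) : IsCoatom (Cfsg.stabilizing (Cfsg.glToMat (Fin n) F) {v : Fin n → F | ∀ i : Fin n, k ≤ (i : ℕ) → v i = 0}) := by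
  simp only [← not_lt]
  exact Classical.GLGeom.isCoatom_parab (fun i : Fin n => (i : ℕ) < k) (i := ⟨k, hkn⟩)
    (j := ⟨0, by omega⟩) (by simp) hk0

end Cfsg.Agent.S0772
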