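import Mathlib
import Cfsg.Statements.S0773
import Cfsg.Agent.Classical.GLGeom

set_option autoImplicit false
set_option backward.isDefEq.respectTransparency false
open Cfsg

namespace Cfsg.Agent.S0773

open Classical.GLGeom Matrix

/-- The stabilisers in GL_n(F), F finite, of the coordinate subspaces of dimensions k and n − k are isomorphic groups, but when 2k ≠ n (and 0 < k < n) no element of GL_n conjugates one onto the other. -/
theorem result {F : Type*} [Field F] [Finite F] (n k : ℕ) (hk0 : 0 < k) (hkn : k < n) (h2 : 2 * k ≠ n) : Nonempty (↥(Cfsg.stabilizing (Cfsg.glToMat (Fin n) F) {v : Fin n → F | ∀ i : Fin n, k ≤ (i : ℕ) → v i = 0}) ≃* ↥(Cfsg.stabilizing (Cfsg.glToMat (Fin n) F) {v : Fin n → F | ∀ i : Fin n, n - k ≤ (i : ℕ) → v i = 0})) ∧ ∀ g : Matrix.GeneralLinearGroup (Fin n) F, (Cfsg.stabilizing (Cfsg.glToMat (Fin n) F) {v : Fin n → F | ∀ i : Fin n, k ≤ (i : ℕ) → v i = 0}).map (MulAut.conj g).toMonoidHom ≠ Cfsg.stabilizing (Cfsg.glToMat (Fin n) F) {v : Fin n → F | ∀ i : Fin n, n - k ≤ (i : ℕ) → v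 i = 0} := by
  have hp : ∀ m : ℕ, Cfsg.stabilizing (Cfsg.glToMat (Fin n) F)
      {v : Fin n → F | ∀ i : Fin n, m ≤ (i : ℕ) → v i = 0} =
      parab F (fun i : Fin n => (i : ℕ) < m) := fun m => by simp only [parab, not_lt]
  rw [hp, hp]
  constructor
  · let e : Matrix.GeneralLinearGroup (Fin n) F ≃* Matrix.GeneralLinearGroup (Fin n) F :=
      invTranspose.trans (glReindex Fin.revPerm)
    have h : (parab F (fun i : Fin n => (i : ℕ) < n - k)).comap e.toMonoidHom =
        parab F (fun i : Fin n => (i : ℕ) < k) := by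
      ext g
      rw [Subgroup.mem_comap, mem_parab, ← inv_mem_iff, mem_parab]
      constructor
      · intro h i j hi hj
        have := h j.rev i.rev (by simp only [Fin.val_rev]; omega) (by simp only [Fin.val_rev]; omega)
        simpa [e, glReindex_apply, invTranspose_coe] using this
      · intro h i j hi hj
        exact h j.rev i.rev (by simp only [Fin.val_rev]; omega) (by simp only [Fin.val_rev]; omega)
    exact ⟨(MulEquiv.subgroupCongr h.symm).trans
      ((e.subgroupMap _).trans (MulEquiv.subgroupCongr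
        (Subgroup.map_comap_eq_self_of_surjective e.surjective _)))⟩
  · intro g hg
    have hc : ∀ m ≤ n, Nat.card (coordSub (F := F) (fun i : Fin n => (i : ℕ) < m)) =
        Nat.card F ^ m := fun m hm => by
      rw [card_coordSub, Fintype.card_subtype, Fin.card_filter_val_lt, min_eq_right hm]
    let f := (GeneralLinearGroup.toLin g).toLinearEquiv
    let U := (coordSub (F := F) (fun i : Fin n => (i : ℕ) < k)).map f.toLinearMap
    have hU : Nat.card U = Nat.card F ^ k := by
      rw [← hc k hkn.le]; exact (Nat.card_congr (f.submoduleMap _).toEquiv).symm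
    have h1 := Classical.SLBasic.one_lt_card (F := F)
    have h3 := eq_of_invariant (fun i : Fin n => (i : ℕ) < n - k) U (by
      rintro x hx - _ ⟨w, hw, rfl⟩
      obtain ⟨y, hy, rfl⟩ := hg.ge hx
      refine ⟨y.1 *ᵥ w, (hy w).1 hw, ?_⟩
      change g.1 *ᵥ (y.1 *ᵥ w) = (g * y * g⁻¹).1 *ᵥ (g.1 *ᵥ w)
      simp [mulVec_mulVec, mul_assoc])
    rcases h3 with h | h | h
    · rw [h, Nat.card_unique] at hU
      exact absurd (Nat.pow_right_injective h1 (hU.symm.trans (pow_zero _).symm)) hk0.ne'
    · rw [h, Nat.card_congr Submodule.topEquiv.toEquiv, Nat.card_fun, Nat.card_eq_fintype_card (α := Fin n), Fintype.card_fin] at hU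
      exact absurd (Nat.pow_right_injective h1 hU) hkn.ne'
    · rw [h, hc _ (Nat.sub_le n k)] at hU
      have := Nat.pow_right_injective h1 hU
      omega

end Cfsg.Agent.S0773
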