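import Mathlib
import Cfsg.Statements.S0774
import Cfsg.Agent.Classical.SpLev

set_option autoImplicit false
set_option backward.isDefEq.respectTransparency false
open Cfsg

namespace Cfsg.Agent.S0774

open Classical.SpSum Classical.SpMat Classical.GLGeom Matrix

/-- Borel subgroup of the symplectic group: the elements of Sp_2m(q) stabilising each of the totally isotropic coordinate subspaces ⟨e_0, ..., e_k⟩ (k < m) form a subgroup of order q^(m²) (q − 1)^m. -/
theorem result {F : Type*} [Field F] [Fintype F] {q : ℕ} (hF : Fintype.card F = q) (m : ℕ) : Nat.card ↥(⨅ k : Fin m, Cfsg.stabilizing (Cfsg.spToMat m F) {v : Fin m ⊕ Fin m → F | (∀ i : Fin m, (k : ℕ) < (i : ℕ) → v (Sum.inl i) = 0) ∧ ∀ i : Fin m, v (Sum.inr i) = 0}) = q ^ (m ^ 2) * (q - 1) ^ m := by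
  have h := card_comap_surj _ (siegHom_surjective (m := m) (F := F)) (⨅ k : Fin m, parab F (· ≤ k))
  have e : (⨅ k : Fin m, parab F (· ≤ k) : Subgroup (GL (Fin m) F)) ≃
      {g : GL (Fin m) F // ∀ i j : Fin m, j < i → g i j = 0} := Equiv.subtypeEquivRight fun g => by
    simp only [Subgroup.mem_iInf, mem_parab]
    exact ⟨fun h i j hij => h j i j (not_le.2 hij) le_rfl,
      fun h k i j hi hj => h i j (hj.trans_lt (not_le.1 hi))⟩
  rw [card_ker_siegHom, Nat.card_congr e, card_upper, ← mul_assoc, ← pow_add,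
    Nat.card_eq_fintype_card (α := F), hF, ← Subgroup.card_map_of_injective
      (Subgroup.subtype_injective _)] at h
  have e2 : m * (m + 1) / 2 + m * (m - 1) / 2 = m ^ 2 := by
    rcases m with _ | m
    · rfl
    · obtain ⟨k, hk⟩ := Nat.even_mul_succ_self m
      have : (m + 1) * (m + 1 + 1) = 2 * (k + m + 1) := by nlinarith
      have : (m + 1) * (m + 1 - 1) = 2 * k := by simp; nlinarith
      have : (m + 1) ^ 2 = 2 * k + m + 1 := by nlinarith
      omega
  rw [← e2, ← h]
  congr 3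
  ext A
  have e3 : ∀ k : Fin m, A ∈ _ ↔ _ := fun k => mem_stabilizing
    (S := {v : Fin m ⊕ Fin m → F | (∀ i : Fin m, (k : ℕ) < (i : ℕ) → v (Sum.inl i) = 0) ∧
      ∀ i : Fin m, v (Sum.inr i) = 0}) (Sum.elim (· ≤ k) fun _ => False) (by simp) A
  simp only [Subgroup.mem_iInf, e3, Subgroup.mem_map, Subgroup.mem_comap, mem_parab]
  constructor
  · exact fun h => ⟨⟨A, mem_sieg.2 fun i j => h j _ _ (by simp) (by simp)⟩,
      fun k i j hi hj => h k (.inl i) (.inl j) hi hj, rfl⟩
  · rintro ⟨B, h, rfl⟩ k (i | i) (j | j) hi hj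
    exacts [h k i j hi hj, hj.elim, mem_sieg.1 B.2 i j, hj.elim]

end Cfsg.Agent.S0774
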