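import Mathlib
import Cfsg.Statements.S0775
import Cfsg.Agent.Classical.SpSum

set_option autoImplicit false
set_option backward.isDefEq.respectTransparency false
open Cfsg

namespace Cfsg.Agent.S0775

open Classical.SpSum Classical.SpMat Classical.SpWitt

/-- Maximal parabolics of the symplectic group: if W is a k-dimensional subspace of F^(2m) on which the symplectic form vanishes identically, its stabiliser in Sp_2m(q) has order q^(k(k+1)/2 + 2k(m−k)) · |Sp_(2m−2k)(q)| · |GL_k(q)|. -/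
theorem result {F : Type*} [Field F] [Fintype F] {q : ℕ} (hF : Fintype.card F = q) (m k : ℕ) (hk : k ≤ m) (W : Submodule F (Fin m ⊕ Fin m → F)) (hWk : Module.finrank F W = k) (hW : ∀ u ∈ W, ∀ v ∈ W, Cfsg.sympForm m F u v = 0) : Nat.card ↥(Cfsg.stabilizing (Cfsg.spToMat m F) (W : Set (Fin m ⊕ Fin m → F))) = q ^ (k * (k + 1) / 2 + 2 * k * (m - k)) * (q ^ ((m - k) ^ 2) * ∏ i ∈ Finset.range (m - k), (q ^ (2 * (i + 1)) - 1)) * ∏ i : Fin k, (q ^ k - q ^ (i : ℕ)) := by
  have hW' : ∀ u ∈ W, ∀ v ∈ W, sB (Fin m) F u v = 0 := fun u hu v hv =>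
    (sympForm_eq m u v).symm.trans (hW u hu v hv)
  rw [Nat.card_congr (stabEquiv W).toEquiv, card_stab sB_alt sB_nondeg hW', card_linearEquiv hWk,
    card_fixSub_of_isotropic sB_nondeg sB_alt (m - k) k W (fun u hu v hv => hW' v hv u hu) hWk
      (by rw [finrank_eq, Fintype.card_fin]; omega), Nat.card_eq_fintype_card, hF]

end Cfsg.Agent.S0775
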