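import Mathlib
import Cfsg.Statements.S0776
import Cfsg.Agent.Classical.SpSum

set_option autoImplicit false
set_option backward.isDefEq.respectTransparency false
open Cfsg

namespace Cfsg.Agent.S0776

open Classical.SpSum Classical.SpMat

/-- If W ≤ F^(2m) is a 2k-dimensional subspace on which the symplectic form is non-degenerate, then the stabiliser of W in Sp_2m(F) is isomorphic to Sp_2k(F) × Sp_(2m−2k)(F). -/
theorem result {F : Type*} [Field F] (m k : ℕ) (hk : k ≤ m) (W : Submodule F (Fin m ⊕ Fin m → F)) (hWk : Module.finrank F W = 2 * k) (hW : ∀ u ∈ W, (∀ v ∈ W, Cfsg.sympForm m F u v = 0) → u = 0) : Nonempty (↥(Cfsg.stabilizing (Cfsg.spToMat m F) (W : Set (Fin m ⊕ Fin m → F))) ≃* Matrix.symplecticGroup (Fin k) F × Matrix.symplecticGroup (Fin (m - k)) F) := by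
  have hc := compl_of sB_alt sB_nondeg (W := W) fun u hu h => hW u hu fun v hv =>
    (sympForm_eq m u v).trans (h v hv)
  have hd := finrank_orth (sB_nondeg (ι := Fin m) (F := F)) W
  rw [finrank_eq, Fintype.card_fin] at hd
  obtain ⟨e1⟩ := exists_equiv (alt_restrict sB_alt W) (nondeg_of_compl sB_alt sB_nondeg hc) hWk
  obtain ⟨e2⟩ := exists_equiv (m := m - k) (alt_restrict sB_alt _) (nondeg_orth sB_alt sB_nondeg hc)
    (by omega)
  exact ⟨(stabEquiv W).trans (((MonoidHom.ofInjective (spSum_injective sB_alt hc)).trans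
    (MulEquiv.subgroupCongr (range_spSum sB_alt hc))).symm.trans (e1.prodCongr e2))⟩

end Cfsg.Agent.S0776
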