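import Mathlib
import Cfsg.Statements.S0777
import Cfsg.Agent.Classical.SpLev

set_option autoImplicit false
set_option backward.isDefEq.respectTransparency false
open Cfsg

namespace Cfsg.Agent.S0777

open Matrix Sum Classical.SpSum Classical.SpMat Classical.GLGeom Classical.GLBasic

section
variable {F : Type*} [Field F] {m : ℕ}

/-- The signs in the standard symplectic matrix. -/
def eps : Fin m ⊕ Fin m → F := Sum.elim (fun _ => -1) fun _ => 1

theorem eps_swap (i : Fin m ⊕ Fin m) : (eps i.swap : F) = - eps i := by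
  cases i <;> simp [eps]

theorem eps_sq (i : Fin m ⊕ Fin m) : (eps i : F) * eps i = 1 := by
  cases i <;> simp [eps]

theorem J_apply (i k : Fin m ⊕ Fin m) :
    J (Fin m) F i k = if k = i.swap then eps i else 0 := by
  cases i <;> cases k <;> simp [J, eps, one_apply, eq_comm]
  split_ifs <;> simp

/-- A monomial matrix. -/
def mon (σ : Fin m ⊕ Fin m → Fin m ⊕ Fin m) (d : Fin m ⊕ Fin m → F) :
    Matrix (Fin m ⊕ Fin m) (Fin m ⊕ Fin m) F := of fun i j => if j = σ i then d i else 0

theorem mon_mem {σ : Fin m ⊕ Fin m → Fin m ⊕ Fin m} {d : Fin m ⊕ Fin m → F} :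
    mon σ d ∈ symplecticGroup (Fin m) F ↔
      ∀ i k, d i * J (Fin m) F (σ i) (σ k) * d k = J (Fin m) F i k := by
  rw [SymplecticGroup.mem_iff, ← Matrix.ext_iff]
  simp [mon, mul_apply]

/-- The diagonal part. -/
def dd (σ : Equiv.Perm (Fin m ⊕ Fin m)) (c : Fin m → Fˣ) : Fin m ⊕ Fin m → F :=
  Sum.elim (fun a => c a) fun a => - eps (σ (inl a)) * (c a : F)⁻¹

theorem dd_ne (σ : Equiv.Perm (Fin m ⊕ Fin m)) (c : Fin m → Fˣ) (i : Fin m ⊕ Fin m) :
    dd σ c i ≠ 0 := by
  rcases i with a | a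
  · simp [dd]
  · have := eps_sq (F := F) (σ (inl a))
    simp [dd]
    exact fun h => by simp [h] at this

/-- The swap. -/
abbrev sw (m : ℕ) : Equiv.Perm (Fin m ⊕ Fin m) := Equiv.sumComm _ _

theorem card_cent (m : ℕ) :
    Nat.card (Subgroup.centralizer {sw m}) = 2 ^ m * m.factorial := by
  have h1 : sw m ^ 2 = 1 := by ext i; simp [sq]
  have h2 : (sw m).support = Finset.univ := by
    ext i; cases i <;> simp
  have h3 := Equiv.Perm.cycleType_of_pow_prime_eq_one h1
  have h4 := (sw m).sum_cycleType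
  rw [h2, h3] at h4
  have h5 : (sw m).cycleType.card = m := by simp at h4; omega
  rw [h5] at h3
  rw [Equiv.Perm.nat_card_centralizer, h3]
  rcases m with _ | m
  · simp
  · rw [Multiset.toFinset_replicate, if_neg m.succ_ne_zero, Finset.prod_singleton,
      Multiset.count_replicate_self, Multiset.prod_replicate, Multiset.sum_replicate]
    simp [← two_mul, mul_comm]

theorem mem_cent {σ : Equiv.Perm (Fin m ⊕ Fin m)} :
    σ ∈ Subgroup.centralizer {sw m} ↔ ∀ i, σ i.swap = (σ i).swap := by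
  rw [Subgroup.mem_centralizer_singleton_iff, Equiv.ext_iff]; rfl

theorem mon_dd_mem {σ : Equiv.Perm (Fin m ⊕ Fin m)} (h : ∀ i, σ i.swap = (σ i).swap)
    (c : Fin m → Fˣ) : mon σ (dd σ c) ∈ symplecticGroup (Fin m) F := by
  refine mon_mem.2 fun i k => ?_
  simp only [J_apply, ← h, σ.injective.eq_iff]
  split_ifs with hk
  · subst hk
    rcases i with a | a
    · have := eps_sq (F := F) (σ (inl a))
      simp only [dd, eps, elim_inl, swap_inl, elim_inr] at this ⊢
      field_simp
      linear_combination -this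
    · have := eps_sq (F := F) (σ (inl a))
      have h2 : (eps (σ (inr a)) : F) = - eps (σ (inl a)) := by
        rw [← eps_swap, ← h]; rfl
      rw [h2]
      simp only [dd, eps, elim_inl, swap_inr, elim_inr] at this ⊢
      field_simp
      linear_combination this
  · simp

/-- The diagonal torus. -/
abbrev tor (F : Type*) [Field F] (m : ℕ) : Subgroup (symplecticGroup (Fin m) F) :=
  ⨅ i : Fin m ⊕ Fin m, Cfsg.stabilizing (Cfsg.spToMat m F)
    ((Submodule.span F {(Pi.single i (1 : F) : Fin m ⊕ Fin m → F)} :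
      Submodule F (Fin m ⊕ Fin m → F)) : Set (Fin m ⊕ Fin m → F))

theorem mem_tor {A : symplecticGroup (Fin m) F} :
    A ∈ tor F m ↔ ∃ d, A.1 = diagonal d := by
  have h (j : Fin m ⊕ Fin m) := mem_stabilizing (F := F) (· = j)
    (S := (Submodule.span F {(Pi.single j (1 : F) : Fin m ⊕ Fin m → F)} :
      Submodule F (Fin m ⊕ Fin m → F))) (fun v => by
      rw [SetLike.mem_coe, Submodule.mem_span_singleton]
      refine ⟨?_, fun h => ⟨v j, funext fun i => ?_⟩⟩
      · rintro ⟨a, rfl⟩ i hi; simp [hi]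
      · by_cases hi : i = j
        · simp [hi]
        · simp [hi, h i hi]) A
  simp only [Subgroup.mem_iInf, h]
  refine ⟨fun h => ⟨fun i => A.1 i i, Matrix.ext fun i j => ?_⟩, ?_⟩
  · by_cases hij : i = j
    · simp [hij]
    · rw [diagonal_apply_ne _ hij, h j i j hij rfl]
  · rintro ⟨d, hd⟩ j i _ hi rfl
    rw [hd, diagonal_apply_ne _ hi]

/-- The underlying invertible matrix. -/
abbrev gl (A : symplecticGroup (Fin m) F) : GL (Fin m ⊕ Fin m) F :=
  ⟨A.1, (A⁻¹).1, coe_mul_inv A, coe_inv_mul A⟩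

theorem mem_norm (hF : ∃ a : F, a ≠ 0 ∧ a ^ 2 ≠ 1) (A : symplecticGroup (Fin m) F) :
    A ∈ Subgroup.normalizer (tor F m : Set (symplecticGroup (Fin m) F)) ↔
      ∀ i, ∃! j, A.1 i j ≠ 0 := by
  rw [Subgroup.mem_normalizer_iff]
  constructor
  · intro h i
    obtain ⟨j, hj⟩ := exists_row_ne_zero (gl A) i
    refine ⟨j, hj, fun k hk => ?_⟩
    by_contra hkj
    obtain ⟨a, ha0, ha1⟩ := hF
    have ha2 : a ≠ 1 := by rintro rfl; simp at ha1
    have ha3 : a⁻¹ ≠ a := fun h => ha1 (by rw [sq]; nth_rw 1 [← h]; exact inv_mul_cancel₀ ha0)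
    let b := j.elim id id
    let e : Fin m ⊕ Fin m → F := Sum.elim (Pi.mulSingle b a) (Pi.mulSingle b a⁻¹)
    have he : (lev (diagGL (Pi.mulSingle b (Units.mk0 a ha0)))).1 = diagonal e := by
      rw [show (lev (diagGL (Pi.mulSingle b (Units.mk0 a ha0)))).1 = fromBlocks _ 0 0 _ from rfl,
        ← map_inv, diagGL_coe, diagGL_coe, diagonal_transpose, fromBlocks_diagonal]
      congr 1
      ext (x | x) <;> by_cases hx : x = b <;> simp [e, hx]
    obtain ⟨d, hd⟩ := mem_tor.1 ((h _).1 (mem_tor.2 ⟨_, he⟩))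
    have h1 : A.1 * diagonal e = diagonal d * A.1 := by
      rw [← hd, ← he]
      exact congrArg Subtype.val (inv_mul_cancel_right (A * _) A).symm
    have h2 := (eq_of_mul_diagonal h1 hj).trans (eq_of_mul_diagonal h1 hk).symm
    have ha4 : a⁻¹ ≠ 1 := by simpa using ha2
    rcases j with j | j <;> rcases k with k | k <;> by_cases hx : k = j <;>
      simp [e, b, hx, ha2, ha3, ha3.symm, ha4] at h2 hkj
  · intro h t
    obtain ⟨σ, hσ⟩ := exists_perm_of_monomial (gl A) h
    have h1 (d : Fin m ⊕ Fin m → F) := mul_diagonal_of_monomial (fun i j hij => (hσ i j).1 hij) d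
    rw [mem_tor, mem_tor]
    constructor
    · rintro ⟨d, hd⟩
      refine ⟨d ∘ σ, ?_⟩
      change A.1 * t.1 * (A⁻¹).1 = _
      rw [hd, h1, mul_assoc, coe_mul_inv, mul_one]
    · rintro ⟨d, hd⟩
      refine ⟨d ∘ σ.symm, ?_⟩
      have h2 := h1 (d ∘ σ.symm)
      rw [Function.comp_assoc, Equiv.symm_comp_self, Function.comp_id, ← hd] at h2
      change A.1 * _ = (A * t * A⁻¹ * A).1 at h2
      rw [inv_mul_cancel_right] at h2
      exact ((gl A).mul_right_inj.1 h2).symm

end

/-- Weyl group of type C_m: for q ≥ 4 the diagonal matrices of Sp_2m(q) form a torus T ≅ (C_(q−1))^m (the elements stabilising every coordinate axis), and the normaliser of T in Sp_2m(q) has order 2^m · m! · (q − 1)^m. -/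
theorem result {F : Type*} [Field F] [Fintype F] {q : ℕ} (hF : Fintype.card F = q) (hq : 4 ≤ q) (m : ℕ) : Nat.card ↥(Subgroup.normalizer (⨅ i : Fin m ⊕ Fin m, Cfsg.stabilizing (Cfsg.spToMat m F) ((Submodule.span F {(Pi.single i (1 : F) : Fin m ⊕ Fin m → F)} : Submodule F (Fin m ⊕ Fin m → F)) : Set (Fin m ⊕ Fin m → F)) : Set (Matrix.symplecticGroup (Fin m) F))) = 2 ^ m * Nat.factorial m * (q - 1) ^ m := by
  have hN := mem_norm (m := m) (exists_sq_ne_one (F := F) (by rwa [Nat.card_eq_fintype_card, hF]))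
  let f : Subgroup.centralizer {sw m} × (Fin m → Fˣ) →
      Subgroup.normalizer (tor F m : Set (symplecticGroup (Fin m) F)) := fun x =>
    ⟨⟨_, mon_dd_mem (mem_cent.1 x.1.2) x.2⟩, (hN _).2 fun i =>
      ⟨x.1.1 i, by simp [mon, dd_ne], fun j hj => by by_contra h; simp [mon, h] at hj⟩⟩
  have hf : Function.Bijective f := by
    constructor
    · rintro ⟨⟨σ, hσ⟩, c⟩ ⟨⟨τ, hτ⟩, c'⟩ h
      have h1 : mon σ (dd σ c) = mon τ (dd τ c') := congrArg (fun x => x.1.1) h
      obtain rfl : σ = τ := Equiv.ext fun i => by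
        have := congrFun (congrFun h1 i) (σ i)
        by_contra hi
        simp [mon, hi, dd_ne] at this
      refine Prod.ext rfl (funext fun a => Units.ext ?_)
      simpa [mon, dd] using congrFun (congrFun h1 (inl a)) (σ (inl a))
    · rintro ⟨A, hA⟩
      obtain ⟨σ, hσ⟩ := exists_perm_of_monomial (gl A) ((hN A).1 hA)
      have h0 (i) : A.1 i (σ i) ≠ 0 := (hσ i _).2 rfl
      have h1 : A.1 = mon σ fun i => A.1 i (σ i) := Matrix.ext fun i j => by
        by_cases h : j = σ i
        · simp [mon, h]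
        · simpa [mon, h] using mt (hσ i j).1 h
      have h2 := mon_mem.1 (h1 ▸ A.2)
      have h3 (i) : σ i.swap = (σ i).swap := by
        have := h2 i i.swap
        by_contra h
        have h' := eps_sq (F := F) i
        simp [J_apply, h] at this
        simp [← this] at h'
      refine ⟨⟨⟨σ, mem_cent.2 h3⟩, fun a => Units.mk0 _ (h0 (inl a))⟩,
        Subtype.ext (Subtype.ext ?_)⟩
      refine Eq.trans (congrArg (mon σ) (funext ?_)) h1.symm
      rintro (a | a)
      · rfl
      · have h4 := h2 (inl a) (inr a)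
        have h5 := eps_sq (F := F) (σ (inl a))
        have h6 := h0 (inl a)
        rw [J_apply, J_apply, if_pos (by exact h3 (inl a)), if_pos (by rfl)] at h4
        simp only [dd, eps, elim_inr, elim_inl, Units.val_mk0] at h4 h5 ⊢
        field_simp
        linear_combination (Sum.elim (fun _ => -1) (fun _ => 1) (σ (inl a)) : F) * (-h4) +
          (A.1 (inl a) (σ (inl a)) * A.1 (inr a) (σ (inr a))) * h5
  have e := Subgroup.coe_iInf (S := fun i : Fin m ⊕ Fin m => Cfsg.stabilizing (Cfsg.spToMat m F)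
    ((Submodule.span F {(Pi.single i (1 : F) : Fin m ⊕ Fin m → F)} :
      Submodule F (Fin m ⊕ Fin m → F)) : Set (Fin m ⊕ Fin m → F)))
  rw [Set.iInf_eq_iInter, ← e, ← Nat.card_congr (Equiv.ofBijective f hf), Nat.card_prod, card_cent, Nat.card_fun,
    Nat.card_units, Nat.card_eq_fintype_card (α := F), hF, Nat.card_eq_fintype_card,
    Fintype.card_fin]

end Cfsg.Agent.S0777
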