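import Mathlib
import Cfsg.Statements.S0778
import Cfsg.Agent.Classical.SpLev

set_option autoImplicit false
set_option backward.isDefEq.respectTransparency false
open Cfsg

namespace Cfsg.Agent.S0778

open Classical.SpSum Classical.SpMat Matrix

/-- The elements of Sp_2m(F) stabilising both W = ⟨e_1..e_m⟩ and U = ⟨f_1..f_m⟩ form a subgroup isomorphic to GL_m(F) (block-diagonal matrices diag(X, X^(−ᵀ)) up to the sign convention of J), for m ≥ 1 or m = 0 alike. -/
theorem result {F : Type*} [Field F] (m : ℕ) : Nonempty (↥(Cfsg.stabilizing (Cfsg.spToMat m F) {v : Fin m ⊕ Fin m → F | ∀ i : Fin m, v (Sum.inr i) = 0} ⊓ Cfsg.stabilizing (Cfsg.spToMat m F) {v : Fin m ⊕ Fin m → F | ∀ i : Fin m, v (Sum.inl i) = 0}) ≃* Matrix.GeneralLinearGroup (Fin m) F) := by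
  refine ⟨((MonoidHom.ofInjective (f := lev (m := m) (F := F)) fun X Y h => Units.ext
    (fromBlocks_inj.1 (congrArg Subtype.val h)).1).trans (MulEquiv.subgroupCongr ?_)).symm⟩
  ext A
  rw [Subgroup.mem_inf, mem_sieg, mem_stabilizing (fun i => i.isRight) (by simp)]
  refine ⟨by rintro ⟨X, rfl⟩; simp [lev], fun ⟨h1, h2⟩ => ?_⟩
  have e : A.1 = fromBlocks A.1.toBlocks₁₁ 0 0 A.1.toBlocks₂₂ := by
    ext (i | i) (j | j)
    · rfl
    · exact h2 _ _ (by simp) (by simp)
    · exact h1 _ _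
    · rfl
  have h := SymplecticGroup.mem_iff.1 A.2
  rw [e, J, fromBlocks_transpose, fromBlocks_multiply, fromBlocks_multiply, fromBlocks_inj] at h
  have h3 : A.1.toBlocks₁₁ * A.1.toBlocks₂₂ᵀ = 1 := by simpa using h.2.1
  exact ⟨⟨_, _, h3, mul_eq_one_comm.1 h3⟩, Subtype.ext e.symm⟩

end Cfsg.Agent.S0778
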