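import Mathlib
import Cfsg.Statements.S0779
import Cfsg.Agent.Herm.Matrix
-- import your own Cfsg.Agent.* helpers here

set_option autoImplicit false
open Cfsg

namespace Cfsg.Agent.S0779

/-- Unitary transvections: let |F| = q², h the standard Hermitian form Σ x_i y_i^q and v ≠ 0 with h(v, v) = 0. The linear map x ↦ x + c h(x, v) v is an isometry of h if and only if c = 0 or c^(q−1) = −1. -/
theorem result {F : Type*} [Field F] [Fintype F] {q : ℕ} (hF : Fintype.card F = q ^ 2) (n : ℕ) (v : Fin n → F) (hv : v ≠ 0) (hv0 : Cfsg.hermForm n F q v v = 0) (c : F) : (∀ x y : Fin n → F, Cfsg.hermForm n F q ((Cfsg.unitaryTransvection n q v c).mulVec x) ((Cfsg.unitaryTransvection n q v c).mulVec y) = Cfsg.hermForm n F q x y) ↔ (c = 0 ∨ c ^ (q - 1) = -1) := by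
  have hF' := Herm.natCard_of_card hF
  have hB := Herm.hf_sB hF' n
  have h2 := Herm.two_le_of_card hF'
  simp only [Herm.hermForm_eq hF', Herm.unitaryTransvection_mulVec hF'] at hv0 ⊢
  have key : c + Herm.frob hF' c = 0 ↔ (c = 0 ∨ c ^ (q - 1) = -1) := by
    obtain ⟨r, rfl⟩ : ∃ r, q = r + 1 := ⟨q - 1, by omega⟩
    rw [Herm.frob_apply, Nat.add_sub_cancel, pow_succ', ← mul_one_add, mul_eq_zero,
      add_eq_zero_iff_neg_eq, eq_comm (a := (-1 : F))]
  rw [← key]
  constructor
  · intro h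
    simpa [hv0] using hB.cond_of_isom hv fun x y => h y x
  · intro h x y
    rw [← hB.tv_apply hv0 h, ← hB.tv_apply hv0 h, Herm.UG.map_b]

end Cfsg.Agent.S0779
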