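import Mathlib
import Cfsg.Statements.S0780
import Cfsg.Agent.Herm.Matrix
import Cfsg.Agent.Herm.SU
-- import your own Cfsg.Agent.* helpers here

set_option autoImplicit false
open Cfsg

namespace Cfsg.Agent.S0780

/-- Generation of SU_n(q), n ≥ 3, (n, q) ≠ (3, 2), by unitary transvections: the subgroup generated by the elements whose matrix is x ↦ x + c h(x, v) v with v isotropic is all of SU_n(q). -/
theorem result {F : Type*} [Field F] [Fintype F] {q : ℕ} (hF : Fintype.card F = q ^ 2) (n : ℕ) (hn : 3 ≤ n) (h32 : ¬ (n = 3 ∧ q = 2)) : Subgroup.closure {A : ↥(Cfsg.SU n F q) | ∃ (v : Fin n → F) (c : F), Cfsg.hermForm n F q v v = 0 ∧ ((A : Matrix.SpecialLinearGroup (Fin n) F) : Matrix (Fin n) (Fin n) F) = Cfsg.unitaryTransvection n q v c} = ⊤ := by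
  have hF' := Herm.natCard_of_card hF
  have hB := Herm.hf_sB hF' n
  rw [eq_top_iff]
  intro g _
  have h1 : (Herm.toSUG hF' n g).1 ∈ hB.tvGroup := by
    rw [hB.tvGroup_eq hF' (by simp; omega) (by simpa using h32)]; exact Subtype.prop _
  have h2 : hB.tvGroup ≤ Subgroup.map ((Herm.SUG (Herm.sB hF' n)).subtype.comp
      (Herm.toSUG hF' n).toMonoidHom) (Subgroup.closure {A : ↥(Cfsg.SU n F q) | ∃ (v : Fin n → F) (c : F), Cfsg.hermForm n F q v v = 0 ∧ ((A : Matrix.SpecialLinearGroup (Fin n) F) : Matrix (Fin n) (Fin n) F) = Cfsg.unitaryTransvection n q v c}) := by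
    rw [Herm.HF.tvGroup, Subgroup.closure_le]
    rintro _ ⟨v, c, hv, rfl⟩
    by_cases hc : c + Herm.frob hF' c = 0
    · refine ⟨(Herm.toSUG hF' n).symm ⟨_, hB.tv_mem_SUG hv c⟩, Subgroup.subset_closure
        ⟨v, c, by rw [Herm.hermForm_eq hF', hv], ?_⟩, by simp⟩
      rw [Herm.coe_SU_iff hF']
      intro x
      rw [MulEquiv.apply_symm_apply, Herm.unitaryTransvection_mulVec hF', hB.tv_apply hv hc]
    · rw [hB.qr_of_not (by simpa [hv] using hc)]; exact Subgroup.one_mem _
  obtain ⟨g', hg', h3⟩ := h2 h1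
  have : g' = g := (Herm.toSUG hF' n).injective (Subtype.ext h3)
  exact this ▸ hg'

end Cfsg.Agent.S0780
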