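import Mathlib
import Cfsg.Statements.S0781
import Cfsg.Agent.Herm.Matrix
import Cfsg.Agent.Herm.SU
-- import your own Cfsg.Agent.* helpers here

set_option autoImplicit false
open Cfsg

namespace Cfsg.Agent.S0781

/-- In SU_n(q) with n ≥ 4, or n = 3 and q > 2, every element whose matrix is a unitary transvection x ↦ x + c h(x, v) v (v isotropic) is a commutator ⁅B, C⁆ of two elements of SU_n(q). -/
theorem result {F : Type*} [Field F] [Fintype F] {q : ℕ} (hF : Fintype.card F = q ^ 2) (n : ℕ) (hn : 4 ≤ n ∨ (n = 3 ∧ 3 ≤ q)) (A : ↥(Cfsg.SU n F q)) (v : Fin n → F) (c : F) (hv0 : Cfsg.hermForm n F q v v = 0) (hA : ((A : Matrix.SpecialLinearGroup (Fin n) F) : Matrix (Fin n) (Fin n) F) = Cfsg.unitaryTransvection n q v c) : A ∈ commutatorSet ↥(Cfsg.SU n F q) := by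
  have hF' := Herm.natCard_of_card hF
  have hB := Herm.hf_sB hF' n
  rw [Herm.hermForm_eq hF'] at hv0
  rw [Herm.coe_SU_iff hF'] at hA
  simp only [Herm.unitaryTransvection_mulVec hF'] at hA
  have h1 := hB.qr_of_apply hA
  obtain ⟨x, y, l, m, h2⟩ := hB.tv_eq_commutator (by simp; omega) hv0 c
  refine ⟨(Herm.toSUG hF' n).symm ⟨_, hB.eich_mem_SUG v x l⟩,
    (Herm.toSUG hF' n).symm ⟨_, hB.eich_mem_SUG v y m⟩, (Herm.toSUG hF' n).injective ?_⟩
  rw [map_commutatorElement, MulEquiv.apply_symm_apply, MulEquiv.apply_symm_apply]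
  exact Subtype.ext (h2.symm.trans h1.symm)

end Cfsg.Agent.S0781
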