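import Mathlib
import Cfsg.Statements.S0782
import Cfsg.Agent.Herm.Matrix
import Cfsg.Agent.Herm.Iso
-- import your own Cfsg.Agent.* helpers here

set_option autoImplicit false
open Cfsg

namespace Cfsg.Agent.S0782

/-- Maximal parabolics of SU_n(q): if W is a k-dimensional subspace of F^n (n ≥ 1, |F| = q²) on which the Hermitian form vanishes, then (q + 1) times the order of its stabiliser in SU_n(q) equals q^(k(2n−3k)) · |GL_k(q²)| · |GU_(n−2k)(q)|, where |GU_m(q)| = q^(m(m−1)/2) Π_(i=1..m) (q^i − (−1)^i). -/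
theorem result {F : Type*} [Field F] [Fintype F] {q : ℕ} (hF : Fintype.card F = q ^ 2) (n k : ℕ) (hn : 1 ≤ n) (hk : 2 * k ≤ n) (W : Submodule F (Fin n → F)) (hWk : Module.finrank F W = k) (hW : ∀ u ∈ W, ∀ v ∈ W, Cfsg.hermForm n F q u v = 0) : (q + 1) * Nat.card ↥((Cfsg.stabilizing (Cfsg.slToMat n F) (W : Set (Fin n → F))).subgroupOf (Cfsg.SU n F q)) = q ^ (k * (2 * n - 3 * k)) * (∏ i : Fin k, ((q ^ 2) ^ k - (q ^ 2) ^ (i : ℕ))) * (q ^ ((n - 2 * k) * ((n - 2 * k) - 1) / 2) * ∏ i ∈ Finset.range (n - 2 * k), (if Even i then q ^ (i + 1) + 1 else q ^ (i + 1) - 1)) := by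
  have hF' := Herm.natCard_of_card hF
  have hB := Herm.hf_sB hF' n
  have : Nontrivial (Fin n → F) := Module.nontrivial_of_finrank_pos (R := F) (by simp; omega)
  have hW' : Herm.Iso (Herm.sB hF' n) W := fun u hu v hv => by
    rw [← Herm.hermForm_eq hF']; exact hW v hv u hu
  have h1 := hB.card_stab_iso hF' hW' hWk
  rw [← hB.card_stab_inf_SUG hF', Module.finrank_fin_fun] at h1
  refine Eq.trans ?_ h1
  congr 1
  have h2 : ((Cfsg.stabilizing (Cfsg.slToMat n F) (W : Set (Fin n → F))).subgroupOf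
      (Cfsg.SU n F q)).map ((Herm.SUG _).subtype.comp (Herm.toSUG hF' n).toMonoidHom) =
      Herm.stab (Herm.sB hF' n) W ⊓ Herm.SUG _ := by
    ext g
    constructor
    · rintro ⟨g, hg, rfl⟩
      exact ⟨hg, Subtype.prop _⟩
    · rintro ⟨h1, h2⟩
      obtain ⟨g', hg'⟩ := (Herm.toSUG hF' n).surjective ⟨g, h2⟩
      obtain rfl : (Herm.toSUG hF' n g').1 = g := congrArg Subtype.val hg'
      exact ⟨g', h1, rfl⟩
  rw [← h2, Subgroup.card_map_of_injective]
  exact Subtype.val_injective.comp (Herm.toSUG hF' n).injective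

end Cfsg.Agent.S0782
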