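import Mathlib
import Cfsg.Statements.S0783
import Cfsg.Agent.Herm.Matrix
import Cfsg.Agent.Herm.SU
-- import your own Cfsg.Agent.* helpers here

set_option autoImplicit false
open Cfsg

namespace Cfsg.Agent.S0783

/-- PGU_n(q)/PSU_n(q) is cyclic of order (n, q+1): for n ≥ 2 and |F| = q² there is a surjective homomorphism from GU_n(q) onto the cyclic group of order gcd(n, q + 1) whose kernel is generated by the determinant-one elements together with the centre. -/
theorem result {F : Type*} [Field F] [Fintype F] {q : ℕ} (hF : Fintype.card F = q ^ 2) (n : ℕ) (hn : 2 ≤ n) : ∃ φ : ↥(Cfsg.GU n F q) →* Multiplicative (ZMod (Nat.gcd n (q + 1))), Function.Surjective φ ∧ φ.ker = (Matrix.GeneralLinearGroup.det : Matrix.GeneralLinearGroup (Fin n) F →* Fˣ).ker.subgroupOf (Cfsg.GU n F q) ⊔ Subgroup.center ↥(Cfsg.GU n F q) := by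
  have hF' := Herm.natCard_of_card hF
  have hB := Herm.hf_sB hF' n
  have : Nontrivial (Fin n → F) := Module.nontrivial_of_finrank_pos (R := F) (by simp; omega)
  let d : Herm.UG (Herm.sB hF' n) →* Herm.normOne (Herm.frob hF') :=
    (Herm.detU _).codRestrict _ hB.detU_mem
  have hd : Function.Surjective d := by
    intro a
    obtain ⟨g, hg⟩ : a.1 ∈ (Herm.detU (Herm.sB hF' n)).range := by
      rw [hB.range_detU]; exact a.2
    exact ⟨g, Subtype.ext hg⟩
  let R := (powMonoidHom n : Herm.normOne (Herm.frob hF') →* Herm.normOne (Herm.frob hF')).range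
  have hR : Nat.card (Herm.normOne (Herm.frob hF') ⧸ R) =
      Nat.card (Multiplicative (ZMod (Nat.gcd n (q + 1)))) := by
    rw [← Subgroup.index_eq_card, IsCyclic.index_powMonoidHom_range, hB.card_normOne hF',
      Nat.gcd_comm, Nat.card_congr Multiplicative.toAdd, Nat.card_zmod]
  have : IsCyclic (Herm.normOne (Herm.frob hF') ⧸ R) :=
    isCyclic_of_surjective _ (QuotientGroup.mk'_surjective R)
  let e := mulEquivOfCyclicCardEq hR
  refine ⟨e.toMonoidHom.comp ((QuotientGroup.mk' R).comp (d.comp (Herm.toUG hF' n).toMonoidHom)),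
    e.surjective.comp ((QuotientGroup.mk'_surjective R).comp (hd.comp (Herm.toUG hF' n).surjective)),
    ?_⟩
  have hc : ∀ g, g ∈ Subgroup.center ↥(Cfsg.GU n F q) ↔
      ∃ a, Herm.scal _ a = Herm.toUG hF' n g := by
    intro g
    rw [← Orth.mem_center_equiv (Herm.toUG hF' n), hB.center_UG (by simpa using hn)]; rfl
  have hk : ∀ g, g ∈ (e.toMonoidHom.comp ((QuotientGroup.mk' R).comp
      (d.comp (Herm.toUG hF' n).toMonoidHom))).ker ↔ ∃ a : Herm.normOne (Herm.frob hF'),
        a.1 ^ n = Matrix.GeneralLinearGroup.det (g : GL (Fin n) F) := by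
    intro g
    simp only [MonoidHom.mem_ker, MonoidHom.comp_apply, MulEquiv.coe_toMonoidHom,
      EmbeddingLike.map_eq_one_iff, QuotientGroup.mk'_apply, QuotientGroup.eq_one_iff]
    rw [← Herm.detU_toUG hF']
    exact exists_congr fun a => Subtype.ext_iff
  apply le_antisymm
  · intro g hg
    obtain ⟨a, ha⟩ := (hk g).1 hg
    have h1 : g = (g * ((Herm.toUG hF' n).symm (Herm.scal _ a))⁻¹) *
      (Herm.toUG hF' n).symm (Herm.scal _ a) := by group
    rw [h1]
    refine Subgroup.mul_mem _ (Subgroup.mem_sup_left ?_) (Subgroup.mem_sup_right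
      ((hc _).2 ⟨a, by simp⟩))
    rw [Subgroup.mem_subgroupOf, MonoidHom.mem_ker, ← Herm.detU_toUG hF', map_mul, map_inv,
      MulEquiv.apply_symm_apply, map_mul, map_inv, Herm.detU_scal, Herm.detU_toUG hF', ← ha]
    simp
  · refine sup_le (fun g hg => (hk g).2 ⟨1, ?_⟩) fun g hg => (hk g).2 ?_
    · rw [Subgroup.mem_subgroupOf, MonoidHom.mem_ker] at hg
      simp [hg]
    · obtain ⟨a, ha⟩ := (hc g).1 hg
      exact ⟨a, by rw [← Herm.detU_toUG hF', ← ha, Herm.detU_scal]; simp⟩

end Cfsg.Agent.S0783
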