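import Mathlib
import Cfsg.Statements.S0786
import Cfsg.Agent.Orth.Matrix
import Cfsg.Agent.Orth.Gen
-- import your own Cfsg.Agent.* helpers here

set_option autoImplicit false
open Cfsg

namespace Cfsg.Agent.S0786

/-- Generation by reflections: if F is finite, Q is a quadratic form on F^n with non-degenerate polar form, and (|F|, n) ≠ (2, 4), then the isometry group of Q is generated by the reflections r_v, Q(v) ≠ 0. -/
theorem result {F : Type*} [Field F] [Fintype F] {n : ℕ} (Q : QuadraticForm F (Fin n → F)) (hQ : (QuadraticMap.polarBilin Q).Nondegenerate) (h : Fintype.card F ≠ 2 ∨ n ≠ 4) : Subgroup.closure {g : ↥(Cfsg.isometryGroup F ⇑Q) | ∃ v : Fin n → F, Q v ≠ 0 ∧ ((g : Matrix.GeneralLinearGroup (Fin n) F) : Matrix (Fin n) (Fin n) F) = Cfsg.reflectionMatrix ⇑Q v} = ⊤ := by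
  have hg : Orth.Good F (Fin n → F) := Orth.good_of_card (by simpa using h)
  rw [eq_top_iff]
  intro g _
  obtain ⟨g, rfl⟩ := (Orth.toOG Q).symm.surjective g
  induction g using ((Orth.nd_iff Q).2 hQ).refl_induction hg with
  | h1 => rw [map_one]; exact Subgroup.one_mem _
  | hmul v g hv ih =>
    rw [map_mul]
    exact Subgroup.mul_mem _ (Subgroup.subset_closure ⟨v, hv, Orth.coe_symm_refl v⟩) (ih trivial)

end Cfsg.Agent.S0786
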