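import Mathlib
import Cfsg.Statements.S0787
import Cfsg.Agent.Orth.Finite
-- import your own Cfsg.Agent.* helpers here

set_option autoImplicit false
open Cfsg

namespace Cfsg.Agent.S0787

open Orth QuadraticMap Module in
theorem aux {F V : Type*} [Field F] [Finite F] [AddCommGroup V] [Module F V] [FiniteDimensional F V]
    {Q : QuadraticForm F V} (hQ : ND Q) (hg : Good F V) (hn : 2 ≤ finrank F V)
    {G : Type*} [Group G] (e : G ≃* OG Q) (S : Subgroup G) (hS : ∀ g, g ∈ S ↔ detO Q (e g) = 1) :
    ∃! H : Subgroup S, H.index = 2 := by
  have hC : ∀ g, g ∈ commutator G ↔ e g ∈ commutator (OG Q) := by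
    intro g
    have : (commutator G).map e.toMonoidHom = commutator (OG Q) := by
      rw [commutator_def, Subgroup.map_commutator, Subgroup.map_top_of_surjective _ e.surjective,
        commutator_def]
    rw [← this]
    exact (Subgroup.mem_map_iff_mem (f := e.toMonoidHom) e.injective).symm
  have hCi : (commutator G).index = (commutator (OG Q)).index := by
    have : commutator G = (commutator (OG Q)).comap e.toMonoidHom := by ext g; exact hC g
    rw [this, Subgroup.index_comap_of_surjective _ e.surjective]
  have hle : commutator G ≤ S := by
    intro g hg'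
    rw [hS]
    by_cases h2 : (2 : F) = 0
    · rcases hQ.detO_eq (e g) with h | h
      · exact h
      · rw [h]; linear_combination (-1) * h2
    · rw [hQ.detO_eq_one_iff h2]
      exact ((hQ.mem_commutator_iff hg _).1 ((hC g).1 hg')).1
  have hK : ((commutator G).subgroupOf S).index = 2 := by
    have h1 := Subgroup.relIndex_mul_index hle
    rw [hCi] at h1
    change (commutator G).relIndex S = 2
    by_cases h2 : (2 : F) = 0
    · have : S = ⊤ := by
        rw [eq_top_iff]; intro g _
        rw [hS]
        rcases hQ.detO_eq (e g) with h | h
        · exact h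
        · rw [h]; linear_combination (-1) * h2
      rw [hQ.index_commutator_even hg h2 (by omega), this] at h1
      rw [this]; simpa using h1
    · have : S = ((hQ.dick hg).comp e.toMonoidHom).ker := by
        ext g
        rw [hS, hQ.detO_eq_one_iff h2, MonoidHom.mem_ker, ← hQ.dick_eq_one_iff hg]; rfl
      have h3 : S.index = 2 := by
        rw [this, Subgroup.index_ker, MonoidHom.range_eq_top.2
          (show Function.Surjective ((hQ.dick hg).comp e.toMonoidHom) from
            (hQ.dick_surjective hg (by omega)).comp e.surjective), Subgroup.card_top]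
        simp
      rw [hQ.index_commutator_odd h2 hn, h3] at h1
      omega
  refine ⟨_, hK, fun H hH => ?_⟩
  have hKH : (commutator G).subgroupOf S ≤ H := by
    have : commutator (OG Q) ≤ (H.map S.subtype).map e.toMonoidHom := by
      apply hQ.commutator_le_of_pairs hg
      intro u v hu huv
      by_cases h2 : (2 : F) = 0
      · have hall : ∀ g, e.symm g ∈ S := by
          intro g
          rw [hS]
          rcases hQ.detO_eq (e (e.symm g)) with h | h
          · exact h
          · rw [h]; linear_combination (-1) * h2
        obtain ⟨g, rfl⟩ := witt_one hQ (u := u) (v := v) (fun h0 => hu (by simp [h0]))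
          (fun h0 => hu (by simp [huv, h0])) huv
        refine ⟨_, ⟨⟨_, hall (refl Q u)⟩ * (⟨_, hall g⟩ * ⟨_, hall (refl Q u)⟩ * ⟨_, hall g⟩⁻¹),
          ?_, rfl⟩, ?_⟩
        · simp only [SetLike.mem_coe, Subgroup.mul_mem_iff_of_index_two hH, inv_mem_iff]; tauto
        · simp [← refl_conj]
      · have : ∃ w, Q w ≠ 0 ∧ refl Q v = refl Q w * refl Q u * refl Q w := by
          have key : ∀ v, Q u = Q v → Q (v - u) ≠ 0 →
              refl Q v = refl Q (v - u) * refl Q u * refl Q (v - u) := by
            intro v huv hw
            have := refl_conj (refl Q (v - u)) u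
            rw [refl_inv, refl_sub_apply huv] at this
            · exact this.symm
            · intro h0
              apply hw
              rw [polar_sub_right, p_self] at h0
              rw [q_sub, polar_comm Q v u]
              linear_combination (-1) * h0 - huv
          by_cases hw : Q (v - u) = 0
          · have hw' : Q (-v - u) ≠ 0 := by
              intro h0
              rw [q_sub, polar_neg_left, QuadraticMap.map_neg] at h0
              rw [q_sub] at hw
              apply hu
              have : (2 * 2) * Q u = 0 := by linear_combination h0 + hw + 2 * huv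
              simpa [h2] using this
            refine ⟨-v - u, hw', ?_⟩
            rw [← key (-v) (by simpa using huv) hw', refl_neg]
          · exact ⟨v - u, hw, key v huv hw⟩
        obtain ⟨w, hw, h⟩ := this
        have hm : e.symm (refl Q u * refl Q w) ∈ S := by
          rw [hS]; simp [detO_refl hu, detO_refl hw]
        refine ⟨_, ⟨⟨_, hm⟩ * ⟨_, hm⟩, ?_, rfl⟩, ?_⟩
        · simp only [SetLike.mem_coe, Subgroup.mul_mem_iff_of_index_two hH]
        · simp [h, mul_assoc]
    intro g hg'
    have := this ((hC g).1 hg')
    have := (Subgroup.mem_map_iff_mem (f := e.toMonoidHom) e.injective).1 this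
    exact (Subgroup.mem_map_iff_mem (f := S.subtype) S.subtype_injective).1 this
  have h1 := Subgroup.relIndex_mul_index hKH
  rw [hK, hH] at h1
  exact le_antisymm (Subgroup.relIndex_eq_one.1 (by omega)) hKH

/-- Existence and uniqueness of Ω: if F is finite, n ≥ 2, Q is a quadratic form on F^n with non-degenerate polar form and (|F|, n) ≠ (2, 4), then the group of isometries of determinant one has a unique subgroup of index 2. -/
theorem result {F : Type*} [Field F] [Fintype F] {n : ℕ} (hn : 2 ≤ n) (Q : QuadraticForm F (Fin n → F)) (hQ : (QuadraticMap.polarBilin Q).Nondegenerate) (h : Fintype.card F ≠ 2 ∨ n ≠ 4) : ∃! H : Subgroup ↥(Cfsg.specialIsometryGroup F ⇑Q), H.index = 2 := by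
  exact aux ((Orth.nd_iff Q).2 hQ) (Orth.good_of_card (by simpa using h)) (by simpa using hn)
    (Orth.toOG Q) _ Orth.mem_specialIsometryGroup

end Cfsg.Agent.S0787
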