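import Mathlib
import Cfsg.Statements.S0792
import Cfsg.Agent.Orth.Finite
-- import your own Cfsg.Agent.* helpers here

set_option autoImplicit false
open Cfsg

namespace Cfsg.Agent.S0792

/-- For q odd and Q with non-degenerate polar form on F^n, the determinant-one isometries form the subgroup generated by all products r_u r_v of two reflections (Q(u), Q(v) ≠ 0). -/
theorem result {F : Type*} [Field F] [Fintype F] (h2 : (2 : F) ≠ 0) {n : ℕ} (Q : QuadraticForm F (Fin n → F)) (hQ : (QuadraticMap.polarBilin Q).Nondegenerate) : Cfsg.specialIsometryGroup F ⇑Q = Subgroup.closure {g : ↥(Cfsg.isometryGroup F ⇑Q) | ∃ u v : Fin n → F, Q u ≠ 0 ∧ Q v ≠ 0 ∧ ((g : Matrix.GeneralLinearGroup (Fin n) F) : Matrix (Fin n) (Fin n) F) = Cfsg.reflectionMatrix ⇑Q u * Cfsg.reflectionMatrix ⇑Q v} := by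
  have hnd := (Orth.nd_iff Q).2 hQ
  apply le_antisymm
  · intro g hg
    rw [Orth.mem_specialIsometryGroup] at hg
    obtain ⟨l, hl, h⟩ := hnd.exists_list (Orth.good_of_two_ne_zero h2) (Orth.toOG Q g)
    rw [← h, hnd.detO_eq_one_iff h2, hnd.even_rk_list l hl] at hg
    have hg' : g = (Orth.toOG Q).symm (l.map (Orth.refl Q)).prod := by
      rw [h, MulEquiv.symm_apply_apply]
    rw [hg']
    clear h hg'
    induction l using List.twoStepInduction with
    | nil => simp
    | singleton x => simp at hg
    | cons_cons x y l ih _ =>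
      rw [List.map_cons, List.map_cons, List.prod_cons, List.prod_cons, ← mul_assoc, map_mul]
      refine Subgroup.mul_mem _ (Subgroup.subset_closure ⟨x, y, hl x (by simp), hl y (by simp), ?_⟩)
        (ih ?_ (fun v hv => hl v (by simp [hv])))
      · rw [Orth.coe_eq_refl_mul_refl_iff, MulEquiv.apply_symm_apply]
      · simpa [Nat.even_add_one] using hg
  · rw [Subgroup.closure_le]
    rintro g ⟨u, v, hu, hv, hg⟩
    rw [Orth.coe_eq_refl_mul_refl_iff] at hg
    rw [SetLike.mem_coe, Orth.mem_specialIsometryGroup, hg, map_mul, Orth.detO_refl hu,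
      Orth.detO_refl hv]
    simp

end Cfsg.Agent.S0792
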