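import Mathlib
import Cfsg.Statements.S0794
import Cfsg.Agent.Orth.Omega
-- import your own Cfsg.Agent.* helpers here

set_option autoImplicit false
open Cfsg

namespace Cfsg.Agent.S0794

open scoped commutatorElement

/-- For q odd, n ≥ 5 and Q with non-degenerate polar form: an isometry whose matrix is a Siegel transformation T_(u,v)(c) (u, v singular and orthogonal) is a commutator in the isometry group, so lies in Ω. -/
theorem result {F : Type*} [Field F] [Fintype F] (h2 : (2 : F) ≠ 0) {n : ℕ} (hn : 5 ≤ n) (Q : QuadraticForm F (Fin n → F)) (hQ : (QuadraticMap.polarBilin Q).Nondegenerate) (u v : Fin n → F) (hu : Q u = 0) (hv : Q v = 0) (huv : QuadraticMap.polar ⇑Q u v = 0) (c : F) (g : ↥(Cfsg.isometryGroup F ⇑Q)) (hg : ((g : Matrix.GeneralLinearGroup (Fin n) F) : Matrix (Fin n) (Fin n) F) = Cfsg.siegelMatrix ⇑Q u v c) : g ∈ commutatorSet ↥(Cfsg.isometryGroup F ⇑Q) ∧ g ∈ Cfsg.Omega F ⇑Q := by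
  have hQ' := (Orth.nd_iff Q).2 hQ
  have hn' : 5 ≤ Module.finrank F (Fin n → F) := by simpa using hn
  rw [Orth.coe_eq_siegel_iff g hu hv huv] at hg
  obtain ⟨w, y, h⟩ := hQ'.siegel_eq_commutator hn' hu (v := -c • v)
    (by rw [Orth.q_smul, hv, mul_zero]) (by rw [Orth.p_smul_right, huv, mul_zero])
  have h1 : g ∈ commutatorSet ↥(Cfsg.isometryGroup F ⇑Q) := by
    refine ⟨(Orth.toOG Q).symm (Orth.eich Q (-c • v) w), (Orth.toOG Q).symm (Orth.eich Q u y), ?_⟩
    apply (Orth.toOG Q).injective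
    rw [map_commutatorElement, MulEquiv.apply_symm_apply, MulEquiv.apply_symm_apply, hg, h]
  refine ⟨h1, ?_⟩
  rw [Cfsg.Omega, commutator_eq_closure]
  exact Subgroup.subset_closure h1

end Cfsg.Agent.S0794
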