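import Mathlib
import Cfsg.Statements.S0795
import Cfsg.Agent.Orth.Omega
-- import your own Cfsg.Agent.* helpers here

set_option autoImplicit false
open Cfsg

namespace Cfsg.Agent.S0795

/-- Generation of Ω by root elements: for q odd, n ≥ 5 and Q with non-degenerate polar form on F^n, the commutator subgroup of the isometry group equals the subgroup generated by the isometries whose matrices are Siegel transformations T_(u,v)(c) with u, v singular and orthogonal. -/
theorem result {F : Type*} [Field F] [Fintype F] (h2 : (2 : F) ≠ 0) {n : ℕ} (hn : 5 ≤ n) (Q : QuadraticForm F (Fin n → F)) (hQ : (QuadraticMap.polarBilin Q).Nondegenerate) : Cfsg.Omega F ⇑Q = Subgroup.closure {g : ↥(Cfsg.isometryGroup F ⇑Q) | ∃ (u v : Fin n → F) (c : F), Q u = 0 ∧ Q v = 0 ∧ QuadraticMap.polar ⇑Q u v = 0 ∧ ((g : Matrix.GeneralLinearGroup (Fin n) F) : Matrix (Fin n) (Fin n) F) = Cfsg.siegelMatrix ⇑Q u v c} := by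
  have hQ' := (Orth.nd_iff Q).2 hQ
  have hn' : 5 ≤ Module.finrank F (Fin n → F) := by simpa using hn
  apply le_antisymm
  · intro g hg
    rw [Orth.mem_Omega_iff] at hg
    have := hQ'.commutator_le_of_siegel hn' (Subgroup.map (Orth.toOG Q).toMonoidHom
      (Subgroup.closure {g : ↥(Cfsg.isometryGroup F ⇑Q) | ∃ (u v : Fin n → F) (c : F), Q u = 0 ∧ Q v = 0 ∧ QuadraticMap.polar ⇑Q u v = 0 ∧ ((g : Matrix.GeneralLinearGroup (Fin n) F) : Matrix (Fin n) (Fin n) F) = Cfsg.siegelMatrix ⇑Q u v c})) (by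
      intro u v hu hv huv
      refine ⟨(Orth.toOG Q).symm (Orth.eich Q u v), Subgroup.subset_closure
        ⟨u, v, -1, hu, hv, huv, ?_⟩, by simp⟩
      rw [Orth.coe_eq_siegel_iff _ hu hv huv]; simp) hg
    exact (Subgroup.mem_map_iff_mem (f := (Orth.toOG Q).toMonoidHom) (Orth.toOG Q).injective).1 this
  · rw [Subgroup.closure_le]
    rintro g ⟨u, v, c, hu, hv, huv, hg⟩
    rw [Orth.coe_eq_siegel_iff g hu hv huv] at hg
    show g ∈ Cfsg.Omega F ⇑Q
    rw [Orth.mem_Omega_iff, hg]
    exact hQ'.eich_mem_commutator (Orth.good_of_five_le hn') _ _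

end Cfsg.Agent.S0795
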