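import Mathlib
import Cfsg.Statements.S0796

set_option autoImplicit false
set_option backward.isDefEq.respectTransparency false
open Cfsg

namespace Cfsg.Agent.S0796

/-- If G is finite and acts faithfully and primitively on X, H is the stabiliser of a point, A is a normal subgroup of H whose normal closure in G is G, then for every non-trivial normal subgroup K of G the quotient G ⧸ K is isomorphic to A ⧸ B for some normal subgroup B of A. -/
theorem result {G X : Type*} [Group G] [Finite G] [MulAction G X] [FaithfulSMul G X] (hprim : MulAction.IsPreprimitive G X) (x : X) (A : Subgroup G) (hA : A ≤ MulAction.stabilizer G x) (hAn : (A.subgroupOf (MulAction.stabilizer G x)).Normal) (hgen : Subgroup.normalClosure (A : Set G) = ⊤) (K : Subgroup G) [K.Normal] (hK : K ≠ ⊥) : ∃ (B : Subgroup A) (_ : B.Normal), Nonempty (G ⧸ K ≃* A ⧸ B) := by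
  have h1 : MulAction.fixedPoints K X ≠ Set.univ := by
    intro h
    apply hK
    rw [eq_bot_iff]
    intro k hk
    refine FaithfulSMul.eq_of_smul_eq_smul (α := X) fun y => ?_
    rw [one_smul]
    exact (h.ge (Set.mem_univ y) : y ∈ MulAction.fixedPoints K X) ⟨k, hk⟩
  have h2 : MulAction.IsPretransitive K X :=
    MulAction.IsQuasiPreprimitive.isPretransitive_of_normal h1
  have h3 : (A ⊔ K).Normal := by
    refine ⟨fun a ha g => ?_⟩
    obtain ⟨⟨k, hk⟩, hkg⟩ := MulAction.exists_smul_eq K x (g • x)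
    have hs : k⁻¹ * g ∈ MulAction.stabilizer G x := by
      rw [MulAction.mem_stabilizer_iff, mul_smul, inv_smul_eq_iff]
      exact hkg.symm
    rw [← SetLike.mem_coe, Subgroup.mul_normal] at ha
    obtain ⟨a, ha, b, hb, rfl⟩ := ha
    have h4 : (k⁻¹ * g) * a * (k⁻¹ * g)⁻¹ ∈ A := hAn.conj_mem ⟨a, hA ha⟩ ha ⟨_, hs⟩
    have h5 : g * (a * b) * g⁻¹ = k * ((k⁻¹ * g) * a * (k⁻¹ * g)⁻¹) * k⁻¹ * (g * b * g⁻¹) := by
      group
    change g * (a * b) * g⁻¹ ∈ _
    rw [h5]
    exact mul_mem (mul_mem (mul_mem (Subgroup.mem_sup_right hk) (Subgroup.mem_sup_left h4))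
      (Subgroup.mem_sup_right (inv_mem hk)))
      (Subgroup.mem_sup_right (Subgroup.Normal.conj_mem inferInstance b hb g))
  have h4 : A ⊔ K = ⊤ := top_le_iff.1 (hgen ▸ Subgroup.normalClosure_le_normal
    fun a ha => Subgroup.mem_sup_left ha)
  let f := (QuotientGroup.mk' K).comp A.subtype
  have hf : Function.Surjective f := by
    intro y
    obtain ⟨y, rfl⟩ := QuotientGroup.mk_surjective y
    have : y ∈ A ⊔ K := h4 ▸ trivial
    rw [← SetLike.mem_coe, Subgroup.mul_normal] at this
    obtain ⟨a, ha, b, hb, rfl⟩ := this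
    exact ⟨⟨a, ha⟩, (QuotientGroup.mk_mul_of_mem a hb).symm⟩
  exact ⟨f.ker, inferInstance, ⟨(QuotientGroup.quotientKerEquivOfSurjective f hf).symm⟩⟩

end Cfsg.Agent.S0796
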