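import Mathlib
import Cfsg.Statements.S0797
import Cfsg.Agent.Orth.Finite
-- import your own Cfsg.Agent.* helpers here

set_option autoImplicit false
open Cfsg

namespace Cfsg.Agent.S0797

theorem aux {G : Type*} [Group G] (a b : G →* ℤˣ) (hs : Function.Surjective (a.prod b))
    (hk : commutator G = (a.prod b).ker) : Nat.card {H : Subgroup G // H.index = 2} = 3 := by
  obtain ⟨x, hx⟩ := hs (-1, 1)
  obtain ⟨y, hy⟩ := hs (1, -1)
  simp only [MonoidHom.prod_apply, Prod.mk.injEq] at hx hy
  have hi : ∀ c : G →* ℤˣ, ∀ z, c z = -1 → c.ker.index = 2 := by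
    intro c z hz
    rw [Subgroup.index_ker, MonoidHom.range_eq_top.2, Subgroup.card_top]
    · simp
    · intro s
      rcases Int.units_eq_one_or s with rfl | rfl
      · exact ⟨1, by simp⟩
      · exact ⟨z, hz⟩
  have key : {H : Subgroup G | H.index = 2} = {a.ker, b.ker, (a * b).ker} := by
    ext H
    simp only [Set.mem_setOf_eq, Set.mem_insert_iff, Set.mem_singleton_iff]
    constructor
    · intro hH
      have hc : ∀ g, a g = 1 → b g = 1 → g ∈ H := by
        intro g h1 h2
        have : g ∈ commutator G := by rw [hk]; simp [h1, h2]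
        refine (show commutator G ≤ H from ?_) this
        rw [commutator_def, Subgroup.commutator_le]
        intro s _ t _
        simp only [commutatorElement_def, Subgroup.mul_mem_iff_of_index_two hH, inv_mem_iff]
        tauto
      have hm : ∀ g, g ∈ H ↔ ((a g = 1 ∨ x ∈ H) ↔ (b g = 1 ∨ y ∈ H)) := by
        intro g
        rcases Int.units_eq_one_or (a g) with h1 | h1 <;>
          rcases Int.units_eq_one_or (b g) with h2 | h2
        · simp [h1, h2, hc g h1 h2]
        · have := hc (g * y) (by simp [h1, hy]) (by simp [h2, hy])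
          rw [Subgroup.mul_mem_iff_of_index_two hH] at this
          simp [h1, h2, this]
        · have := hc (g * x) (by simp [h1, hx]) (by simp [h2, hx])
          rw [Subgroup.mul_mem_iff_of_index_two hH] at this
          simp [h1, h2, this]
        · have := hc (g * (x * y)) (by simp [h1, hx, hy]) (by simp [h2, hx, hy])
          rw [Subgroup.mul_mem_iff_of_index_two hH, Subgroup.mul_mem_iff_of_index_two hH] at this
          simp [h1, h2, this]
      by_cases hxH : x ∈ H <;> by_cases hyH : y ∈ H
      · have : H = ⊤ := by ext g; simp [hm g, hxH, hyH]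
        rw [this] at hH; simp at hH
      · right; left; ext g; simp [hm g, hxH, hyH]
      · left; ext g; simp [hm g, hxH, hyH]
      · right; right; ext g
        rw [hm g, MonoidHom.mem_ker, MonoidHom.mul_apply]
        rcases Int.units_eq_one_or (a g) with h1 | h1 <;>
          rcases Int.units_eq_one_or (b g) with h2 | h2 <;> simp [h1, h2, hxH, hyH]
    · rintro (rfl | rfl | rfl)
      · exact hi _ x hx.1
      · exact hi _ y hy.2
      · exact hi _ x (by simp [hx])
  change Nat.card {H : Subgroup G | H.index = 2} = 3
  rw [key, Nat.card_coe_set_eq, Set.ncard_eq_three]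
  refine ⟨_, _, _, ?_, ?_, ?_, rfl⟩
  · intro h
    have : x ∈ b.ker := hx.2
    rw [← h, MonoidHom.mem_ker, hx.1] at this
    simp at this
  · intro h
    have : y ∈ a.ker := hy.1
    rw [h, MonoidHom.mem_ker] at this
    simp [hy] at this
  · intro h
    have : x ∈ b.ker := hx.2
    rw [h, MonoidHom.mem_ker] at this
    simp [hx] at this

/-- O^ε_2m(q) ≅ Ω.2² for q odd: if F is finite of odd characteristic, n ≥ 2 is even and Q has non-degenerate polar form on F^n, the isometry group of Q has exactly three subgroups of index 2. -/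
theorem result {F : Type*} [Field F] [Fintype F] (h2 : (2 : F) ≠ 0) {n : ℕ} (hn : 2 ≤ n) (heven : Even n) (Q : QuadraticForm F (Fin n → F)) (hQ : (QuadraticMap.polarBilin Q).Nondegenerate) : Nat.card {H : Subgroup ↥(Cfsg.isometryGroup F ⇑Q) // H.index = 2} = 3 := by
  have hQ' := (Orth.nd_iff Q).2 hQ
  have hn' : 2 ≤ Module.finrank F (Fin n → F) := by simpa using hn
  have hg : Orth.Good F (Fin n → F) := Orth.good_of_two_ne_zero h2
  apply aux ((hQ'.dick hg).comp (Orth.toOG Q).toMonoidHom) ((hQ'.spin hg).comp (Orth.toOG Q).toMonoidHom)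
  · exact (hQ'.dick_spin_surjective h2 hn' hg).comp (Orth.toOG Q).surjective
  · ext g
    exact (Orth.mem_Omega_iff g).trans (by rw [hQ'.commutator_eq_ker hg]; rfl)

end Cfsg.Agent.S0797
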