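import Mathlib
import Cfsg.Statements.S0798
import Cfsg.Agent.Orth.ReflClass
-- import your own Cfsg.Agent.* helpers here

set_option autoImplicit false
open Cfsg

namespace Cfsg.Agent.S0798

/-- For q odd, n ≥ 2 even, Q with non-degenerate polar form (n, |F|) ≠ (4, 3), and a fixed c ≠ 0: the subgroup of the isometry group generated by the reflections r_v with Q(v) ∈ c·(F^×)² has index 2. -/
theorem result {F : Type*} [Field F] [Fintype F] (h2 : (2 : F) ≠ 0) {n : ℕ} (hn : 2 ≤ n) (heven : Even n) (Q : QuadraticForm F (Fin n → F)) (hQ : (QuadraticMap.polarBilin Q).Nondegenerate) (h43 : ¬ (n = 4 ∧ Fintype.card F = 3)) (c : F) (hc : c ≠ 0) : (Subgroup.closure {g : ↥(Cfsg.isometryGroup F ⇑Q) | ∃ (v : Fin n → F) (t : F), t ≠ 0 ∧ Q v = c * t ^ 2 ∧ ((g : Matrix.GeneralLinearGroup (Fin n) F) : Matrix (Fin n) (Fin n) F) = Cfsg.reflectionMatrix ⇑Q v}).index = 2 := by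
  have hQ' := (Orth.nd_iff Q).2 hQ
  have h := hQ'.index_closure_class h2 (c := c) (by
    simp only [Module.finrank_fintype_fun_eq_card, Fintype.card_fin]
    obtain ⟨k, hk⟩ := heven
    by_cases h4 : n = 4
    · refine Or.inr (Or.inr ⟨h4.ge, Classical.SpMat.exists_sq_ne_one ?_⟩)
      obtain ⟨r, hr⟩ := Orth.odd_card_of_two_ne_zero h2
      have := Fintype.one_lt_card (α := F)
      rw [Nat.card_eq_fintype_card]
      omega
    · omega) hc
  refine Eq.trans ?_ h
  rw [← Subgroup.index_map_of_bijective (f := (Orth.toOG Q).toMonoidHom) (Orth.toOG Q).bijective,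
    MonoidHom.map_closure]
  congr 2
  ext g
  constructor
  · rintro ⟨g, ⟨v, t, ht, hv, hg⟩, rfl⟩
    exact ⟨v, t, ht, hv, (Orth.coe_eq_refl_iff g v).1 hg⟩
  · rintro ⟨v, t, ht, hv, rfl⟩
    exact ⟨(Orth.toOG Q).symm _, ⟨v, t, ht, hv, Orth.coe_symm_refl v⟩, by simp⟩

end Cfsg.Agent.S0798
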