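import Mathlib
import Cfsg.Statements.S0801
import Cfsg.Agent.Max.L2g

set_option autoImplicit false
open Cfsg

namespace Cfsg.Agent.S0801

open scoped Pointwise
open Cfsg.Agent.Max.L2 Cfsg.Agent.Classical.PSL2Basic Cfsg.Agent.Classical.P1Ident
  Cfsg.Agent.Classical.Congr Cfsg.Agent.Classical.P1
open Cfsg.Agent.Classical.SL2Basic Cfsg.Agent.Classical.Dickson Cfsg.Agent.Classical.Borel2
  Cfsg.Agent.Classical.P1Inst

theorem tr_A5 {F : Type*} [Field F] {H : Subgroup (Matrix.ProjGenLinGroup (Fin 2) F)}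
    (e : Nonempty (H ≃* alternatingGroup (Fin 5))) {x : Matrix.SpecialLinearGroup (Fin 2) F}
    (hx : sP x ∈ H) (h : x 1 0 ≠ 0) : tr x = 0 ∨ tr x ^ 2 = 1 ∨ tr x ^ 4 - 3 * tr x ^ 2 + 1 = 0 := by
  obtain ⟨e⟩ := e
  have h1 : ∀ x : Equiv.Perm (Fin 5), Equiv.Perm.sign x = 1 → x ^ 2 = 1 ∨ x ^ 3 = 1 ∨ x ^ 5 = 1 := by
    decide +kernel
  have h2 : ∀ n : ℕ, (e ⟨_, hx⟩ : Equiv.Perm (Fin 5)) ^ n = 1 → (x ^ n) 1 0 = 0 := by
    intro n hn
    have h3 : e (⟨_, hx⟩ ^ n) = 1 := by rw [map_pow]; exact Subtype.ext hn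
    rw [EmbeddingLike.map_eq_one_iff, Subtype.ext_iff] at h3
    simp only [SubmonoidClass.mk_pow, OneMemClass.coe_one, ← map_pow] at h3
    rcases toPGL_eq_one_iff.1 h3 with h | h <;> rw [h] <;> simp
  have hd := det_eq x
  rcases h1 _ (e ⟨_, hx⟩).2 with h3 | h3 | h3 <;> replace h3 := h2 _ h3 <;>
    simp only [pow_succ, pow_zero, one_mul, mul_apply] at h3
  · exact Or.inl (mul_left_cancel₀ h (by rw [tr]; linear_combination h3))
  · exact Or.inr (Or.inl (mul_left_cancel₀ h (by rw [tr]; linear_combination h3 + x 1 0 * hd)))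
  · exact Or.inr (Or.inr (mul_left_cancel₀ h (by
      rw [tr]
      linear_combination h3 + x 1 0 * (3 * (x 0 0 + x 1 1) ^ 2 - (x 0 0 * x 1 1 - x 0 1 * x 1 0)
        - 1) * hd)))

theorem le_A5 {F : Type*} [Field F] (h3 : (3 : F) = 0) {l : F} (h : l ^ 2 = -1) :
    ∃ X : Subgroup (Matrix.ProjGenLinGroup (Fin 2) F), Nat.card X = 60 ∧ sP (upper l) ∈ X ∧
      sP (lower 1) ∈ X := by
  have hl : l ≠ 0 := by rintro rfl; simp at h
  let x : Matrix.SpecialLinearGroup (Fin 2) F := mkSL l 0 l (-l) (by linear_combination -h)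
  let y : Matrix.SpecialLinearGroup (Fin 2) F := mkSL (-l) 0 0 l (by linear_combination -h)
  have hxy : x * y = lower 1 := by
    apply sl2_ext <;> simp [x, y, lower, mul_apply] <;> grind
  refine ⟨Subgroup.closure {sP (upper l), sP x, sP y}, card_of_equiv (closure_A5 ?_ ?_ ?_ ?_ ?_ ?_ ?_)
    Cfsg.Agent.Classical.DicksonSL.card_A5, Subgroup.subset_closure (by simp), ?_⟩
  · rw [← map_pow, upper_pow]; simp [h3, upper_zero]
  · rw [← map_pow, toPGL_eq_one_iff]; right
    apply sl2_ext <;> simp [x, pow_succ, mul_apply] <;> grind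
  · rw [← map_pow, toPGL_eq_one_iff]; right
    apply sl2_ext <;> simp [y, pow_succ, mul_apply] <;> grind
  · rw [← map_mul, ← map_pow, toPGL_eq_one_iff]; left
    apply sl2_ext <;> simp [x, upper, pow_succ, mul_apply] <;> grind
  · rw [← map_mul, hxy, ← map_pow, lower_pow]; simp [h3, lower_zero]
  · rw [← map_mul, ← map_pow, toPGL_eq_one_iff]; right
    apply sl2_ext <;> simp [y, upper, pow_succ, mul_apply] <;> grind
  · rw [Ne, toPGL_eq_one_iff]
    rintro (e | e) <;> apply hl <;> simpa [upper] using congrArg (fun g => g.1 0 1) e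
  · rw [← hxy, map_mul]
    exact mul_mem (Subgroup.subset_closure (by simp)) (Subgroup.subset_closure (by simp))

/-- Let F be a finite field of odd characteristic and λ ≠ 0 an element generating F as a field. Then the lower and upper unitriangular matrices with off-diagonal entries 1 and λ generate SL_2(F), unless |F| = 9 and λ² = −1, in which case they generate a subgroup of order 120. -/
theorem result {F : Type*} [Field F] [Fintype F] (h2 : (2 : F) ≠ 0) (lam : F) (hlam : lam ≠ 0) (hgen : Subfield.closure ({lam} : Set F) = ⊤) : (Subgroup.closure {g : Matrix.SpecialLinearGroup (Fin 2) F | (g : Matrix (Fin 2) (Fin 2) F) = !![1, 0; 1, 1] ∨ (g : Matrix (Fin 2) (Fin 2) F) = !![1, lam; 0, 1]} = ⊤ ∧ ¬ (Fintype.card F = 9 ∧ lam ^ 2 = -1)) ∨ (Fintype.card F = 9 ∧ lam ^ 2 = -1 ∧ Nat.card ↥(Subgroup.closure {g : Matrix.SpecialLinearGroup (Fin 2) F | (g : Matrix (Fin 2) (Fin 2) F) = !![1, 0; 1, 1] ∨ (g : Matrix (Fin 2) (Fin 2) F) = !![1, lam; 0, 1]}) = 120) := by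
  rw [← Nat.card_eq_fintype_card]
  obtain ⟨p, hp⟩ := CharP.exists F
  haveI : Fact p.Prime := ⟨CharP.char_is_prime F p⟩
  have hS : {g : Matrix.SpecialLinearGroup (Fin 2) F | (g : Matrix (Fin 2) (Fin 2) F) =
      !![1, 0; 1, 1] ∨ (g : Matrix (Fin 2) (Fin 2) F) = !![1, lam; 0, 1]} = {lower 1, upper lam} := by
    ext g
    exact or_congr ⟨fun e => Subtype.ext e, fun e => congrArg Subtype.val e⟩
      ⟨fun e => Subtype.ext e, fun e => congrArg Subtype.val e⟩
  rw [hS]
  set S := Subgroup.closure ({lower 1, upper lam} : Set (Matrix.SpecialLinearGroup (Fin 2) F))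
  have ha : upper lam ∈ S := Subgroup.subset_closure (by simp)
  have hb : lower 1 ∈ S := Subgroup.subset_closure (by simp)
  have ha' : sP (upper lam) ∈ S.map sP := ⟨_, ha, rfl⟩
  have hb' : sP (lower 1) ∈ S.map sP := ⟨_, hb, rfl⟩
  have hL : S.map sP ≤ LL F := by rintro _ ⟨g, -, rfl⟩; exact sP_mem g
  have a1 : sP (upper lam) ≠ 1 := by
    rw [Ne, toPGL_eq_one_iff]
    rintro (e | e) <;> apply hlam <;> simpa [upper] using congrArg (fun g => g.1 0 1) e
  have a2 : sP (upper lam) ^ p = 1 := by rw [← map_pow, upper_pow_char, map_one]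
  have w0 : IsWild p (S.map sP) inf := ⟨_, ha', a1, a2, by rw [toPGL_smul', upper_smul_inf]⟩
  have b1 : sP (lower (1 : F)) • (inf : PL F) = pt 1 := by
    rw [toPGL_smul', ← toGL_smul, smul_inf_eq_pt_iff]; simp [lower]
  have w1 : IsWild p (S.map sP) (pt 1) := b1 ▸ w0.smul hb'
  have w2 : IsWild p (S.map sP) (pt 0) :=
    ⟨_, hb', fun e => by rw [e] at b1; simp at b1, by rw [← map_pow, lower_pow_char, map_one],
      by rw [toPGL_smul', lower_smul_pt_zero]⟩
  have w3 : IsWild p (S.map sP) (pt lam) := by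
    have := w2.smul ha'
    rwa [toPGL_smul', upper_smul_pt, zero_add] at this
  have hd : p ∣ Nat.card (S.map sP) := by
    rw [← orderOf_eq_prime a2 a1]; exact Subgroup.orderOf_dvd_natCard _ ha'
  rcases wild_of_injective (p := p) (S.map sP).subtype (Subgroup.subtype_injective _) hd with
    h | ⟨rfl, -⟩ | ⟨rfl, h⟩ | h
  · have := fixed_of_card_sylow w0 h _ hb'
    rw [b1] at this; simp at this
  · exact absurd (CharP.cast_eq_zero F 2) (by simpa using h2)
  · right
    haveI := NeZero.mk h2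
    have h3 : (3 : F) = 0 := by simpa using CharP.cast_eq_zero F 3
    have h60 := card_of_equiv h Cfsg.Agent.Classical.DicksonSL.card_A5
    have h4 : lam ^ 3 ≠ lam := fun e => by
      have h5 : (⊥ : Subfield F) = ⊤ := by
        rw [eq_top_iff, ← hgen, Subfield.closure_le, Set.singleton_subset_iff]
        have : lam * ((lam - 1) * (lam + 1)) = 0 := by linear_combination e
        rcases mul_eq_zero.1 this with e | e
        · exact absurd e hlam
        rcases mul_eq_zero.1 e with e | e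
        · rw [sub_eq_zero.1 e]; exact one_mem _
        · rw [add_eq_zero_iff_eq_neg.1 e]; exact neg_mem (one_mem _)
      have h6 := Subgroup.card_le_of_le hL
      rw [card_LL_of (char_eq_of_prime (p := 3) (prime_of_bot h5)), h60] at h6
      norm_num at h6
    have t1 := tr_A5 h (x := upper lam * lower 1) ⟨_, mul_mem ha hb, rfl⟩
      (by simp [upper, lower, mul_apply])
    have t2 := tr_A5 h (x := upper lam * (lower 1)⁻¹) ⟨_, mul_mem ha (inv_mem hb), rfl⟩
      (by simp [upper, lower, mul_apply, inv_apply10, inv_apply00])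
    rw [show tr (upper lam * lower 1) = 2 + lam by simp [tr, upper, lower, mul_apply]; ring] at t1
    rw [show tr (upper lam * (lower 1)⁻¹) = 2 - lam by
      simp [tr, upper, lower, mul_apply, inv_apply10, inv_apply00, inv_apply01, inv_apply11]; ring]
      at t2
    have h5 : lam ^ 2 = -1 := by grind
    refine ⟨?_, h5, ?_⟩
    · rcases tau_gen (p := 3) (τ := lam - 1) (by grind) (by
        rw [eq_top_iff, ← hgen, Subfield.closure_le, Set.singleton_subset_iff]
        simpa using add_mem (Subfield.subset_closure (Set.mem_singleton (lam - 1)))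
          (one_mem (Subfield.closure {lam - 1}))) with e | e
      · exact absurd e.2 (by norm_num)
      · exact e.1
    · obtain ⟨_, ⟨x, hx, rfl⟩, h6⟩ : ∃ u ∈ S.map sP, orderOf u = 2 := by
        obtain ⟨u, hu⟩ := exists_prime_orderOf_dvd_card' (G := S.map sP) 2 (by rw [h60]; norm_num)
        exact ⟨u, u.2, by rw [Subgroup.orderOf_coe, hu]⟩
      have h7 : x * x = -1 := by
        refine (toPGL_eq_one_iff.1 ?_).resolve_left fun e => ?_
        · rw [map_mul, ← sq, orderOf_dvd_iff_pow_eq_one.1 h6.dvd]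
        · rw [toPGL_eq_one_iff.2 (eq_of_mul_self_eq_one h2 e)] at h6
          simp at h6
      rw [card_eq_map_mul sP, h60, inf_eq_left.2, card_ker_sP, dd, gcd_eq_two h2]
      intro g hg
      rcases toPGL_eq_one_iff.1 hg with rfl | rfl
      exacts [one_mem _, h7 ▸ mul_mem hx hx]
  · left
    obtain ⟨K, -, -, h3, h4⟩ := ident_of_wild _ h w0 w2 w1
    obtain rfl : K = ⊤ := by
      rw [eq_top_iff, ← hgen, Subfield.closure_le, Set.singleton_subset_iff]
      exact (h3 lam).1 w3
    have h5 : LL F ≤ S.map sP := LL_le_of_top (c := 1) (by simpa using h4)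
    refine ⟨eq_top_of_upper_lower _ (fun c => ?_) fun c => ?_, fun ⟨h6, h7⟩ => ?_⟩
    · exact mem_of_toPGL_mem (p := p) (k := 1) (by rw [pow_one, upper_pow_char]) (h5 (sP_mem _))
    · exact mem_of_toPGL_mem (p := p) (k := 1) (by rw [pow_one, lower_pow_char]) (h5 (sP_mem _))
    · haveI : Fact (Nat.Prime 3) := ⟨Nat.prime_three⟩
      haveI := charP_of_card (F := F) (p := 3) (k := 2) h6
      obtain ⟨X, h8, h9, h10⟩ := le_A5 (by simpa using CharP.cast_eq_zero F 3) h7
      have h11 := Subgroup.card_le_of_le (h5.trans (show S.map sP ≤ X by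
        rw [Subgroup.map_le_iff_le_comap, Subgroup.closure_le]
        rintro _ (rfl | rfl)
        exacts [h10, h9]))
      rw [card_LL_of h6, h8] at h11
      norm_num at h11

end Cfsg.Agent.S0801
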