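import Mathlib
import Cfsg.Statements.S0805
import Cfsg.Agent.Max.L2d

set_option autoImplicit false
open Cfsg

namespace Cfsg.Agent.S0805

open scoped Pointwise
open Cfsg.Agent.Max.L2 Cfsg.Agent.Classical.PSL2Basic Cfsg.Agent.Classical.P1Ident
  Cfsg.Agent.Classical.Congr Cfsg.Agent.Classical.P1

/-- Subfield subgroups: let F be a finite field of odd order q and K a finite field with |K|^m = q, m ≥ 1. Then PSL_2(F) has a subgroup isomorphic to PSL_2(K), and has a subgroup isomorphic to PGL_2(K) if and only if m is even. -/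
theorem result {F K : Type*} [Field F] [Fintype F] [Field K] [Fintype K] {q : ℕ} (hF : Fintype.card F = q) (hodd : Odd q) (m : ℕ) (hm : 1 ≤ m) (hK : Fintype.card K ^ m = q) : (∃ H : Subgroup (Matrix.ProjectiveSpecialLinearGroup (Fin 2) F), Nonempty (H ≃* Matrix.ProjectiveSpecialLinearGroup (Fin 2) K)) ∧ ((∃ H : Subgroup (Matrix.ProjectiveSpecialLinearGroup (Fin 2) F), Nonempty (H ≃* Matrix.ProjGenLinGroup (Fin 2) K)) ↔ Even m) := by
  rw [← Nat.card_eq_fintype_card] at hF hK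
  obtain ⟨K', ⟨e⟩⟩ := exists_subfield (F := F) (K := K) (r := m) (by rw [hF, hK])
  have h1 := Nat.card_congr e.toEquiv
  rw [exists_sub_PSL, exists_sub_PSL]
  refine ⟨⟨subPSL K', subPSL_le_LL K', ⟨(subPSLEquiv K').symm.trans (pslCongr e).symm⟩⟩,
    ?_, fun hm => ⟨subPGL K', subPGL_le_LL hm (by rw [← h1, hK, hF]),
      ⟨(subPGLEquiv K').symm.trans (pglCongr e).symm⟩⟩⟩
  rintro ⟨H, hH, e'⟩
  have h2 := Nat.mul_dvd_mul_left 2 (Subgroup.card_dvd_of_le hH)
  have h3 := card_LL (F := F)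
  rw [dd, gcd_eq_two (odd_card_iff.1 (hF ▸ hodd))] at h3
  rw [h3, card_of_equiv e' card_PGL_two, hF, ← hK] at h2
  have h4 : Odd (Nat.card K) := (Nat.odd_pow_iff (by omega)).1 (hK ▸ hodd)
  have h5 := Cfsg.Agent.Classical.SLBasic.one_lt_card (F := K)
  generalize Nat.card K = a at h2 h4 h5
  have h6 : 1 < a ^ 2 := Nat.one_lt_pow (by norm_num) h5
  have h7 := Nat.geomSum_eq (m := a ^ 2) h6 m
  have h8 : (a ^ m) ^ 2 - 1 = (a ^ 2 - 1) * ∑ i ∈ Finset.range m, (a ^ 2) ^ i := by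
    rw [h7, Nat.mul_div_cancel' (by simpa using Nat.sub_dvd_pow_sub_pow (a ^ 2) 1 m), ← pow_mul,
      ← pow_mul, mul_comm]
  rw [h8, show 2 * (a * (a ^ 2 - 1)) = (a ^ 2 - 1) * (2 * a) by ring,
    show a ^ m * ((a ^ 2 - 1) * ∑ i ∈ Finset.range m, (a ^ 2) ^ i) =
      (a ^ 2 - 1) * (a ^ m * ∑ i ∈ Finset.range m, (a ^ 2) ^ i) by ring] at h2
  have h9 : Even (a ^ m * ∑ i ∈ Finset.range m, (a ^ 2) ^ i) :=
    even_iff_two_dvd.2 (Dvd.dvd.trans (Dvd.intro _ rfl) (Nat.dvd_of_mul_dvd_mul_left (by omega) h2))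
  have h10 := (Nat.even_mul.1 h9).resolve_left (Nat.not_even_iff_odd.2 h4.pow)
  rw [Finset.even_sum_iff_even_card_odd, Finset.filter_true_of_mem (fun i _ => h4.pow.pow),
    Finset.card_range] at h10
  exact h10

end Cfsg.Agent.S0805
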