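import Mathlib
import Cfsg.Statements.S0807
import Cfsg.Agent.Max.L2e

set_option autoImplicit false
open Cfsg

namespace Cfsg.Agent.S0807

open scoped Pointwise
open Cfsg.Agent.Max.L2 Cfsg.Agent.Classical.PSL2Basic Cfsg.Agent.Classical.P1Ident
  Cfsg.Agent.Classical.Congr Cfsg.Agent.Classical.P1

/-- For q odd, twelve times the number of Klein four-subgroups of PSL_2(q) equals the order of PSL_2(q). -/
theorem result {F : Type*} [Field F] [Fintype F] {q : ℕ} (hF : Fintype.card F = q) (hodd : Odd q) : 12 * Nat.card {V : Subgroup (Matrix.ProjectiveSpecialLinearGroup (Fin 2) F) // IsKleinFour V} = Nat.card (Matrix.ProjectiveSpecialLinearGroup (Fin 2) F) := by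
  rw [← Nat.card_eq_fintype_card] at hF
  have h2 : (2 : F) ≠ 0 := odd_card_iff.1 (hF ▸ hodd)
  haveI := NeZero.mk h2
  rw [card_family (V0_le_A0.trans A0_le_LL) (fun g => conj_V0_iff) _ isKleinFour_iff]
  have h3 := (S0 F).card_mul_index
  have h4 := Cfsg.Agent.Classical.SLBasic.card_PSL_two (F := F)
  rw [card_S0, card_PGL_two, ← h4, gcd_eq_two h2] at h3
  omega

end Cfsg.Agent.S0807
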