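import Mathlib
import Cfsg.Statements.S0808
import Cfsg.Agent.Max.L2e

set_option autoImplicit false
open Cfsg

namespace Cfsg.Agent.S0808

open scoped Pointwise
open Cfsg.Agent.Max.L2 Cfsg.Agent.Classical.PSL2Basic Cfsg.Agent.Classical.P1Ident
  Cfsg.Agent.Classical.Congr Cfsg.Agent.Classical.P1

/-- Conjugacy classes of four-groups in PSL_2(q), q odd: if q ≡ 3 or 5 (mod 8) all Klein four-subgroups are conjugate; if q ≡ 1 or 7 (mod 8) there are two Klein four-subgroups which are not conjugate, and every Klein four-subgroup is conjugate to one of them. -/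
theorem result {F : Type*} [Field F] [Fintype F] {q : ℕ} (hF : Fintype.card F = q) (hodd : Odd q) : ((q % 8 = 3 ∨ q % 8 = 5) → ∀ V W : Subgroup (Matrix.ProjectiveSpecialLinearGroup (Fin 2) F), IsKleinFour V → IsKleinFour W → ∃ g : Matrix.ProjectiveSpecialLinearGroup (Fin 2) F, W = V.map (MulAut.conj g).toMonoidHom) ∧ ((q % 8 = 1 ∨ q % 8 = 7) → ∃ V₁ V₂ : Subgroup (Matrix.ProjectiveSpecialLinearGroup (Fin 2) F), IsKleinFour V₁ ∧ IsKleinFour V₂ ∧ (¬ ∃ g : Matrix.ProjectiveSpecialLinearGroup (Fin 2) F, V₂ = V₁.map (MulAut.conj g).toMonoidHom) ∧ ∀ W : Subgroup (Matrix.ProjectiveSpecialLinearGroup (Fin 2) F), IsKleinFour W → (∃ g : Matrix.ProjectiveSpecialLinearGroup (Fin 2) F, W = V₁.map (MulAut.conj g).toMonoidHom) ∨ (∃ g : Matrix.ProjectiveSpecialLinearGroup (Fin 2) F, W = V₂.map (MulAut.conj g).toMonoidHom)) := by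
  rw [← Nat.card_eq_fintype_card] at hF
  have h2 : (2 : F) ≠ 0 := odd_card_iff.1 (hF ▸ hodd)
  haveI := NeZero.mk h2
  refine ⟨fun hq V W hV hW => ?_, fun hq => ?_⟩
  · obtain ⟨s, hs, hs'⟩ := SetLike.not_le_iff_exists.1
      (mt S0_le_LL_iff.1 (show ¬ IsSquare (2 : F) by rw [isSquare_two_iff']; omega))
    obtain ⟨a, ha⟩ := (isKleinFour_iff V).1 hV
    obtain ⟨b, hb⟩ := (isKleinFour_iff W).1 hW
    obtain ⟨a', ha1, ha2⟩ := one_class hs' (conj_V0_iff.2 hs) a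
    obtain ⟨b', hb1, hb2⟩ := one_class hs' (conj_V0_iff.2 hs) b
    obtain ⟨x, hx⟩ := exists_conj_PSL (V := V) (W := W) (mul_mem hb1 (inv_mem ha1)) (by
      rw [← ha, ← hb, ← ha2, ← hb2, conj_conj]; simp)
    exact ⟨x, hx.symm⟩
  · obtain ⟨V₁, V₂, h1, h3, h4, h5⟩ := two_classes h2 (V0_le_A0.trans A0_le_LL) fun g hg =>
      S0_le_LL_iff.2 (isSquare_two_iff'.2 (hF ▸ hq)) (conj_V0_iff.1 hg)
    refine ⟨V₁, V₂, (isKleinFour_iff _).2 ⟨1, by simp [h1]⟩, (isKleinFour_iff _).2 h3,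
      fun ⟨g, hg⟩ => h4 g hg.symm, fun W hW => ?_⟩
    exact (h5 W ((isKleinFour_iff _).1 hW)).imp (fun ⟨g, hg⟩ => ⟨g, hg.symm⟩)
      (fun ⟨g, hg⟩ => ⟨g, hg.symm⟩)

end Cfsg.Agent.S0808
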