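import Mathlib
import Cfsg.Statements.S0810
import Cfsg.Agent.Max.L2e

set_option autoImplicit false
open Cfsg

namespace Cfsg.Agent.S0810

open scoped Pointwise
open Cfsg.Agent.Max.L2 Cfsg.Agent.Classical.PSL2Basic Cfsg.Agent.Classical.P1Ident
  Cfsg.Agent.Classical.Congr Cfsg.Agent.Classical.P1

/-- PSL_2(q) is minimal simple iff q is 2^r (r prime), 3^r (r an odd prime), a prime greater than 5 congruent to 2 or 3 mod 5, or 5. -/
theorem result {F : Type*} [Field F] [Fintype F] {q : ℕ} (hF : Fintype.card F = q) : Cfsg.IsMinimalSimple (Matrix.ProjectiveSpecialLinearGroup (Fin 2) F) ↔ ((∃ r : ℕ, r.Prime ∧ q = 2 ^ r) ∨ (∃ r : ℕ, r.Prime ∧ r ≠ 2 ∧ q = 3 ^ r) ∨ (q.Prime ∧ 5 < q ∧ (q % 5 = 2 ∨ q % 5 = 3)) ∨ q = 5) := by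
  rw [← Nat.card_eq_fintype_card] at hF
  subst hF
  obtain ⟨p, hp⟩ := CharP.exists F
  haveI hp' : Fact p.Prime := ⟨CharP.char_is_prime F p⟩
  have hb := Subfield.card_bot F p
  have h1 := Cfsg.Agent.Classical.SLBasic.one_lt_card (F := F)
  constructor
  · rintro ⟨hs, hc, h⟩
    have h4 : 4 ≤ Nat.card F := by
      by_contra h4
      refine hc ⟨⟨IsSimpleGroup.comm_iff_isSolvable.2 ?_⟩⟩
      obtain h4 | h4 : Nat.card F = 2 ∨ Nat.card F = 3 := by omega
      · obtain ⟨f, hf⟩ := exists_injective_perm_PGL (F := F) (n := 3) (by omega)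
        haveI := solvable_S4
        exact Group.isSolvable_of_isSolvable_injective (f := (Equiv.Perm.viaEmbeddingHom
          (Fin.castSuccEmb : Fin 3 ↪ Fin 4)).comp (f.comp toP))
          ((Equiv.Perm.viaEmbeddingHom_injective _).comp (hf.comp toP_injective))
      · exact (solvable_congr (psl_equiv_A4 h4)).2 solvable_A4
    have key : ∀ X : Subgroup (Matrix.ProjGenLinGroup (Fin 2) F), X ≤ LL F → ¬ LL F ≤ X →
        Group.IsSolvable X := fun X h2 h3 => by
      rw [← map_comap_toP h2, ← solvable_congr ⟨eqvP _⟩]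
      exact h _ fun e => h3 (by rw [← map_comap_toP h2, e, ← MonoidHom.range_eq_map])
    have h5 : (2 : F) ≠ 0 → Nat.card F = 5 ∨ ¬ 5 ∣ Nat.card F * (Nat.card F ^ 2 - 1) := fun h2 => by
      haveI := NeZero.mk h2
      by_contra h5
      push Not at h5
      obtain ⟨τ, hτ⟩ := exists_tau_iff.2 h5.2
      have h6 := Nat.odd_iff.1 (odd_card_iff.2 h2)
      have h7 := card_LL_ge (F := F) (by omega)
      refine not_solvable_A5 ((solvable_congr (B0_equiv hτ)).1 (key _ (B0_le_LL hτ) fun e => ?_))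
      have := Subgroup.card_le_of_le e
      rw [card_B0] at this; omega
    by_cases hb' : (⊥ : Subfield F) = ⊤
    · have hq := prime_of_bot hb'
      have h6 : Nat.card F ≠ 2 := by omega
      have h7 := h5 (odd_card_iff.1 (hq.odd_of_ne_two h6))
      rw [five_dvd_iff hq h6] at h7
      have h8 := Nat.odd_iff.1 (hq.odd_of_ne_two h6)
      have h9 : Nat.card F % 5 = 0 → Nat.card F = 5 := fun e =>
        ((Nat.prime_dvd_prime_iff_eq Nat.prime_five hq).1 (by omega)).symm
      by_cases h10 : Nat.card F = 5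
      · exact Or.inr (Or.inr (Or.inr h10))
      · exact Or.inr (Or.inr (Or.inl ⟨hq, by omega, by omega⟩))
    · obtain ⟨K, r, -, hr, e⟩ := exists_max_subfield hb'
      have hK := ne_top_of_pow hr.one_lt.ne' e
      have h6 : ¬ 4 ≤ Nat.card K := fun h6 => not_solvable_subPSL h6 (key _ (subPSL_le_LL K)
        fun e => not_LL_le_subPGL hK (e.trans (subPSL_le_subPGL K)))
      have h7 := Cfsg.Agent.Classical.SLBasic.one_lt_card (F := K)
      obtain h8 | h8 : Nat.card K = 2 ∨ Nat.card K = 3 := by omega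
      · exact Or.inl ⟨r, hr, h8 ▸ e⟩
      · rw [h8] at e
        refine Or.inr (Or.inl ⟨r, hr, ?_, e⟩)
        rintro rfl
        have := h5 (odd_card_iff.1 (by rw [e]; decide))
        rw [e] at this
        norm_num at this
  · intro h
    have h4 : 4 ≤ Nat.card F := by
      rcases h with ⟨r, hr, e⟩ | ⟨r, hr, -, e⟩ | h | h
      · rw [e]; exact Nat.pow_le_pow_right (n := 2) (by norm_num) hr.two_le
      · rw [e]; exact le_trans (by norm_num) (Nat.pow_le_pow_right (n := 3) (by norm_num) hr.two_le)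
      · omega
      · omega
    have hK : ∀ K : Subfield F, K ≠ ⊤ → Nat.card K ≤ 3 := fun K hK => by
      have key : ∀ (s r : ℕ), s.Prime → r.Prime → Nat.card F = s ^ r → Nat.card K = s := by
        intro s r hs hr e
        have h5 : p = s := (Nat.prime_dvd_prime_iff_eq hp'.out hs).1 (hp'.out.dvd_of_dvd_pow
          (e ▸ Cfsg.Agent.Classical.GLBasic.char_dvd_card F p))
        rw [(eq_or_eq_of_prime hr (K := ⊥) (by rw [e, hb, h5]) bot_le).resolve_right hK, hb, h5]
      rcases h with ⟨r, hr, e⟩ | ⟨r, hr, -, e⟩ | h | h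
      · rw [key 2 r Nat.prime_two hr e]; norm_num
      · rw [key 3 r Nat.prime_three hr e]
      · exact absurd (eq_top_of_prime h.1 K) hK
      · exact absurd (eq_top_of_prime (by rw [h]; norm_num) K) hK
    haveI hs := Matrix.ProjectiveSpecialLinearGroup.rank_two_simple (F := F) h4
    refine ⟨hs, fun hc => not_solvable_PSL h4 (IsSimpleGroup.comm_iff_isSolvable.1 hc.is_comm.comm),
      fun H hH => ?_⟩
    rw [solvable_congr ⟨eqvP H⟩]
    have hL : H.map toP ≤ LL F := Subgroup.map_le_range _ _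
    have hL' : ¬ LL F ≤ H.map toP := fun h => hH (Subgroup.map_injective toP_injective
      (by rw [← MonoidHom.range_eq_map]; exact le_antisymm hL h))
    generalize H.map toP = M at hL hL'
    rcases dickson2 M with ⟨x, hx⟩ | ⟨T, D, k, hT, hD⟩ | ⟨h2, e | e | e⟩ | ⟨K, c, h3, e⟩
    · exact solvable_of_le hx (solvable_stab x)
    · exact solvable_of_le hD (solvable_D hT)
    · exact (solvable_congr e).2 solvable_A4
    · exact (solvable_congr e).2 solvable_S4
    · exfalso
      haveI := NeZero.mk h2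
      obtain ⟨τ, hτ, -⟩ := conj_A5' e
      have h5 := exists_tau_iff.1 ⟨τ, hτ⟩
      have h6 := odd_card_iff.2 h2
      rcases h with ⟨r, hr, e'⟩ | ⟨r, hr, hr2, e'⟩ | h | h
      · rw [e', Nat.odd_pow_iff hr.ne_zero] at h6
        exact absurd h6 (by decide)
      · obtain ⟨m, rfl⟩ := hr.odd_of_ne_two hr2
        rw [e'] at h5
        have h7 : 5 ∣ (3 ^ (2 * m + 1)) ^ 2 - 1 := Nat.Coprime.dvd_of_dvd_mul_left
          (Nat.Coprime.pow_right _ (by norm_num)) h5
        have h8 : (3 ^ (2 * m + 1)) ^ 2 % 5 = 4 := by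
          rw [← pow_mul, show (2 * m + 1) * 2 = 4 * m + 2 by ring, pow_add, pow_mul, Nat.mul_mod,
            Nat.pow_mod]
          norm_num
        omega
      · rw [five_dvd_iff h.1 (by omega)] at h5; omega
      · exact hL' (le_of_card_le hL (by
          rw [card_LL_of h, card_of_equiv e Cfsg.Agent.Classical.DicksonSL.card_A5]; norm_num))
    · have h5 := hK K (by rintro rfl; exact hL' (LL_le_of_top e))
      rw [← solvable_conj M c]
      exact solvable_of_le (le_subPGL_of e) (solvable_subPGL (by omega))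

end Cfsg.Agent.S0810
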