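import Mathlib
import Cfsg.Statements.S0811
import Cfsg.Agent.Max.L2d

set_option autoImplicit false
open Cfsg

namespace Cfsg.Agent.S0811

open Cfsg.Agent.Max.L2 Cfsg.Agent.Classical.PSL2Basic Cfsg.Agent.Classical.P1Ident
  Cfsg.Agent.Classical.Congr Cfsg.Agent.Classical.P1

/-- For q ∉ {2, 7, 9}, PSL_2(q) has a maximal subgroup isomorphic to the dihedral group of order 2(q + 1)/d, d = gcd(2, q − 1). -/
theorem result {F : Type*} [Field F] [Fintype F] {q : ℕ} (hF : Fintype.card F = q) (hq : q ∉ ({2, 7, 9} : Finset ℕ)) : ∃ H : Subgroup (Matrix.ProjectiveSpecialLinearGroup (Fin 2) F), IsCoatom H ∧ Nonempty (H ≃* DihedralGroup ((q + 1) / Nat.gcd 2 (q - 1))) := by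
  rw [← Nat.card_eq_fintype_card] at hF
  subst hF
  obtain ⟨T, D, hT⟩ := exists_tor_plus F
  refine exists_max_PSL ?_ hT.DL.1
  simp only [Finset.mem_insert, Finset.mem_singleton, not_or] at hq
  have h1 := Cfsg.Agent.Classical.SLBasic.one_lt_card (F := F)
  have h6 := card_ne_six (F := F)
  by_cases h3 : Nat.card F = 3
  · have h4 : Nat.card ↥(D ⊓ LL F) = 4 := by rw [hT.DL.2, dd, h3]; norm_num
    have h5 : Nat.card (LL F) = 12 := by rw [card_LL_of h3]; norm_num
    refine covBy_of inf_le_right (fun e => ?_) fun K e1 e2 e3 => le_of_card_le e1 ?_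
    · have := Subgroup.card_le_of_le e; omega
    · have h7 := Subgroup.card_dvd_of_le e1
      have h8 := Subgroup.card_dvd_of_le e2
      have h9 : Nat.card K ≠ 12 := fun e => e3 (le_of_card_le e2 (by omega))
      rw [h5] at h8
      rw [h4] at h7 ⊢
      have := Nat.le_of_dvd (by norm_num) h8
      generalize Nat.card K = n at *
      interval_cases n <;> simp_all
  · apply max_D hT
    by_cases h2 : (2 : F) = 0
    · have := Nat.even_iff.1 (even_card_iff.2 h2)
      rw [dd, gcd_eq_one h2]; omega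
    · have := Nat.odd_iff.1 (odd_card_iff.2 h2)
      rw [dd, gcd_eq_two h2]; omega

end Cfsg.Agent.S0811
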