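import Mathlib
import Cfsg.Statements.S0812
import Cfsg.Agent.Max.L2d

set_option autoImplicit false
open Cfsg

namespace Cfsg.Agent.S0812

open Cfsg.Agent.Max.L2 Cfsg.Agent.Classical.PSL2Basic Cfsg.Agent.Classical.P1Ident
  Cfsg.Agent.Classical.Congr Cfsg.Agent.Classical.P1

/-- For q ∉ {2, 3, 5, 7, 9, 11}, PSL_2(q) has a maximal subgroup isomorphic to the dihedral group of order 2(q − 1)/d, d = gcd(2, q − 1). -/
theorem result {F : Type*} [Field F] [Fintype F] {q : ℕ} (hF : Fintype.card F = q) (hq : q ∉ ({2, 3, 5, 7, 9, 11} : Finset ℕ)) : ∃ H : Subgroup (Matrix.ProjectiveSpecialLinearGroup (Fin 2) F), IsCoatom H ∧ Nonempty (H ≃* DihedralGroup ((q - 1) / Nat.gcd 2 (q - 1))) := by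
  rw [← Nat.card_eq_fintype_card] at hF
  subst hF
  obtain ⟨T, D, hT⟩ := exists_tor_minus F
  refine exists_max_PSL ?_ hT.DL.1
  simp only [Finset.mem_insert, Finset.mem_singleton, not_or] at hq
  have h1 := Cfsg.Agent.Classical.SLBasic.one_lt_card (F := F)
  have h6 := card_ne_six (F := F)
  apply max_D hT
  by_cases h2 : (2 : F) = 0
  · have := Nat.even_iff.1 (even_card_iff.2 h2)
    rw [dd, gcd_eq_one h2]; omega
  · have := Nat.odd_iff.1 (odd_card_iff.2 h2)
    rw [dd, gcd_eq_two h2]; omega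

end Cfsg.Agent.S0812
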