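import Mathlib
import Cfsg.Statements.S0814
import Cfsg.Agent.Classical.AutSp4

set_option autoImplicit false
set_option backward.isDefEq.respectTransparency false
open Cfsg

namespace Cfsg.Agent.S0814

open Classical.AutSp2 Classical.AutSp4

/-- |Aut(PSp_2m(q))| = gcd(2, q−1) · f · |PSp_2m(q)| for q = p^f, m ≥ 2, (m, q) ≠ (2, 2), with an extra factor 2 exactly when m = 2 and p = 2. -/
theorem result {F : Type*} [Field F] [Fintype F] (p f : ℕ) [Fact p.Prime] (hf : 1 ≤ f) (hF : Fintype.card F = p ^ f) (m : ℕ) (hm : 2 ≤ m) (h22 : m = 2 → 3 ≤ p ^ f) : Nat.card (MulAut (Cfsg.PSp m F)) = (if m = 2 ∧ p = 2 then 2 else 1) * Nat.gcd 2 (p ^ f - 1) * f * Nat.card (Cfsg.PSp m F) := by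
  have hF' : Nat.card F = p ^ f := by rw [Nat.card_eq_fintype_card, hF]
  haveI : CharP F p := Classical.Congr.charP_of_card hF'
  haveI : NeZero m := ⟨by omega⟩
  have hf := Classical.AutPSL2.card_ringAut hF'
  have hD := card_range_dS (m := m) (F := F)
  rw [hF'] at hD
  split_ifs with h
  · obtain ⟨rfl, rfl⟩ := h
    rw [Subgroup.card_eq_card_quotient_mul_card_subgroup (Inn _), card_out, hf,
      ← le_antisymm (a := (dS : GSp 2 F →* _).range) (by rintro _ ⟨g, rfl⟩; exact dS_mem_inn g)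
        inn_le, hD]
    ring
  · have h' : (2 : F) ≠ 0 ∨ 3 ≤ m := by
      by_cases h3 : 3 ≤ m
      · exact Or.inr h3
      · refine Or.inl fun h2 => h ⟨by omega, ?_⟩
        have := (CharP.cast_eq_zero_iff F p 2).1 (by exact_mod_cast h2)
        exact (Nat.prime_dvd_prime_iff_eq Fact.out Nat.prime_two).1 this
    rw [← Nat.card_congr (Equiv.ofBijective
      (fun x : (dS : GSp m F →* _).range × (F ≃+* F) => x.1.1 * fS m x.2) ⟨?_, fun β => ?_⟩),
      Nat.card_prod, hD, hf]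
    · ring
    · rintro ⟨⟨_, g, rfl⟩, σ⟩ ⟨⟨_, g', rfl⟩, σ'⟩ e
      simp only at e
      obtain rfl : σ = σ' := mul_inv_eq_one.1 (eq_one_of_dS_mul_fS (g := g'⁻¹ * g) (by
        rw [map_mul, map_mul, mul_assoc, ← mul_assoc (dS g), e]; simp))
      rw [mul_left_inj] at e
      simp [e]
    · obtain ⟨g, σ, rfl⟩ := exists_decomp hm h' β
      exact ⟨⟨⟨_, g, rfl⟩, σ⟩, rfl⟩

end Cfsg.Agent.S0814
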