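import Mathlib
import Cfsg.Statements.S0816
import Cfsg.Agent.Classical.GamO7

set_option autoImplicit false
set_option backward.isDefEq.respectTransparency false
open Cfsg

namespace Cfsg.Agent.S0816

open Classical.GamO Classical.AutPSL2 Orth

/-- |Aut(PΩ_(2m+1)(q))| = 2 f · |PΩ_(2m+1)(q)| for q = p^f odd and m ≥ 3 (for the form quadFormOdd). -/
theorem result {F : Type*} [Field F] [Fintype F] (p f : ℕ) [Fact p.Prime] (hf : 1 ≤ f) (hF : Fintype.card F = p ^ f) (hodd : Odd p) (m : ℕ) (hm : 3 ≤ m) : Nat.card (MulAut (Cfsg.POmega F (Cfsg.quadFormOdd m F))) = 2 * f * Nat.card (Cfsg.POmega F (Cfsg.quadFormOdd m F)) := by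
  have h2 : (2 : F) ≠ 0 := two_ne_zero_of_odd (hF ▸ hodd.pow)
  have h := big_oddQ (m := m) h2 (by omega)
  haveI := isCyclic_ringAut (F := F)
  obtain ⟨σ, hσ⟩ := IsCyclic.exists_ofOrder_eq_natCard (α := F ≃+* F)
  have := (model_aM h).card_aut (surj_odd h2 hm) (center_POmega h) (b := std σ (std_odd σ)) hσ
  rwa [relIndex_GO_two h (Or.inr ⟨m, finrank_odd⟩),
    card_ringAut (Nat.card_eq_fintype_card.trans hF)] at this

end Cfsg.Agent.S0816
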