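import Mathlib
import Cfsg.Statements.S0818
import Cfsg.Agent.Classical.GamO7

set_option autoImplicit false
set_option backward.isDefEq.respectTransparency false
open Cfsg

namespace Cfsg.Agent.S0818

open Classical.GamO Classical.AutPSL2 Orth

/-- |Aut(PΩ⁻_2m(q))| for q = p^f, m ≥ 4 (form quadFormMinus (m−1) with anisotropic binary part): |PΩ⁻_2m(q)| times f, times 2 if p = 2, and times 4 or 8 if p is odd according as m(q−1)/2 is even or odd. -/
theorem result {F : Type*} [Field F] [Fintype F] (p f : ℕ) [Fact p.Prime] (hf : 1 ≤ f) (hF : Fintype.card F = p ^ f) (m : ℕ) (hm : 4 ≤ m) (a b : F) (hab : ∀ z₁ z₂ : F, z₁ ^ 2 + a * z₁ * z₂ + b * z₂ ^ 2 = 0 → z₁ = 0 ∧ z₂ = 0) : Nat.card (MulAut (Cfsg.POmega F (Cfsg.quadFormMinus (m - 1) F a b))) = (if p = 2 then 2 else (if Even (m * (p ^ f - 1) / 2) then 4 else 8)) * f * Nat.card (Cfsg.POmega F (Cfsg.quadFormMinus (m - 1) F a b)) := by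
  obtain ⟨k, rfl⟩ : ∃ k, m = k + 1 := ⟨m - 1, by omega⟩
  have h := big_minusQ (m := k) (by omega) hab
  have hF' := Nat.card_eq_fintype_card.trans hF
  obtain ⟨c, -, -, -, hc, -⟩ := exists_frob h (not_isPlus_minusQ k hab) finrank_minus hf hF'
  have := (model_aM h).card_aut (surj_minus (by omega) hab) (center_POmega h)
    (hc.trans (card_ringAut hF').symm)
  rw [card_ringAut hF'] at this
  refine this.trans (congrArg (· * f * _) ?_)
  haveI := Classical.Congr.charP_of_card hF'
  split_ifs with h1 h3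
  · subst h1
    exact relIndex_GO_two h (Or.inl two_eq_zero_of_charP)
  all_goals
    have ho : Odd (Fintype.card F) := hF ▸ ((Fact.out : p.Prime).odd_of_ne_two h1).pow
    have h4 := negOne_minus (m := k) ho hab
    have h5 : Even ((k + 1) * (p ^ f - 1) / 2) ↔ ¬ (Even k ∧ Fintype.card F % 4 = 3) := by
      obtain ⟨s, hs⟩ := ho
      rw [← hF, hs, Nat.add_sub_cancel, mul_left_comm, Nat.mul_div_cancel_left _ two_pos,
        Nat.even_mul, Nat.even_add_one, Nat.even_iff (n := s)]
      by_cases hk : Even k <;> simp [hk]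
      omega
    rw [relIndex_GO_eq h (two_ne_zero_of_odd ho) finrank_minus]
  · rw [Subgroup.relIndex_eq_one.2 (SZ_le h (even_of_eq finrank_minus) (h4.not.2 (h5.1 h3)))]
  · rw [relIndex_SZ_of_mem h (two_ne_zero_of_odd ho) (h4.2 (not_not.1 (h5.not.1 h3)))]

end Cfsg.Agent.S0818
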