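import Mathlib
import Cfsg.Statements.S0819
import Cfsg.Agent.Spec.L3
import Cfsg.Agent.Classical.Congr

set_option autoImplicit false
set_option backward.isDefEq.respectTransparency false
open Cfsg

namespace Cfsg.Agent.S0819

/-- No element of PSL_3(4) has order 15. -/
theorem result {F : Type*} [Field F] [Fintype F] (hF : Fintype.card F = 4) (g : Matrix.ProjectiveSpecialLinearGroup (Fin 3) F) : orderOf g ≠ 15 := by
  intro h
  have hc : Nat.card F = 4 := by rw [Nat.card_eq_fintype_card, hF]
  haveI := Classical.Congr.charP_of_card (F := F) (p := 2) (k := 2) hc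
  have := Spec.L3_upper 2 g
  rw [h, hc] at this
  revert this; decide

end Cfsg.Agent.S0819
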