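import Mathlib
import Cfsg.Statements.S0820
import Cfsg.Agent.Classical.MinIdx

set_option autoImplicit false
set_option backward.isDefEq.respectTransparency false
open Cfsg

namespace Cfsg.Agent.S0820

open Cfsg.Agent.Classical Cfsg.Agent.Classical.LS Cfsg.Agent.Classical.Transv Matrix

theorem lift {F : Type*} [Field F] [Fintype F] (hF : Fintype.card F = 4)
    (x : Matrix.ProjectiveSpecialLinearGroup (Fin 3) F) (hx : orderOf x = 2) :
    ∃ (u φ : Fin 3 → F) (h : _), u ≠ 0 ∧ φ ≠ 0 ∧ x = (tv u φ h : Matrix.SpecialLinearGroup _ F) := by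
  obtain ⟨g, rfl⟩ := QuotientGroup.mk_surjective x
  have h2 : (2 : F) = 0 := by
    have h5 : ((Fintype.card F : ℕ) : F) = 0 := FiniteField.cast_card_eq_zero F
    rw [hF] at h5
    have : (2 : F) ^ 2 = 0 := by push_cast at h5; linear_combination h5
    simpa using this
  have h1 : g ^ 2 ∈ Subgroup.center _ := by
    rw [← QuotientGroup.eq_one_iff, QuotientGroup.mk_pow, ← hx, pow_orderOf_eq_one]
  have hc := SLBasic.card_center_SL (F := F) (ι := Fin 3)
  rw [Nat.card_eq_fintype_card (α := F), hF] at hc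
  have h3 : (g ^ 2) ^ 3 = 1 := by
    have := pow_card_eq_one' (x := (⟨_, h1⟩ : Subgroup.center _))
    rw [hc] at this
    exact congrArg Subtype.val this
  have h4 : (QuotientGroup.mk (g ^ 3) : Matrix.ProjectiveSpecialLinearGroup (Fin 3) F) =
      QuotientGroup.mk g := by
    rw [pow_succ, QuotientGroup.mk_mul, (QuotientGroup.eq_one_iff _).2 h1, one_mul]
  obtain ⟨u, φ, h, hu, hφ, e⟩ := eq_tv_of_sq (g := g ^ 3) (by simp) h2
    (by rw [← h3]; group) fun h => by
      rw [← h4, h] at hx; simp at hx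
  exact ⟨u, φ, h, hu, hφ, by rw [← h4, e]⟩

/-- Any two elements of order 2 of PSL_3(4) are conjugate. -/
theorem result {F : Type*} [Field F] [Fintype F] (hF : Fintype.card F = 4) (x y : Matrix.ProjectiveSpecialLinearGroup (Fin 3) F) (hx : orderOf x = 2) (hy : orderOf y = 2) : IsConj x y := by
  obtain ⟨u, φ, h, hu, hφ, rfl⟩ := lift hF x hx
  obtain ⟨u', φ', h', hu', hφ', rfl⟩ := lift hF y hy
  obtain ⟨g, hg⟩ := isConj_tv (by simp) hu hφ hu' hφ' h h'
  exact (QuotientGroup.mk' _).map_isConj (isConj_iff.2 ⟨g, hg⟩)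

end Cfsg.Agent.S0820
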