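import Mathlib
import Cfsg.Statements.S0821
import Cfsg.Agent.Classical.BC

set_option autoImplicit false
set_option backward.isDefEq.respectTransparency false
open Cfsg

namespace Cfsg.Agent.S0821

/-- PSp_2m(q) ≇ PΩ_(2m+1)(q) for q odd and m ≥ 3 (they have the same order). -/
theorem result {F : Type*} [Field F] [Fintype F] (hodd : Odd (Fintype.card F)) (m : ℕ) (hm : 3 ≤ m) : IsEmpty (Cfsg.PSp m F ≃* Cfsg.POmega F (Cfsg.quadFormOdd m F)) := by
  obtain ⟨k, ⟨g, hg⟩, h2⟩ := Classical.BC.exists_order hodd hm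
  exact ⟨fun e => h2 (e g) (by rw [e.orderOf_eq, hg])⟩

end Cfsg.Agent.S0821
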