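import Mathlib
import Cfsg.Statements.S0823
import Cfsg.Agent.Orth.SymO2
-- import your own Cfsg.Agent.* helpers here

set_option autoImplicit false
open Cfsg

namespace Cfsg.Agent.S0823

open Orth Classical Fischer Module QuadraticMap

/-- SO_3(3) ≅ S_4: the determinant-one isometries of the form x_0² + x_1y_1 over the field with 3 elements form a group isomorphic to the symmetric group on 4 letters. -/
theorem result {F : Type*} [Field F] [Fintype F] (hF : Fintype.card F = 3) : Nonempty (↥(Cfsg.specialIsometryGroup F (Cfsg.quadFormOdd 1 F)) ≃* Equiv.Perm (Fin 4)) := by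
  have h3 : (3 : F) = 0 := by simpa [hF] using FiniteField.cast_card_eq_zero F
  have h2 : (2 : F) ≠ 0 := two_ne_zero_of_odd (by rw [hF]; decide)
  let c : ℕ → Unit ⊕ (Fin 1 ⊕ Fin 1) → F := fun i => [Sum.elim (fun _ => 1) (Sum.elim ![0] ![0]),
    Sum.elim (fun _ => 1) (Sum.elim ![0] ![-1]), Sum.elim (fun _ => 0) (Sum.elim ![1] ![1])].getD i 0
  have h1 : ∀ i, i < 3 → oddQ 1 F (c i) = 1 := fun i hi => by
    interval_cases i <;> simp [c, oddQ_apply]
  have hc := coxA_refl (Q := oddQ 1 F) c one_ne_zero h1 (fun i hi => by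
      have : i < 2 := by omega
      interval_cases i <;> simp [c, polar_oddQ]
      linear_combination h3)
    (fun i j hij hj => by
      obtain ⟨rfl, rfl⟩ : i = 0 ∧ j = 2 := by omega
      simp [c, polar_oddQ])
  have hn : detO (oddQ 1 F) (negOne _) = -1 := by
    have : (negOne (oddQ 1 F)).1.toLinearMap = (-1 : F) • LinearMap.id := by ext; simp
    rw [detO_apply, this, LinearMap.det_smul]; norm_num
  let S := Cfsg.specialIsometryGroup F ⇑(oddQ 1 F)
  let f : S →* OG (oddQ 1 F) := (toOG _).toMonoidHom.comp S.subtype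
  have hf : Function.Injective f := (toOG _).injective.comp S.subtype_injective
  have hg : ∀ i, ∃ g : S, i < 3 → f g = negOne _ * refl _ (c i) := fun i => by
    by_cases hi : i < 3
    · exact ⟨⟨(toOG _).symm (negOne _ * refl _ (c i)), (mem_specialIsometryGroup _).2 (by
        simp [hn, detO_refl (h1 i hi ▸ one_ne_zero)])⟩, fun _ => (toOG _).apply_symm_apply _⟩
    · exact ⟨1, fun h => absurd h hi⟩
  choose g hg using hg
  have hz : ∀ a b : OG (oddQ 1 F), negOne _ * a * (negOne _ * b) = a * b := fun a b => by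
    rw [← negOne_comm, mul_assoc, ← mul_assoc (negOne _), negOne_mul_self, one_mul]
  obtain ⟨φ, hφ, -⟩ := AltHom.sym4_inj (g := g) ⟨fun i hi => hf (by simp [hg i hi, hz]),
    fun i hi => hf (by
      simp only [map_mul, hg i (by omega), hg _ hi, hz]
      simp only [← negOne_comm, ← mul_assoc, hc.braid i hi]),
    fun i j hij hj => hf (by
      simp only [map_mul, hg i (by omega), hg _ hj, hz, (hc.comm i j hij hj).eq])⟩ fun h => by
    have h4 := congrArg f h
    rw [hg 0 (by omega), hg 2 (by omega), mul_right_inj] at h4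
    obtain ⟨d, hd⟩ := (nd_oddQ 1 h2).exists_of_refl_eq (h1 0 (by omega) ▸ one_ne_zero) h4
    simpa [c] using congrFun hd (.inl ())
  refine AltHom.equiv_of_injective φ hφ ?_
  have h4 := S.index_mul_card
  have h5 : S.index ≠ 1 := fun h => by
    have := (mem_specialIsometryGroup _).1
      (Subgroup.index_eq_one.1 h ▸ Subgroup.mem_top ((toOG _).symm (negOne _)))
    rw [MulEquiv.apply_symm_apply, hn] at this
    exact h2 (by linear_combination -this)
  rw [Nat.card_congr (toOG _).toEquiv, card_OG_oddQ h2, Nat.card_eq_fintype_card (α := F), hF] at h4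
  rw [Nat.card_perm, Nat.card_fin]
  change Nat.card S ≤ 24
  norm_num at h4
  rcases hi : S.index with _ | _ | k <;> rw [hi] at h4 h5 <;> first | omega | nlinarith

end Cfsg.Agent.S0823
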