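import Mathlib
import Cfsg.Statements.S0828
import Cfsg.Agent.Classical.SpSum

set_option autoImplicit false
set_option backward.isDefEq.respectTransparency false
open Cfsg

namespace Cfsg.Agent.S0828

open Module Classical.SpSum Classical.SpMat Classical.SpWitt

theorem double_count {A B : Type*} [Finite A] [Finite B] (r : A → B → Prop) {x y : ℕ}
    (hx : ∀ a, Nat.card {b // r a b} = x) (hy : ∀ b, Nat.card {a // r a b} = y) :
    Nat.card A * x = Nat.card B * y := by
  have := Fintype.ofFinite A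
  have := Fintype.ofFinite B
  have e : (Σ a, {b // r a b}) ≃ Σ b, {a // r a b} :=
    ⟨fun p => ⟨p.2.1, p.1, p.2.2⟩, fun p => ⟨p.2.1, p.1, p.2.2⟩, fun _ => rfl, fun _ => rfl⟩
  have := Nat.card_congr e
  simpa [Nat.card_sigma, hx, hy] using this

section
variable {F V : Type*} [Field F] [Finite F] [AddCommGroup V] [Module F V] [FiniteDimensional F V]

theorem card_diff {U W : Submodule F V} (h : U ≤ W) :
    Nat.card {w // w ∈ W ∧ w ∉ U} = Nat.card F ^ finrank F W - Nat.card F ^ finrank F U := by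
  have := Module.finite_of_finite F (M := V)
  rw [← Module.natCard_eq_pow_finrank, ← Module.natCard_eq_pow_finrank]
  exact Set.ncard_diff (s := (U : Set V)) (t := W) h

theorem card_lines {B : LinearMap.BilinForm F V} (hA : B.IsAlt) (hB : B.Nondegenerate)
    (hV : finrank F V = 4) {v : V} (hv : v ≠ 0) :
    Nat.card {W : Submodule F V // finrank F W = 2 ∧ v ∈ W ∧ ∀ u ∈ W, ∀ w ∈ W, B u w = 0} =
      Nat.card F + 1 := by
  have := Module.finite_of_finite F (M := V)
  have : Finite (Submodule F V) := Finite.of_injective _ SetLike.coe_injective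
  have h1 := finrank_span_singleton (K := F) hv
  have hle : (F ∙ v) ≤ B.orthogonal (F ∙ v) := fun x hx y hy => by
    obtain ⟨a, rfl⟩ := Submodule.mem_span_singleton.1 hx
    obtain ⟨b, rfl⟩ := Submodule.mem_span_singleton.1 hy
    simp [LinearMap.BilinForm.IsOrtho, hA.self_eq_zero]
  have h2 := double_count (A := {w // w ∈ B.orthogonal (F ∙ v) ∧ w ∉ F ∙ v})
    (B := {W : Submodule F V // finrank F W = 2 ∧ v ∈ W ∧ ∀ u ∈ W, ∀ w ∈ W, B u w = 0})
    (fun w W => w.1 ∈ W.1) (x := 1) (y := Nat.card F ^ 2 - Nat.card F ^ 1) ?_ ?_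
  · rw [card_diff hle, h1, show finrank F (B.orthogonal (F ∙ v)) = 3 by
      have := finrank_orth hB (F ∙ v); omega] at h2
    have h3 : 1 < Nat.card F := Finite.one_lt_card
    obtain ⟨k, hk⟩ : ∃ k, Nat.card F = k + 1 := ⟨Nat.card F - 1, by omega⟩
    rw [hk] at h2 h3 ⊢
    rw [show (k + 1) ^ 3 - (k + 1) ^ 1 = (k + 1 + 1) * (k * (k + 1)) from
      Nat.sub_eq_of_eq_add (by ring), show (k + 1) ^ 2 - (k + 1) ^ 1 = k * (k + 1) from
      Nat.sub_eq_of_eq_add (by ring), mul_one] at h2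
    exact (Nat.eq_of_mul_eq_mul_right (Nat.mul_pos (by omega) (by omega)) h2).symm
  · rintro ⟨w, hw, hw'⟩
    have h3 : finrank F ↥((F ∙ v) ⊔ F ∙ w) = 2 := by
      rw [Submodule.finrank_sup_span_singleton hw', h1]
    have h4 : B v w = 0 := hw v (Submodule.mem_span_singleton_self v)
    have h5 : B w v = 0 := hA.isRefl _ _ h4
    refine Nat.card_eq_one_iff_unique.2 ⟨⟨?_⟩, ⟨⟨⟨(F ∙ v) ⊔ F ∙ w, h3,
      Submodule.mem_sup_left (Submodule.mem_span_singleton_self v), fun x hx y hy => ?_⟩,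
      Submodule.mem_sup_right (Submodule.mem_span_singleton_self w)⟩⟩⟩
    · have h6 (W : Submodule F V) (h : finrank F W = 2) (a : v ∈ W) (b : w ∈ W) :
          (F ∙ v) ⊔ (F ∙ w) = W := Submodule.eq_of_le_of_finrank_eq
        (sup_le ((Submodule.span_singleton_le_iff_mem _ _).2 a)
          ((Submodule.span_singleton_le_iff_mem _ _).2 b)) (h3.trans h.symm)
      rintro ⟨⟨W, a, b, -⟩, c⟩ ⟨⟨W', a', b', -⟩, c'⟩
      exact Subtype.ext (Subtype.ext ((h6 W a b c).symm.trans (h6 W' a' b' c')))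
    · obtain ⟨_, hx1, _, hx2, rfl⟩ := Submodule.mem_sup.1 hx
      obtain ⟨_, hy1, _, hy2, rfl⟩ := Submodule.mem_sup.1 hy
      obtain ⟨a, rfl⟩ := Submodule.mem_span_singleton.1 hx1
      obtain ⟨b, rfl⟩ := Submodule.mem_span_singleton.1 hx2
      obtain ⟨c, rfl⟩ := Submodule.mem_span_singleton.1 hy1
      obtain ⟨d, rfl⟩ := Submodule.mem_span_singleton.1 hy2
      simp [hA.self_eq_zero, h4, h5]
  · rintro ⟨W, a, b, c⟩
    have h3 := card_diff ((Submodule.span_singleton_le_iff_mem _ _).2 b)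
    rw [a, h1] at h3
    rw [← h3]
    refine Nat.card_congr ⟨fun x => ⟨x.1.1, x.2, x.1.2.2⟩, fun x => ⟨⟨x.1, fun y hy => ?_, x.2.2⟩,
      x.2.1⟩, fun _ => rfl, fun _ => rfl⟩
    exact c _ ((Submodule.span_singleton_le_iff_mem _ _).2 b hy) _ x.2.1

theorem card_all {B : LinearMap.BilinForm F V} (hA : B.IsAlt) (hB : B.Nondegenerate)
    (hV : finrank F V = 4) :
    Nat.card {W : Submodule F V // finrank F W = 2 ∧ ∀ u ∈ W, ∀ w ∈ W, B u w = 0} =
      (Nat.card F + 1) * (Nat.card F ^ 2 + 1) := by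
  have := Module.finite_of_finite F (M := V)
  have : Finite (Submodule F V) := Finite.of_injective _ SetLike.coe_injective
  have h2 := double_count (A := {w // w ∈ (⊤ : Submodule F V) ∧ w ∉ (⊥ : Submodule F V)})
    (B := {W : Submodule F V // finrank F W = 2 ∧ ∀ u ∈ W, ∀ w ∈ W, B u w = 0})
    (fun w W => w.1 ∈ W.1) (x := Nat.card F + 1) (y := Nat.card F ^ 2 - Nat.card F ^ 0) ?_ ?_
  · rw [card_diff bot_le, finrank_top, hV, finrank_bot] at h2
    have h3 : 1 < Nat.card F ^ 2 := Nat.one_lt_pow two_ne_zero Finite.one_lt_card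
    obtain ⟨k, hk⟩ : ∃ k, Nat.card F ^ 2 = k + 1 := ⟨Nat.card F ^ 2 - 1, by omega⟩
    rw [show Nat.card F ^ 4 = (Nat.card F ^ 2) ^ 2 by ring, hk, pow_zero,
      show (k + 1) ^ 2 - 1 = (k + 1 + 1) * k from Nat.sub_eq_of_eq_add (by ring),
      Nat.add_sub_cancel] at h2
    rw [hk]
    refine Nat.eq_of_mul_eq_mul_right (show 0 < k by omega) ?_
    rw [← h2]; ring
  · rintro ⟨v, -, hv⟩
    rw [← card_lines hA hB hV hv]
    exact Nat.card_congr ⟨fun x => ⟨x.1.1, x.1.2.1, x.2, x.1.2.2⟩,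
      fun x => ⟨⟨x.1, x.2.1, x.2.2.2⟩, x.2.2.1⟩, fun _ => rfl, fun _ => rfl⟩
  · rintro ⟨W, a, c⟩
    have h3 := card_diff (bot_le (a := W))
    rw [a, finrank_bot] at h3
    rw [← h3]
    exact Nat.card_congr ⟨fun x => ⟨x.1.1, x.2, x.1.2.2⟩, fun x => ⟨⟨x.1, trivial, x.2.2⟩,
      x.2.1⟩, fun _ => rfl, fun _ => rfl⟩

end

/-- The symplectic generalised quadrangle over a field with q elements: the number of 2-dimensional subspaces of F^4 on which the symplectic form vanishes is (q + 1)(q² + 1), and every non-zero vector lies in exactly q + 1 of them. -/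
theorem result {F : Type*} [Field F] [Fintype F] {q : ℕ} (hF : Fintype.card F = q) : Nat.card {W : Submodule F (Fin 2 ⊕ Fin 2 → F) // Module.finrank F W = 2 ∧ ∀ u ∈ W, ∀ v ∈ W, Cfsg.sympForm 2 F u v = 0} = (q + 1) * (q ^ 2 + 1) ∧ ∀ v : Fin 2 ⊕ Fin 2 → F, v ≠ 0 → Nat.card {W : Submodule F (Fin 2 ⊕ Fin 2 → F) // Module.finrank F W = 2 ∧ v ∈ W ∧ ∀ u ∈ W, ∀ w ∈ W, Cfsg.sympForm 2 F u w = 0} = q + 1 := by
  simp only [sympForm_eq]
  rw [← hF, ← Nat.card_eq_fintype_card]
  exact ⟨card_all sB_alt sB_nondeg (by simp), fun v hv => card_lines sB_alt sB_nondeg (by simp) hv⟩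

end Cfsg.Agent.S0828
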