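import Mathlib
import Cfsg.Statements.S0829
import Cfsg.Agent.Herm.Matrix
import Cfsg.Agent.Herm.Iso
-- import your own Cfsg.Agent.* helpers here

set_option autoImplicit false
open Cfsg

namespace Cfsg.Agent.S0829

/-- The unitary quadrangle of PSU_4(q): with |F| = q², the number of 2-dimensional subspaces of F^4 on which the Hermitian form Σ x_i y_i^q vanishes is (q + 1)(q³ + 1). -/
theorem result {F : Type*} [Field F] [Fintype F] {q : ℕ} (hF : Fintype.card F = q ^ 2) : Nat.card {W : Submodule F (Fin 4 → F) // Module.finrank F W = 2 ∧ ∀ u ∈ W, ∀ v ∈ W, Cfsg.hermForm 4 F q u v = 0} = (q + 1) * (q ^ 3 + 1) := by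
  have hF' := Herm.natCard_of_card hF
  have hB := Herm.hf_sB hF' 4
  have h := hB.card_iso_mul hF' (k := 2) (by simp)
  have h2 := Herm.two_le_of_card hF'
  have e : Nat.card {W : Submodule F (Fin 4 → F) // Module.finrank F W = 2 ∧ ∀ u ∈ W, ∀ v ∈ W,
      Cfsg.hermForm 4 F q u v = 0} = Nat.card {W : Submodule F (Fin 4 → F) //
        Module.finrank F W = 2 ∧ Herm.Iso (Herm.sB hF' 4) W} := by
    apply Nat.card_congr
    apply Equiv.subtypeEquivRight
    intro W
    simp only [Herm.hermForm_eq hF']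
    exact and_congr_right fun _ => ⟨fun h u hu v hv => h v hv u hu, fun h u hu v hv => h v hv u hu⟩
  rw [e]
  generalize Nat.card {W : Submodule F (Fin 4 → F) //
        Module.finrank F W = 2 ∧ Herm.Iso (Herm.sB hF' 4) W} = N at h
  norm_num [Herm.ordU, Finset.prod_range_succ, Fin.prod_univ_two, Nat.even_add_one] at h
  have h3 : 1 < q ^ 2 := Nat.one_lt_pow (by norm_num) h2
  have h4 : 1 < (q ^ 2) ^ 2 := Nat.one_lt_pow (by norm_num) h3
  have h5 : q ^ 2 < (q ^ 2) ^ 2 := by nlinarith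
  have h6 : 1 < q ^ 4 := Nat.one_lt_pow (by norm_num) h2
  have h7 : q ^ 4 * (((q ^ 2) ^ 2 - 1) * ((q ^ 2) ^ 2 - q ^ 2)) ≠ 0 :=
    mul_ne_zero (by positivity) (mul_ne_zero (by omega) (by omega))
  apply mul_right_cancel₀ h7
  rw [h]
  zify [h3.le, h4.le, h5.le, h6.le]
  ring

end Cfsg.Agent.S0829
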