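import Mathlib
import Cfsg.Statements.S0832
import Cfsg.Agent.Orth.Class2
-- import your own Cfsg.Agent.* helpers here

set_option autoImplicit false
open Cfsg

namespace Cfsg.Agent.S0832

/-- For the form Σ x_i y_i on F^(2m) over a finite field, m ≥ 1: an (m−1)-dimensional subspace on which the form vanishes is contained in exactly two m-dimensional subspaces on which it vanishes. -/
theorem result {F : Type*} [Field F] [Finite F] (m : ℕ) (hm : 1 ≤ m) (U : Submodule F (Fin m ⊕ Fin m → F)) (hU : Module.finrank F U + 1 = m ∧ ∀ u ∈ U, Cfsg.quadFormPlus m F u = 0) : Nat.card {W : Submodule F (Fin m ⊕ Fin m → F) // Module.finrank F W = m ∧ (∀ w ∈ W, Cfsg.quadFormPlus m F w = 0) ∧ U ≤ W} = 2 := by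
  have hQ := Orth.nd_plusQ (F := F) m
  have hn := Orth.finrank_plus (F := F) m
  have hUs : Orth.Sing (Orth.plusQ m F) U := hU.2
  obtain ⟨g, hg⟩ := hQ.exists_map_le hUs (Orth.sing_stdX m) (by rw [Orth.finrank_stdX]; omega)
  set W := (Orth.stdX m F).map ((g⁻¹).1 : (Fin m ⊕ Fin m → F) →ₗ[F] (Fin m ⊕ Fin m → F)) with hWdef
  have hW : Orth.Sing (Orth.plusQ m F) W := (Orth.sing_stdX m).map_og _
  have dW : Module.finrank F W = m := by rw [Orth.finrank_map_og, Orth.finrank_stdX]
  have hUW : U ≤ W := fun u hu => ⟨g.1 u, hg ⟨u, hu, rfl⟩, by simp⟩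
  have : ∃ v ∈ Orth.perp (Orth.plusQ m F) U, Orth.plusQ m F v ≠ 0 := by
    by_contra hc
    push Not at hc
    have h1 := hQ.two_mul_finrank_le hc
    have h2 := hQ.finrank_perp_add U
    omega
  obtain ⟨v, hv, hv'⟩ := this
  set X := W.map ((Orth.refl (Orth.plusQ m F) v).1 : (Fin m ⊕ Fin m → F) →ₗ[F] (Fin m ⊕ Fin m → F)) with hXdef
  have hX : Orth.Sing (Orth.plusQ m F) X := hW.map_og _
  have dX : Module.finrank F X = m := by rw [Orth.finrank_map_og, dW]
  have hUX : U ≤ X := fun u hu => ⟨u, hUW hu, Orth.refl_apply_of_orth (Orth.mem_perp'.1 hv u hu)⟩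
  have hWX := hQ.finrank_inf_refl hn hW dW hv'
  rw [← hXdef] at hWX
  have key : ∀ A B : Submodule F (Fin m ⊕ Fin m → F), Module.finrank F A = m → Module.finrank F B = m →
      U ≤ A → U ≤ B → A ≠ B → Module.finrank F (A ⊓ B : Submodule F _) + 1 = m := by
    intro A B dA dB hA hB hne
    have h1 := Submodule.finrank_mono (le_inf hA hB)
    have h2 : A ⊓ B < A := lt_of_le_of_ne inf_le_left fun h =>
      hne (Submodule.eq_of_le_of_finrank_eq (inf_eq_left.1 h) (dA.trans dB.symm))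
    have := Submodule.finrank_lt_finrank_of_lt h2
    omega
  have hne : W ≠ X := fun h => by
    rw [← h, inf_idem] at hWX; omega
  rw [Nat.card_eq_two_iff]
  refine ⟨⟨W, dW, hW, hUW⟩, ⟨X, dX, hX, hUX⟩, fun h => hne (congrArg Subtype.val h), ?_⟩
  rw [Set.eq_univ_iff_forall]
  rintro ⟨Y, dY, hY, hUY⟩
  by_contra hc
  simp only [Set.mem_insert_iff, Set.mem_singleton_iff, Subtype.mk.injEq, not_or] at hc
  have h1 := hQ.even_three hn hY hW hX dY dW dX
  have h2 := key Y W dY dW hUY hUW hc.1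
  have h3 := key Y X dY dX hUY hUX hc.2
  rw [Nat.even_iff] at h1
  omega

end Cfsg.Agent.S0832
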