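import Mathlib
import Cfsg.Statements.S0833
import Cfsg.Agent.Classical.SpSimple

set_option autoImplicit false
open Cfsg

namespace Cfsg.Agent.S0833

/-- If B₁, B₂ are non-degenerate alternating forms on U (dim 2k) and W (dim 2l), then B₁ ⊗ B₂ on U ⊗ W is symmetric, non-degenerate, and vanishes identically on some subspace of dimension 2kl (half of dim U ⊗ W). -/
theorem result {F U W : Type*} [Field F] [Fintype F] [AddCommGroup U] [Module F U] [FiniteDimensional F U] [AddCommGroup W] [Module F W] [FiniteDimensional F W] (B₁ : LinearMap.BilinForm F U) (B₂ : LinearMap.BilinForm F W) (h₁ : B₁.Nondegenerate) (h₂ : B₂.Nondegenerate) (hA₁ : B₁.IsAlt) (hA₂ : B₂.IsAlt) (k l : ℕ) (hU : Module.finrank F U = 2 * k) (hW : Module.finrank F W = 2 * l) : (B₁.tmul B₂).IsSymm ∧ (B₁.tmul B₂).Nondegenerate ∧ (∃ X : Submodule F (TensorProduct F U W), Module.finrank F X = 2 * k * l ∧ ∀ x ∈ X, ∀ y ∈ X, (B₁.tmul B₂) x y = 0) := by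
  classical
  obtain ⟨m, b, hm, hb⟩ := Classical.SpSimple.exists_basis_J h₁ hA₁
  obtain rfl : k = m := by omega
  let c := Module.finBasis F W
  have e : ∀ u u' w w', (B₁.tmul B₂) (u ⊗ₜ w) (u' ⊗ₜ w') = B₂ w w' * B₁ u u' := fun _ _ _ _ => rfl
  refine ⟨⟨fun x y => ?_⟩, ?_, ?_⟩
  · induction x with
    | zero => simp
    | add x x' h1 h2 => simp only [map_add, LinearMap.add_apply, h1, h2]
    | tmul u w =>
      induction y with
      | zero => simp
      | add y y' h1 h2 => simp only [map_add, LinearMap.add_apply, h1, h2]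
      | tmul u' w' => rw [e, e, ← hA₁.neg_eq u u', ← hA₂.neg_eq w w', neg_mul_neg]; rfl
  · refine (LinearMap.BilinForm.nondegenerate_iff_det_ne_zero (b.tensorProduct c)).mpr ?_
    have : LinearMap.BilinForm.toMatrix (b.tensorProduct c) (B₁.tmul B₂) =
        Matrix.kronecker (LinearMap.BilinForm.toMatrix b B₁) (LinearMap.BilinForm.toMatrix c B₂) := by
      ext ⟨i, j⟩ ⟨i', j'⟩
      simp [LinearMap.BilinForm.toMatrix_apply, mul_comm]
    rw [this, Matrix.kronecker, Matrix.det_kronecker]
    exact mul_ne_zero (pow_ne_zero _ ((LinearMap.BilinForm.nondegenerate_iff_det_ne_zero b).mp h₁))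
      (pow_ne_zero _ ((LinearMap.BilinForm.nondegenerate_iff_det_ne_zero c).mp h₂))
  · let f : Fin k × Fin (Module.finrank F W) → (Fin k ⊕ Fin k) × Fin (Module.finrank F W) := Prod.map Sum.inl id
    have hf : Function.Injective f := Sum.inl_injective.prodMap Function.injective_id
    refine ⟨Submodule.span F (Set.range ((b.tensorProduct c) ∘ f)), ?_, fun x hx y hy => ?_⟩
    · rw [finrank_span_eq_card ((b.tensorProduct c).linearIndependent.comp f hf)]
      simp [hW]; ring
    · induction hx using Submodule.span_induction with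
      | zero => simp
      | add x x' _ _ h1 h2 => simp only [map_add, LinearMap.add_apply, h1, h2, add_zero]
      | smul a x _ h1 => simp only [map_smul, LinearMap.smul_apply, h1, smul_zero]
      | mem x hx =>
        induction hy using Submodule.span_induction with
        | zero => simp
        | add y y' _ _ h1 h2 => simp only [map_add, h1, h2, add_zero]
        | smul a y _ h1 => simp only [map_smul, h1, smul_zero]
        | mem y hy =>
          obtain ⟨⟨i, j⟩, rfl⟩ := hx
          obtain ⟨⟨i', j'⟩, rfl⟩ := hy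
          simp [f, hb, Matrix.J]

end Cfsg.Agent.S0833
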