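import Mathlib
import Cfsg.Statements.S0834
import Cfsg.Agent.Orth.Class2
-- import your own Cfsg.Agent.* helpers here

set_option autoImplicit false
open Cfsg

namespace Cfsg.Agent.S0834

open Module in
theorem isPlus_iff {F V : Type*} [Field F] [AddCommGroup V] [Module F V] (h2 : (2 : F) ≠ 0)
    (B : LinearMap.BilinForm F V) (hS : B.IsSymm) {m : ℕ} (hn : finrank F V = 2 * m) :
    Orth.IsPlus (LinearMap.BilinMap.toQuadraticMap B) ↔
      ∃ X : Submodule F V, finrank F X = m ∧ ∀ x ∈ X, ∀ y ∈ X, B x y = 0 := by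
  constructor
  · rintro ⟨W, hW, h⟩
    refine ⟨W, by omega, fun x hx y hy => ?_⟩
    have := hW.polar hx hy
    rw [LinearMap.BilinMap.polar_toQuadraticMap, ← hS.eq x y, ← two_mul] at this
    exact (mul_eq_zero.1 this).resolve_left h2
  · rintro ⟨W, h, hW⟩
    exact ⟨W, fun w hw => hW w hw w hw, by omega⟩

open Module in
theorem gram_eq {F V ι : Type*} [Field F] [AddCommGroup V] [Module F V]
    (B : LinearMap.BilinForm F V) (hS : B.IsSymm) (b : ι → V) :
    Orth.gram (LinearMap.BilinMap.toQuadraticMap B) b = (2 : F) • Matrix.of fun i j => B (b i) (b j) := by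
  ext i j
  simp [Orth.gram, LinearMap.BilinMap.polar_toQuadraticMap, ← hS.eq (b i) (b j), two_mul]

theorem nd_of {F V : Type*} [Field F] [AddCommGroup V] [Module F V] (h2 : (2 : F) ≠ 0)
    (B : LinearMap.BilinForm F V) (hS : B.IsSymm) (hB : B.Nondegenerate) :
    Orth.ND (LinearMap.BilinMap.toQuadraticMap B) := fun x hx => hB.1 x fun y => by
  have := hx y
  rw [LinearMap.BilinMap.polar_toQuadraticMap, ← hS.eq x y, ← two_mul] at this
  exact (mul_eq_zero.1 this).resolve_left h2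

open Module in
theorem det_tmul {F U W ι κ : Type*} [Field F] [AddCommGroup U] [Module F U] [AddCommGroup W]
    [Module F W] [Fintype ι] [DecidableEq ι] [Fintype κ] [DecidableEq κ]
    (B₁ : LinearMap.BilinForm F U) (B₂ : LinearMap.BilinForm F W) (b : Basis ι F U) (c : Basis κ F W) :
    (Matrix.of fun i j => (B₁.tmul B₂) (b.tensorProduct c i) (b.tensorProduct c j)).det =
      (Matrix.of fun i j => B₁ (b i) (b j)).det ^ Fintype.card κ *
        (Matrix.of fun i j => B₂ (c i) (c j)).det ^ Fintype.card ι := by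
  rw [← Matrix.det_kronecker]
  congr 1
  ext ⟨i, i'⟩ ⟨j, j'⟩
  simp [mul_comm]

open Module in
theorem tmul_isPlus {F U W : Type*} [Field F] [Finite F] [AddCommGroup U] [Module F U]
    [FiniteDimensional F U] [AddCommGroup W] [Module F W] [FiniteDimensional F W] (h2 : (2 : F) ≠ 0)
    (B₁ : LinearMap.BilinForm F U) (B₂ : LinearMap.BilinForm F W) (h₁ : B₁.Nondegenerate)
    (h₂ : B₂.Nondegenerate) (hS₁ : B₁.IsSymm) (hS₂ : B₂.IsSymm) {k n : ℕ} (hU : finrank F U = 2 * k)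
    (hW : finrank F W = n) :
    (∃ X : Submodule F (TensorProduct F U W), finrank F X = k * n ∧
      ∀ x ∈ X, ∀ y ∈ X, (B₁.tmul B₂) x y = 0) ↔
    (Even n ∨ ∃ X : Submodule F U, finrank F X = k ∧ ∀ x ∈ X, ∀ y ∈ X, B₁ x y = 0) := by
  have hS := LinearMap.IsSymm.tmul (LinearMap.BilinForm.isSymm_iff.1 hS₁) (LinearMap.BilinForm.isSymm_iff.1 hS₂)
  have hS' : LinearMap.BilinForm.IsSymm (B₁.tmul B₂) := LinearMap.BilinForm.isSymm_iff.2 hS
  let b := finBasisOfFinrankEq F U hU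
  let c := finBasisOfFinrankEq F W hW
  have n1 := nd_of h2 B₁ hS₁ h₁
  have d1 := n1.det_gram_ne_zero b
  have d2 := (nd_of h2 B₂ hS₂ h₂).det_gram_ne_zero c
  have hd : finrank F (TensorProduct F U W) = 2 * (k * n) := by
    rw [finrank_tensorProduct, hU, hW, mul_assoc]
  rw [gram_eq _ hS₁, Matrix.det_smul] at d1
  rw [gram_eq _ hS₂, Matrix.det_smul] at d2
  have n3 : Orth.ND (LinearMap.BilinMap.toQuadraticMap (B₁.tmul B₂)) := by
    apply Orth.nd_of_det_gram_ne_zero (b.tensorProduct c)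
    rw [gram_eq _ hS', Matrix.det_smul, det_tmul]
    exact mul_ne_zero (pow_ne_zero _ h2) (mul_ne_zero (pow_ne_zero _ (right_ne_zero_of_mul d1))
      (pow_ne_zero _ (right_ne_zero_of_mul d2)))
  rw [← isPlus_iff h2 _ hS' hd, ← isPlus_iff h2 _ hS₁ hU, n3.isPlus_iff_disc h2 hd (b.tensorProduct c),
    n1.isPlus_iff_disc h2 hU b, gram_eq _ hS', gram_eq _ hS₁, Matrix.det_smul, Matrix.det_smul, det_tmul]
  simp only [Fintype.card_prod, Fintype.card_fin]
  set d := (Matrix.of fun i j => B₁ (b i) (b j)).det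
  set e := (Matrix.of fun i j => B₂ (c i) (c j)).det
  have hd0 : d ≠ 0 := right_ne_zero_of_mul d1
  have he0 : e ≠ 0 := right_ne_zero_of_mul d2
  rw [show (2 : F) ^ (2 * k * n) * (d ^ n * e ^ (2 * k)) * (-1) ^ (k * n) =
      (2 ^ (k * n) * e ^ k) ^ 2 * (d * (-1) ^ k) ^ n by ring,
    show (2 : F) ^ (2 * k) * d * (-1) ^ k = (2 ^ k) ^ 2 * (d * (-1) ^ k) by ring,
    Orth.isSquare_sq_mul_iff (mul_ne_zero (pow_ne_zero _ h2) (pow_ne_zero _ he0)),
    Orth.isSquare_sq_mul_iff (pow_ne_zero _ h2)]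
  have ha : d * (-1) ^ k ≠ 0 := mul_ne_zero hd0 (pow_ne_zero _ (by simp))
  rcases Nat.even_or_odd n with ⟨r, rfl⟩ | ⟨r, rfl⟩
  · simp [pow_add]
  · rw [pow_succ, pow_mul', Orth.isSquare_sq_mul_iff (pow_ne_zero _ ha)]; simp

/-- Over a finite field with 2 ≠ 0: if B₁ on U (dim 2k, k ≥ 1) and B₂ on W (dim 2l, l ≥ 1) are non-degenerate symmetric forms admitting no totally isotropic subspaces of dimensions k, resp. l (minus type), then B₁ ⊗ B₂ admits a totally isotropic subspace of dimension 2kl (plus type). -/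
theorem result {F U W : Type*} [Field F] [Fintype F] [AddCommGroup U] [Module F U] [FiniteDimensional F U] [AddCommGroup W] [Module F W] [FiniteDimensional F W] (h2 : (2 : F) ≠ 0) (B₁ : LinearMap.BilinForm F U) (B₂ : LinearMap.BilinForm F W) (h₁ : B₁.Nondegenerate) (h₂ : B₂.Nondegenerate) (hS₁ : B₁.IsSymm) (hS₂ : B₂.IsSymm) (k l : ℕ) (hk : 1 ≤ k) (hl : 1 ≤ l) (hU : Module.finrank F U = 2 * k) (hW : Module.finrank F W = 2 * l) (hm₁ : ¬ (∃ X : Submodule F (U), Module.finrank F X = k ∧ ∀ x ∈ X, ∀ y ∈ X, (B₁) x y = 0)) (hm₂ : ¬ (∃ X : Submodule F (W), Module.finrank F X = l ∧ ∀ x ∈ X, ∀ y ∈ X, (B₂) x y = 0)) : (∃ X : Submodule F (TensorProduct F U W), Module.finrank F X = 2 * k * l ∧ ∀ x ∈ X, ∀ y ∈ X, (B₁.tmul B₂) x y = 0) := by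
  have := (tmul_isPlus h2 B₁ B₂ h₁ h₂ hS₁ hS₂ hU hW).2 (Or.inl (even_two_mul l))
  rwa [show k * (2 * l) = 2 * k * l by ring] at this

end Cfsg.Agent.S0834
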