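import Mathlib
import Cfsg.Statements.S0836
import Cfsg.Agent.Classical.GLBasic

set_option autoImplicit false
set_option backward.isDefEq.respectTransparency false
open Cfsg

namespace Cfsg.Agent.S0836

/-- For i ≠ j and any scalar c, the elementary transvection 1 + c E_ij is a commutator ⁅g, h⁆ of two elements of SL_n(F) provided n ≥ 3, or n = 2 and F contains x ≠ 0 with x² ≠ 1. -/
theorem result {F : Type*} [Field F] (n : ℕ) (hn : 3 ≤ n ∨ (n = 2 ∧ ∃ x : F, x ≠ 0 ∧ x ^ 2 ≠ 1)) (i j : Fin n) (hij : i ≠ j) (c : F) (t : Matrix.SpecialLinearGroup (Fin n) F) (ht : (t : Matrix (Fin n) (Fin n) F) = Matrix.transvection i j c) : t ∈ commutatorSet (Matrix.SpecialLinearGroup (Fin n) F) := by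
  have ht' : t = Matrix.SpecialLinearGroup.transvection hij c := Subtype.ext ht
  subst ht'
  rcases hn with hn | ⟨rfl, x, hx0, hx1⟩
  · obtain ⟨k, hik, hkj⟩ := Classical.SLBasic.exists_ne_ne (ι := Fin n) (by simpa using hn) i j
    rw [← mul_one c, ← Classical.SLBasic.commutator_transvection hij hik hkj]
    exact commutator_mem_commutatorSet _ _
  · have hx : x ^ 2 - 1 ≠ 0 := sub_ne_zero.2 hx1
    refine ⟨Matrix.SpecialLinearGroup.diag2n hij x hx0,
      Matrix.SpecialLinearGroup.transvection hij (c / (x ^ 2 - 1)), ?_⟩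
    rw [commutatorElement_def, mul_inv_eq_iff_eq_mul, mul_inv_eq_iff_eq_mul,
      ← Matrix.SpecialLinearGroup.transvection_add]
    apply Classical.SLBasic.sl_ext
    simp only [Matrix.SpecialLinearGroup.coe_mul, Matrix.SpecialLinearGroup.transvection_coe,
      Matrix.SpecialLinearGroup.diag2n_coe]
    ext k l
    simp only [Matrix.mul_diagonal, Matrix.diagonal_mul, Matrix.add_apply, Matrix.single_apply,
      Matrix.one_apply]
    fin_cases i <;> fin_cases j <;> fin_cases k <;> fin_cases l <;> simp at hij ⊢ <;>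
      field_simp <;> ring

end Cfsg.Agent.S0836
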