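import Mathlib
import Cfsg.Statements.S0837
import Cfsg.Agent.Herm.Matrix
-- import your own Cfsg.Agent.* helpers here

set_option autoImplicit false
open Cfsg

namespace Cfsg.Agent.S0837

/-- If W ≤ F^n (|F| = q²) is a k-dimensional subspace on which the Hermitian form Σ x_i y_i^q is non-degenerate, then the stabiliser of W in GU_n(q) is isomorphic to GU_k(q) × GU_(n−k)(q). -/
theorem result {F : Type*} [Field F] [Fintype F] {q : ℕ} (hF : Fintype.card F = q ^ 2) (n k : ℕ) (hk : k ≤ n) (W : Submodule F (Fin n → F)) (hWk : Module.finrank F W = k) (hW : ∀ u ∈ W, (∀ v ∈ W, Cfsg.hermForm n F q u v = 0) → u = 0) : Nonempty (↥((Cfsg.stabilizing (Cfsg.glToMat (Fin n) F) (W : Set (Fin n → F))).subgroupOf (Cfsg.GU n F q)) ≃* ↥(Cfsg.GU k F q) × ↥(Cfsg.GU (n - k) F q)) := by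
  have hF' := Herm.natCard_of_card hF
  have hB := Herm.hf_sB hF' n
  have hW' : W ⊓ Herm.perp (Herm.sB hF' n) W = ⊥ := by
    rw [eq_bot_iff]
    rintro u ⟨h1, h2⟩
    exact hW u h1 fun v hv => by rw [Herm.hermForm_eq hF']; exact h2 v hv
  have h1 := hB.finrank_perp_add W
  rw [Module.finrank_fin_fun] at h1
  obtain ⟨e1, he1⟩ := (Herm.hf_sB hF' k).exists_iso ((hB.res_iff W).2 hW') (by simp [hWk])
  obtain ⟨e2, he2⟩ := (Herm.hf_sB hF' (n - k)).exists_iso (hB.res_perp hW') (by simp; omega)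
  have h2 : ((Cfsg.stabilizing (Cfsg.glToMat (Fin n) F) (W : Set (Fin n → F))).subgroupOf
      (Cfsg.GU n F q)).map (Herm.toUG hF' n).toMonoidHom = Herm.stab _ W := by
    ext g
    obtain ⟨g, rfl⟩ := (Herm.toUG hF' n).surjective g
    exact Subgroup.mem_map_iff_mem (f := (Herm.toUG hF' n).toMonoidHom) (Herm.toUG hF' n).injective
  exact ⟨(((Herm.toUG hF' n).subgroupMap _).trans (MulEquiv.subgroupCongr
    (h2.trans (hB.range_hom_perp hW').symm))).trans
    ((MonoidHom.ofInjective (Herm.IsSum.hom_injective _)).symm.trans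
      (MulEquiv.prodCongr ((Herm.toUG hF' k).trans (Herm.ugCongr e1 he1)).symm
        ((Herm.toUG hF' (n - k)).trans (Herm.ugCongr e2 he2)).symm))⟩

end Cfsg.Agent.S0837
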