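import Mathlib
import Cfsg.Statements.S0839
import Cfsg.Agent.Classical.GLGeom

set_option autoImplicit false
set_option backward.isDefEq.respectTransparency false
open Cfsg

namespace Cfsg.Agent.S0839

/-- Every transvection t ∈ SL_(n+2)(F) (rank(t − 1) = 1, (t − 1)² = 0) is conjugate in SL_(n+2)(F) to 1 + v·e_0ᵀ for some column vector v with v_0 = 0 (the group A of matrices that are the identity except in the first column below the diagonal); the dimension is written n + 2 ≥ 2. -/
theorem result {F : Type*} [Field F] (n : ℕ) (t : Matrix.SpecialLinearGroup (Fin (n + 2)) F) (ht : Cfsg.IsTransvection (t : Matrix (Fin (n + 2)) (Fin (n + 2)) F)) : ∃ (g : Matrix.SpecialLinearGroup (Fin (n + 2)) F) (v : Fin (n + 2) → F), v 0 = 0 ∧ ((g⁻¹ * t * g : Matrix.SpecialLinearGroup (Fin (n + 2)) F) : Matrix (Fin (n + 2)) (Fin (n + 2)) F) = 1 + Matrix.vecMulVec v (Pi.single 0 1) := by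
  obtain ⟨u, φ, hu, hφ, h0, h1⟩ := Classical.GLGeom.isTransvection_iff.1 ht
  obtain ⟨g, c, hg⟩ := Classical.GLGeom.exists_SL_mulVec_eq_smul hφ
    (v := Pi.single (0 : Fin (n + 2)) (1 : F)) (by simp)
  have h2 : Matrix.vecMul φ (g.transpose).1 = c • Pi.single (0 : Fin (n + 2)) (1 : F) := by
    rw [← hg]; exact Matrix.vecMul_transpose _ _
  refine ⟨g.transpose, c • Matrix.mulVec (g.transpose⁻¹).1 u, ?_, ?_⟩
  · have h3 : (c • Pi.single (0 : Fin (n + 2)) (1 : F)) ⬝ᵥ Matrix.mulVec (g.transpose⁻¹).1 u = 0 := by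
      rw [← h2, ← Matrix.dotProduct_mulVec, Matrix.mulVec_mulVec,
        ← Matrix.SpecialLinearGroup.coe_mul, mul_inv_cancel]
      simpa using h0
    simpa using h3
  · rw [Matrix.SpecialLinearGroup.coe_mul, Matrix.SpecialLinearGroup.coe_mul, h1,
      Classical.GLGeom.conj_one_add_vecMulVec, h2, Matrix.vecMulVec_smul, Matrix.smul_vecMulVec]

end Cfsg.Agent.S0839
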