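import Mathlib
import Cfsg.Statements.S0841
-- import your own Cfsg.Agent.* helpers here

set_option autoImplicit false
open Cfsg

namespace Cfsg.Agent.S0841

/-- If the commutator subgroup of G lies in the centre, then for all x, y in G and every natural number n one has (x * y) ^ n = x ^ n * y ^ n * c ^ (n * (n - 1) / 2) with c = y⁻¹ * x⁻¹ * y * x. -/
theorem result {G : Type*} [Group G] (hG : commutator G ≤ Subgroup.center G) (x y : G) (n : ℕ) : (x * y) ^ n = x ^ n * y ^ n * (y⁻¹ * x⁻¹ * y * x) ^ (n * (n - 1) / 2) := by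
  have hc : y⁻¹ * x⁻¹ * y * x ∈ Subgroup.center G := hG (by
    have := Subgroup.commutator_mem_commutator (Subgroup.mem_top y⁻¹) (Subgroup.mem_top x⁻¹)
    simpa [commutatorElement_def, commutator_def] using this)
  set c := y⁻¹ * x⁻¹ * y * x with hcd
  have hcm : ∀ g : G, Commute g c := fun g => Subgroup.mem_center_iff.mp hc g
  have h1 : y * x = x * y * c := by rw [hcd]; group
  have h2 : ∀ k : ℕ, y ^ k * x = x * y ^ k * c ^ k := by
    intro k
    induction k with
    | zero => simp
    | succ k ih =>
      rw [pow_succ' y, mul_assoc, ih, ← mul_assoc, ← mul_assoc, h1, mul_assoc (x * y), ← ((hcm y).pow_left k).eq,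
        pow_succ' c]
      simp only [mul_assoc]
  induction n with
  | zero => simp
  | succ n ih =>
    have h3 : (n + 1) * (n + 1 - 1) / 2 = n * (n - 1) / 2 + n := by
      rw [← Nat.choose_two_right, ← Nat.choose_two_right, Nat.choose_succ_succ' n 1, Nat.choose_one_right,
        add_comm]
    rw [pow_succ, ih, h3, mul_assoc _ (c ^ _), ← ((hcm (x * y)).pow_right _).eq, pow_add c,
      ((Commute.refl c).pow_pow _ n).eq, pow_succ x, pow_succ y]
    simp only [← mul_assoc]
    congr 1
    rw [mul_assoc (x ^ n) (y ^ n), h2, mul_assoc (x ^ n), mul_assoc _ (c ^ n), ← ((hcm y).pow_right n).eq]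
    simp only [mul_assoc]

end Cfsg.Agent.S0841
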