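import Mathlib
import Cfsg.Statements.S0842
import Cfsg.Agent.Block.BS16
-- import your own Cfsg.Agent.* helpers here

set_option autoImplicit false
open Cfsg

namespace Cfsg.Agent.S0842

open Cfsg.Agent.Block Cfsg.Agent.LocalEven Subgroup

/-- Suppose a Sylow 2-subgroup S of the finite group G is generalized quaternion of order at least 16, and let D be the commutator subgroup of S, C its centralizer and N its normalizer in G. Then there is a subgroup K of odd order, contained in C and normalized by N, with K ⊔ S = N and K ⊔ (S ⊓ C) = C, and C has index 2 in N. -/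
theorem result {G : Type*} [Group G] [Finite G] (S : Sylow 2 G) (n : ℕ) (e : (S : Subgroup G) ≃* QuaternionGroup (2 ^ (n + 2))) (D : Subgroup G) (hD : D = ⁅(S : Subgroup G), (S : Subgroup G)⁆) : ∃ K : Subgroup G, Odd (Nat.card K) ∧ K ≤ Subgroup.centralizer (D : Set G) ∧ Subgroup.normalizer (D : Set G) ≤ Subgroup.normalizer (K : Set G) ∧ K ⊔ (S : Subgroup G) = Subgroup.normalizer (D : Set G) ∧ K ⊔ ((S : Subgroup G) ⊓ Subgroup.centralizer (D : Set G)) = Subgroup.centralizer (D : Set G) ∧ ((Subgroup.centralizer (D : Set G)).subgroupOf (Subgroup.normalizer (D : Set G))).index = 2 := by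
  obtain ⟨a, b, h⟩ := exists_qData (by positivity) e
  rw [h.commutator_eq] at hD
  subst hD
  let C := centralizer (zpowers (a ^ 2) : Set G)
  have hK : (pResidual 2 C).map C.subtype ≤ C := map_subtype_le _
  have h1 : ∀ c ∈ C, ∀ L : Subgroup G, a ∈ L → c ∈ (pResidual 2 C).map C.subtype ⊔ L := by
    intro c hc L hL
    obtain ⟨k, hk, j, rfl⟩ := h.exists_mul_of_mem_centralizer hc
    exact mul_mem_sup (mem_map_of_mem _ hk) (zpow_mem hL _)
  refine ⟨(pResidual 2 C).map C.subtype, ?_, hK, ?_, ?_, ?_, h.relIndex_centralizer⟩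
  · rw [card_map_subtype, ← Nat.not_even_iff_odd, even_iff_two_dvd]
    exact Transfer.hasNormalPComplement_iff_not_dvd.1 h.complement_centralizer
  · exact (normalizer_le_normalizer_centralizer _).trans (normalizer_le_normalizer_map_subtype _)
  · refine le_antisymm (sup_le (hK.trans (centralizer_le_normalizer _)) h.le_normalizer_sq) ?_
    intro g hg
    obtain ⟨c, hc, x, hx, rfl⟩ := h.exists_mul_of_mem_normalizer hg
    exact mul_mem (h1 c hc _ h.a_mem) (mem_sup_right hx)
  · exact le_antisymm (sup_le hK inf_le_right)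
      fun c hc => h1 c hc _ ⟨h.a_mem, QData.a_mem_centralizer⟩

end Cfsg.Agent.S0842
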