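import Mathlib
import Cfsg.Statements.S0849
import Cfsg.Agent.Isaacs.Zero2
import Cfsg.Agent.Char.IndTI
-- import your own Cfsg.Agent.* helpers here

set_option autoImplicit false
open Cfsg

namespace Cfsg.Agent.S0849

open Cfsg.Agent.Char Cfsg.Agent.Isaacs Subgroup
open scoped ComplexConjugate commutatorElement

/-- Let H be a subgroup of a finite group G and S a subset of H that is mapped to itself under conjugation by H, is disjoint from its conjugate by any element outside H, and is closed under inverses. Let φ be a class function of H vanishing on H away from S, and let u, v be involutions of G. Then the sum of the induced function of φ over all products a * b with a conjugate to u and b conjugate to v equals the index of H times the sum of φ (a * b) over such pairs with a and b in H. -/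
theorem result {G : Type*} [Group G] [Fintype G] (H : Subgroup G) (S : Set G) (hSH : S ⊆ H) (hHS : ∀ h ∈ H, ∀ s ∈ S, h * s * h⁻¹ ∈ S) (hTI : ∀ g : G, g ∉ H → ∀ s ∈ S, g * s * g⁻¹ ∉ S) (hinv : ∀ s ∈ S, s⁻¹ ∈ S) (φ : H → ℂ) (hφ : Cfsg.IsClassFunction H φ) (hφS : ∀ x : H, (x : G) ∉ S → φ x = 0) (u v : G) (hu : orderOf u = 2) (hv : orderOf v = 2) : ∑ᶠ p ∈ {p : G × G | IsConj u p.1 ∧ IsConj v p.2}, Cfsg.indFun H φ (p.1 * p.2) = (H.index : ℂ) * ∑ᶠ p ∈ {p : H × H | IsConj u (p.1 : G) ∧ IsConj v (p.2 : G)}, φ (p.1 * p.2) := by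
  classical
  have h0 : (Nat.card H : ℂ) ≠ 0 := card_ne_zero
  have f1 : ∀ {X : Type _} [Fintype X] (P : X → Prop) [DecidablePred P] (f : X → ℂ),
      ∑ᶠ p ∈ {p | P p}, f p = ∑ p with P p, f p := fun P _ f =>
    finsum_mem_eq_sum_of_inter_support_eq f (by simp)
  rw [f1, f1]
  simp only [Ind.indFun_apply']
  rw [← Finset.mul_sum, Finset.sum_comm, ← inv_mul_cancel_left₀ h0 (H.index : ℂ), mul_assoc, ← Nat.cast_mul,
    H.card_mul_index, Nat.card_eq_fintype_card (α := G), ← nsmul_eq_mul, ← Finset.card_univ, ← Finset.sum_const]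
  refine congrArg _ (Finset.sum_congr rfl fun x _ => ?_)
  have c1 : ∀ a b : G, IsConj a (x * b * x⁻¹) ↔ IsConj a b := fun a b =>
    ⟨fun h => h.trans (isConj_iff.mpr ⟨x⁻¹, by group⟩), fun h => h.trans (isConj_iff.mpr ⟨x, rfl⟩)⟩
  have c2 : ∀ {a b : G}, orderOf a = 2 → IsConj a b → b * b = 1 := fun {a b} h e => by
    obtain ⟨c, rfl⟩ := isConj_iff.mp e
    rw [conj_mul, ← pow_two, ← h, pow_orderOf_eq_one]; simp
  rw [Finset.sum_equiv (t := Finset.univ.filter fun p : G × G => IsConj u p.1 ∧ IsConj v p.2)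
    (g := fun p => extendByZero H φ (p.1 * p.2))
    ((MulAut.conj x).toEquiv.prodCongr (MulAut.conj x).toEquiv) (by simp [c1, -isConj_iff]) (by simp [mul_assoc])]
  refine (Finset.sum_of_injOn (fun p : H × H => ((p.1 : G), (p.2 : G))) (fun a _ b _ e => Prod.ext
    (Subtype.ext (congrArg Prod.fst e)) (Subtype.ext (congrArg Prod.snd e))) (fun p hp => by simpa using hp) ?_ fun p _ =>
      (Ind.extendByZero_of_mem H φ (p.1 * p.2).2).symm).symm
  rintro ⟨a, b⟩ hp hn
  obtain ⟨ha, hb⟩ := (Finset.mem_filter.mp hp).2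
  by_contra e
  have h1 : a * b ∈ H := by_contra fun h => e (Ind.extendByZero_of_notMem H φ h)
  have h2 : a * b ∈ S := by_contra fun h => e ((Ind.extendByZero_of_mem H φ h1).trans (hφS _ h))
  have h3 : a ∈ H := by_contra fun h => hTI a h _ h2 (by
    have := hinv _ h2
    rwa [mul_inv_rev, ← eq_inv_of_mul_eq_one_left (c2 hv hb), ← one_mul b, ← c2 hu ha, mul_assoc a] at this)
  exact hn ⟨(⟨a, h3⟩, ⟨b, (H.mul_mem_cancel_left h3).mp h1⟩), by simpa [-isConj_iff] using ⟨ha, hb⟩, rfl⟩

end Cfsg.Agent.S0849
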