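import Mathlib
import Cfsg.Statements.S0851
import Cfsg.Agent.Isaacs.Exc
import Cfsg.Agent.Coh.IrrCoh
-- import your own Cfsg.Agent.* helpers here

set_option autoImplicit false
open Cfsg

namespace Cfsg.Agent.S0851

open Cfsg.Agent.Char Cfsg.Agent.Char.Ind Cfsg.Agent.Isaacs Cfsg.Agent.Core Subgroup

/-- Let K be a subgroup of the finite group G that meets each conjugate by an element outside its normalizer N trivially, is properly contained in N, and contains the centralizer of each of its non-identity elements (a T.I. subgroup with Frobenius normalizer). Suppose K is abelian, let e be the index of K in N, and call an irreducible character of N relevant when it takes at some element of K a value different from its degree. Then either there is exactly one relevant character and K is an elementary abelian p-group of order e + 1 for some prime p, or there are a sign ε and an injective map f from the relevant characters to the irreducible characters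 of G such that inducing χ - ξ to G gives ε (f χ - f ξ) for all relevant χ and ξ. -/
theorem result {G : Type*} [Group G] [Fintype G] (K : Subgroup G) (hTI : ∀ g : G, g ∉ Subgroup.normalizer (K : Set G) → ∀ k ∈ K, g * k * g⁻¹ ∈ K → k = 1) (hlt : K < Subgroup.normalizer (K : Set G)) (hC : ∀ k ∈ K, k ≠ 1 → Subgroup.centralizer ({k} : Set G) ≤ K) (hab : ∀ a ∈ K, ∀ b ∈ K, a * b = b * a) : (Nat.card {χ : Cfsg.IrrCharacter (Subgroup.normalizer (K : Set G)) // ∃ k : Subgroup.normalizer (K : Set G), (k : G) ∈ K ∧ (χ : ↥(Subgroup.normalizer (K : Set G)) → ℂ) k ≠ (χ : ↥(Subgroup.normalizer (K : Set G)) → ℂ) 1} = 1 ∧ ∃ p : ℕ, p.Prime ∧ Cfsg.IsElementaryAbelian p K ∧ Nat.card K = (K.subgroupOf (Subgroup.normalizer (K : Set G))).index + 1) ∨ ∃ (ε : ℂ) (f : {χ : Cfsg.IrrCharacter (Subgroup.normalizer (K : Set G)) // ∃ k : Subgroup.normalizer (K : Set G), (k : G) ∈ K ∧ (χ : ↥(Subgroup.normalizer (K : Set G)) → ℂ) k ≠ (χ : ↥(Subgroup.normalizer (K : Set G)) →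 ℂ) 1} → Cfsg.IrrCharacter G), (ε = 1 ∨ ε = -1) ∧ Function.Injective f ∧ ∀ χ ξ, Cfsg.indFun (Subgroup.normalizer (K : Set G)) ((χ.1 : ↥(Subgroup.normalizer (K : Set G)) → ℂ) - (ξ.1 : ↥(Subgroup.normalizer (K : Set G)) → ℂ)) = ε • ((f χ : G → ℂ) - (f ξ : G → ℂ)) := by
  classical
  let N := normalizer (K : Set G)
  let S := {χ : IrrCharacter N // ∃ k : N, (k : G) ∈ K ∧ χ.1 k ≠ χ.1 1}
  have a : ∀ χ : S, Irr N (ez N χ.1.1) := fun χ => irr_ez.mpr χ.1.2
  have b : ∀ χ : S, ¬ Ker K (ez N χ.1.1) := fun χ i => have ⟨k, u, v⟩ := χ.2; v (by simpa [ez_coe, ez_one] using i k u)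
  have c : ∀ χ ξ : S, (χ.1.1 - ξ.1.1) 1 = 0 := fun χ ξ => by
    obtain ⟨φ, u, v⟩ := (a χ).frob_eq le_rfl hlt.le hC (b χ)
    obtain ⟨ψ, w, y⟩ := (a ξ).frob_eq le_rfl hlt.le hC (b ξ)
    rw [Pi.sub_apply, ← ez_one χ.1.1, ← ez_one ξ.1.1, v.one, y.one, ind_one, ind_one, u.one_of_comm hab, w.one_of_comm hab, sub_self]
  have d : ∀ χ ξ : S, ∀ x : N, (x : G) ∉ (K : Set G) → (χ.1.1 - ξ.1.1) x = 0 := fun χ ξ x i => by
    rw [Pi.sub_apply, ← ez_coe χ.1.1, ← ez_coe ξ.1.1, (a χ).frob_zero le_rfl hlt.le hC (b χ) x x.2 i,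
      (a ξ).frob_zero le_rfl hlt.le hC (b ξ) x x.2 i, sub_self]
  have e : ∀ χ ξ : S, IsGeneralizedCharacter N (χ.1.1 - ξ.1.1) := fun χ ξ => Coh.vc_sub (Coh.vc_of_irr χ.1.2) (Coh.vc_of_irr ξ.1.2)
  right
  rcases isEmpty_or_nonempty S with i | ⟨⟨o⟩⟩
  · exact ⟨1, isEmptyElim, .inl rfl, isEmptyElim, isEmptyElim⟩
  have f : ∀ χ ≠ o, ∀ ξ ≠ o, Coh.rin (indFun N (χ.1.1 - o.1.1)) (indFun N (ξ.1.1 - o.1.1)) = if χ = ξ then 2 else 1 :=
    fun χ i ξ j => by
      rw [Coh.rin_apply, IndTI.inner_indFun_of_TI N K hTI (isGenChar_classFun (e ξ o)) (d χ o) (d ξ o) (c χ o)]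
      simp only [classInner_sub_left, classInner_sub_right, classInner_irr, Subtype.val_inj, i, j.symm, if_false]
      split_ifs <;> norm_num
  obtain ⟨ε, u, μ, v, w⟩ := Coh.exceptional {χ | χ ≠ o} (fun χ => indFun N (χ.1.1 - o.1.1))
    (fun χ _ => IndRep.isGenChar_indFun _ (e χ o)) (fun χ _ => by rw [indFun_one, c, mul_zero]) (fun χ i => by rw [f χ i χ i, if_pos rfl])
    fun χ i ξ j k => by rw [f χ i ξ j, if_neg k]
  choose g g1 g2 g3 using w
  let F : S → IrrCharacter G := fun χ => if i : χ = o then ⟨μ, v⟩ else ⟨g χ i, g1 χ i⟩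
  have k : ∀ χ : S, indFun N (χ.1.1 - o.1.1) = (ε : ℂ) • ((F χ).1 - μ) := fun χ => by
    by_cases i : χ = o
    · simp [F, i, indFun_zero]
    simpa [F, i] using g3 χ i
  refine ⟨ε, F, by exact_mod_cast u, fun χ ξ i => by_contra fun j => ?_, fun χ ξ => ?_⟩
  · by_cases p : χ = o
    · exact g2 ξ (fun q => j (p.trans q.symm)) (by simpa [F, p, Ne.symm (p ▸ j)] using (congrArg Subtype.val i).symm)
    by_cases q : ξ = o
    · exact g2 χ p (by simpa [F, p, q] using congrArg Subtype.val i)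
    have := f χ p ξ q
    rw [k ξ, ← i, ← k χ, f χ p χ p] at this
    simp [j] at this
  rw [← sub_sub_sub_cancel_right _ _ o.1.1, indFun_sub, k, k, ← smul_sub, sub_sub_sub_cancel_right]

end Cfsg.Agent.S0851
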