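import Mathlib
import Cfsg.Statements.S0852
import Cfsg.Agent.Isaacs.Exc
-- import your own Cfsg.Agent.* helpers here

set_option autoImplicit false
open Cfsg

namespace Cfsg.Agent.S0852

open Cfsg.Agent.Char Cfsg.Agent.Isaacs Cfsg.Agent.Core Subgroup

/-- Let K be a subgroup of the finite group G that meets each conjugate by an element outside its normalizer N trivially, is properly contained in N, and contains the centralizer of each of its non-identity elements (a T.I. subgroup with Frobenius normalizer). Let S be the set of irreducible characters of N taking at some element of K a value different from their degree, suppose S has at least two members, and let star be a linear isometry on the integer span of S into the generalized characters of G that agrees with induction on the members vanishing at the identity (so S is coherent, with star as the extending isometry). Then an irreducible character ψ of G is of the form star χ or -star χ for some χ in S if and only if ψ is not constant on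 the non-identity elements of K. -/
theorem result {G : Type*} [Group G] [Fintype G] (K : Subgroup G) (hTI : ∀ g : G, g ∉ Subgroup.normalizer (K : Set G) → ∀ k ∈ K, g * k * g⁻¹ ∈ K → k = 1) (hlt : K < Subgroup.normalizer (K : Set G)) (hC : ∀ k ∈ K, k ≠ 1 → Subgroup.centralizer ({k} : Set G) ≤ K) [Fintype ↥(Subgroup.normalizer (K : Set G))] (S : Set (↥(Subgroup.normalizer (K : Set G)) → ℂ)) (hS : S = {χ : ↥(Subgroup.normalizer (K : Set G)) → ℂ | Cfsg.IsIrrCharacter ↥(Subgroup.normalizer (K : Set G)) χ ∧ ∃ k : ↥(Subgroup.normalizer (K : Set G)), (k : G) ∈ K ∧ χ k ≠ χ 1}) (htwo : ∃ χ ∈ S, ∃ ξ ∈ S, χ ≠ ξ) (star : (↥(Subgroup.normalizer (K : Set G)) → ℂ) → (G → ℂ)) (hstar : Cfsg.IsLinearIsometryOn (Cfsg.zspan S) star) (hext : ∀ α ∈ Cfsg.zspanOn S ({1}ᶜ : Set ↥(Subgroup.normalizer (K : Set G))), star α = Cfsg.indFun (Subgroup.normalizer (K : Set G)) α) (ψ : G → ℂ) (hψ : Cfsg.IsIrrCharacter G ψ) : (∃ χ ∈ S, ψ = star χ ∨ ψ = -star χ) ↔ ∃ a ∈ K, ∃ b ∈ K, a ≠ 1 ∧ b ≠ 1 ∧ ψ a ≠ ψ b := by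
  let N := normalizer (K : Set G)
  have k : ∀ η, η ∈ S ↔ Irr N (ez N η) ∧ ¬ Ker K (ez N η) := fun η => by
    simp only [hS, Set.mem_ofPred_eq, irr_ez, Ker, not_forall, ez_one]
    exact and_congr_right fun _ => ⟨fun ⟨x, i, j⟩ => ⟨x, i, by rwa [ez_coe]⟩, fun ⟨x, i, j⟩ => ⟨⟨x, hlt.le i⟩, i, by
      rwa [ez_mem _ (hlt.le i)] at j⟩⟩
  have g := fun η i => gen_top.mpr (hstar.2.2.2 η (Coh.subset_zspan i))
  have f : ∀ χ ∈ S, ∀ η ∈ S, inn ⊤ (star χ) (star η) = inn N (ez N χ) (ez N η) := fun χ i η j => by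
    rw [inn_top, inn_ez, hstar.2.2.1 _ (Coh.subset_zspan i) _ (Coh.subset_zspan j)]
  have a := irr_top.mpr hψ
  obtain ⟨α, b, β, c, d⟩ := htwo
  refine ⟨fun ⟨χ, i, j⟩ => by_contra fun o => ?_, fun ⟨x, x1, y, y1, x2, y2, e⟩ => by_contra fun o => e ?_⟩
  · push Not at o
    obtain ⟨ξ, u, v⟩ : ∃ ξ ∈ S, χ ≠ ξ := (eq_or_ne χ α).elim (fun e => ⟨β, c, e ▸ d⟩) fun e => ⟨α, b, e⟩
    have w := star_const hstar hext hlt.le k i (g _ i).inv ((k _).mp i).1.inv (f χ i)
    obtain ⟨z, z1, z2⟩ : ∃ z ∈ K, z ≠ 1 := by_contra fun r => ((k _).mp i).2 fun z s => congrArg _ (by_contra fun t => r ⟨z, s, t⟩)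
    refine ((k _).mp i).1.frob_not_const (c := ez N χ z) le_rfl hlt.le hC ((k _).mp i).2 ((k _).mp u).1 ((k _).mp u).2
      (fun r => v (eqv_ez_iff.mp r)) fun x s t => ?_
    have := o x s z z1 t z2
    rcases j with rfl | rfl
    · linear_combination this - w x s t + w z z1 z2
    simp only [Pi.neg_apply] at this
    linear_combination -this - w x s t + w z z1 z2
  have w := star_const hstar hext hlt.le k b a.inv (inv_const 0) fun η i => by
    refine Eq.trans (by_contra fun r => o ⟨η, i, ?_⟩) inn_zero_left.symm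
    rcases (g η i).irr_or ((f η i η i).trans ((k _).mp i).1.inn_self) with s | s
    · exact .inl (eqv_top.mp (a.eqv s r))
    exact .inr (eqv_top.mp (a.eqv s fun t => r (by rw [← inn_conj, inn_neg_left] at t; rw [← inn_conj]; simpa using t)))
  linear_combination w x x1 x2 - w y y1 y2

end Cfsg.Agent.S0852
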