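import Mathlib
import Cfsg.Statements.S0853
import Cfsg.Agent.Isaacs.Exc
-- import your own Cfsg.Agent.* helpers here

set_option autoImplicit false
open Cfsg

namespace Cfsg.Agent.S0853

open Cfsg.Agent.Char Cfsg.Agent.Isaacs Cfsg.Agent.Core Subgroup
open scoped commutatorElement

/-- Let K be a subgroup of the finite group G that meets each conjugate by an element outside its normalizer N trivially, is properly contained in N, and contains the centralizer of each of its non-identity elements (a T.I. subgroup with Frobenius normalizer). Let S be the set of irreducible characters of N taking at some element of K a value different from their degree, suppose S has at least two members, and let star be a linear isometry on the integer span of S into the generalized characters of G that agrees with induction on the members vanishing at the identity (so S is coherent, with star as the extending isometry). Then there is a single integer m such that star χ k - χ k = m * χ 1 / e for every χ in S and every non-identity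 element k of K, where e is the index of K in N. -/
theorem result {G : Type*} [Group G] [Fintype G] (K : Subgroup G) (hTI : ∀ g : G, g ∉ Subgroup.normalizer (K : Set G) → ∀ k ∈ K, g * k * g⁻¹ ∈ K → k = 1) (hlt : K < Subgroup.normalizer (K : Set G)) (hC : ∀ k ∈ K, k ≠ 1 → Subgroup.centralizer ({k} : Set G) ≤ K) [Fintype ↥(Subgroup.normalizer (K : Set G))] (S : Set (↥(Subgroup.normalizer (K : Set G)) → ℂ)) (hS : S = {χ : ↥(Subgroup.normalizer (K : Set G)) → ℂ | Cfsg.IsIrrCharacter ↥(Subgroup.normalizer (K : Set G)) χ ∧ ∃ k : ↥(Subgroup.normalizer (K : Set G)), (k : G) ∈ K ∧ χ k ≠ χ 1}) (htwo : ∃ χ ∈ S, ∃ ξ ∈ S, χ ≠ ξ) (star : (↥(Subgroup.normalizer (K : Set G)) → ℂ) → (G → ℂ)) (hstar : Cfsg.IsLinearIsometryOn (Cfsg.zspan S) star) (hext : ∀ α ∈ Cfsg.zspanOn S ({1}ᶜ : Set ↥(Subgroup.normalizer (K : Set G))), star α = Cfsg.indFun (Subgroup.normalizer (K : Set G)) α) : ∃ m : ℤ, ∀ χ ∈ S, ∀ k : ↥(Subgroup.normalizer (K : Set G)), (k : G) ∈ K → k ≠ 1 → star χ k - χ k = (m : ℂ) * χ 1 / ((K.subgroupOf (Subgroup.normalizer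 (K : Set G))).index : ℂ) := by
  let N := normalizer (K : Set G)
  have k : ∀ η, η ∈ S ↔ Irr N (ez N η) ∧ ¬ Ker K (ez N η) := fun η => by
    simp only [hS, Set.mem_ofPred_eq, irr_ez, Ker, not_forall, ez_one]
    exact and_congr_right fun _ => ⟨fun ⟨x, i, j⟩ => ⟨x, i, by rwa [ez_coe]⟩, fun ⟨x, i, j⟩ => ⟨⟨x, hlt.le i⟩, i, by
      rwa [ez_mem _ (hlt.le i)] at j⟩⟩
  obtain ⟨ξ, a, -⟩ := htwo
  have := normal_sub (le_rfl : N ≤ _)
  have b : Group.IsNilpotent K := by
    have := Coh.frob_nilpotent (K := K.subgroupOf N) (fun i => hlt.not_ge (subgroupOf_eq_top.mp i))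
      (Coh.frob_subgroupOf fun x i j => inf_le_right.trans (hC x i j))
    exact Group.nilpotent_of_mulEquiv (subgroupOfEquivOfLe hlt.le)
  obtain ⟨z, z1, z2⟩ := SetLike.exists_of_lt (commutator_lt_of_solvable (K := K) inferInstance fun i => ((k ξ).mp a).2 (i ▸ ker_bot))
  obtain ⟨l, l1, l2, l3⟩ := exists_irr_not_ker (norm_of_comm_le (commutator_le_self K) le_rfl) (commutator_le_self K) z1 z2
  have c := l1.frob_ind le_rfl hlt.le hC fun i => l3 (i z z1)
  obtain ⟨ζ, d, e⟩ : ∃ ζ ∈ S, ζ 1 = K.relIndex (normalizer (K : Set G)) := ⟨fun x => ind K N l x, (k _).mpr ⟨c.1.congr eqv_ez.symm,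
    fun o => c.2 (o.congr (eqv_ez.mono hlt.le))⟩, ind_one.trans (by rw [l1.one_of_ker l2, mul_one])⟩
  have g := fun η i => gen_top.mpr (hstar.2.2.2 η (Coh.subset_zspan i))
  have c := ((k _).mp d).1
  have f := star_const hstar hext hlt.le k d (g _ d).inv c.inv fun η i => by
    rw [inn_top, inn_ez, hstar.2.2.1 _ (Coh.subset_zspan d) _ (Coh.subset_zspan i)]
  obtain ⟨u, i⟩ := (((g _ d).res le_top).sub c.gen).inn_int c.gen
  obtain ⟨v, j⟩ := ((((g _ d).res le_top).sub c.gen).res bot_le).inn_int chr_one.gen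
  rw [inn_bot, map_one, mul_one, Pi.sub_apply] at j
  refine ⟨v - u * Nat.card K, fun χ o x r s => ?_⟩
  have t := congrFun (star_comb hstar hext o d (chr_ez.mp ((k _).mp o).1.chr) (chr_ez.mp c.chr)) x
  have w := f x r (by simpa using s)
  rw [ind_top, (S0850.result K hTI hlt hC).2 _ (((((k _).mp o).1.inv.smul _).sub (c.inv.smul _)).cf)
    (fun y q => by simp [((k _).mp o).1.frob_zero le_rfl hlt.le hC ((k _).mp o).2 y y.2 q, c.frob_zero le_rfl hlt.le hC
      ((k _).mp d).2 y y.2 q, N]) (by simp [ez_one, mul_comm, N])] at t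
  rw [i, j, e, ← card_mul_relIndex hlt.le] at w
  simp only [Pi.sub_apply, Pi.smul_apply, smul_eq_mul, ez_coe, e, N] at t w
  change _ = _ / (K.relIndex (normalizer (K : Set G)) : ℂ)
  have y := relIndex_ne hlt.le
  push_cast at w ⊢
  field_simp at w ⊢
  linear_combination t + χ 1 * w

end Cfsg.Agent.S0853
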