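import Mathlib
import Cfsg.Statements.S0855
import Cfsg.Agent.Isaacs.CD
-- import your own Cfsg.Agent.* helpers here

set_option autoImplicit false
open Cfsg

namespace Cfsg.Agent.S0855

open Cfsg.Agent.Char Cfsg.Agent.Isaacs Subgroup

/-- For a finite group G and a prime p: every irreducible character of G has degree a power of p if and only if G has an abelian normal subgroup whose order is prime to p and whose index is a power of p. -/
theorem result {G : Type*} [Group G] [Finite G] (p : ℕ) (hp : p.Prime) : (∀ χ : Cfsg.IrrCharacter G, ∃ k : ℕ, (χ : G → ℂ) 1 = (p : ℂ) ^ k) ↔ ∃ A : Subgroup G, A.Normal ∧ (∀ a ∈ A, ∀ b ∈ A, a * b = b * a) ∧ Nat.Coprime (Nat.card A) p ∧ ∃ k : ℕ, A.index = p ^ k := by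
  have := Fact.mk hp
  refine ⟨fun h => ?_, fun ⟨A, _, h, _, k, hk⟩ χ => ?_⟩
  · obtain ⟨a, b⟩ := pcompl_of_pow (G := G) hp (cd_iff.mpr fun χ => (h χ).imp fun k e =>
      Block.charDegree_of_eq (by simpa using e))
    exact ⟨_, inferInstance, fun _ c _ d => comm_of_commutator_eq_bot b c d, (hp.coprime_iff_not_dvd.mpr a).symm,
      Transfer.exists_index_pResidual_eq_pow⟩
  · have := (irr_top.mpr χ.2).deg_dvd_of_comm norm_top le_top h (Block.irr_degree_cast χ).symm
    rw [relIndex_top_right, hk] at this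
    obtain ⟨j, -, e⟩ := (Nat.dvd_prime_pow hp).mp this
    exact ⟨j, by rw [← Block.irr_degree_cast, e, Nat.cast_pow]⟩

end Cfsg.Agent.S0855
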