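import Mathlib
import Cfsg.Statements.S0857
import Cfsg.Agent.Isaacs.Misc
-- import your own Cfsg.Agent.* helpers here

set_option autoImplicit false
open Cfsg

namespace Cfsg.Agent.S0857

open Cfsg.Agent.Char Cfsg.Agent.Isaacs Subgroup

/-- Let L < K be normal subgroups of the finite group G with no normal subgroup of G strictly between them and with K / L abelian (the commutator subgroup of K lies in L). Let ϑ be an irreducible character of K invariant under conjugation by G. Then the restriction of ϑ to L is irreducible; or it equals e times an irreducible character of L with e ^ 2 equal to the index of L in K; or it is the sum of a family of pairwise distinct irreducible characters of L indexed by a set whose size is the index of L in K. -/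
theorem result {G : Type*} [Group G] [Fintype G] (K L : Subgroup G) [hK : K.Normal] [L.Normal] (hLK : L < K) (hchief : ∀ M : Subgroup G, M.Normal → L ≤ M → M ≤ K → M = L ∨ M = K) (hab : ⁅K, K⁆ ≤ L) (ϑ : K → ℂ) (hϑ : Cfsg.IsIrrCharacter K ϑ) (hinv : ∀ (g : G) (n : K), ϑ ⟨g * n * g⁻¹, hK.conj_mem (n : G) n.2 g⟩ = ϑ n) : Cfsg.IsIrrCharacter L (fun x : L => ϑ ⟨(x : G), hLK.le x.2⟩) ∨ (∃ (φ : L → ℂ) (e : ℕ), Cfsg.IsIrrCharacter L φ ∧ (fun x : L => ϑ ⟨(x : G), hLK.le x.2⟩) = (e : ℂ) • φ ∧ e ^ 2 = L.relIndex K) ∨ (∃ F : Finset (L → ℂ), (∀ φ ∈ F, Cfsg.IsIrrCharacter L φ) ∧ F.card = L.relIndex K ∧ (fun x : L => ϑ ⟨(x : G), hLK.le x.2⟩) = ∑ φ ∈ F, φ) := by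
  have c : Chief ⊤ L K := ⟨hLK, norm_top, norm_top, fun M h1 h2 h3 =>
    hchief M (normalizer_eq_top_iff.mp (top_le_iff.mp h3)) h1 h2⟩
  have h := irr_ez.mpr hϑ
  have hi : Inv ⊤ K (ez K ϑ) := fun a _ x hx => by
    rw [ez_mem ϑ hx, ez_mem ϑ (hK.conj_mem x hx a)]; exact hinv a ⟨x, hx⟩
  rw [← ez_res_le hLK.le]
  rcases c.going_down hab h hi with h1 | ⟨φ, e, h1, h2, h3⟩ | ⟨φ, h1, h2, h3, h4⟩
  · exact Or.inl h1
  · exact Or.inr (Or.inl ⟨_, e, h1, h2.eq, h3⟩)
  obtain ⟨F, h5, h6, h7⟩ := exists_orbit (K := K) (L := L) norm_top hLK.le φ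
  refine Or.inr (Or.inr ⟨F, fun α hα => ?_, by rw [h6, ← inf_relIndex_right, h3], ?_⟩)
  · obtain ⟨g, -, rfl⟩ := (h5 α).mp hα
    exact h1.cjg (norm_top (mem_top g))
  · rw [h7 _ h1 h h2, ← inn_ind_right hLK.le h.inv, h4.inn_right, h.inn_self, one_smul]

end Cfsg.Agent.S0857
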