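import Mathlib
import Cfsg.Statements.S0859
import Cfsg.Agent.Isaacs.Real2
import Cfsg.Agent.Isaacs.Cent
-- import your own Cfsg.Agent.* helpers here

set_option autoImplicit false
open Cfsg

namespace Cfsg.Agent.S0859

open Cfsg.Agent.Char Cfsg.Agent.Isaacs Cfsg.Agent.Core Subgroup
open scoped ComplexConjugate commutatorElement

theorem lin_of_prim {G : Type*} [Group G] [Finite G] {U M : Subgroup G} {l : G → ℂ} (hs : Group.IsSolvable M) (hl : M ≤ U)
    (hn : U ≤ normalizer (M : Set G)) (hab : ∀ p : ℕ, p.Prime → ∀ P ≤ M, IsPGroup p P → ⁅P, P⁆ = ⊥) (h : Irr U l) (hM : Irr M l)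
    (hp : Prim ⊥ U l) : l 1 = 1 := by
  have a : ∀ K : Subgroup G, K ≤ M → U ≤ normalizer (K : Set G) → Ker ⁅U, K⁆ l := fun K => by
    induction K using WellFoundedLT.induction with | _ K ih
    intro h1 h2
    rcases eq_bot_or_bot_lt K with rfl | h0
    · simpa using ker_bot
    obtain ⟨Z, -, c⟩ := exists_chief_below h0 norm_top h2
    have b := ih Z c.lt (c.lt.le.trans h1) c.nL
    obtain ⟨p, q, -, k, -, e⟩ := c.exists_prime (c.comm_le ((h1.trans hl).trans c.nL) (solvMod_of_solv (solvable_of_le h1 hs)))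
    have := Fact.mk q
    obtain ⟨P, s⟩ := exists_isSylowOf p K
    have d := s.sup_eq_of_relIndex_eq_pow c.lt.le e
    have f := s.le.trans (h1.trans hl)
    have z := c.lt.le.trans (h1.trans hl)
    refine hp.scalar h bot_le (h1.trans hl) h2 (h.chr.ker_kerS.mono (commutator_le.mpr fun x i y j => ?_))
    obtain ⟨u, u1, x, x1, rfl⟩ := (mem_sup_of_le_normalizer (f.trans c.nL)).mp (d.ge i)
    obtain ⟨v, v1, y, y1, rfl⟩ := (mem_sup_of_le_normalizer (f.trans c.nL)).mp (d.ge j)
    have k := h.chr.le_kerS (commutator_le.mpr fun a i b j => commutator_le_self U (commutator_mem_commutator i (z j))) b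
    rw [show ⁅u * x, v * y⁆ = u * (⁅x, v⁆ * (v * ⁅x, y⁆ * v⁻¹)) * u⁻¹ * ⁅v * y, u⁆⁻¹ by simp only [commutatorElement_def]; group,
      mem_bot.mp ((hab p q P (s.le.trans h1) s.isPGroup).le (commutator_mem_commutator x1 y1)), mul_one, mul_inv_cancel, mul_one]
    exact mul_mem (conj_mem (h.chr.normalizes_kerS le_normalizer h.inv) (z u1) (k (commutator_mem_commutator (f x1) v1)))
      (inv_mem (k (commutator_mem_commutator (mul_mem (z v1) (f y1)) u1)))
  exact hM.one_of_ker ((a M le_rfl hn).mono (commutator_mono hl le_rfl))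

/-- Let G be a finite solvable group and N a normal subgroup such that for every prime p every Sylow p-subgroup of N is abelian. Suppose every irreducible character of G is induced from an irreducible character of some subgroup containing N whose restriction to N is irreducible. Then every irreducible character of G is induced from a character of degree 1 of some subgroup. -/
theorem result {G : Type*} [Group G] [Fintype G] [Group.IsSolvable G] (N : Subgroup G) [N.Normal] (hab : ∀ (p : ℕ) [Fact p.Prime] (P : Sylow p N), ∀ a ∈ P, ∀ b ∈ P, a * b = b * a) (hrel : ∀ χ : G → ℂ, Cfsg.IsIrrCharacter G χ → ∃ (H : Subgroup G) (hNH : N ≤ H) (ψ : H → ℂ), Cfsg.IsIrrCharacter H ψ ∧ Cfsg.indFun H ψ = χ ∧ Cfsg.IsIrrCharacter N (fun n : N => ψ ⟨(n : G), hNH n.2⟩)) (χ : G → ℂ) (hχ : Cfsg.IsIrrCharacter G χ) : ∃ (U : Subgroup G) (lam : U → ℂ), Cfsg.IsCharacter U lam ∧ lam 1 = 1 ∧ Cfsg.indFun U lam = χ := by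
  obtain ⟨H, h1, ψ, h2, h3, h4⟩ := hrel χ hχ
  obtain ⟨U, l, -, a, b, c, d⟩ := (irr_ez.mpr h2).exists_prim bot_le
  have e : Irr N (ind U H l) := Irr.congr (show Irr N (ez H ψ) by unfold Irr; rwa [ez_res_le h1 ψ]) (c.symm.mono h1)
  have f := eq_of_ind_res_irr b.chr (le_sup_right : U ≤ N ⊔ U) (sup_le h1 a)
    (((b.chr.indc a).res (sup_le h1 a)).irr_of_res le_sup_left e)
  rw [← f] at e
  have g := (b.chr.res inf_le_left).irr_of_ind inf_le_right (by rw [ind_inf]; exact e.congr (ind_res_sup b.inv norm_top))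
  refine ⟨U, fun x => l x, b.chr, lin_of_prim (M := U ⊓ N) inferInstance inf_le_left (le_normalizer_inf le_normalizer norm_top)
    (fun p q P i j => ?_) b g d, ?_⟩
  · have := Fact.mk q
    obtain ⟨_, ⟨Q, rfl⟩, k⟩ := (exists_isSylowOf_ge j (i.trans inf_le_right)).imp fun _ => And.imp_left isSylowOf_iff_exists_sylow.mp
    refine commutator_eq_bot_iff_le_centralizer.mpr fun x u y v => ?_
    obtain ⟨x, u', rfl⟩ := k u
    obtain ⟨y, v', rfl⟩ := k v
    exact congrArg Subtype.val (hab p Q y v' x u')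
  rw [← ind_top, ← ind_ind a le_top, ind_congr c, ind_top_ez, h3]

end Cfsg.Agent.S0859
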