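import Mathlib
import Cfsg.Statements.S0861
import Cfsg.Agent.Isaacs.Zero2
-- import your own Cfsg.Agent.* helpers here

set_option autoImplicit false
open Cfsg

namespace Cfsg.Agent.S0861

open Cfsg.Agent.Char Cfsg.Agent.Isaacs Subgroup
open scoped ComplexConjugate commutatorElement

/-- Let P be a normal abelian Sylow p-subgroup of the finite group G and suppose some element g of P has centralizer exactly P. Then the number of irreducible characters of G is at most the order of P, and if equality holds then G / P is abelian (the commutator subgroup lies in P). -/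
theorem result {G : Type*} [Group G] [Finite G] (p : ℕ) [Fact p.Prime] (P : Sylow p G) [(P : Subgroup G).Normal] (hab : ∀ a ∈ P, ∀ b ∈ P, a * b = b * a) (g : G) (hg : g ∈ P) (hC : Subgroup.centralizer ({g} : Set G) = P) : Nat.card (Cfsg.IrrCharacter G) ≤ Nat.card P ∧ (Nat.card (Cfsg.IrrCharacter G) = Nat.card P → commutator G ≤ P) := by
  classical
  have := Fintype.ofFinite G
  have hp : p.Prime := Fact.out
  set s := Finset.univ.filter fun h => zpowers h = zpowers g
  have s1 : ∀ h ∈ s, h ∈ (P : Subgroup G) := fun h hh =>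
    zpowers_le.mpr hg ((Finset.mem_filter.mp hh).2.le (mem_zpowers h))
  have s2 : ∀ h ∈ s, centralizer {h} = (P : Subgroup G) := fun h hh => by
    rw [← hC, ← centralizer_closure, ← zpowers_eq_closure, (Finset.mem_filter.mp hh).2, zpowers_eq_closure,
      centralizer_closure]
  have s3 : 0 < s.card := Finset.card_pos.mpr ⟨g, by simp [s]⟩
  have h1 : ∀ χ : IrrCharacter G, (s.card : ℝ) ≤ ∑ h ∈ s, ‖(χ : G → ℂ) h‖ ^ 2 := fun χ =>
    card_le_sum_norm_sq (isIrr_isGenChar χ.2) s (fun k hk h hh => Finset.mem_filter.mpr ⟨Finset.mem_univ _,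
      (le_antisymm (zpowers_le.mpr (pow_mem (mem_zpowers h) k)) (zpowers_le.mpr
        (mem_of_pow_coprime hk (mem_zpowers _)))).trans (Finset.mem_filter.mp hh).2⟩) fun h hh => by
      obtain ⟨k, hk⟩ := P.isPGroup' ⟨h, s1 h hh⟩
      obtain ⟨d, -, hd⟩ := isIrr_degree χ.2
      exact ne_zero_of_not_dvd hp (irr_isChar χ) (congrArg Subtype.val hk) hd fun e => P.not_dvd_index (e.trans
        (relIndex_top_right (P : Subgroup G) ▸ (irr_top.mpr χ.2).deg_dvd_of_comm norm_top le_top hab hd))
  have h2 : ∑ χ : IrrCharacter G, ∑ h ∈ s, ‖(χ : G → ℂ) h‖ ^ 2 = s.card * Nat.card P := by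
    rw [Finset.sum_comm, Finset.sum_congr rfl fun h hh => by rw [sum_irr_norm_sq, s2 h hh], Finset.sum_const,
      nsmul_eq_mul]
  have h3 : ∑ _ : IrrCharacter G, (s.card : ℝ) = s.card * Nat.card (IrrCharacter G) := by
    rw [Finset.sum_const, nsmul_eq_mul, Nat.card_eq_fintype_card, Finset.card_univ, mul_comm]
  refine ⟨?_, fun e x hx => mem_of_forall_irr_charKer _ fun χ a b => ?_⟩
  · have := Finset.sum_le_sum fun χ (_ : χ ∈ Finset.univ) => h1 χ
    rw [h2, h3] at this
    exact_mod_cast le_of_mul_le_mul_left this (by exact_mod_cast s3)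
  · have := (Finset.sum_eq_sum_iff_of_le fun χ (_ : χ ∈ Finset.univ) => h1 χ).mp (by rw [h2, h3, e]) ⟨χ, a⟩
      (Finset.mem_univ _)
    obtain ⟨d, -, hd⟩ := isIrr_degree a
    rw [Finset.sum_congr rfl (g := fun _ => (d : ℝ) ^ 2) fun h hh => by
      rw [show (⟨χ, a⟩ : IrrCharacter G).1 h = d from (apply_eq_of_mem_charKer (b (s1 h hh))).trans hd,
        Complex.norm_natCast], Finset.sum_const, nsmul_eq_mul, eq_comm,
      mul_eq_left₀ (by exact_mod_cast s3.ne')] at this
    have h4 : d = 1 := by
      norm_cast at this; exact (pow_eq_one_iff.mp this).resolve_right two_ne_zero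
    exact apply_eq_of_mem_charKer (commutator_le_charKer (isIrr_isChar a) (by rw [hd, h4, Nat.cast_one]) hx)

end Cfsg.Agent.S0861
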