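import Mathlib
import Cfsg.Statements.S0869
-- import your own Cfsg.Agent.* helpers here

set_option autoImplicit false
open Cfsg

namespace Cfsg.Agent.S0869

/-- Let S be a nonempty finite type and R an additive subgroup of the integer-valued functions on S that is closed under pointwise multiplication. If the constant function 1 is not in R, then there exist a point x of S and a prime p such that p divides f x for every f in R. -/
theorem result {S : Type*} [Finite S] [Nonempty S] (R : AddSubgroup (S → ℤ)) (hmul : ∀ f ∈ R, ∀ g ∈ R, f * g ∈ R) (h1 : (1 : S → ℤ) ∉ R) : ∃ (x : S) (p : ℕ), p.Prime ∧ ∀ f ∈ R, (p : ℤ) ∣ f x := by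
  by_contra hc
  push Not at hc
  apply h1
  have := Fintype.ofFinite S
  have h2 : ∀ x : S, ∃ f ∈ R, f x = 1 := by
    intro x
    let I : AddSubgroup ℤ := R.map (Pi.evalAddMonoidHom (fun _ : S => ℤ) x)
    obtain ⟨a, ha⟩ := Int.subgroup_cyclic I
    have h3 : ∀ f ∈ R, a ∣ f x := fun f hf => by
      have : f x ∈ I := ⟨f, hf, rfl⟩
      rw [ha, AddSubgroup.mem_closure_singleton] at this
      obtain ⟨n, hn⟩ := this
      exact ⟨n, by rw [← hn, smul_eq_mul, mul_comm]⟩
    have h4 : a.natAbs = 1 := by
      by_contra h
      obtain ⟨p, hp, hpa⟩ := Nat.exists_prime_and_dvd h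
      obtain ⟨f, hf, hf'⟩ := hc x p hp
      exact hf' ((Int.natCast_dvd.mpr hpa).trans (h3 f hf))
    have : (1 : ℤ) ∈ I := by
      rw [ha, AddSubgroup.mem_closure_singleton]
      exact ⟨a, by rw [smul_eq_mul, ← Int.natAbs_mul_self, h4]; rfl⟩
    exact this
  choose f hf hf1 using h2
  have h3 : ∀ s : Finset S, 1 - ∏ x ∈ s, (1 - f x) ∈ R := by
    classical
    intro s
    induction s using Finset.induction_on with
    | empty => simp [R.zero_mem]
    | insert x s hx ih =>
      rw [Finset.prod_insert hx]
      have := R.sub_mem (R.add_mem ih (hf x)) (hmul _ (hf x) _ ih)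
      convert this using 1
      ring
  have h4 : ∏ x, (1 - f x) = 0 := by
    funext y
    rw [Finset.prod_apply]
    exact Finset.prod_eq_zero (Finset.mem_univ y) (by simp [hf1])
  simpa [h4] using h3 Finset.univ

end Cfsg.Agent.S0869
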