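import Mathlib
import Cfsg.Statements.S0871
import Cfsg.Agent.Isaacs.Ch8
import Cfsg.Agent.Core.SylowOf
-- import your own Cfsg.Agent.* helpers here

set_option autoImplicit false
open Cfsg

namespace Cfsg.Agent.S0871

open Cfsg.Agent.Char Cfsg.Agent.Isaacs Subgroup

/-- Let x be an element of the finite group G and p a prime. Then there is a subgroup H having a cyclic normal subgroup C of order prime to p and p-power index in H, such that the value at x of the function induced from the constant function 1 on H is a natural number not divisible by p. -/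
theorem result {G : Type*} [Group G] [Fintype G] (x : G) (p : ℕ) (hp : p.Prime) : ∃ H : Subgroup G, (∃ C : Subgroup G, C ≤ H ∧ H ≤ Subgroup.normalizer (C : Set G) ∧ IsCyclic C ∧ Nat.Coprime (Nat.card C) p ∧ ∃ k : ℕ, C.relIndex H = p ^ k) ∧ ∃ n : ℕ, Cfsg.indFun H (fun _ => 1) x = (n : ℂ) ∧ ¬ p ∣ n := by
  classical
  have := Fact.mk hp
  obtain ⟨u, y, rfl, hc, hu, hy⟩ := Block.exists_isPPart hp x
  obtain ⟨P, hP⟩ := Core.exists_isSylowOf p (normalizer (zpowers y : Set G))
  have h1 : (Nat.card (zpowers y)).Coprime p := by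
    rw [Nat.card_zpowers]; exact ((Nat.Prime.coprime_iff_not_dvd hp).mpr hy).symm
  have h2 : zpowers y ⊔ P ≤ normalizer (zpowers y : Set G) := sup_le le_normalizer hP.le
  obtain ⟨k, hk⟩ : ∃ k, (zpowers y).relIndex (zpowers y ⊔ P) = p ^ k := by
    rw [Core.relIndex_sup_of_le_normalizer hP.le]
    obtain ⟨j, hj⟩ := hP.isPGroup.exists_card_eq
    exact ((Nat.dvd_prime_pow hp).mp (hj ▸ Core.relIndex_dvd_card' _ _)).imp fun _ h => h.2
  refine ⟨zpowers y ⊔ P, ⟨zpowers y, le_sup_left, h2, inferInstance, h1, k, hk⟩, _,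
    IndTI.indFun_one_eq_card_fixedBy _ _, fun hd => ?_⟩
  have h3 : indFun (zpowers y ⊔ P) (fun _ => 1) y =
      (zpowers y ⊔ P).relIndex (normalizer (zpowers y : Set G)) := by
    rw [IndTI.indFun_one_apply, ← Clifford.card_div_card_eq_relIndex h2, div_eq_inv_mul,
      Nat.card_eq_fintype_card (α := normalizer (zpowers y : Set G)), Fintype.card_subtype]
    congr 3
    ext g
    rw [Finset.mem_filter_univ, Finset.mem_filter_univ, ← (normalizer (zpowers y : Set G)).inv_mem_iff]
    refine ⟨fun h => mem_normalizer_fintype fun z hz => ?_,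
      fun h => mem_sup_left (by simpa using conj_mem le_rfl h (mem_zpowers y))⟩
    obtain ⟨i, rfl⟩ := hz
    rw [← conj_zpow]
    refine zpow_mem (Core.mem_of_pow_mem_of_coprime (pow_relIndex_mem h2 (by simpa using h)) ?_) i
    rw [hk, show g⁻¹ * y * g⁻¹⁻¹ = MulAut.conj g⁻¹ y from rfl, MulEquiv.orderOf_eq]
    exact ((Nat.Prime.coprime_iff_not_dvd hp).mpr hy).pow_left k
  obtain ⟨M, hM⟩ := Block.exists_isPModular hp
  have h4 := Block.val_mul_sub_lt_one_of_mem_VC hM (Block.isChar_mem_VC
    (IndRep.isChar_indFun (zpowers y ⊔ P) isChar_one)) hu hc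
  rw [h3, IndTI.indFun_one_eq_card_fixedBy, ← Int.cast_natCast, ← Int.cast_natCast (R := ℂ) (relIndex _ _),
    ← Int.cast_sub, Block.val_intCast_lt_one_iff hM,
    dvd_sub_right (Int.natCast_dvd_natCast.mpr hd), Int.natCast_dvd_natCast] at h4
  exact hP.not_dvd (h4.trans (relIndex_dvd_of_le_left _ le_sup_right))

end Cfsg.Agent.S0871
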