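import Mathlib
import Cfsg.Statements.S0872
import Cfsg.Agent.Isaacs.Ch8
import Cfsg.Agent.S0871
-- import your own Cfsg.Agent.* helpers here

set_option autoImplicit false
open Cfsg

namespace Cfsg.Agent.S0872

open Cfsg.Agent.Char Cfsg.Agent.Isaacs Subgroup

/-- For a finite group G and a prime p there are an integer m not divisible by p and a ℤ-linear combination of functions induced from the constant function 1 on subgroups H, each having a cyclic normal subgroup of order prime to p and p-power index in H, that equals the constant function m. -/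
theorem result {G : Type*} [Group G] [Fintype G] (p : ℕ) (hp : p.Prime) : ∃ (m : ℤ) (a : Subgroup G → ℤ), ¬ (p : ℤ) ∣ m ∧ (∀ H, a H ≠ 0 → (∃ C : Subgroup G, C ≤ H ∧ H ≤ Subgroup.normalizer (C : Set G) ∧ IsCyclic C ∧ Nat.Coprime (Nat.card C) p ∧ ∃ k : ℕ, C.relIndex H = p ^ k)) ∧ (fun _ : G => (m : ℂ)) = ∑ H : Subgroup G, (a H : ℂ) • Cfsg.indFun H (fun _ => 1) := by
  classical
  set Q : Subgroup G → Prop := fun H => ∃ C : Subgroup G, C ≤ H ∧ H ≤ Subgroup.normalizer (C : Set G) ∧
    IsCyclic C ∧ Nat.Coprime (Nat.card C) p ∧ ∃ k : ℕ, C.relIndex H = p ^ k with hQ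
  have h1 : ∀ U H, U ≤ H → Q H → Q U := by
    rintro U H hl ⟨C, -, h2, h3, h4, k, h5⟩
    refine ⟨C ⊓ U, inf_le_right, Core.le_normalizer_inf (hl.trans h2) le_normalizer,
      Subgroup.isCyclic_of_le inf_le_left, h4.coprime_dvd_left (card_dvd_of_le inf_le_left), ?_⟩
    have := normal_sub h2
    have h6 := relIndex_dvd_index_of_normal (C.subgroupOf H) (U.subgroupOf H)
    rw [relIndex_subgroupOf hl, show (C.subgroupOf H).index = p ^ k from h5, Nat.dvd_prime_pow hp] at h6
    rw [inf_relIndex_right]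
    exact h6.imp fun _ h => h.2
  let Λ := Submodule.span ℤ ((fun H : Subgroup G => indFun H fun _ => (1 : ℂ)) '' {H | Q H})
  have h2 : Λ * Λ ≤ Λ := by
    rw [Submodule.span_mul_span, Submodule.span_le]
    rintro _ ⟨_, ⟨H, hH, rfl⟩, _, ⟨K, -, rfl⟩, rfl⟩
    obtain ⟨a, h3, h4⟩ := ind_one_mul_ind_one H K
    beta_reduce
    rw [h4]
    refine Λ.sum_mem fun U _ => ?_
    by_cases h5 : a U = 0
    · simp [h5]
    · rw [Nat.cast_smul_eq_nsmul]
      exact Λ.smul_of_tower_mem _ (Submodule.subset_span ⟨U, h1 U H (h3 U h5) hH, rfl⟩)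
  let R : NonUnitalSubring (G → ℤ) :=
    { carrier := {f | (fun g => (f g : ℂ)) ∈ Λ}
      add_mem' := fun {a b} ha hb => by simpa [Pi.add_def] using Λ.add_mem ha hb
      zero_mem' := by simpa [Pi.zero_def] using Λ.zero_mem
      neg_mem' := fun {a} ha => by simpa only [Pi.neg_def, Set.mem_ofPred_eq, Int.cast_neg] using Λ.neg_mem ha
      mul_mem' := fun {a b} ha hb => by simpa [Pi.mul_def] using h2 (Submodule.mul_mem_mul ha hb) }
  obtain ⟨m, h3, h4⟩ := exists_const_mem R hp fun x => by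
    obtain ⟨H, h5, n, h6, h7⟩ := S0871.result x p hp
    refine ⟨fun g => Nat.card (MulAction.fixedBy (G ⧸ H) g), Submodule.subset_span ⟨H, h5, ?_⟩, ?_⟩
    · funext g; simp [IndTI.indFun_one_eq_card_fixedBy]
    · rw [IndTI.indFun_one_eq_card_fixedBy, Nat.cast_inj] at h6
      beta_reduce
      rwa [h6, Int.natCast_dvd_natCast]
  obtain ⟨l, h5, h6⟩ := (Finsupp.mem_span_image_iff_linearCombination ℤ).mp h4
  refine ⟨m, l, h3, fun H hH => h5 (Finsupp.mem_support_iff.mpr hH), h6.symm.trans ?_⟩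
  rw [Finsupp.linearCombination_apply, Finsupp.sum_fintype _ _ (by simp)]
  simp [Int.cast_smul_eq_zsmul]

end Cfsg.Agent.S0872
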