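import Mathlib
import Cfsg.Statements.S0873
import Cfsg.Agent.Isaacs.Misc
import Cfsg.Agent.Core.Coprime
-- import your own Cfsg.Agent.* helpers here

set_option autoImplicit false
open Cfsg

namespace Cfsg.Agent.S0873

open Cfsg.Agent.Char Cfsg.Agent.Isaacs Subgroup
open scoped commutatorElement

/-- Let C be a normal subgroup of the finite group G of order prime to p and P a p-subgroup with C ⊔ P = G. Let λ be a character of C of degree 1 invariant under conjugation by G and equal to 1 at every element of C centralized by P. Then λ is identically 1. -/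
theorem result {G : Type*} [Group G] [Finite G] (p : ℕ) [Fact p.Prime] (C P : Subgroup G) [hC : C.Normal] (hP : IsPGroup p P) (hcop : Nat.Coprime (Nat.card C) p) (hCP : C ⊔ P = ⊤) (lam : C → ℂ) (hlam : Cfsg.IsCharacter C lam ∧ lam 1 = 1) (hinv : ∀ (g : G) (c : C), lam ⟨g * c * g⁻¹, hC.conj_mem (c : G) c.2 g⟩ = lam c) (hker : ∀ c : C, (c : G) ∈ Subgroup.centralizer (P : Set G) → lam c = 1) : lam = fun _ => 1 := by
  have h := chr_ez.mpr hlam.1
  have h1 : ez C lam 1 = 1 := by rw [ez_one, hlam.2]
  have h2 : Ker (⁅C, P⁆ ⊔ C ⊓ centralizer (P : Set G)) (ez C lam) := by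
    refine Ker.sup (h.ker_kerS.mono (commutator_le.mpr fun c hc g _ => ?_)) (fun c hc => ?_) h
      (commutator_le_left C P) inf_le_left
    · have h3 := hC.conj_mem _ (C.inv_mem hc) g
      have e : ⁅c, g⁆ = c * (g * c⁻¹ * g⁻¹) := by simp [commutatorElement_def, mul_assoc]
      rw [h.mem_kerS, e, h.map_mul h1 hc h3, ez_mem lam h3, hinv g ⟨_, C.inv_mem hc⟩, ← ez_coe lam,
        ← h.map_mul h1 hc (C.inv_mem hc), mul_inv_cancel]
      exact ⟨C.mul_mem hc h3, rfl⟩
    · rw [h1, ez_mem lam hc.1]; exact hker _ hc.2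
  rw [Core.commutator_sup_centralizer P C norm_top (Core.coprime_of_isPGroup hP hcop).symm
    (Or.inl (Core.solvable_of_isPGroup hP))] at h2
  funext c
  rw [← ez_coe lam, h2 c c.2, h1]

end Cfsg.Agent.S0873
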