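import Mathlib
import Cfsg.Statements.S0875
import Cfsg.Agent.Isaacs.Ch8
-- import your own Cfsg.Agent.* helpers here

set_option autoImplicit false
open Cfsg

namespace Cfsg.Agent.S0875

open Cfsg.Agent.Char Cfsg.Agent.Isaacs Subgroup

/-- Let G be a finite group of order m * n with m and n coprime, and g an element whose order is coprime to m. Every x in G factors uniquely as x = u * v with u, v commuting, the order of u coprime to n and the order of v coprime to m; let ϑ be the function on G equal to n at those x whose factor v is conjugate to g and equal to 0 elsewhere. Then ϑ is a linear combination of the irreducible characters of G with algebraic-integer coefficients. -/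
theorem result {G : Type*} [Group G] [Fintype G] (m n : ℕ) (hmn : Nat.card G = m * n) (hcop : Nat.Coprime m n) (g : G) (hg : Nat.Coprime (orderOf g) m) (ϑ : G → ℂ) (hϑ1 : ∀ x : G, (∃ v : G, IsConj v g ∧ (∃ u : G, x = u * v ∧ Commute u v ∧ Nat.Coprime (orderOf u) n ∧ Nat.Coprime (orderOf v) m)) → ϑ x = n) (hϑ0 : ∀ x : G, (¬ ∃ v : G, IsConj v g ∧ (∃ u : G, x = u * v ∧ Commute u v ∧ Nat.Coprime (orderOf u) n ∧ Nat.Coprime (orderOf v) m)) → ϑ x = 0) : ∃ c : Cfsg.IrrCharacter G → ℂ, (∀ χ, c χ ∈ Cfsg.AlgInt) ∧ ϑ = ∑ᶠ χ : Cfsg.IrrCharacter G, c χ • (χ : G → ℂ) := by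
  classical
  obtain ⟨k, hk⟩ := exists_partExp (G := G) hmn.dvd hcop
  have h1 : ∀ x, ϑ x = if IsConj (x ^ k) g then (n : ℂ) else 0 := fun x => by
    split_ifs with h
    · exact hϑ1 x ⟨_, h, x * (x ^ k)⁻¹, by simp, (((Commute.refl x).pow_right k).mul_left
        (Commute.refl _).inv_left), hcop.coprime_dvd_left (hk.left x), hcop.symm.coprime_dvd_left (hk.right x)⟩
    · refine hϑ0 x ?_
      rintro ⟨v, h2, u, rfl, h3, h4, h5⟩
      exact h (by rwa [hk.mul_eq h3 h4 h5])
  have h2 : IsClassFunction G ϑ := classFun_iff_isConj.mpr fun a b hab => by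
    rw [h1, h1]
    exact if_congr ⟨fun h => (hab.pow k).symm.trans h, fun h => (hab.pow k).trans h⟩ rfl rfl
  have h3 : ∀ x, IsIntegral ℤ (ϑ x) := fun x => by
    rw [h1]; split_ifs
    · exact isIntegral_natCast' n
    · exact isIntegral_zero
  refine ⟨fun χ => classInner ϑ χ, fun χ => Block.isIntegral_of_forall_mem_V (n := Nat.card G)
    Nat.card_pos.ne' ?_ fun p M hM _ => Block.inner_mem_V_of_mem_VC ?_ (irr_isChar χ), by
      rw [finsum_eq_sum_of_fintype]; exact classFun_eq_sum h2⟩
  · beta_reduce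
    rw [classInner, mul_inv_cancel_left₀ card_ne_zero]
    exact IsIntegral.sum _ fun x _ => (h3 x).mul (isIntegral_conj (isIrr_isIntegral χ.2 x))
  by_cases hp : p ∣ m
  · refine Block.mem_VC_of_regular hM h2 (fun x _ => Block.mem_V_of_isIntegral M (h3 x))
      fun x u _ ⟨j, hu⟩ hc => ?_
    rw [h1, h1, hc.mul_pow, hk.kill u (hu ▸ (hcop.coprime_dvd_left hp).pow_left j), mul_one]
  · refine Block.mem_VC_of_val_le_card h2 fun x => ?_
    rw [h1, hmn, Nat.cast_mul, map_mul, (Block.val_natCast_eq_one_iff hM m).mpr hp, one_mul]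
    split_ifs <;> simp

end Cfsg.Agent.S0875
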