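import Mathlib
import Cfsg.Statements.S0876
import Cfsg.Agent.Isaacs.Ch8
-- import your own Cfsg.Agent.* helpers here

set_option autoImplicit false
open Cfsg

namespace Cfsg.Agent.S0876

open Cfsg.Agent.Char Cfsg.Agent.Isaacs Subgroup

/-- Let G be a finite group, p a prime and M a maximal ideal of the ring of algebraic integers containing p. Let x, y be elements with p-parts a and b (so a⁻¹ * x and b⁻¹ * y are their p-regular parts). Then a⁻¹ * x and b⁻¹ * y are conjugate in G if and only if, for every irreducible character χ, the difference χ x - χ y lies in the local ideal at M. -/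
theorem result {G : Type*} [Group G] [Finite G] (p : ℕ) (M : Ideal Cfsg.AlgInt) (hM : Cfsg.IsPModular p M) (x y a b : G) (ha : Cfsg.IsPPart p x a) (hb : Cfsg.IsPPart p y b) : IsConj (a⁻¹ * x) (b⁻¹ * y) ↔ ∀ χ : Cfsg.IrrCharacter G, Cfsg.MemLocalIdeal M ((χ : G → ℂ) x - (χ : G → ℂ) y) := by
  classical
  have := Fintype.ofFinite G
  have hp := hM.1
  obtain ⟨x, rfl, h1, h2, h3⟩ := ha
  obtain ⟨y, rfl, h4, h5, h6⟩ := hb
  simp only [inv_mul_cancel_left]
  have h7 : ∀ χ : IrrCharacter G, MemLocalIdeal M ((χ : G → ℂ) (a * x) - (χ : G → ℂ) (b * y)) ↔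
      Block.val M ((χ : G → ℂ) x - (χ : G → ℂ) y) < 1 := fun χ => by
    have e1 := Block.val_mul_sub_lt_one_of_mem_VC hM (Block.irr_mem_VC χ) h2 h1
    have e2 := Block.val_mul_sub_lt_one_of_mem_VC hM (Block.irr_mem_VC χ) h5 h4
    rw [Block.memLocalIdeal_iff_of_isIntegral hM ((isIrr_isIntegral χ.2 _).sub (isIrr_isIntegral χ.2 _))]
    have e3 := (Block.val M).map_sub_lt e1 e2
    constructor
    · intro h
      convert (Block.val M).map_sub_lt h e3 using 2
      ring
    · intro h
      convert (Block.val M).map_add_lt h e3 using 2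
      ring
  simp only [h7]
  refine ⟨fun h χ => by rw [classFun_isConj (irr_classFun χ) h]; simp, fun h => by_contra fun hc => ?_⟩
  obtain ⟨j, m, h8, h9⟩ := Nat.exists_eq_pow_mul_and_not_dvd (Nat.card_pos (α := G)).ne' p hp.ne_one
  have h10 := (hp.coprime_iff_not_dvd.mpr h8)
  obtain ⟨k, hk⟩ := exists_partExp (G := G) h9.dvd (h10.pow_left j)
  let θ : G → ℂ := fun z => if IsConj (z ^ k) x then 1 else 0
  have h11 : IsClassFunction G θ := classFun_iff_isConj.mpr fun a b hab =>
    if_congr ⟨fun h => (hab.pow k).symm.trans h, fun h => (hab.pow k).trans h⟩ rfl rfl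
  have h12 : θ ∈ Block.VC M G := Block.mem_VC_of_regular hM h11 (fun z _ => by
    dsimp only [θ]; split_ifs; exacts [one_mem _, zero_mem _]) fun z u _ ⟨i, hu⟩ hc => by
      dsimp only [θ]
      rw [hc.mul_pow, hk.kill u (hu ▸ h10.pow_left i), mul_one]
  have h13 : θ x - θ y = 1 := by
    dsimp only [θ]
    rw [hk.fix x ((hp.coprime_iff_not_dvd.mpr h3).symm.pow_right j),
      hk.fix y ((hp.coprime_iff_not_dvd.mpr h6).symm.pow_right j), if_pos (IsConj.refl x),
      if_neg fun h => hc h.symm, sub_zero]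
  rw [classFun_apply_eq_sum h11 x, classFun_apply_eq_sum h11 y, ← Finset.sum_sub_distrib] at h13
  refine lt_irrefl (Block.val M 1) ?_
  conv_lhs => rw [← h13]
  rw [map_one]
  refine (Block.val M).map_sum_lt one_ne_zero fun χ _ => ?_
  rw [← mul_sub, map_mul]
  exact lt_of_le_of_lt (mul_le_of_le_one_left' (Block.mem_V_iff.mp
    (Block.inner_mem_V_of_mem_VC h12 (irr_isChar χ)))) (h χ)

end Cfsg.Agent.S0876
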