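import Mathlib
import Cfsg.Statements.S0889
import Cfsg.Agent.Isaacs.Berger
-- import your own Cfsg.Agent.* helpers here

set_option autoImplicit false
open Cfsg

namespace Cfsg.Agent.S0889

open Cfsg.Agent.Char Cfsg.Agent.Isaacs Subgroup

/-- Let G be a finite solvable group and χ an irreducible character of G such that for every normal subgroup N the restriction of χ to N is a natural-number multiple of one irreducible character of N. Then χ is not induced from a character of any proper subgroup. -/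
theorem result {G : Type*} [Group G] [Fintype G] [Group.IsSolvable G] (χ : G → ℂ) (hχ : Cfsg.IsIrrCharacter G χ) (hqp : ∀ (N : Subgroup G), N.Normal → ∃ (ϑ : N → ℂ) (e : ℕ), Cfsg.IsIrrCharacter N ϑ ∧ (fun n : N => χ n) = (e : ℂ) • ϑ) (K : Subgroup G) (hK : K ≠ ⊤) (ψ : K → ℂ) (hψ : Cfsg.IsCharacter K ψ) : Cfsg.indFun K ψ ≠ χ := by
  intro e
  refine hK ((irr_top.mpr hχ).prim_of_homog ⊥ inferInstance (solvMod_of_solv inferInstance)
    (fun M hM _ => ?_) K (ez K ψ) bot_le le_top (chr_ez.mpr hψ) (by rw [ind_top_ez, e]; exact .refl _ _))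
  obtain ⟨ϑ, n, a, b⟩ := hqp M hM
  exact ⟨ez M ϑ, n, irr_ez.mpr a, fun x hx => by rw [Pi.smul_apply, ez_mem _ hx]; exact congrFun b ⟨x, hx⟩⟩

end Cfsg.Agent.S0889
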