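import Mathlib
import Cfsg.Statements.S0890
import Cfsg.Agent.Isaacs.Berger
-- import your own Cfsg.Agent.* helpers here

set_option autoImplicit false
open Cfsg

namespace Cfsg.Agent.S0890

open Cfsg.Agent.Char Cfsg.Agent.Isaacs Subgroup

/-- Let L ≤ H < G with L normal in G, H a maximal subgroup and G / L solvable. Let ϑ be an irreducible character of H whose restriction to L is irreducible and whose induction χ to G is irreducible. Then there is a normal subgroup M of G containing L such that the restriction of χ to M is not a natural-number multiple of a single irreducible character of M. -/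
theorem result {G : Type*} [Group G] [Fintype G] (L H : Subgroup G) [L.Normal] (hLH : L ≤ H) (hmax : IsCoatom H) (hsolv : Group.IsSolvable (G ⧸ L)) (ϑ : H → ℂ) (hϑ : Cfsg.IsIrrCharacter H ϑ) (hϑL : Cfsg.IsIrrCharacter L (fun x : L => ϑ ⟨(x : G), hLH x.2⟩)) (hind : Cfsg.IsIrrCharacter G (Cfsg.indFun H ϑ)) : ∃ M : Subgroup G, M.Normal ∧ L ≤ M ∧ ¬ ∃ (φ : M → ℂ) (e : ℕ), Cfsg.IsIrrCharacter M φ ∧ (fun m : M => Cfsg.indFun H ϑ m) = (e : ℂ) • φ := by
  by_contra! h
  refine hmax.1 ((irr_top.mpr hind).prim_of_homog L inferInstance (solvMod_of_quot hsolv)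
    (fun M hM hl => ?_) H (ez H ϑ) hLH le_top (irr_ez.mpr hϑ).chr (by rw [ind_top_ez]; exact .refl _ _))
  obtain ⟨ϑ, n, a, b⟩ := h M hM hl
  exact ⟨ez M ϑ, n, irr_ez.mpr a, fun x hx => by rw [Pi.smul_apply, ez_mem _ hx]; exact congrFun b ⟨x, hx⟩⟩

end Cfsg.Agent.S0890
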