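import Mathlib
import Cfsg.Statements.S0891
import Cfsg.Agent.H2.SchurAlt

set_option autoImplicit false
open scoped Pointwise commutatorElement
open Cfsg

namespace Cfsg.Agent.S0891

/-- For every n ≥ 4 there are a finite group Γ and a central element z of Γ of order 2 lying in the commutator subgroup of Γ such that the quotient of Γ by the (normal) subgroup generated by z is isomorphic to the alternating group on n letters. -/
theorem result (n : ℕ) (hn : 4 ≤ n) : ∃ (Γ : Type) (_ : Group Γ) (_ : Finite Γ) (z : Γ) (hz : z ∈ Subgroup.center Γ), orderOf z = 2 ∧ z ∈ commutator Γ ∧ ∃ _ : (Subgroup.zpowers z).Normal, Nonempty (Γ ⧸ Subgroup.zpowers z ≃* alternatingGroup (Fin n)) := by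
  obtain ⟨Γ, _, _, σ, hσ, h⟩ := H2.Schur.exists_stem_prime Nat.prime_two
    (H2.Schur.two_dvd_card_mult_alt (α := Fin n) (by simpa))
  obtain ⟨z, hz⟩ := (isCyclic_of_prime_card (p := 2) h).exists_generator
  have h1 : Subgroup.zpowers z.1 = σ.ker := le_antisymm (Subgroup.zpowers_le.2 z.2) fun x hx => by
    obtain ⟨k, hk⟩ := hz ⟨x, hx⟩
    exact ⟨k, congrArg Subtype.val hk⟩
  have h2 : (Subgroup.zpowers z.1).Normal := by rw [h1]; infer_instance
  exact ⟨Γ, inferInstance, inferInstance, z, hσ.2.1 z.2, by rw [← Nat.card_zpowers, h1, h],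
    hσ.2.2 z.2, h2, ⟨(QuotientGroup.quotientMulEquivOfEq h1).trans
      (QuotientGroup.quotientKerEquivOfSurjective σ hσ.1)⟩⟩

end Cfsg.Agent.S0891
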