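import Mathlib
import Cfsg.Statements.S0893
import Cfsg.Agent.Isaacs.Cent
-- import your own Cfsg.Agent.* helpers here

set_option autoImplicit false
open Cfsg

namespace Cfsg.Agent.S0893

open Cfsg.Agent.Char Cfsg.Agent.Isaacs Subgroup

/-- Let P be an extraspecial p-group of order p ^ (2 * n + 1), A an abelian subgroup of order p ^ (n + 1), and λ a character of A of degree 1 that is not identically 1 on the elements of A lying in the centre of P. Then the function induced from λ to P is an irreducible character of P and vanishes at every element outside the centre. -/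
theorem result {P : Type*} [Group P] [Fintype P] (p n : ℕ) [Fact p.Prime] (hP : Cfsg.IsExtraspecial p P) (hcard : Nat.card P = p ^ (2 * n + 1)) (A : Subgroup P) (hab : ∀ a ∈ A, ∀ b ∈ A, a * b = b * a) (hA : Nat.card A = p ^ (n + 1)) (lam : A → ℂ) (hlam : Cfsg.IsCharacter A lam ∧ lam 1 = 1) (hZ : ∃ a : A, (a : P) ∈ Subgroup.center P ∧ lam a ≠ 1) : Cfsg.IsIrrCharacter P (Cfsg.indFun A lam) ∧ ∀ x : P, x ∉ Subgroup.center P → Cfsg.indFun A lam x = 0 := by
  have hp : p.Prime := Fact.out
  obtain ⟨a, h1, h2⟩ := hZ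
  have h3 := chr_ez.mpr hlam.1
  have h4 : ez A lam 1 = 1 := by rw [ez_one, hlam.2]
  have h5 : ind A ⊤ (ez A lam) 1 = (p ^ n : ℕ) := by
    have := A.index_mul_card
    rw [hA, hcard, show 2 * n + 1 = n + (n + 1) by ring, pow_add p n (n + 1),
      Nat.mul_left_inj (pow_ne_zero _ hp.ne_zero)] at this
    rw [ind_one, h4, mul_one, relIndex_top_right, this]
  obtain ⟨χ, h6, h7⟩ := (h3.irr_of_one h4).exists_over le_top
  have h8 : ¬ Ker (center P) χ := fun hk => h2 (by
    have := (hk.mono inf_le_left).constit (L := center P ⊓ A) (h6.chr.res le_top) inf_le_right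
      (h3.irr_of_one h4) h7 a ⟨h1, a.2⟩
    rwa [h4, ez_coe] at this)
  rw [← inn_ind_right le_top h6.inv] at h7
  have h9 := eqv_top.mp ((h3.indc le_top).eqv_of_deg h6 (inn_ne_comm h7)
    (by rw [h5, h6.deg_of_extra hP hcard h8]))
  rw [← ind_top_ez, h9]
  exact ⟨irr_top.mp h6, fun x => h6.vanish_of_extra hP.1.2.2.le (hP.2 ▸ hp) h8⟩

end Cfsg.Agent.S0893
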