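import Mathlib
import Cfsg.Statements.S0894
import Cfsg.Agent.Isaacs.Cent
-- import your own Cfsg.Agent.* helpers here

set_option autoImplicit false
open Cfsg

namespace Cfsg.Agent.S0894

open Cfsg.Agent.Char Cfsg.Agent.Isaacs Subgroup

/-- Let P be an extraspecial p-group of order p ^ (2 * n + 1). Then every irreducible character of P has degree 1 or p ^ n, and exactly p - 1 of them have degree p ^ n. -/
theorem result {P : Type*} [Group P] [Finite P] (p n : ℕ) [Fact p.Prime] (hP : Cfsg.IsExtraspecial p P) (hcard : Nat.card P = p ^ (2 * n + 1)) : (∀ χ : Cfsg.IrrCharacter P, (χ : P → ℂ) 1 = 1 ∨ (χ : P → ℂ) 1 = (p : ℂ) ^ n) ∧ Nat.card {χ : Cfsg.IrrCharacter P // (χ : P → ℂ) 1 = (p : ℂ) ^ n} = p - 1 := by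
  classical
  have hp : p.Prime := Fact.out
  have h1 : ∀ χ : IrrCharacter P, (χ : P → ℂ) 1 = 1 ∨ (χ : P → ℂ) 1 = (p : ℂ) ^ n := fun χ => by
    have h := irr_top.mpr χ.2
    by_cases hk : Ker (center P) χ
    · exact Or.inl (h.one_of_ker (hk.mono hP.1.2.2.le))
    · exact Or.inr (by rw [h.deg_of_extra hP hcard hk, Nat.cast_pow])
  have h2 : (p : ℂ) ^ n ≠ 1 := fun e => by
    have h3 : commutator P ≤ ⊥ := commutator_eq_bot_of_comm fun a _ b _ =>
      comm_of_forall_irr_degree_one (fun χ hχ => (h1 ⟨χ, hχ⟩).elim id (·.trans e)) a b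
    have := hP.2
    rw [← hP.1.2.2, le_bot_iff.mp h3, card_bot] at this
    exact hp.one_lt.ne this
  refine ⟨h1, ?_⟩
  have h3 := sum_irr_one_sq (G := P)
  have h4 := (commutator P).index_mul_card
  rw [← card_irr_degree_one, hP.1.2.2, hP.2, hcard, pow_succ, Nat.mul_left_inj hp.ne_zero,
    Nat.card_eq_fintype_card, Fintype.card_subtype] at h4
  rw [← Finset.sum_filter_add_sum_filter_not _ fun χ : IrrCharacter P => (χ : P → ℂ) 1 = 1,
    Finset.sum_congr rfl fun χ hχ => by rw [(Finset.mem_filter.mp hχ).2], Finset.sum_const,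
    Finset.sum_congr rfl (g := fun _ => ((p : ℂ) ^ n) ^ 2) fun χ hχ => by
      rw [(h1 χ).resolve_left (Finset.mem_filter.mp hχ).2], Finset.sum_const, h4,
    hcard, Finset.filter_congr (q := fun χ : IrrCharacter P => (χ : P → ℂ) 1 = (p : ℂ) ^ n)
      fun χ _ => ⟨(h1 χ).resolve_left, fun e e' => h2 (e ▸ e')⟩, ← Fintype.card_subtype,
    ← Nat.card_eq_fintype_card] at h3
  refine (Nat.eq_sub_of_add_eq (Nat.cast_injective (R := ℂ) (mul_left_cancel₀
    (pow_ne_zero (2 * n) (Nat.cast_ne_zero.mpr hp.ne_zero)) ?_)))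
  simp only [nsmul_eq_mul] at h3
  push_cast at h3 ⊢
  linear_combination h3

end Cfsg.Agent.S0894
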