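import Mathlib
import Cfsg.Statements.S0895
import Cfsg.Agent.Isaacs.FrobSchur
-- import your own Cfsg.Agent.* helpers here

set_option autoImplicit false
open Cfsg

namespace Cfsg.Agent.S0895

open Cfsg.Agent.Char Cfsg.Agent.Isaacs Matrix
open scoped ComplexConjugate ComplexOrder

/-- Let χ be a real-valued irreducible character of a finite group G whose degree is an odd natural number. Then the average over s in G of χ (s * s) equals 1. -/
theorem result {G : Type*} [Group G] [Fintype G] (χ : G → ℂ) (hχ : Cfsg.IsIrrCharacter G χ) (hreal : ∀ g : G, (χ g).im = 0) (d : ℕ) (hd : χ 1 = d) (hodd : Odd d) : (Nat.card G : ℂ)⁻¹ * ∑ s : G, χ (s * s) = 1 := by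
  refine (fsInd_of_real hχ hreal).resolve_right fun e => ?_
  obtain ⟨n, ρ, i, rfl⟩ := hχ
  obtain ⟨M, h0, hM⟩ := exists_form hreal
  have h1 := congrArg det (form_transpose hreal hM)
  have h2 : n = d := by
    rw [Representation.char_one, Module.finrank_fin_fun] at hd; exact_mod_cast hd
  subst h2
  rw [e, det_transpose, det_smul, Fintype.card_fin, hodd.neg_one_pow, neg_one_mul, self_eq_neg] at h1
  exact ((isUnit_iff_isUnit_det _).mp (form_unit hM h0)).ne_zero h1

end Cfsg.Agent.S0895
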