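import Mathlib
import Cfsg.Statements.S0897
import Cfsg.Agent.Isaacs.Dade
-- import your own Cfsg.Agent.* helpers here

set_option autoImplicit false
open Cfsg

namespace Cfsg.Agent.S0897

open Cfsg.Agent.Char Cfsg.Agent.Isaacs Cfsg.Agent.Core Subgroup
open scoped commutatorElement

/-- Let N be a normal subgroup of the finite group G with the index of N a power of the prime p, and P a Sylow p-subgroup of G such that P ⊓ N lies in the centre of P and every character of degree 1 of P ⊓ N is the restriction of a character of degree 1 of P. Then every irreducible character of N invariant under conjugation by G is the restriction of an irreducible character of G. -/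
theorem result {G : Type*} [Group G] [Fintype G] (p : ℕ) [Fact p.Prime] (N : Subgroup G) [hN : N.Normal] (hind : ∃ k : ℕ, N.index = p ^ k) (P : Sylow p G) (hcent : ∀ x ∈ (P : Subgroup G) ⊓ N, ∀ y ∈ (P : Subgroup G), x * y = y * x) (hlin : ∀ lam : ↥((P : Subgroup G) ⊓ N) → ℂ, Cfsg.IsCharacter ↥((P : Subgroup G) ⊓ N) lam → lam 1 = 1 → ∃ μ : ↥(P : Subgroup G) → ℂ, Cfsg.IsCharacter ↥(P : Subgroup G) μ ∧ μ 1 = 1 ∧ ∀ x : ↥((P : Subgroup G) ⊓ N), μ ⟨(x : G), x.2.1⟩ = lam x) (ϑ : N → ℂ) (hϑ : Cfsg.IsIrrCharacter N ϑ) (hinv : ∀ (g : G) (n : N), ϑ ⟨g * n * g⁻¹, hN.conj_mem (n : G) n.2 g⟩ = ϑ n) : ∃ χ : G → ℂ, Cfsg.IsIrrCharacter G χ ∧ ∀ n : N, χ n = ϑ n := by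
  obtain ⟨k, e⟩ := hind
  obtain ⟨χ, a, b⟩ := (irr_ez.mpr hϑ).ext_of_sylow Fact.out e (fun g _ x i => by
    rw [ez_mem _ i, ez_mem _ (hN.conj_mem x i g)]; exact hinv g ⟨x, i⟩) (isSylowOf_top P) (eq_bot_iff.mpr fun x ⟨i, j⟩ => by_contra fun o => by
      have k : x ∈ (P : Subgroup G) ⊓ N := ⟨commutator_le_self _ i, j⟩
      obtain ⟨l, u, -, v⟩ := exists_irr_not_ker norm_top bot_le k o
      obtain ⟨μ, r, s, t⟩ := hlin _ u.chr (u.one_of_comm fun a i b j => hcent a i b j.1)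
      have := (chr_ez.mpr r).ker_comm ((ez_one _).trans s) x i
      rw [ez_mem _ k.1, ez_one] at this
      exact v ((t ⟨x, k⟩).symm.trans (this.trans (t 1))))
  exact ⟨χ, irr_top.mp a, fun n => (b n n.2).trans (ez_coe _ n)⟩

end Cfsg.Agent.S0897
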