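import Mathlib
import Cfsg.Statements.S0900
import Cfsg.Agent.Char.Gallagher

set_option autoImplicit false
open Cfsg

namespace Cfsg.Agent.S0900

/-- Let N be a normal subgroup of the finite group G, χ an irreducible character of G and ϑ an irreducible character of N having nonzero inner product with the restriction of χ. Consider: (a) the restriction of χ to N is e • ϑ for a natural number e with e ^ 2 equal to the index of N; (b) χ vanishes outside N and ϑ is invariant under conjugation by G; (c) ϑ is invariant and every irreducible character of G having nonzero inner product with the function induced from ϑ equals χ. Then (a) ↔ (b) and (a) ↔ (c). -/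
theorem result {G : Type*} [Group G] [Fintype G] (N : Subgroup G) [hN : N.Normal] [Fintype N] (χ : G → ℂ) (hχ : Cfsg.IsIrrCharacter G χ) (ϑ : N → ℂ) (hϑ : Cfsg.IsIrrCharacter N ϑ) (hcon : Cfsg.classInner (fun n : N => χ n) ϑ ≠ 0) : ((∃ e : ℕ, (fun n : N => χ n) = (e : ℂ) • ϑ ∧ e ^ 2 = N.index) ↔ ((∀ g : G, g ∉ N → χ g = 0) ∧ ∀ (g : G) (n : N), ϑ ⟨g * n * g⁻¹, hN.conj_mem (n : G) n.2 g⟩ = ϑ n)) ∧ ((∃ e : ℕ, (fun n : N => χ n) = (e : ℂ) • ϑ ∧ e ^ 2 = N.index) ↔ (∀ (g : G) (n : N), ϑ ⟨g * n * g⁻¹, hN.conj_mem (n : G) n.2 g⟩ = ϑ n ∧ ∀ ψ : G → ℂ, Cfsg.IsIrrCharacter G ψ → Cfsg.classInner (Cfsg.indFun N ϑ) ψ ≠ 0 → ψ = χ)) := by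
  open Cfsg.Agent.Char Cfsg.Agent.Char.Clifford Cfsg.Agent.Char.Gallagher
    Cfsg.Agent.Char.Ind Cfsg.Agent.Char.IndRep Cfsg.Agent.Char.Constit in
  have hinv : ∀ e : ℕ, (fun n : N => χ n) = (e : ℂ) • ϑ → inertia N ϑ = ⊤ := by
    intro e he
    refine invariant_of_res_eq_smul (isIrr_classFun hχ) ?_ he
    rintro h0
    rw [he, h0, zero_smul, classInner_zero_left] at hcon
    exact hcon rfl
  have hnorm : ∀ e : ℕ, (fun n : N => χ n) = (e : ℂ) • ϑ →
      classInner (fun n : N => χ n) (fun n : N => χ n) = ((e ^ 2 : ℕ) : ℂ) := by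
    intro e he
    rw [he, classInner_smul_left, classInner_smul_right, classInner_isIrr_self hϑ, map_natCast]
    push_cast
    ring
  have hind : ∀ e : ℕ, (fun n : N => χ n) = (e : ℂ) • ϑ → classInner (indFun N ϑ) χ = e := by
    intro e he
    rw [inner_indFun_left N ϑ (isIrr_classFun hχ), he, classInner_smul_right,
      classInner_isIrr_self hϑ, map_natCast, mul_one]
  refine ⟨⟨?_, ?_⟩, ⟨?_, ?_⟩⟩
  · rintro ⟨e, he, h2⟩
    exact ⟨(inner_res_self_eq_index_iff N hχ).mp (by rw [hnorm e he, h2]),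
      inertia_eq_top.mp (hinv e he)⟩
  · rintro ⟨h1, h2⟩
    obtain ⟨e, -, -, he⟩ := exists_res_eq_smul_of_invariant hχ hϑ (inertia_eq_top.mpr h2) hcon
    refine ⟨e, he, ?_⟩
    have := (inner_res_self_eq_index_iff N hχ).mpr h1
    rw [hnorm e he] at this
    exact_mod_cast this
  · rintro ⟨e, he, h2⟩ g n
    refine ⟨inertia_eq_top.mp (hinv e he) g n, fun ψ hψ h => ?_⟩
    obtain ⟨η, hη, h3⟩ := exists_add_smul_of_le (isChar_indFun N (isIrr_isChar hϑ)) hχ
      (hind e he) le_rfl
    have h4 := congrFun h3 1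
    have h5 : χ 1 = e * ϑ 1 := congrFun he 1
    rw [indFun_one, Pi.add_apply, Pi.smul_apply, h5, ← h2, smul_eq_mul] at h4
    have h6 : η 1 = 0 := by
      push_cast at h4
      linear_combination -h4
    rw [isChar_eq_zero_of_degree hη h6, add_zero] at h3
    rw [h3, classInner_smul_left] at h
    exact (isIrr_eq_of_classInner_ne_zero hχ hψ (right_ne_zero_of_mul h)).symm
  · intro h
    obtain ⟨e, -, -, he⟩ := exists_res_eq_smul_of_invariant hχ hϑ
      (inertia_eq_top.mpr fun g n => (h g n).1) hcon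
    refine ⟨e, he, ?_⟩
    have h3 := eq_smul_of_unique (isChar_indFun N (isIrr_isChar hϑ)) hχ (h 1 1).2
    have h4 := congrFun h3 1
    have h5 : χ 1 = e * ϑ 1 := congrFun he 1
    rw [indFun_one, Pi.smul_apply, h5, hind e he, smul_eq_mul, ← mul_assoc] at h4
    have := mul_right_cancel₀ (isIrr_one_ne_zero hϑ) h4
    rw [sq]
    exact_mod_cast this.symm

end Cfsg.Agent.S0900
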