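import Mathlib
import Cfsg.Statements.S0901
import Cfsg.Agent.Block.Val

set_option autoImplicit false
open Cfsg

namespace Cfsg.Agent.S0901

open Polynomial in
theorem exists_pow_eq_one {p : ℕ} [Fact p.Prime] {K : Type*} [Field K] [CharP K p] (x : K)
    (hx0 : x ≠ 0) (hx : (Int.castRingHom K).IsIntegralElem x) : ∃ m : ℕ, ¬ p ∣ m ∧ x ^ m = 1 := by
  have hp : p.Prime := Fact.out
  let _ : Algebra (ZMod p) K := ZMod.algebra _ _
  have h2 : IsIntegral ℤ x := hx
  have h3 : IsIntegral (ZMod p) x := h2.tower_top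
  have hfd := IntermediateField.adjoin.finiteDimensional h3
  have hfin : Finite (IntermediateField.adjoin (ZMod p) {x}) :=
    Module.finite_of_finite (ZMod p)
  have := Fintype.ofFinite (IntermediateField.adjoin (ZMod p) {x})
  obtain ⟨n, -, hn⟩ := FiniteField.card (IntermediateField.adjoin (ZMod p) {x}) p
  have h4 := FiniteField.pow_card_sub_one_eq_one
    (IntermediateField.AdjoinSimple.gen (ZMod p) x)
    (fun h => hx0 (congrArg Subtype.val h))
  rw [hn] at h4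
  have h5 : x ^ (p ^ (n : ℕ) - 1) = 1 := congrArg Subtype.val h4
  refine ⟨p ^ (n : ℕ) - 1, fun h => ?_, h5⟩
  have h6 : p ∣ p ^ (n : ℕ) := dvd_pow_self p n.ne_zero
  have h7 : 1 ≤ p ^ (n : ℕ) := Nat.one_le_pow _ _ hp.pos
  have : p ∣ 1 := by
    have := Nat.dvd_sub h6 h
    rwa [Nat.sub_sub_self h7] at this
  exact hp.one_lt.ne' (Nat.dvd_one.1 this)

open Cfsg.Agent.Block Polynomial in
theorem exists_pow_sub_one {p : ℕ} [Fact p.Prime] {M : Ideal AlgInt} (hM : IsPModular p M)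
    (a : AlgInt) (ha : a ∉ M) : ∃ m : ℕ, ¬ p ∣ m ∧ val M ((a : ℂ) ^ m - 1) < 1 := by
  have hc := charP_F hM
  have haV := algInt_mem_V M a
  have hx0 : red M a ≠ 0 := (red_ne_zero_iff haV).2 ((val_algInt_eq_one_iff hM.2.1 a).2 ha)
  have h1 : IsIntegral ℤ (⟨a, haV⟩ : V M) :=
    (isIntegral_algHom_iff ((V M).subtype.toIntAlgHom) (V M).subtype_injective).1 a.2
  have h2 : (Int.castRingHom (F M)).IsIntegralElem (red M a) := by
    rw [red_of_mem haV]
    obtain ⟨f, hf, hf0⟩ := h1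
    refine ⟨f, hf, ?_⟩
    have := congrArg (IsLocalRing.residue (V M)) hf0
    rw [hom_eval₂, map_zero] at this
    rwa [RingHom.ext_int ((IsLocalRing.residue (V M)).comp (algebraMap ℤ (V M)))
      (Int.castRingHom (F M))] at this
  obtain ⟨m, hm, h5⟩ := exists_pow_eq_one (p := p) _ hx0 h2
  refine ⟨m, hm, ?_⟩
  rw [← red_eq_iff (pow_mem haV _) (one_mem _), red_pow haV, h5, red_one]

/-- Let M be a maximal ideal of the ring of algebraic integers containing the prime p, and let U be the set of complex roots of unity of order prime to p. Then reduction modulo M is injective on U, and every algebraic integer not in M is congruent modulo M to an element of U (so U maps bijectively onto the nonzero residues). -/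
theorem result (p : ℕ) [Fact p.Prime] (M : Ideal Cfsg.AlgInt) (hM : Cfsg.IsPModular p M) : (∀ ε₁ ε₂ : Cfsg.AlgInt, (∃ m : ℕ, ¬ p ∣ m ∧ (ε₁ : ℂ) ^ m = 1) → (∃ m : ℕ, ¬ p ∣ m ∧ (ε₂ : ℂ) ^ m = 1) → ε₁ - ε₂ ∈ M → ε₁ = ε₂) ∧ (∀ a : Cfsg.AlgInt, a ∉ M → ∃ ε : Cfsg.AlgInt, (∃ m : ℕ, ¬ p ∣ m ∧ (ε : ℂ) ^ m = 1) ∧ a - ε ∈ M) := by
  open Cfsg.Agent.Block Polynomial in
  constructor
  · rintro ε₁ ε₂ ⟨m₁, hm₁, h₁⟩ ⟨m₂, hm₂, h₂⟩ h
    have hm₂0 : m₂ ≠ 0 := by rintro rfl; exact hm₂ (dvd_zero p)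
    have hv2 : val M (ε₂ : ℂ) = 1 := val_eq_one_of_pow_eq_one hm₂0 h₂
    have h20 : (ε₂ : ℂ) ≠ 0 := by intro h0; rw [h0] at hv2; simp at hv2
    have hv : val M ((ε₁ : ℂ) - ε₂) < 1 := by
      have := (val_algInt_lt_one_iff hM.2.1 _).2 h
      simpa using this
    have : (ε₁ : ℂ) / ε₂ = 1 := by
      refine eq_one_of_pow_eq_one_of_val_sub_one_lt_one hM (m := m₁ * m₂) ?_ ?_ ?_
      · intro hd
        rcases (Nat.Prime.dvd_mul hM.1).1 hd with h | h
        · exact hm₁ h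
        · exact hm₂ h
      · rw [div_pow, pow_mul, h₁, one_pow, mul_comm, pow_mul, h₂, one_pow, div_one]
      · rw [div_sub_one h20, map_div₀, hv2, div_one]; exact hv
    exact Subtype.ext (by rwa [div_eq_one_iff_eq h20] at this)
  · intro a ha
    obtain ⟨m, hm, hv⟩ := exists_pow_sub_one hM a ha
    have hm0 : m ≠ 0 := by rintro rfl; exact hm (dvd_zero p)
    have hζ := Complex.isPrimitiveRoot_exp m hm0
    have hprod := congrArg (eval (a : ℂ)) (X_pow_sub_one_eq_prod (Nat.pos_of_ne_zero hm0) hζ)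
    simp only [eval_sub, eval_pow, eval_X, eval_one, eval_prod, eval_C] at hprod
    rw [hprod, map_prod] at hv
    have : ∃ ζ ∈ nthRootsFinset m (1 : ℂ), val M ((a : ℂ) - ζ) < 1 := by
      by_contra hcon
      push Not at hcon
      exact absurd hv (not_lt.2 (Finset.one_le_prod' hcon))
    obtain ⟨ζ, hζ, hvζ⟩ := this
    have hζm : ζ ^ m = 1 := (mem_nthRootsFinset (Nat.pos_of_ne_zero hm0) 1).1 hζ
    have hint : IsIntegral ℤ ζ :=
      IsIntegral.of_pow (Nat.pos_of_ne_zero hm0) (by rw [hζm]; exact isIntegral_one)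
    refine ⟨⟨ζ, hint⟩, ⟨m, hm, hζm⟩, ?_⟩
    rw [← val_algInt_lt_one_iff hM.2.1]
    simpa using hvζ

end Cfsg.Agent.S0901
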