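import Mathlib
import Cfsg.Statements.S0903
import Cfsg.Agent.Block.GA

set_option autoImplicit false
open Cfsg

namespace Cfsg.Agent.S0903


/-- Let P be a p-subgroup of the finite group G, let c centralize P and let g, h ∈ G. The number of pairs (x, y) with x conjugate to g, y conjugate to h and x * y = c is congruent modulo p to the number of such pairs in which x and y both centralize P. (This is why the Brauer map on class sums is multiplicative.) -/
theorem result {G : Type*} [Group G] [Finite G] (p : ℕ) [Fact p.Prime] (P : Subgroup G) (hP : IsPGroup p P) (c : G) (hc : c ∈ Subgroup.centralizer (P : Set G)) (g h : G) : Nat.card {xy : G × G // IsConj g xy.1 ∧ IsConj h xy.2 ∧ xy.1 * xy.2 = c} ≡ Nat.card {xy : G × G // IsConj g xy.1 ∧ IsConj h xy.2 ∧ xy.1 * xy.2 = c ∧ xy.1 ∈ Subgroup.centralizer (P : Set G) ∧ xy.2 ∈ Subgroup.centralizer (P : Set G)} [MOD p] := by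
  classical
  have := Fintype.ofFinite G
  have hp : ((p : ℕ) : ZMod p) = 0 := ZMod.natCast_self p
  have e1 : Nat.card {xy : G × G // IsConj g xy.1 ∧ IsConj h xy.2 ∧ xy.1 * xy.2 = c} =
      (Finset.univ.filter fun x : G => IsConj g x ∧ IsConj h (x⁻¹ * c)).card := by
    rw [← Fintype.card_subtype, ← Nat.card_eq_fintype_card]
    refine Nat.card_congr
      ⟨fun xy => ⟨xy.1.1, xy.2.1, by
        rw [(eq_inv_mul_iff_mul_eq.2 xy.2.2.2).symm]; exact xy.2.2.1⟩,
       fun x => ⟨(x.1, x.1⁻¹ * c), x.2.1, x.2.2, by simp⟩, ?_, fun x => rfl⟩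
    rintro ⟨⟨x, y⟩, h1, h2, h3⟩
    simp only at h3
    subst h3
    simp
  have e2 : Nat.card {xy : G × G // IsConj g xy.1 ∧ IsConj h xy.2 ∧ xy.1 * xy.2 = c ∧
      xy.1 ∈ Subgroup.centralizer (P : Set G) ∧ xy.2 ∈ Subgroup.centralizer (P : Set G)} =
      (Finset.univ.filter fun x : Subgroup.centralizer (P : Set G) =>
        IsConj g (x : G) ∧ IsConj h ((x : G)⁻¹ * c)).card := by
    rw [← Fintype.card_subtype, ← Nat.card_eq_fintype_card]
    refine Nat.card_congr
      ⟨fun xy => ⟨⟨xy.1.1, xy.2.2.2.2.1⟩, xy.2.1,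
        by rw [(eq_inv_mul_iff_mul_eq.2 xy.2.2.2.1).symm]; exact xy.2.2.1⟩,
       fun x => ⟨(x.1, (x.1 : G)⁻¹ * c), x.2.1, x.2.2, by simp, x.1.2,
        mul_mem (inv_mem x.1.2) hc⟩, ?_, fun x => rfl⟩
    rintro ⟨⟨x, y⟩, h1, h2, h3, h4, h5⟩
    simp only at h3
    subst h3
    simp
  rw [e1, e2, ← ZMod.natCast_eq_natCast_iff, Finset.card_filter, Finset.card_filter]
  push_cast
  refine Block.sum_eq_sum_centralizer hp hP
    (fun x : G => if IsConj g x ∧ IsConj h (x⁻¹ * c) then (1 : ZMod p) else 0) ?_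
  intro q hq x
  have hc' : q * c = c * q := hc q hq
  have : (q * x * q⁻¹)⁻¹ * c = q * (x⁻¹ * c) * q⁻¹ := by
    have h2 : q⁻¹ * c = c * q⁻¹ := by
      rw [inv_mul_eq_iff_eq_mul, ← mul_assoc, hc', mul_inv_cancel_right]
    simp only [mul_inv_rev, inv_inv, mul_assoc, h2]
  have hi : ∀ a b : G, IsConj a (q * b * q⁻¹) ↔ IsConj a b := fun a b =>
    ⟨fun h => h.trans (isConj_iff.2 ⟨q, rfl⟩).symm, fun h => h.trans (isConj_iff.2 ⟨q, rfl⟩)⟩
  simp only [this, hi]

end Cfsg.Agent.S0903
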