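import Mathlib
import Cfsg.Statements.S0905
import Cfsg.Agent.Block.NormalP
import Cfsg.Agent.Core.Cores

set_option autoImplicit false
open Cfsg

namespace Cfsg.Agent.S0905


/-- Let F be a field of characteristic p and let g be an element of the finite group G no conjugate of which centralizes O_p(G). Then the class sum of g is a nilpotent element of the group algebra F[G]. -/
theorem result {G : Type*} [Group G] [Finite G] (p : ℕ) [Fact p.Prime] (F : Type*) [Field F] [CharP F p] (g : G) (hg : ∀ x : G, IsConj g x → x ∉ Subgroup.centralizer (Cfsg.pCore p G : Set G)) : IsNilpotent (∑ᶠ x ∈ ConjClasses.carrier (ConjClasses.mk g), MonoidAlgebra.single x (1 : F) : MonoidAlgebra F G) := by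
  classical
  have := Fintype.ofFinite G
  have hp : (p : F) = 0 := CharP.cast_eq_zero F p
  have hcoeff : ∀ y, (∑ᶠ x ∈ ConjClasses.carrier (ConjClasses.mk g),
      MonoidAlgebra.single x (1 : F) : MonoidAlgebra F G).coeff y = if IsConj g y then 1 else 0 := by
    intro y
    rw [finsum_mem_eq_finite_toFinset_sum _ (Set.toFinite _), Block.coeff_sum_apply]
    simp only [MonoidAlgebra.coeff_single, Finsupp.single_apply, Finset.sum_ite_eq',
      Set.Finite.mem_toFinset, ConjClasses.mem_carrier_iff_mk_eq, ConjClasses.mk_eq_mk_iff_isConj,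
      isConj_comm (g := y)]
  refine Block.isNilpotent_of_coeff_centralizer hp (P := Cfsg.pCore p G)
    (Core.pCore_isPGroup p) (fun q _ y => ?_) fun y hy => ?_
  · have hi : IsConj g (q * y * q⁻¹) ↔ IsConj g y :=
      ⟨fun h => h.trans (isConj_iff.2 ⟨q, rfl⟩).symm, fun h => h.trans (isConj_iff.2 ⟨q, rfl⟩)⟩
    simp only [hcoeff, hi]
  · rw [hcoeff, if_neg fun h => hg y h hy]

end Cfsg.Agent.S0905
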