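import Mathlib
import Cfsg.Statements.S0914
import Cfsg.Agent.Block.Height

set_option autoImplicit false
open Cfsg

namespace Cfsg.Agent.S0914


/-- Let χ be an irreducible character of the finite group G, p a prime and M a maximal ideal of the algebraic integers containing p. Then p does not divide the integer (Nat.card G) / χ(1) if and only if the block of χ relative to M consists of χ alone. -/
theorem result {G : Type*} [Group G] [Finite G] (p : ℕ) [Fact p.Prime] (M : Ideal Cfsg.AlgInt) (hM : Cfsg.IsPModular p M) (χ : Cfsg.IrrCharacter G) : ¬ p ∣ Nat.card G / Cfsg.charDegree (χ : G → ℂ) ↔ Cfsg.blockOf M (χ : G → ℂ) = {χ} := by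
  have hd := Block.irr_degree_dvd χ
  have hiff : ¬ p ∣ Nat.card G / charDegree (χ : G → ℂ) ↔
      (Nat.card G).factorization p ≤ (charDegree (χ : G → ℂ)).factorization p := by
    have h0 : Nat.card G / charDegree (χ : G → ℂ) ≠ 0 :=
      (Nat.div_pos (Nat.le_of_dvd Nat.card_pos hd)
        (Nat.pos_of_ne_zero (Block.irr_degree_ne_zero χ))).ne'
    rw [hM.1.dvd_iff_one_le_factorization h0, Nat.factorization_div hd, Finsupp.tsub_apply]
    omega
  rw [hiff]
  refine ⟨Block.blockOf_eq_singleton hM, fun h => ?_⟩
  refine Block.defect_zero_of_vanishes hM (Char.irr_isChar χ) (Block.irr_one_ne_zero χ)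
    fun g hg => ?_
  have := Block.blockCoeff_eq_zero_of_dvd hM
    (Block.isV_blockIdem hM (Block.isPBlock_blockOf (M := M) χ)) hg
  rw [h, Block.blockCoeff_singleton] at this
  simpa [Block.irr_one_ne_zero χ, Nat.card_pos.ne'] using this

end Cfsg.Agent.S0914
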