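import Mathlib
import Cfsg.Statements.S0923
import Cfsg.Agent.Block.Second

set_option autoImplicit false
open Cfsg

namespace Cfsg.Agent.S0923


/-- Brauer's Second Main Theorem, in terms of ordinary characters. Let x be a p-element of the finite group G with centralizer C, let χ lie in the block B of G and let b be a block of C that does not induce B (relative to a maximal ideal M of the algebraic integers containing p). Form the class function ϑ(c) = χ(x c) on C and its b-part (the sum over ψ ∈ b of the inner product of ϑ with ψ, times ψ). Then the b-part of ϑ vanishes at every p-regular element of C. (Equivalently, the generalized decomposition numbers of χ with respect to b are zero.) -/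
theorem result {G : Type*} [Group G] [Finite G] (p : ℕ) [Fact p.Prime] (M : Ideal Cfsg.AlgInt) (hM : Cfsg.IsPModular p M) (x : G) (hx : ∃ k : ℕ, orderOf x = p ^ k) (B : Set (Cfsg.IrrCharacter G)) (hB : Cfsg.IsPBlock M B) (χ : Cfsg.IrrCharacter G) (hχ : χ ∈ B) (b : Set (Cfsg.IrrCharacter (Subgroup.centralizer ({x} : Set G)))) (hb : Cfsg.IsPBlock M b) (hnot : ¬ Cfsg.IsInducedBlock M (Subgroup.centralizer ({x} : Set G)) b B) (y : Subgroup.centralizer ({x} : Set G)) (hy : ¬ p ∣ orderOf y) : Cfsg.blockPart b (fun c : Subgroup.centralizer ({x} : Set G) => (χ : G → ℂ) (x * (c : G))) y = 0 := by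
  classical
  obtain ⟨B', hB'⟩ := Block.exists_induced_centralizer_singleton hM hx hb
  have hχ' : χ ∉ B' := fun h => hnot (Block.block_eq_of_mem hM hB'.2.1 hB h hχ ▸ hB')
  have hxC : x ∈ Subgroup.centralizer ({x} : Set G) :=
    Subgroup.mem_centralizer_singleton_iff.2 rfl
  have hcomm : ∀ c : Subgroup.centralizer ({x} : Set G), Commute x (c : G) := fun c =>
    (Subgroup.mem_centralizer_singleton_iff.1 c.2).symm
  have hpp : IsPPart p (((⟨x, hxC⟩ * y : Subgroup.centralizer ({x} : Set G))) : G) x :=
    Block.isPPart_mul (hcomm y) hx (by rwa [Subgroup.orderOf_coe])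
  have key := Block.second_main_lin_of_notMem hM hB' _ hpp le_rfl hχ'
  have hcl : IsClassFunction (Subgroup.centralizer ({x} : Set G))
      fun c => (χ : G → ℂ) (x * (c : G)) := by
    intro g k
    beta_reduce
    rw [← Char.irr_classFun χ (x * g) k]
    congr 1
    simp only [Subgroup.coe_mul, Subgroup.coe_inv, ← mul_assoc, (hcomm k).eq]
  have := Fintype.ofFinite (Subgroup.centralizer ({x} : Set G))
  rw [← Block.incl_single, ← map_mul, Block.lin_incl, Block.lin_single_mul] at key
  rw [Block.blockPart_eq_lin b hcl, ((Block.isCentral_blockIdem b).commute _).eq,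
    Block.lin_single_mul, ← key]
  simp only [Subgroup.coe_mul, mul_assoc]

end Cfsg.Agent.S0923
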