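import Mathlib
import Cfsg.Statements.S0927
import Cfsg.Agent.Block.Height

set_option autoImplicit false
open Cfsg

namespace Cfsg.Agent.S0927


/-- Let B be a block of the finite group G relative to a maximal ideal M of the algebraic integers containing p, let y represent a defect class of B and let P be a Sylow p-subgroup of the centralizer of y. (a) If x ∈ P and χ ∈ B has height zero, then χ (x * y) is not in the local ideal at M. (b) If x lies in the centre of P, then for every χ ∈ B the central character of χ at x * y is not in the local ideal at M. -/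
theorem result {G : Type*} [Group G] [Finite G] (p : ℕ) [Fact p.Prime] (M : Ideal Cfsg.AlgInt) (hM : Cfsg.IsPModular p M) (B : Set (Cfsg.IrrCharacter G)) (hB : Cfsg.IsPBlock M B) (y : G) (hy : Cfsg.IsDefectClass M B y) (P : Sylow p (Subgroup.centralizer ({y} : Set G))) (x : Subgroup.centralizer ({y} : Set G)) (hx : x ∈ (P : Subgroup (Subgroup.centralizer ({y} : Set G)))) : (∀ χ ∈ B, Cfsg.blockHeight p B (χ : G → ℂ) = 0 → ¬ Cfsg.MemLocalIdeal M ((χ : G → ℂ) ((x : G) * y))) ∧ ((∀ w ∈ (P : Subgroup (Subgroup.centralizer ({y} : Set G))), x * w = w * x) → ∀ χ ∈ B, ¬ Cfsg.MemLocalIdeal M (Cfsg.centralChar (χ : G → ℂ) ((x : G) * y))) := by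
  have hS := LocalEven.isSylowIn_map P
  have hxS : (x : G) ∈ (P : Subgroup (Subgroup.centralizer ({y} : Set G))).map
      (Subgroup.centralizer ({y} : Set G)).subtype := ⟨x, hx, rfl⟩
  have hc : Commute (x : G) y := Subgroup.mem_centralizer_singleton_iff.1 x.2
  have hx' : ∃ k : ℕ, orderOf (x : G) = p ^ k :=
    Block.exists_orderOf_eq_pow_of_mem hM.1 hS.pgrp hxS
  have hreg := Block.isDefectClass_regular hM hB hy
  refine ⟨fun χ hχ h0 h => ?_, fun hz χ hχ => ?_⟩
  · exact (Block.val_lt_one_of_memLocalIdeal hM.2.1 h).ne
      (Block.val_char_mul_defectClass hM hB hχ h0 hy hx' hc)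
  · obtain ⟨φ, hφ, h0⟩ := Block.exists_height_zero (p := p) (Block.block_nonempty hM hB)
    rw [← Block.lam_classSum_ne_zero_iff hM, Block.lam_eq_of_mem hM hB hχ hφ, Block.lam_classSum,
      Block.red_ne_zero_iff (Block.centralChar_mem_V φ _),
      Block.val_centralChar_of_height_zero hM hφ h0]
    · exact Block.val_char_mul_defectClass hM hB hφ h0 hy hx' hc
    · have hpp := Block.isPPart_mul hc hx' hreg
      have hS' : LocalEven.IsSylowIn p ((P : Subgroup (Subgroup.centralizer ({y} : Set G))).map
          (Subgroup.centralizer ({y} : Set G)).subtype)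
          (Subgroup.centralizer ({(x : G) * y} : Set G)) := by
        refine hS.mono ?_ ?_
        · rintro _ ⟨w, hw, rfl⟩
          rw [Subgroup.mem_centralizer_singleton_iff]
          have h1 : Commute (w : G) x := congrArg Subtype.val (hz w hw).symm
          have h2 : Commute (w : G) y := Subgroup.mem_centralizer_singleton_iff.1 w.2
          exact (h1.mul_right h2).eq
        · intro w hw
          rw [Subgroup.mem_centralizer_singleton_iff] at hw ⊢
          have h1 : Commute ((x : G) * y) w := hw.symm
          have h2 := Block.pPart_commute_of_commute hM.1 hpp h1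
          have h3 : Commute ((x : G)⁻¹ * (x * y)) w := h2.inv_left.mul_left h1
          rw [inv_mul_cancel_left] at h3
          exact h3.symm.eq
      rw [← Block.factorization_centralizer_of_isDefectClass hM hB hy]
      have e1 := hS.card_eq
      rw [hS'.card_eq] at e1
      exact Nat.pow_right_injective hM.1.two_le e1

end Cfsg.Agent.S0927
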