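import Mathlib
import Cfsg.Statements.S0928
import Cfsg.Agent.Block.Robin

set_option autoImplicit false
open Cfsg

namespace Cfsg.Agent.S0928

open Cfsg.Agent.Block Cfsg.Agent.Char Subgroup

/-- Let χ be an irreducible character of the finite group G and p a prime. If χ g = 0 for every element g of order p, then the exponent of p in the degree χ(1) equals the exponent of p in the order of G (χ has p-defect zero). -/
theorem result {G : Type*} [Group G] [Finite G] (p : ℕ) [Fact p.Prime] (χ : Cfsg.IrrCharacter G) (hvan : ∀ g : G, orderOf g = p → (χ : G → ℂ) g = 0) : (Cfsg.charDegree (χ : G → ℂ)).factorization p = (Nat.card G).factorization p := by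
  classical
  have := Fintype.ofFinite G
  obtain ⟨M, hM⟩ := exists_isPModular (Fact.out : p.Prime)
  by_contra h
  have h1 := val_omega_pSum_lt_one hM h
  rw [omega_eq_sum, Finset.sum_eq_single 1 (fun g _ hg => ?_) (by simp), coeff_pSum,
    if_pos (one_pow p), one_mul, div_self (irr_one_ne_zero χ), map_one] at h1
  · exact lt_irrefl _ h1
  · rw [coeff_pSum]
    split_ifs with h2
    · rw [hvan g (orderOf_eq_prime h2 hg), mul_zero, zero_div]
    · rw [zero_mul, zero_div]

end Cfsg.Agent.S0928
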