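import Mathlib
import Cfsg.Statements.S0931
import Cfsg.Agent.Block.Misc
-- import your own Cfsg.Agent.* helpers here

set_option autoImplicit false
open Cfsg

namespace Cfsg.Agent.S0931

open Cfsg.Agent.Block in

/-- Let H be a subgroup of the finite group G and fix a maximal ideal M of the algebraic integers containing the prime p. If the block b of H induces the block B of G, then b has defect 0 if and only if B has defect 0. -/
theorem result {G : Type*} [Group G] [Finite G] (p : ℕ) [Fact p.Prime] (M : Ideal Cfsg.AlgInt) (hM : Cfsg.IsPModular p M) (H : Subgroup G) (b : Set (Cfsg.IrrCharacter H)) (B : Set (Cfsg.IrrCharacter G)) (hind : Cfsg.IsInducedBlock M H b B) : Cfsg.blockDefect p b = 0 ↔ Cfsg.blockDefect p B = 0 := by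
  obtain ⟨D, hD⟩ := exists_isDefectGroup hM hind.1
  obtain ⟨P, hP⟩ := exists_isDefectGroup hM hind.2.1
  have h1 := card_defectGroup hM hind.1 hD
  have h2 := card_defectGroup hM hind.2.1 hP
  have hp := isDefectGroup_isPGroup hP
  constructor
  · intro h
    rw [h, pow_zero, Subgroup.card_eq_one] at h1
    by_contra h0
    obtain ⟨x, hx, hc, ho⟩ := LocalEven.exists_mem_inf_centralizer hp hp Subgroup.le_normalizer
      fun e => h0 (by
        rw [e, Subgroup.card_bot] at h2
        exact (Nat.pow_eq_one.1 h2.symm).resolve_left hM.1.one_lt.ne')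
    obtain ⟨z, h3, h4, -⟩ := exists_conj_center_of_induced hM hind hD hP hx hc
    rw [h1, Subgroup.mem_bot] at h4
    exact LocalEven.ne_one_of_orderOf_eq ho (by simpa [h4] using h3)
  · intro h
    have h3 := card_defect_le_of_induced hM hind hD hP
    rw [h1, h2, h] at h3
    exact Nat.le_zero.1 ((Nat.pow_le_pow_iff_right hM.1.one_lt).1 h3)

end Cfsg.Agent.S0931
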