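import Mathlib
import Cfsg.Statements.S0940
import Cfsg.Agent.Block.Robin2
import Cfsg.Agent.Block.Contr

set_option autoImplicit false
open Cfsg

namespace Cfsg.Agent.S0940

open Cfsg.Agent.Block Cfsg.Agent.Char Subgroup MonoidAlgebra

/-- Let G be a finite group and M a maximal ideal of the algebraic integers containing the prime p. For every p-regular g, the idempotent coefficient of the principal block at g (the inverse of the group order times the sum over χ in the principal block of χ 1 * conj (χ g)) is congruent modulo the local ideal at M to N / R, where N is the number of pairs (x, y) with x of p-power order, y of order prime to p and x * y = g, and R is the number of elements of G of order prime to p. -/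
theorem result {G : Type*} [Group G] [Finite G] (p : ℕ) [Fact p.Prime] (M : Ideal Cfsg.AlgInt) (hM : Cfsg.IsPModular p M) (g : G) (hg : ¬ p ∣ orderOf g) : Cfsg.MemLocalIdeal M (Cfsg.blockCoeff (Cfsg.principalBlock M G) g - (Nat.card {xy : G × G // (∃ k : ℕ, orderOf xy.1 = p ^ k) ∧ ¬ p ∣ orderOf xy.2 ∧ xy.1 * xy.2 = g} : ℂ) / (Nat.card {y : G // ¬ p ∣ orderOf y} : ℂ)) := by
  classical
  have := Fintype.ofFinite G
  set B := principalBlock M G
  have hB : IsPBlock M B := isPBlock_principalBlock
  have hV := isV_blockIdem hM hB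
  have h1 : oneIrr G ∈ B := oneIrr_mem_principalBlock hM
  set a := aReg p (oneIrr G : G → ℂ) with ha
  have hac : IsCentral a := isCentral_aReg (irr_classFun _)
  have haV : IsV M a := isV_aReg (irr_mem_V _)
  set m : ℂ := ((Nat.card {y : G // ¬ p ∣ orderOf y} : ℕ) : ℂ) with hm
  have hcoeff : ∀ y, a.coeff y = if p ∣ orderOf y then 0 else 1 := fun y => by
    rw [ha, coeff_aReg, coe_oneIrr]
  have h2 : omega (oneIrr G : G → ℂ) a = m := by
    rw [omega_eq_sum, hm, Nat.card_eq_fintype_card, Fintype.card_subtype, Finset.card_filter]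
    push_cast
    exact Finset.sum_congr rfl fun y _ => by rw [hcoeff, coe_oneIrr]; split_ifs <;> simp
  have h3 : val M m = 1 := h2 ▸ val_omega_aReg_eq_one hM hB h1 h1 (blockHeight_oneIrr B)
  have h4 : (Nat.card {xy : G × G // (∃ k : ℕ, orderOf xy.1 = p ^ k) ∧ ¬ p ∣ orderOf xy.2 ∧
      xy.1 * xy.2 = g} : ℂ) = lin (pInd p G) (a * single g⁻¹ 1) := by
    rw [lin_mul_single, Nat.card_eq_fintype_card, Fintype.card_subtype, Finset.card_filter,
      Fintype.sum_prod_type_right]
    push_cast
    refine Finset.sum_congr rfl fun y _ => ?_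
    rw [Finset.sum_eq_single (g * y⁻¹) (fun x _ hx => if_neg fun h => hx (by simp [← h.2.2]))
      (by simp), hcoeff, pInd_congr (H := G) (h := g * y⁻¹) (by
        rw [← orderOf_inv, mul_inv_rev, inv_inv])]
    by_cases k : ∃ k : ℕ, orderOf (g * y⁻¹) = p ^ k
    · rw [pInd_of_pos k]; by_cases hy : p ∣ orderOf y <;> simp [k, hy]
    · rw [pInd_of_neg k, if_neg fun h => k h.1, mul_zero]
  have h5 : blockCoeff B g = blockPart B (pInd p G) g⁻¹ := by
    rw [blockPart_congr_regular hM hV (f' := fun x => if x = 1 then 1 else 0)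
      (fun s hs => pInd_of_regular hM.1 hs) (by rwa [orderOf_inv]), blockPart_eq_lin _
      (fun x y => by simp [mul_inv_eq_iff_eq_mul]), lin_mul_single,
      Finset.sum_eq_single g (fun x _ hx => by simp [mul_inv_eq_one, hx]) (by simp),
      coeff_blockIdem]
    simp
  have hm0 : m ≠ 0 := fun h => by simp [h] at h3
  rw [memLocalIdeal_iff hM ((blockCoeff_isAlgebraic _ _).sub (by
    rw [div_eq_mul_inv]; exact (isAlgebraic_natCast _).mul (isAlgebraic_natCast _).inv)), h4, h5,
    ← mul_div_cancel_right₀ (blockPart _ _ _) hm0, ← sub_div, map_div₀, h3, div_one,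
    lin_eq_sum_irr classFun_pInd, blockPart_eq_sum, Finset.sum_filter, Finset.sum_mul,
    ← Finset.sum_sub_distrib]
  refine val_sum_lt_one _ fun χ _ => ?_
  rw [lin_central_mul χ.2 hac, lin_single, one_mul]
  split_ifs with h
  · rw [show ∀ a b c d : ℂ, a * b * c - a * (d * b) = a * b * (c - d) by intros; ring]
    refine val_mul_lt_one_right (mul_mem (inner_mem_V_of_mem_VC (pInd_mem_VC hM) (irr_isChar χ))
      (irr_mem_V χ _)) ?_
    rw [← h2, ← red_eq_iff (omega_mem_V _ hac haV) (omega_mem_V _ hac haV)]
    exact red_omega_eq_of_sameBlock hM (block_sameBlock hM hB h1 h) hac haV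
  · rw [omega_aReg_eq_zero hM hV h1 h]
    simp

end Cfsg.Agent.S0940
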