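import Mathlib
import Cfsg.Statements.S0944
import Cfsg.Agent.Block.Kernel

set_option autoImplicit false
open Cfsg

namespace Cfsg.Agent.S0944

theorem aux (s : Multiset ℂ) (hs : ∀ z ∈ s, z ^ 2 = 1) :
    ∃ n : ℤ, s.sum = n ∧ (2 : ℤ) ∣ (s.card : ℤ) - n := by
  induction s using Multiset.induction_on with
  | empty => exact ⟨0, by simp, by simp⟩
  | cons a s ih =>
    obtain ⟨n, hn, h2⟩ := ih fun z hz => hs z (Multiset.mem_cons_of_mem hz)
    rcases sq_eq_one_iff.1 (hs a (Multiset.mem_cons_self a s)) with rfl | rfl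
    · exact ⟨n + 1, by simp [hn, add_comm], by simp; omega⟩
    · exact ⟨n - 1, by simp [hn]; ring, by simp; omega⟩

/-- Let χ be an irreducible character of the finite group G and u an involution. Then χ u is a rational integer n with n ≡ χ 1 (mod 2). -/
theorem result {G : Type*} [Group G] [Finite G] (χ : Cfsg.IrrCharacter G) (u : G) (hu : orderOf u = 2) : ∃ n : ℤ, (χ : G → ℂ) u = (n : ℂ) ∧ (2 : ℤ) ∣ (Cfsg.charDegree (χ : G → ℂ) : ℤ) - n := by
  obtain ⟨s, hs, hc, he, -⟩ := Char.isChar_eigen_nat (Char.irr_isChar χ) u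
  obtain ⟨n, hn, h2⟩ := aux s (hu ▸ hs)
  exact ⟨n, he.trans hn, by rwa [Block.charDegree_of_eq hc.symm]⟩

end Cfsg.Agent.S0944
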