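import Mathlib
import Cfsg.Statements.S0947
import Cfsg.Agent.Block.Kernel

set_option autoImplicit false
open Cfsg

namespace Cfsg.Agent.S0947


/-- Let z ≠ 1 be a p-element of the finite group G with centralizer H, and fix a maximal ideal M of the algebraic integers containing p. (i) For every y ∈ H of order prime to p, the sum over ζ in the principal block of G of |ζ (z * y)|² equals the sum over χ in the principal block of H of |χ y|². (ii) If moreover H has a normal p-complement (its largest normal subgroup of order prime to p has p-power index), that common value is the largest power of p dividing the order of H. -/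
theorem result {G : Type*} [Group G] [Finite G] (p : ℕ) [Fact p.Prime] (M : Ideal Cfsg.AlgInt) (hM : Cfsg.IsPModular p M) (z : G) (hz : ∃ k : ℕ, orderOf z = p ^ k) (hz1 : z ≠ 1) (y : Subgroup.centralizer ({z} : Set G)) (hy : ¬ p ∣ orderOf y) : (∑ᶠ ζ ∈ Cfsg.principalBlock M G, ‖(ζ : G → ℂ) (z * (y : G))‖ ^ 2 = ∑ᶠ χ ∈ Cfsg.principalBlock M (Subgroup.centralizer ({z} : Set G)), ‖(χ : Subgroup.centralizer ({z} : Set G) → ℂ) y‖ ^ 2) ∧ ((∃ k : ℕ, (Cfsg.pPrimeCore p (Subgroup.centralizer ({z} : Set G))).index = p ^ k) → ∑ᶠ ζ ∈ Cfsg.principalBlock M G, ‖(ζ : G → ℂ) (z * (y : G))‖ ^ 2 = ((p ^ (Nat.card (Subgroup.centralizer ({z} : Set G))).factorization p : ℕ) : ℝ)) := by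
  classical
  have hzC : z ∈ Subgroup.centralizer ({z} : Set G) := Subgroup.mem_centralizer_singleton_iff.2 rfl
  have hc : Commute z (y : G) := (Subgroup.mem_centralizer_singleton_iff.1 y.2).symm
  have hpp : IsPPart p ((⟨z, hzC⟩ * y : Subgroup.centralizer ({z} : Set G)) : G) z :=
    Block.isPPart_mul hc hz (by rwa [Subgroup.orderOf_coe])
  have key := Block.sum_principal_mul_conj hM _ _ hpp hpp
  simp only [Complex.mul_conj, Complex.normSq_eq_norm_sq, ← Complex.ofReal_sum,
    Complex.ofReal_inj, Subgroup.coe_mul] at key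
  have hzZ : (⟨z, hzC⟩ : Subgroup.centralizer ({z} : Set G)) ∈ Subgroup.center _ :=
    Subgroup.mem_center_iff.2 fun c => Subtype.ext (Subgroup.mem_centralizer_singleton_iff.1 c.2)
  have h1 : ∑ᶠ ζ ∈ principalBlock M G, ‖(ζ : G → ℂ) (z * (y : G))‖ ^ 2 =
      ∑ᶠ χ ∈ principalBlock M (Subgroup.centralizer ({z} : Set G)),
        ‖(χ : Subgroup.centralizer ({z} : Set G) → ℂ) y‖ ^ 2 := by
    rw [Block.finsum_mem_irr, Block.finsum_mem_irr, key]
    refine Finset.sum_congr rfl fun ξ _ => ?_
    obtain ⟨lam, hlam⟩ := Char.isIrr_exists_central_linear ξ.2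
    rw [hlam ⟨_, hzZ⟩ y, norm_mul, Char.linear_norm, one_mul]
  refine ⟨h1, fun hk => ?_⟩
  have hN := Core.not_dvd_card_pPrimeCore (G := Subgroup.centralizer ({z} : Set G)) hM.1
  obtain ⟨k, hk'⟩ := hk
  have hyN : y ∈ pPrimeCore p (Subgroup.centralizer ({z} : Set G)) := by
    rw [← QuotientGroup.eq_one_iff]
    refine Block.eq_one_of_isPGroup_of_not_dvd hM.1 ((IsPGroup.of_card (n := k) hk').to_subgroup ⊤)
      (Subgroup.mem_top _) fun h => hy (h.trans (orderOf_map_dvd (QuotientGroup.mk' _) y))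
  have h2 := Block.sum_sq_degree_le_charKer (pPrimeCore p (Subgroup.centralizer ({z} : Set G)))
  simp only [Complex.mul_conj, Complex.normSq_eq_norm_sq, ← Complex.ofReal_sum] at h2
  rw [h1, Block.principalBlock_eq_of_normal_complement hM hN ⟨k, hk'⟩, Block.finsum_mem_irr,
    ← (pPrimeCore p (Subgroup.centralizer ({z} : Set G))).card_mul_index,
    Nat.factorization_mul Nat.card_pos.ne' Subgroup.index_ne_zero_of_finite, Finsupp.add_apply,
    Nat.factorization_eq_zero_of_not_dvd hN, zero_add, hk', Nat.factorization_pow,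
    Finsupp.smul_apply, hM.1.factorization_self, smul_eq_mul, mul_one, ← hk']
  refine Eq.trans (Finset.sum_congr rfl fun ξ hξ => ?_) (by exact_mod_cast h2)
  rw [Char.apply_eq_of_mem_charKer ((Finset.mem_filter.1 hξ).2 hyN)]

end Cfsg.Agent.S0947
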