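import Mathlib
import Cfsg.Statements.S0951
import Cfsg.Agent.Block.Q8
-- import your own Cfsg.Agent.* helpers here

set_option autoImplicit false
open Cfsg

namespace Cfsg.Agent.S0951

open Cfsg.Agent.Block

/-- Let S be a Sylow 2-subgroup of the finite group G isomorphic to the quaternion group of order 8. Suppose G has no nontrivial normal subgroup of odd order and G ≠ S. Then, relative to any maximal ideal M of the algebraic integers containing 2, the principal block of G consists of exactly 7 irreducible characters. -/
theorem result {G : Type*} [Group G] [Finite G] (M : Ideal Cfsg.AlgInt) (hM : Cfsg.IsPModular 2 M) (S : Sylow 2 G) (e : (S : Subgroup G) ≃* QuaternionGroup 2) (hO : ∀ N : Subgroup G, N.Normal → Odd (Nat.card N) → N = ⊥) (hG : (S : Subgroup G) ≠ ⊤) : Nat.card (Cfsg.principalBlock M G) = 7 := by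
  classical
  obtain ⟨a, b, h⟩ := exists_qData two_ne_zero e
  have := Fintype.ofFinite G
  have hnc : ¬ HasNormalPComplement 2 G := fun hnc => by
    have h1 := hO (pResidual 2 G) inferInstance (by
      rw [← Nat.not_even_iff_odd, even_iff_two_dvd]
      exact Transfer.hasNormalPComplement_iff_not_dvd.1 hnc)
    have h2 := Transfer.pResidual_sup_sylow S
    rw [h1, bot_sup_eq] at h2
    exact hG h2
  have h1 := (h.qh hM (z_mem_center_of_eight _ rfl h hO) fun x hx h4 => by
    obtain ⟨c, -, hc⟩ := h.isConj_of_no_complement e hnc hx h4
    exact isConj_iff.2 ⟨c, hc⟩).exists_EF.1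
  rw [← h1, Nat.card_eq_fintype_card, Fintype.card_subtype]

end Cfsg.Agent.S0951
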