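import Mathlib
import Cfsg.Statements.S0952
import Cfsg.Agent.Block.Orth
import Cfsg.Agent.Block.Osima

set_option autoImplicit false
open scoped ComplexConjugate
open Cfsg

namespace Cfsg.Agent.S0952


/-- Let χ and ψ be irreducible characters of the finite group G lying in different blocks relative to a maximal ideal M of the algebraic integers containing the prime p. Then the sum of χ x * conj (ψ x) over the elements x of order prime to p is zero. -/
theorem result {G : Type*} [Group G] [Finite G] (p : ℕ) [Fact p.Prime] (M : Ideal Cfsg.AlgInt) (hM : Cfsg.IsPModular p M) (χ ψ : Cfsg.IrrCharacter G) (h : ¬ Cfsg.SameBlock M (χ : G → ℂ) (ψ : G → ℂ)) : ∑ᶠ x ∈ {x : G | ¬ p ∣ orderOf x}, (χ : G → ℂ) x * conj ((ψ : G → ℂ) x) = 0 := by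
  classical
  have := Fintype.ofFinite G
  have h0 := Block.classInner_pRegularPart_eq_zero hM
    (Block.isV_blockIdem hM (Block.isPBlock_blockOf (M := M) χ)) (Block.self_mem_blockOf hM χ)
    (ψ := ψ) (fun hψ => h (Block.mem_blockOf.1 hψ))
  rw [Char.classInner_def] at h0
  have hc : ((Nat.card G : ℂ))⁻¹ ≠ 0 := inv_ne_zero (Nat.cast_ne_zero.2 Nat.card_pos.ne')
  rw [finsum_mem_eq_finite_toFinset_sum _ (Set.toFinite _)]
  have h1 := (mul_eq_zero.1 h0).resolve_left hc
  rw [← h1, ← Finset.sum_filter_add_sum_filter_not Finset.univ (fun x : G => p ∣ orderOf x)]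
  rw [Finset.sum_eq_zero (s := Finset.univ.filter fun x : G => p ∣ orderOf x) fun x hx => by
    rw [Block.pRegularPart_of_dvd (Finset.mem_filter.1 hx).2, zero_mul], zero_add]
  refine Finset.sum_congr (by ext x; simp) fun x hx => ?_
  rw [Block.pRegularPart_of_not_dvd (Finset.mem_filter.1 hx).2]

end Cfsg.Agent.S0952
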