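import Mathlib
import Cfsg.Statements.S0955
import Cfsg.Agent.Block.FirstMain
-- import your own Cfsg.Agent.* helpers here

set_option autoImplicit false
open Cfsg

namespace Cfsg.Agent.S0955

open Cfsg.Agent.Block

/-- Let D be a defect group of a block of the finite group G relative to a maximal ideal M of the algebraic integers containing the prime p. Then D is the largest normal p-subgroup of its own normalizer: O_p(N_G(D)) = D. -/
theorem result {G : Type*} [Group G] [Finite G] (p : ℕ) [Fact p.Prime] (M : Ideal Cfsg.AlgInt) (hM : Cfsg.IsPModular p M) (B : Set (Cfsg.IrrCharacter G)) (hB : Cfsg.IsPBlock M B) (D : Subgroup G) (hD : Cfsg.IsDefectGroup p M B D) : (Cfsg.pCore p (Subgroup.normalizer (D : Set G))).map (Subgroup.normalizer (D : Set G)).subtype = D := by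
  obtain ⟨b, h1, h2⟩ := first_main_exists hM hB hD
  have h3 := pCore_le_defect hM h1.1 h2
  have h4 : D.subgroupOf (Subgroup.normalizer (D : Set G)) ≤ pCore p _ :=
    Core.le_pCore Subgroup.normal_in_normalizer (isDefectGroup_isPGroup h2)
  rw [le_antisymm h3 h4, Subgroup.subgroupOf_map_subtype, inf_eq_left.2 Subgroup.le_normalizer]

end Cfsg.Agent.S0955
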