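import Mathlib
import Cfsg.Statements.S0963
import Cfsg.Agent.Block.Cover

set_option autoImplicit false
open Cfsg

namespace Cfsg.Agent.S0963

open Cfsg.Agent.Block

/-- Let N be a normal subgroup of the finite group G, χ an irreducible character of G and θ an irreducible character of N. Then θ occurs in the restriction of χ to N if and only if, for every n ∈ N, the central character of χ at n (class size in G times χ n over χ 1) equals the sum of θ m / θ 1 over the elements m of N conjugate in G to n. -/
theorem result {G : Type*} [Group G] [Fintype G] (N : Subgroup G) [N.Normal] [Fintype N] (χ : Cfsg.IrrCharacter G) (θ : Cfsg.IrrCharacter N) : Cfsg.classInner (fun n : N => (χ : G → ℂ) n) (θ : N → ℂ) ≠ 0 ↔ ∀ n : N, Cfsg.centralChar (χ : G → ℂ) (n : G) = Cfsg.inducedCentralChar N (θ : N → ℂ) (n : G) := by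
  constructor
  · intro h n
    rw [inducedCentralChar_eq_omega, ← omega_trunc_of_over h (isCentral_classSum _),
      incl_resTo_classSum, omega_irr_classSum]
  · intro h
    have h1 : omega (χ : G → ℂ) (incl N (blockIdem (orbSet {θ}))) =
        omega (θ : N → ℂ) (blockIdem (orbSet {θ})) :=
      eq_on_inv_of_classSum (fun n => by
        rw [omega_irr_classSum, h, inducedCentralChar_eq_omega])
        (gInv_orbSet _).isCentral_incl_blockIdem
    rw [omega_blockIdem_of_mem (subset_orbSet {θ} rfl)] at h1
    obtain ⟨θ', hθ', h2⟩ := exists_under_of_omega_ne_zero (h1 ▸ one_ne_zero)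
    obtain ⟨_, rfl, h3⟩ := over_of_mem_orbSet (Cfsg.Agent.Char.irr_classFun χ) hθ' h2
    exact h3

end Cfsg.Agent.S0963
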