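import Mathlib
import Cfsg.Statements.S0965
import Cfsg.Agent.Block.Cover

set_option autoImplicit false
open Cfsg

namespace Cfsg.Agent.S0965

open Cfsg.Agent.Block

/-- Let N be a normal subgroup of the finite group G and let B, b be blocks of G and of N relative to a maximal ideal M of the algebraic integers containing the prime p. Then some χ ∈ B has a constituent in b on restriction to N if and only if, for all χ ∈ B, θ ∈ b and n ∈ N, the central character of χ at n is congruent modulo the local ideal at M to the sum of θ m / θ 1 over the elements m ∈ N conjugate in G to n. -/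
theorem result {G : Type*} [Group G] [Fintype G] (p : ℕ) [Fact p.Prime] (M : Ideal Cfsg.AlgInt) (hM : Cfsg.IsPModular p M) (N : Subgroup G) [N.Normal] [Fintype N] (B : Set (Cfsg.IrrCharacter G)) (hB : Cfsg.IsPBlock M B) (b : Set (Cfsg.IrrCharacter N)) (hb : Cfsg.IsPBlock M b) : (∃ χ ∈ B, ∃ θ ∈ b, Cfsg.classInner (fun n : N => (χ : G → ℂ) n) (θ : N → ℂ) ≠ 0) ↔ ∀ χ ∈ B, ∀ θ ∈ b, ∀ n : N, Cfsg.MemLocalIdeal M (Cfsg.centralChar (χ : G → ℂ) (n : G) - Cfsg.inducedCentralChar N (θ : N → ℂ) (n : G)) := by
  have key : ∀ (χ : IrrCharacter G) (θ : IrrCharacter N) (n : N),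
      MemLocalIdeal M (centralChar (χ : G → ℂ) (n : G) - inducedCentralChar N (θ : N → ℂ) (n : G)) ↔
      lam M (χ : G → ℂ) (classSum (F M) (n : G)) =
        lam M (θ : N → ℂ) (resTo N (classSum (F M) (n : G))) := fun χ θ n => by
    rw [memLocalIdeal_sub_iff_red hM (centralChar_isIntegral χ _)
      (inducedCentralChar_isIntegral N θ _), red_inducedCentralChar, lam_classSum]
  constructor
  · intro h χ hχ θ hθ n
    rw [key, ← Covers.lam_eq hM hB hb h hχ hθ (isCentral_incl_resTo (isCentral_classSum _)),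
      incl_resTo_classSum]
  · intro h
    obtain ⟨χ, hχ⟩ := block_nonempty hM hB
    obtain ⟨θ, hθ⟩ := block_nonempty hM hb
    exact covers_of_lam hM hB (isV_blockIdem hM hb) hχ hθ fun y hy =>
      eq_on_inv_of_classSum (fun n => (key χ θ n).1 (h χ hχ θ hθ n)) hy

end Cfsg.Agent.S0965
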