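import Mathlib
import Cfsg.Statements.S0968
import Cfsg.Agent.Block.Quot2

set_option autoImplicit false
open Cfsg

namespace Cfsg.Agent.S0968

open Cfsg.Agent.Block Cfsg.Agent.Char Subgroup

/-- Let P be a p-subgroup of the finite group G with P ⊔ C_G(P) = G, and let B be a block with defect group P relative to a maximal ideal M of the algebraic integers containing p. Then there is exactly one θ ∈ B with θ x = θ 1 for all x ∈ P; for this θ the exponent of p in θ(1) equals the exponent of p in the index of P; and the number of members of B equals the number of conjugacy classes of P. -/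
theorem result {G : Type*} [Group G] [Finite G] (p : ℕ) [Fact p.Prime] (M : Ideal Cfsg.AlgInt) (hM : Cfsg.IsPModular p M) (P : Subgroup G) (hP : IsPGroup p P) (hG : P ⊔ Subgroup.centralizer (P : Set G) = ⊤) (B : Set (Cfsg.IrrCharacter G)) (hB : Cfsg.IsPBlock M B) (hD : Cfsg.IsDefectGroup p M B P) : (∃! θ : Cfsg.IrrCharacter G, θ ∈ B ∧ ∀ x ∈ P, (θ : G → ℂ) x = (θ : G → ℂ) 1) ∧ (∀ θ ∈ B, (∀ x ∈ P, (θ : G → ℂ) x = (θ : G → ℂ) 1) → (Cfsg.charDegree (θ : G → ℂ)).factorization p = P.index.factorization p) ∧ Nat.card B = Nat.card (ConjClasses P) := by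
  have := normal_of_sup_centralizer hG
  have hc : ∀ g, ¬ p ∣ orderOf g → g ∈ centralizer (P : Set G) :=
    fun _ => regular_mem_centralizer_of_sup hM.1 hP hG
  obtain ⟨θ, hθ, hk⟩ := exists_le_charKer hM hB hP
  exact ⟨⟨θ, ⟨hθ, le_charKer_iff'.1 hk⟩, fun θ' h =>
    eq_of_le_charKer hM hB hD hc h.1 (le_charKer_iff'.2 h.2) hθ hk⟩,
    fun θ' h h' => factorization_of_le_charKer hM hB hD h (le_charKer_iff'.2 h'),
    card_of_nilpotent hM (isNilpotentBlock_of_normal hM hB hD hc) hD⟩

end Cfsg.Agent.S0968
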