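import Mathlib
import Cfsg.Statements.S0969
import Cfsg.Agent.Block.Quot2

set_option autoImplicit false
open Cfsg

namespace Cfsg.Agent.S0969

open Cfsg.Agent.Block Cfsg.Agent.Char Subgroup

/-- Let D be a central p-subgroup of the finite group G and χ an irreducible character with the exponent of p in χ(1) equal to the exponent of p in the index of D; fix a maximal ideal M of the algebraic integers containing p. Then D is a defect group of the block of χ, and χ g = 0 whenever the p-part of g does not lie in D. -/
theorem result {G : Type*} [Group G] [Finite G] (p : ℕ) [Fact p.Prime] (M : Ideal Cfsg.AlgInt) (hM : Cfsg.IsPModular p M) (D : Subgroup G) (hD : IsPGroup p D) (hDZ : D ≤ Subgroup.center G) (χ : Cfsg.IrrCharacter G) (hdeg : (Cfsg.charDegree (χ : G → ℂ)).factorization p = D.index.factorization p) : Cfsg.IsDefectGroup p M (Cfsg.blockOf M (χ : G → ℂ)) D ∧ ∀ g x : G, Cfsg.IsPPart p g x → x ∉ D → (χ : G → ℂ) g = 0 := by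
  have := Fintype.ofFinite G
  exact ⟨laradji hM (isPBlock_blockOf χ) hD hDZ (self_mem_blockOf hM χ) hdeg.ge, fun g x hx h =>
    (card_mul_inner_pReg hM.1 hD hDZ hdeg.ge).2 g (by rwa [(pp_eq_iff hM.1).2 hx])⟩

end Cfsg.Agent.S0969
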