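import Mathlib
import Cfsg.Statements.S0971
import Cfsg.Agent.Block.Cover

set_option autoImplicit false
open Cfsg

namespace Cfsg.Agent.S0971

open Cfsg.Agent.Block

/-- Let Q be a normal p-subgroup of the finite group G, let N = Q ⊔ C_G(Q) (a normal subgroup) and let b be a block of N relative to a maximal ideal M of the algebraic integers containing p. Then b induces some block of G, and every block B of G containing a character whose restriction to N has a constituent in b is induced by b. -/
theorem result {G : Type*} [Group G] [Fintype G] (p : ℕ) [Fact p.Prime] (M : Ideal Cfsg.AlgInt) (hM : Cfsg.IsPModular p M) (Q : Subgroup G) [Q.Normal] (hQ : IsPGroup p Q) [Fintype ↥(Q ⊔ Subgroup.centralizer (Q : Set G))] (b : Set (Cfsg.IrrCharacter ↥(Q ⊔ Subgroup.centralizer (Q : Set G)))) (hb : Cfsg.IsPBlock M b) : Cfsg.InducedBlockDefined M (Q ⊔ Subgroup.centralizer (Q : Set G)) b ∧ ∀ B : Set (Cfsg.IrrCharacter G), Cfsg.IsPBlock M B → (∃ χ ∈ B, ∃ θ ∈ b, Cfsg.classInner (fun n : ↥(Q ⊔ Subgroup.centralizer (Q : Set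 G)) => (χ : G → ℂ) n) (θ : ↥(Q ⊔ Subgroup.centralizer (Q : Set G)) → ℂ) ≠ 0) → Cfsg.IsInducedBlock M (Q ⊔ Subgroup.centralizer (Q : Set G)) b B := by
  have hn : (Q ⊔ Subgroup.centralizer (Q : Set G)).Normal := inferInstance
  have hdef : InducedBlockDefined M (Q ⊔ Subgroup.centralizer (Q : Set G)) b :=
    exists_induced hM hQ le_sup_left le_sup_right
      (by rw [Subgroup.normalizer_eq_top]; exact le_top) hb
  exact ⟨hdef, fun B hB h => Covers.induced hM hB (fun g hg => Subgroup.mem_sup_right
    (mem_centralizer_of_coeff_eB hM (isV_blockIdem hM hB) hQ hg)) hdef h⟩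

end Cfsg.Agent.S0971
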