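import Mathlib
import Cfsg.Statements.S0973
import Cfsg.Agent.Block.Corr
-- import your own Cfsg.Agent.* helpers here

set_option autoImplicit false
open Cfsg

namespace Cfsg.Agent.S0973

open Cfsg.Agent.Block in

/-- Let B be a block of the finite group G with defect group P (relative to a maximal ideal M of the algebraic integers containing p), and let L = P ⊔ C_G(P). Then (i) some block b of L with defect group P (viewed in L) induces B, and (ii) if b and b' are blocks of L both inducing B, there is n ∈ N_G(P) carrying b to b': for every θ ∈ b there is θ' ∈ b' with θ' x = θ (n x n⁻¹) for all x ∈ L. -/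
theorem result {G : Type*} [Group G] [Finite G] (p : ℕ) [Fact p.Prime] (M : Ideal Cfsg.AlgInt) (hM : Cfsg.IsPModular p M) (B : Set (Cfsg.IrrCharacter G)) (hB : Cfsg.IsPBlock M B) (P : Subgroup G) (hP : Cfsg.IsDefectGroup p M B P) : (∃ b : Set (Cfsg.IrrCharacter ↥(P ⊔ Subgroup.centralizer (P : Set G))), Cfsg.IsDefectGroup p M b (P.subgroupOf (P ⊔ Subgroup.centralizer (P : Set G))) ∧ Cfsg.IsInducedBlock M (P ⊔ Subgroup.centralizer (P : Set G)) b B) ∧ ∀ b b' : Set (Cfsg.IrrCharacter ↥(P ⊔ Subgroup.centralizer (P : Set G))), Cfsg.IsInducedBlock M (P ⊔ Subgroup.centralizer (P : Set G)) b B → Cfsg.IsInducedBlock M (P ⊔ Subgroup.centralizer (P : Set G)) b' B → ∃ n ∈ Subgroup.normalizer (P : Set G), ∀ θ ∈ b, ∃ θ' ∈ b', ∀ x : ↥(P ⊔ Subgroup.centralizer (P : Set G)), ∀ hx : n * (x : G) * n⁻¹ ∈ P ⊔ Subgroup.centralizer (P : Set G), (θ' : ↥(P ⊔ Subgroup.centralizer (P : Set G)) → ℂ) x = (θ : ↥(P ⊔ Subgroup.centralizer (P : Set G)) → ℂ) ⟨n * (x : G) * n⁻¹, hx⟩ := by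
  have hp := isDefectGroup_isPGroup hP
  constructor
  · obtain ⟨d, rfl, hd⟩ := exists_isMaxBP hM hB hP
    have h1 : IsInducedBlock M _ (ovr _ d) B :=
      ((rp_ovr hM hd.bp (mid_sup d.1)).induced_iff hM (isPBlock_ovr hM hd.bp (mid_sup d.1))).2 hd.of
    exact ⟨_, defect_of_induced_of_le_normalizer hM (mid_sup d.1).le (mid_sup d.1).len h1 hP, h1⟩
  · intro b b' hb hb'
    obtain ⟨a, rfl, ha, rfl⟩ := exists_ovr_eq hM hp (mid_sup P) (induced_left hb)
    obtain ⟨a', e, ha', h'⟩ := exists_ovr_eq hM hp (mid_sup a.1) (induced_left hb')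
    have m' : Mid a'.1 (a.1 ⊔ Subgroup.centralizer (a.1 : Set G)) := e ▸ mid_sup a'.1
    subst h'
    have h1 := ((rp_ovr hM ha (mid_sup a.1)).induced_iff hM (induced_left hb)).1 hb
    have h2 := ((rp_ovr hM ha' m').induced_iff hM (induced_left hb')).1 hb'
    obtain ⟨x, hx⟩ := ((isMaxBP_iff hM).2 ⟨h2, e ▸ hP⟩).exists_smul_eq hM
      ((isMaxBP_iff hM).2 ⟨h1, hP⟩)
    have hN : x ∈ Subgroup.normalizer (a.1 : Set G) := by
      have h3 : LocalEven.cj x a.1 = a.1 := by rw [← fst_smul, hx, e]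
      exact LocalEven.cj_eq_self_iff.1 h3
    have hL := mem_iff_of_mem_normalizer (normalizer_le_normalizer_sup_centralizer a.1 hN)
    have h4 : compSet (conjBack x hL) (ovr _ a) = ovr _ a' := by
      refine blockIdem_injective (incl_injective _ ?_)
      rw [blockIdem_compSet, incl_resHom_eq_cjA _ (coe_conjBack x hL),
        incl_blockIdem_ovr_of_stab hM ha (mid_sup _) fun y hy => sup_le_stabilizer a hy,
        incl_blockIdem_ovr_of_stab hM ha' m' fun y hy => sup_le_stabilizer a' (e ▸ hy),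
        ← cid_smul, hx]
    refine ⟨x⁻¹, inv_mem hN, fun θ hθ => ⟨irrComp (conjBack x hL) θ,
      h4 ▸ irrComp_mem_compSet.2 hθ, fun y hy => ?_⟩⟩
    rw [coe_irrComp]
    exact congrArg _ (Subtype.ext (by simp [coe_conjBack]))

end Cfsg.Agent.S0973
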