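import Mathlib
import Cfsg.Statements.S4304
import Cfsg.Agent.FGS.SylowNum3

set_option autoImplicit false
open Cfsg

namespace Cfsg.Agent.S4304

/-- No finite group has exactly 15 Sylow 7-subgroups. -/
theorem result {G : Type*} [Group G] [Finite G] : Nat.card (Sylow 7 G) ≠ 15 := by
  have : Fact (Nat.Prime 7) := ⟨by norm_num⟩
  have : Fact (Nat.Prime 5) := ⟨by norm_num⟩
  refine FGS.card_sylow_ne_of_reduced (fun G _ _ _ _ hf hN hn => ?_) G
  obtain ⟨e, he, ho, hG⟩ := FGS.card_eq_of_two_mul_add_one (p := 7) (by norm_num) hf hN hn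
  have h1 : e = 1 ∨ e = 3 := by
    have := Nat.le_of_dvd (by norm_num) he
    interval_cases e <;> simp_all <;> revert ho <;> decide
  obtain ⟨R⟩ : Nonempty (Sylow 5 G) := inferInstance
  refine FGS.false_of_normal_complement hN (r := 5) (by norm_num) (by rw [hG]; omega)
    (Transfer.hasNormalPComplement_of_not_dvd_pow_sub_one R (n := 1) ?_ ?_)
  · exact FGS.card_dvd_pow_of_not_dvd R.isPGroup' (by rw [hG]; omega)
  · intro q hq _ hd i h1 h2 h
    obtain rfl : i = 1 := by omega
    have : q = 2 := (Nat.prime_dvd_prime_iff_eq hq Nat.prime_two).mp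
      (hq.dvd_of_dvd_pow (n := 2) h)
    rw [this, hG] at hd
    omega

end Cfsg.Agent.S4304
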