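import Mathlib
import Cfsg.Statements.S1010
import Cfsg.Agent.FGS.SylowNum3
import Cfsg.Agent.Transfer.Abelian
import Cfsg.Agent.S4304

set_option autoImplicit false
open Cfsg

namespace Cfsg.Agent.S1010

open Subgroup

theorem card_dvd_ncard_of_free {G X : Type*} [Group G] [MulAction G X] (T : Subgroup G) (Y : Set X)
    (hY : ∀ g ∈ T, ∀ y ∈ Y, g • y ∈ Y) (hfree : ∀ g ∈ T, ∀ y ∈ Y, g • y = y → g = 1) :
    Nat.card T ∣ Y.ncard := by
  let S : SubMulAction T X := ⟨Y, fun g x hx => hY g g.2 x hx⟩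
  have h1 : Nat.card S = Y.ncard := Nat.card_coe_set_eq Y
  have h2 := MulAction.selfEquivOrbitsQuotientProd (G := T) (X := S) fun y => by
    rw [eq_bot_iff]
    intro g hg
    exact Subtype.ext (hfree g g.2 y y.2 (congrArg Subtype.val hg))
  rw [← h1, Nat.card_congr h2, Nat.card_prod]
  exact dvd_mul_left _ _

theorem exists_involution {G : Type*} [Group G] {s : G} {k : ℕ} (hs : orderOf s = 2 ^ k)
    (h1 : s ≠ 1) : ∃ j : ℕ, orderOf (s ^ j) = 2 := by
  obtain _ | k := k
  · exact absurd (orderOf_eq_one_iff.mp hs) h1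
  · refine ⟨2 ^ k, ?_⟩
    rw [orderOf_pow_of_dvd (by positivity) (hs ▸ pow_dvd_pow 2 k.le_succ), hs, pow_succ,
      Nat.mul_div_cancel_left _ (by positivity)]

theorem u5 : ∀ x : (ZMod 5)ˣ, x ^ 2 = 1 → x ≠ 1 → x = -1 := by decide

theorem u5' : (-1 : (ZMod 5)ˣ) ^ 21 ≠ 1 := by decide

theorem main {G : Type*} [Group G] [Finite G] [Fact (Nat.Prime 5)]
    (hf : ∀ g : G, (∀ Q : Sylow 5 G, g • Q = Q) → g = 1)
    (hN : ∀ N : Subgroup G, N.Normal → ¬ 5 ∣ N.index → N = ⊤)
    (hn : Nat.card (Sylow 5 G) = 21) : False := by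
  have : Fact (Nat.Prime 7) := ⟨by norm_num⟩
  have hcard : ∀ P : Sylow 5 G, Nat.card P = 5 := fun P =>
    FGS.card_sylow_eq_prime P hf (by omega) (by omega)
  -- fixed points of elements centralising a Sylow subgroup
  have hfix : ∀ (P : Sylow 5 G) (c : G), c ∈ centralizer ((P : Subgroup G) : Set G) → c ≠ 1 →
      ∀ r k : ℕ, r.Prime → orderOf c = r ^ k → ∃ j, j < 4 ∧ r ∣ 5 * (4 - j) ∧
        {Q : Sylow 5 G | c • Q = Q}.ncard = 5 * j + 1 := by
    intro P c hc hc1 r k hr hk
    have := Fact.mk hr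
    have h1 := FGS.ncard_fixed_modEq_one P hc
    have h2 := FGS.card_modEq_ncard_fixed (X := Sylow 5 G) hk
    have h3 := FGS.ncard_fixed_lt (X := Sylow 5 G) (mt (hf c) hc1)
    generalize {x : Sylow 5 G | c • x = x}.ncard = m at h1 h2 h3 ⊢
    rw [hn] at h2 h3
    have h4 := (Nat.modEq_iff_dvd' h3.le).mp h2.symm
    unfold Nat.ModEq at h1
    refine ⟨m / 5, by omega, ?_, by omega⟩
    rwa [show 5 * (4 - m / 5) = 21 - m by omega]
  have hinvC : ∀ (P : Sylow 5 G) (c : G), c ∈ centralizer ((P : Subgroup G) : Set G) →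
      orderOf c = 2 → {Q : Sylow 5 G | c • Q = Q}.ncard = 1 := by
    intro P c hc hc2
    obtain ⟨j, hj, hd, hm⟩ := hfix P c hc (by rintro rfl; simp at hc2) 2 1 Nat.prime_two hc2
    by_contra hne
    obtain ⟨N, hN1, hN2⟩ := FGS.exists_index_two_of_involution (X := Sylow 5 G) (t := c) (k := 5)
      (by rw [← hc2, pow_orderOf_eq_one]) (by decide) (by rw [hm, hn]; omega)
    rw [hN N hN1 (by omega), index_top] at hN2
    omega
  obtain ⟨P⟩ : Nonempty (Sylow 5 G) := inferInstance
  have hP' : (Nat.card (P : Subgroup G)).Prime := (hcard P).symm ▸ (Fact.out : Nat.Prime 5)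
  have hcyc := isCyclic_of_prime_card (α := (P : Subgroup G)) (hcard P)
  have hNi : (normalizer ((P : Subgroup G) : Set G)).index = 21 := by
    rw [← FGS.card_sylow_eq P, hn]
  -- every involution fixes at most one Sylow subgroup
  have hinv : ∀ z : G, orderOf z = 2 → {Q : Sylow 5 G | z • Q = Q}.ncard ≤ 1 := by
    intro z hz
    by_contra hlt
    obtain ⟨e⟩ : Nonempty (MulAut (P : Subgroup G) ≃* (ZMod 5)ˣ) := by
      have : ∀ n, Nat.card (P : Subgroup G) = n → Nonempty (MulAut (P : Subgroup G) ≃* (ZMod n)ˣ) := by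
        rintro n rfl; exact ⟨IsCyclic.mulAutMulEquiv _⟩
      exact this 5 (hcard P)
    let φ : normalizer ((P : Subgroup G) : Set G) →* (ZMod 5)ˣ :=
      e.toMonoidHom.comp (P : Subgroup G).normalizerMonoidHom
    have hz2 : z ^ 2 = 1 := by rw [← hz, pow_orderOf_eq_one]
    have ht : MonoidHom.transfer φ z = (-1) ^ (normalizer ((P : Subgroup G) : Set G)).index := by
      refine Transfer.transfer_eq_pow_of_forall φ z (-1) fun k g hg _ _ => ?_
      rcases Nat.even_or_odd' k with ⟨j, rfl | rfl⟩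
      · have : (⟨_, hg⟩ : normalizer ((P : Subgroup G) : Set G)) = 1 :=
          Subtype.ext (by simp [pow_mul, hz2])
        rw [this, map_one, pow_mul]; simp
      · have h1 : z ^ (2 * j + 1) = z := by rw [pow_succ, pow_mul, hz2, one_pow, one_mul]
        have h2 : φ ⟨_, hg⟩ ^ 2 = 1 := by
          rw [← map_pow]
          have : (⟨_, hg⟩ : normalizer ((P : Subgroup G) : Set G)) ^ 2 = 1 := Subtype.ext (by
            change (g⁻¹ * z ^ (2 * j + 1) * g) ^ 2 = 1
            rw [h1, show (g⁻¹ * z * g) ^ 2 = g⁻¹ * z ^ 2 * g by rw [pow_two, pow_two]; group, hz2]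
            simp)
          rw [this, map_one]
        have h3 : φ ⟨_, hg⟩ ≠ 1 := by
          intro h
          have h4 : (⟨_, hg⟩ : normalizer ((P : Subgroup G) : Set G)) ∈
              (P : Subgroup G).normalizerMonoidHom.ker := e.map_eq_one_iff.mp h
          rw [normalizerMonoidHom_ker, mem_subgroupOf] at h4
          change g⁻¹ * z ^ (2 * j + 1) * g ∈ _ at h4
          rw [h1] at h4
          have h5 := hinvC P _ h4 (by simpa [hz] using FGS.orderOf_conj g⁻¹ z)
          apply hlt
          rw [← h5, ← Set.ncard_image_of_injective _ (MulAction.injective g⁻¹)]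
          refine Set.ncard_le_ncard ?_
          rintro _ ⟨Q, hQ, rfl⟩
          rw [Set.mem_ofPred_eq] at hQ ⊢
          rw [← mul_smul, mul_inv_cancel_right, mul_smul, hQ]
        have h4 : ∀ x : (ZMod 5)ˣ, x ^ 2 = 1 → x ≠ 1 → x = -1 := u5
        rw [h4 _ h2 h3, pow_succ, pow_mul]; simp
    have h1 : (MonoidHom.transfer φ).ker = ⊤ := hN _ inferInstance fun h => by
      rw [index_ker] at h
      have := h.trans (card_subgroup_dvd_card _)
      rw [Nat.card_eq_fintype_card, ZMod.card_units] at this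
      omega
    have h2 : MonoidHom.transfer φ z = 1 := by rw [← MonoidHom.mem_ker, h1]; trivial
    rw [ht, hNi] at h2
    exact u5' h2
  -- the 2-part
  have h2 : ¬ 2 ^ 3 ∣ Nat.card G := by
    obtain ⟨S, hS⟩ := FGS.exists_sylow_le_of_not_dvd_index (p := 2)
      (H := normalizer ((P : Subgroup G) : Set G)) (by omega)
    have hSP : ∀ g ∈ (S : Subgroup G), g • P = P := fun g hg =>
      Sylow.smul_eq_iff_mem_normalizer.mpr (hS hg)
    have := card_dvd_ncard_of_free (S : Subgroup G) ({P}ᶜ : Set (Sylow 5 G))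
      (fun g hg y hy h => hy (by
        rw [Set.mem_singleton_iff] at h ⊢
        exact MulAction.injective g (h.trans (hSP g hg).symm)))
      (fun g hg y hy h => by
        by_contra hne
        obtain ⟨k, hk⟩ := FGS.exists_orderOf_eq_of_mem S.isPGroup' hg
        obtain ⟨j, hj⟩ := exists_involution hk hne
        refine hy ((Set.ncard_le_one_iff).mp (hinv _ hj) ?_ (hSP _ (pow_mem hg j)))
        exact (MulAction.stabilizer G y).pow_mem h j)
    rw [Set.ncard_compl, hn, Set.ncard_singleton] at this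
    intro h
    have := (S.pow_dvd_card_of_pow_dvd_card h).trans this
    omega
  -- the 3-part of the centraliser
  have h3 : ¬ 3 ^ 2 ∣ Nat.card (centralizer ((P : Subgroup G) : Set G)) := by
    intro h
    obtain ⟨U, hU⟩ := Core.exists_isSylowOf 3 (centralizer ((P : Subgroup G) : Set G))
    have hU9 : 3 ^ 2 ∣ Nat.card U := by
      rw [hU.card_eq_pow]
      exact pow_dvd_pow _ ((Nat.prime_three.pow_dvd_iff_le_factorization Nat.card_pos.ne').mp h)
    have h6 : ∀ g ∈ U, g ≠ 1 → {Q : Sylow 5 G | g • Q = Q}.ncard = 6 := by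
      intro g hg hg1
      obtain ⟨k, hk⟩ := FGS.exists_orderOf_eq_of_mem hU.isPGroup hg
      obtain ⟨j, hj, hd, hm⟩ := hfix P g (hU.le hg) hg1 3 k Nat.prime_three hk
      omega
    have hUne : U ≠ ⊥ := by rintro rfl; simp at hU9
    obtain ⟨⟨g, hg⟩, hg1⟩ := ne_bot_iff_exists_ne_one.mp hUne
    let F : Set (Sylow 5 G) := {Q | ∀ g ∈ U, g • Q = Q}
    have hF : F.ncard = 6 := by
      have a1 := FGS.ncard_modEq_of_invariant hU.isPGroup (Set.univ : Set (Sylow 5 G)) (by simp)
      simp only [Set.ncard_univ, hn, Set.mem_univ, true_and] at a1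
      have a2 := FGS.ncard_modEq_one P F
        (fun u hu => Sylow.smul_eq_iff_mem_normalizer.mpr (centralizer_le_normalizer _ (hU.le hu)))
        (fun x hx Q hQ u hu => by
          rw [← mul_smul, ← mem_centralizer_iff.mp (hU.le hu) x hx, mul_smul, hQ u hu])
      have a3 : F.ncard ≤ 6 := (h6 g hg (by simpa using hg1)) ▸ Set.ncard_le_ncard fun Q hQ => hQ g hg
      change 21 ≡ F.ncard [MOD 3] at a1
      unfold Nat.ModEq at a1 a2
      omega
    have := card_dvd_ncard_of_free U Fᶜ
      (fun u hu y hy h => hy fun v hv => by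
        have := h (u * v * u⁻¹) (mul_mem (mul_mem hu hv) (inv_mem hu))
        rw [← mul_smul, inv_mul_cancel_right, mul_smul] at this
        exact MulAction.injective u this)
      (fun u hu y hy h => by
        by_contra hne
        have : F = {Q : Sylow 5 G | u • Q = Q} :=
          Set.eq_of_subset_of_ncard_le (fun Q hQ => hQ u hu) (by rw [hF, h6 u hu hne])
        exact hy (this ▸ h))
    rw [Set.ncard_compl, hn, hF] at this
    have := hU9.trans this
    omega
  have hprime : ∀ (R : Sylow 5 G) (r : ℕ), r.Prime →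
      r ∣ Nat.card (centralizer ((R : Subgroup G) : Set G)) → r = 2 ∨ r = 3 ∨ r = 5 := by
    intro R r hr hd
    have := Fact.mk hr
    obtain ⟨⟨c, hc⟩, hc'⟩ := exists_prime_orderOf_dvd_card' r hd
    have hcr : orderOf c = r ^ 1 := by simpa using hc'
    have hc1 : c ≠ 1 := by
      rintro rfl
      rw [orderOf_one, pow_one] at hcr
      exact hr.one_lt.ne hcr
    obtain ⟨j, hj, hd, -⟩ := hfix R c hc hc1 r 1 hr hcr
    have h60 : r ∣ 2 * 2 * 3 * 5 := hd.trans (by interval_cases j <;> norm_num)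
    simp only [hr.dvd_mul, Nat.prime_dvd_prime_iff_eq hr Nat.prime_two,
      Nat.prime_dvd_prime_iff_eq hr Nat.prime_three, Nat.prime_dvd_prime_iff_eq hr Nat.prime_five] at h60
    tauto
  have he := FGS.relIndex_centralizer_normalizer_dvd (P : Subgroup G)
  rw [FGS.card_mulAut_of_prime hP', show Nat.card (P : Subgroup G) = 5 from hcard P] at he
  have hG : Nat.card G = 21 * (Nat.card (centralizer ((P : Subgroup G) : Set G)) *
      (centralizer ((P : Subgroup G) : Set G)).relIndex (normalizer ((P : Subgroup G) : Set G))) := by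
    rw [Core.card_mul_relIndex (centralizer_le_normalizer _), ← hNi, index_mul_card]
  have h5 : ¬ 5 ^ 2 ∣ Nat.card G := fun h => by
    have := P.pow_dvd_card_of_pow_dvd_card h
    rw [hcard P] at this
    omega
  have hc : Nat.card (centralizer ((P : Subgroup G) : Set G)) ∣ 60 := by
    refine (Nat.dvd_iff_prime_pow_dvd_dvd _ _).mpr fun r k hr hd => ?_
    have hdG := hd.trans (card_subgroup_dvd_card _)
    rcases Nat.eq_zero_or_pos k with rfl | hk
    · simp
    rcases hprime P r hr ((dvd_pow_self r hk.ne').trans hd) with rfl | rfl | rfl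
    · exact (pow_dvd_pow 2 (show k ≤ 2 from not_lt.mp fun h => h2 ((pow_dvd_pow 2 h).trans hdG))).trans
        (by norm_num)
    · exact (pow_dvd_pow 3 (show k ≤ 1 from not_lt.mp fun h => h3 ((pow_dvd_pow 3 h).trans hd))).trans
        (by norm_num)
    · exact (pow_dvd_pow 5 (show k ≤ 1 from not_lt.mp fun h => h5 ((pow_dvd_pow 5 h).trans hdG))).trans
        (by norm_num)
  obtain ⟨m, hm, hGm⟩ : ∃ m, m ∣ 60 ∧ Nat.card G = 21 * m := by
    refine ⟨_, ?_, hG⟩
    have a1 := mul_dvd_mul hc he
    rw [hG] at h2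
    generalize Nat.card (centralizer ((P : Subgroup G) : Set G)) *
      (centralizer ((P : Subgroup G) : Set G)).relIndex (normalizer ((P : Subgroup G) : Set G)) = m
      at a1 h2
    have := Nat.le_of_dvd (by norm_num) a1
    interval_cases m <;> omega
  obtain ⟨Q⟩ : Nonempty (Sylow 7 G) := inferInstance
  have hQ7 : 7 ∣ Nat.card Q := Q.dvd_card_of_dvd_card (by omega)
  have hQ : Nat.card (Q : Subgroup G) ∣ 7 ^ 1 := FGS.card_dvd_pow_of_not_dvd Q.isPGroup' (by
    have := Nat.le_of_dvd (by norm_num) hm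
    rw [hGm]
    interval_cases m <;> omega)
  have hn5 : 5 ∣ Nat.card (Sylow 7 G) := by
    by_contra h
    rw [FGS.card_sylow_eq Q] at h
    obtain ⟨R, hR⟩ := FGS.exists_sylow_le_of_not_dvd_index h
    have := Transfer.le_centralizer_of_not_dvd_pow_sub_one (p := 7) (q := 5) (by norm_num)
      R.isPGroup' hR hQ fun i h1 h2 => by obtain rfl : i = 1 := by omega
                                          norm_num
    have := hprime R 7 (by norm_num) (hQ7.trans (card_dvd_of_le (le_centralizer_iff.mp this)))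
    omega
  have hn1 := card_sylow_modEq_one 7 G
  have hnd : Nat.card (Sylow 7 G) ∣ 180 := by
    refine Q.card_dvd_index.trans ?_
    have a1 := (Q : Subgroup G).card_mul_index
    rw [Nat.dvd_antisymm hQ hQ7, hGm] at a1
    rw [show (Q : Subgroup G).index = 3 * m by omega]
    exact mul_dvd_mul_left 3 hm
  have h15 := S4304.result (G := G)
  unfold Nat.ModEq at hn1
  generalize Nat.card (Sylow 7 G) = n at hn5 hn1 hnd h15
  have := Nat.le_of_dvd (by norm_num) hnd
  interval_cases n <;> omega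

/-- No finite group has exactly twenty-one Sylow 5-subgroups. -/
theorem result {G : Type*} [Group G] [Finite G] : Nat.card (Sylow 5 G) ≠ 21 := by
  have : Fact (Nat.Prime 5) := ⟨by norm_num⟩
  exact FGS.card_sylow_ne_of_reduced (fun G _ _ _ _ hf hN hn => main hf hN hn) G

end Cfsg.Agent.S1010
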