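import Cfsg.Statements.S1024
import Mathlib
import Cfsg.Agent.Chev.All
import Cfsg.Agent.Chev.Rel

set_option autoImplicit false
open Cfsg

namespace Cfsg.Agent.S1024
open Cfsg.Agent.Chev Matrix

/-- `x_r(0) = 1`, and `x_r(t) = 1` forces `t = 0`: the map `t ↦ x_r(t)` is injective. -/
theorem result {F : Type*} [Field F] (D : Cfsg.Lie.ChevalleyDatum) (hD : D ∈ [Cfsg.Lie.chevG2, Cfsg.Lie.chevB2, Cfsg.Lie.chevD4, Cfsg.Lie.chevF4, Cfsg.Lie.chevE6, Cfsg.Lie.chevE7, Cfsg.Lie.chevE8]) (r : ℕ) (hr : r < D.nroots) (t : F) :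
    D.x F r t = 1 ↔ t = 0 := by
  obtain ⟨g⟩ := good_of_mem hD
  lift r to Rt D using hr
  refine ⟨fun h => ?_, fun h => by rw [h, x_zero]⟩
  induction r using ind_sim generalizing t with
  | h0 i =>
    have h1 := congrFun (x_eV_ng (sim i) t) (Sum.inl i)
    rw [h, one_mulVec] at h1
    exact (by simpa [eV, hV] using h1 : (0 : F) = t).symm
  | h1 i r ih =>
    have h1 := (rfAut i).mat_mul_x r (((rfAut i).η r : F) * t)
    rw [Aut.η_mul_η_mul, rfAut_p, sw_apply, h, one_mul] at h1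
    have h2 := ih _ ((Aut.isUnit_mat (rfAut i)).mul_left_cancel (h1.trans (mul_one _).symm))
    rw [← (rfAut i).η_mul_η_mul r t, h2, mul_zero]

end Cfsg.Agent.S1024
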