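import Cfsg.Statements.S1026
import Mathlib
import Cfsg.Agent.Chev.All2
import Cfsg.Agent.Chev.Bridge

set_option autoImplicit false
open Cfsg

namespace Cfsg.Agent.S1026
open Cfsg.Agent.Chev

/-- Every element of `U` has a unique expression `∏_{r ∈ Φ⁺} x_r(t_r)`, the product over the positive roots in increasing index order (the coefficient family `t`, supported on the positive roots, exists and is unique); and conversely every such ordered product is the matrix of an element of `U`. -/
theorem result {F : Type*} [Field F] (D : Cfsg.Lie.ChevalleyDatum) (hD : D ∈ [Cfsg.Lie.chevG2, Cfsg.Lie.chevB2, Cfsg.Lie.chevD4, Cfsg.Lie.chevF4, Cfsg.Lie.chevE6, Cfsg.Lie.chevE7, Cfsg.Lie.chevE8]) :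
    (∀ g : GL D.Idx F, g ∈ D.posUnipotent F →
      ∃! t : ℕ → F, (∀ r, ¬ D.IsPosRoot r → t r = 0) ∧
        (g : Matrix D.Idx D.Idx F) = D.wordMat F (D.posRoots.map fun r => (r, t r))) ∧
    (∀ t : ℕ → F, ∃ g : GL D.Idx F, g ∈ D.posUnipotent F ∧
      (g : Matrix D.Idx D.Idx F) = D.wordMat F (D.posRoots.map fun r => (r, t r))) := by
  obtain ⟨g⟩ := good2_of_mem hD
  have key : ∀ t : ℕ → F, D.wordMat F (D.posRoots.map fun r => (r, t r)) =
      (((glSys D F).prd (posL D) fun r => t r : GL D.Idx F) : Matrix D.Idx D.Idx F) := fun t => by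
    rw [prd_val, posRoots_eq, List.map_map]; rfl
  simp only [key, posUnipotent_eq]
  refine ⟨fun a ha => ?_, fun t => ⟨_, (glSys D F).prd_mem' _ fun r => (mem_posL r).1, rfl⟩⟩
  obtain ⟨t, rfl⟩ := (glSys D F).exists_prd uni_pos posL_nodup mem_posL ha
  refine ⟨fun r => if h : D.IsPosRoot r then t ⟨r, h.1⟩ else 0, ⟨fun r h => dif_neg h, ?_⟩, ?_⟩
  · congr 1
    refine (glSys D F).prd_congr fun r hr => ?_
    have h : D.IsPosRoot r := (mem_posL r).1 hr
    simp [h]
  · rintro t' ⟨h1, h2⟩
    ext r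
    split_ifs with h
    · exact ((glSys D F).prd_inj uni_pos posL_nodup (fun r => (mem_posL r).1) (Units.ext h2)
        ⟨r, h.1⟩ ((mem_posL _).2 h)).symm
    · exact h1 r h

end Cfsg.Agent.S1026
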