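import Cfsg.Statements.S1044
import Mathlib
import Cfsg.Agent.Chev.All2
import Cfsg.Agent.Chev.Bridge
import Cfsg.Agent.Chev.Fold

set_option autoImplicit false
open Cfsg

namespace Cfsg.Agent.S1044
open Cfsg.Agent.Chev

/-- For a fundamental root `p` the set `B ∪ B n_p B` is (the carrier of) a subgroup of the general linear group. -/
theorem result {F : Type*} [Field F] (D : Cfsg.Lie.ChevalleyDatum) (hD : D ∈ [Cfsg.Lie.chevG2, Cfsg.Lie.chevB2, Cfsg.Lie.chevD4, Cfsg.Lie.chevF4, Cfsg.Lie.chevE6, Cfsg.Lie.chevE7, Cfsg.Lie.chevE8]) (i : ℕ) (hi : i < D.rank) (n : GL D.Idx F)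
    (hn : (n : Matrix D.Idx D.Idx F) = D.nMat F (D.simple i) 1) :
    ∃ P : Subgroup (GL D.Idx F), (P : Set (GL D.Idx F)) =
      (D.borelSubgroup F : Set (GL D.Idx F)) ∪ DoubleCoset.doubleCoset n (D.borelSubgroup F : Set (GL D.Idx F)) (D.borelSubgroup F) := by
  obtain ⟨g⟩ := good2_of_mem hD
  lift i to Ix D using hi
  rw [val_eq_ns_iff] at hn
  rw [borelSubgroup_eq, hn]
  refine ⟨(glSys D F).P {i}, ?_⟩
  ext y
  rw [SetLike.mem_coe, StSys.mem_P, Set.mem_union, DoubleCoset.mem_doubleCoset, SetLike.mem_coe,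
    ← StSys.mem_cell_one]
  have h := StSys.mem_cell_iff (StSys.ns_mem (glSys D F) i) (StSys.mono_ns _ i) (y := y)
  constructor
  · rintro ⟨w, hw, h1⟩
    rcases (Fold.triv D).eq_one_or (a := i) trivial hw with rfl | e
    · exact Or.inl h1
    · rw [e, show (Fold.triv D).J i = {i} from rfl, w0_singleton] at h1
      exact Or.inr (h.mp h1)
  · rintro (h1 | h1)
    · exact ⟨1, one_mem _, h1⟩
    · exact ⟨_, sW_mem_WK (Set.mem_singleton i), h.mpr h1⟩

end Cfsg.Agent.S1044
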