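import Cfsg.Statements.S1045
import Mathlib
import Cfsg.Agent.Chev.All2
import Cfsg.Agent.Chev.Bridge

set_option autoImplicit false
open Cfsg

namespace Cfsg.Agent.S1045
open Cfsg.Agent.Chev

/-- For a fundamental root `p`, the subgroup `U_p` generated by the `X_s`, `s` positive and `s ≠ p`, is normalised by `X_p` and `X_{-p}`, and `U = U_p ⊔ X_p`. -/
theorem result {F : Type*} [Field F] (D : Cfsg.Lie.ChevalleyDatum) (hD : D ∈ [Cfsg.Lie.chevG2, Cfsg.Lie.chevB2, Cfsg.Lie.chevD4, Cfsg.Lie.chevF4, Cfsg.Lie.chevE6, Cfsg.Lie.chevE7, Cfsg.Lie.chevE8]) (i : ℕ) (hi : i < D.rank) :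
    D.rootSubgroup F (D.simple i) ⊔ D.rootSubgroup F (D.neg (D.simple i)) ≤
        Subgroup.normalizer (Subgroup.closure {g : GL D.Idx F | ∃ (s : ℕ) (t : F), D.IsPosRoot s ∧ s ≠ D.simple i ∧
          (g : Matrix D.Idx D.Idx F) = D.x F s t} : Set (GL D.Idx F)) ∧
      Subgroup.closure {g : GL D.Idx F | ∃ (s : ℕ) (t : F), D.IsPosRoot s ∧ s ≠ D.simple i ∧
          (g : Matrix D.Idx D.Idx F) = D.x F s t} ⊔ D.rootSubgroup F (D.simple i) = D.posUnipotent F := by
  obtain ⟨g⟩ := good2_of_mem hD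
  lift i to Ix D using hi
  have h := closure_x_eq (D := D) (F := F) (P := fun s => D.IsPosRoot s ∧ s ≠ D.simple i)
    fun _ h => h.1.1
  have h2 : {r : Rt D | D.IsPosRoot r ∧ (r : ℕ) ≠ D.simple i} = {r | Pos r ∧ ¬ PhiK {i} r} := by
    ext r
    refine and_congr_right fun hr => ?_
    rw [phiK_singleton, ← sim_val, Fin.val_ne_iff, not_or]
    exact ⟨fun h => ⟨h, fun e => not_pos_ng_sim i (e ▸ hr)⟩, fun h => h.1⟩
  rw [h2] at h
  simp only [and_assoc] at h
  rw [h, ← sim_val, ← ng_val, rootSubgroup_eq, rootSubgroup_eq, posUnipotent_eq,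
    ← StSys.XS_union, ← StSys.XS_union]
  refine ⟨le_trans ((glSys D F).XS_le.mpr fun r hr t => StSys.x_mem_P (phiK_singleton.mpr hr) t)
    (StSys.P_le_normalizer {i}), ?_⟩
  rw [StSys.U]; congr 1; ext r
  refine ⟨fun h => h.elim (fun h => h.1) fun h => by rw [h]; exact pos_sim i, fun hr => ?_⟩
  by_cases e : r = sim i
  · exact Or.inr e
  · exact Or.inl ⟨hr, fun h => (phiK_singleton.mp h).elim e fun e => not_pos_ng_sim i (e ▸ hr)⟩

end Cfsg.Agent.S1045
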