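import Mathlib
import Cfsg.Statements.S1058
import Cfsg.Agent.ULT.B22

set_option autoImplicit false
open Cfsg

namespace Cfsg.Agent.S1058


/-- B₂(2) ≅ S₆. -/
theorem result {F : Type*} [Field F] [Fintype F] (hF : Fintype.card F = 2) :
    Nonempty (↥(Cfsg.Lie.chevB2.group F) ≃* Equiv.Perm (Fin 6)) := by
  exact let ⟨e, _⟩ := ULT.exists_B2 hF; ⟨e⟩

end Cfsg.Agent.S1058
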