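import Cfsg.Statements.S1061
import Mathlib
import Cfsg.Agent.Chev.Smith
import Cfsg.Agent.Chev.PoinD4

set_option autoImplicit false
open Cfsg

namespace Cfsg.Agent.S1061
open Cfsg.Agent.Chev Cfsg.Lie

/-- `gcd(2, q-1)² · |D₄(q)| = q¹² (q² - 1)(q⁴ - 1)(q⁴ - 1)(q⁶ - 1)`. -/
theorem result {F : Type*} [Field F] [Fintype F] {q : ℕ} (hq : Fintype.card F = q) : Nat.gcd 2 (q - 1) ^ 2 * Nat.card ↥(Cfsg.Lie.chevD4.group F) = q ^ 12 * (q ^ 2 - 1) * (q ^ 4 - 1) * (q ^ 4 - 1) * (q ^ 6 - 1) := by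
  have hq' : Nat.card F = q := by rw [Nat.card_eq_fintype_card, hq]
  have h := card_gl_grp (g := good2D4) (F := F)
  have h0 : 0 < q := hq ▸ Fintype.card_pos
  have h1 := poin_D4 q
  rw [card_ker_D4, hq'] at h
  replace h := h.trans (congrArg (fun z => (q : ℤ) ^ 12 * z) h1)
  try simp only [Nat.card_units, hq'] at h
  zify [Nat.one_le_pow 2 q h0, Nat.one_le_pow 4 q h0, Nat.one_le_pow 6 q h0] at h ⊢
  linear_combination h

end Cfsg.Agent.S1061
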