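import Cfsg.Statements.S1079
import Mathlib
import Cfsg.Agent.Chev.EmbC
import Cfsg.Agent.Chev.Smith

set_option autoImplicit false
open Cfsg

namespace Cfsg.Agent.S1079
open Cfsg.Lie Cfsg.Agent.Chev

/-- `|Z(Ḡ)| = gcd(3, q-1)` for E₆ and `gcd(2, q-1)` for E₇ over a field with `q` elements (the centre is dual to the weight lattice modulo the root lattice). -/
theorem result {K : Type*} [Field K] [Fintype K] {q : ℕ} (hq : Fintype.card K = q)
    (p : Cfsg.Lie.ChevalleyDatum × ℕ) (hp : p ∈ [(Cfsg.Lie.chevE6, 3), (Cfsg.Lie.chevE7, 2)]) :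
    Nat.card (Subgroup.center (p.1.SteinbergGroup K)) = Nat.gcd p.2 (q - 1) := by
  simp only [List.mem_cons, List.not_mem_nil, or_false] at hp
  have h : Nat.card Kˣ = q - 1 := by rw [Nat.card_units, Nat.card_eq_fintype_card, hq]
  rcases hp with rfl | rfl
  · letI := good2E6
    rw [st_R3.center_eq st_grp, Subgroup.card_map_of_injective
      ((MonoidHom.ker_eq_bot_iff _).mp (ker_st_E6 K)), card_ker_E6, h]
  · letI := good2E7
    rw [st_R3.center_eq st_grp, Subgroup.card_map_of_injective
      ((MonoidHom.ker_eq_bot_iff _).mp (ker_st_E7 K)), card_ker_E7, h]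

end Cfsg.Agent.S1079
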