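import Cfsg.Statements.S1081
import Mathlib
import Cfsg.Agent.Chev.GrCert

set_option autoImplicit false
open Cfsg

namespace Cfsg.Agent.S1081
open Cfsg.Lie Cfsg.Agent.Chev

theorem aux {F : Type*} [Field F] {D : ChevalleyDatum} [Good2 D] {σ : Sym D} {η : Rt D → ℤ}
    (h : ∃ m : Mor (chSys D F) (chSys D F) σ, IsGr m η) (l : List ℕ)
    (hl : ∀ i : Ix D, (σ.π i : ℕ) = l.getD i 0) :
    ∃ α : ↥(D.group F) ≃* ↥(D.group F), ∀ (g : ↥(D.group F)) (i : ℕ) (t : F), i < D.rank →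
      (((g : GL D.Idx F) : Matrix D.Idx D.Idx F) = D.x F (D.simple i) t →
        ((α g : GL D.Idx F) : Matrix D.Idx D.Idx F) = D.x F (D.simple (l.getD i 0)) t) ∧
      (((g : GL D.Idx F) : Matrix D.Idx D.Idx F) = D.x F (D.neg (D.simple i)) t →
        ((α g : GL D.Idx F) : Matrix D.Idx D.Idx F) = D.x F (D.neg (D.simple (l.getD i 0))) t) := by
  obtain ⟨m, hm⟩ := h
  refine ⟨m.equiv hm.surj, fun a i t hi => ?_⟩
  lift i to Ix D using hi
  rw [← hl]
  constructor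
  · intro h
    rw [(ch_val_iff (r := sim i)).mp h, Mor.equiv_apply, m.f_x, hm.φ_eq, hm.sim, σ.p_sim]
    simp [ch_x_val]
  · intro h
    rw [(ch_val_iff (r := ng (sim i))).mp h, Mor.equiv_apply, m.f_x, hm.φ_eq, hm.ng, hm.sim,
      σ.p_ng, σ.p_sim]
    simp [ch_x_val]

/-- Graph automorphisms: for E₆ with ρ = (p₁ p₆)(p₃ p₅) and for D₄ with ρ the 3-cycle on the outer nodes there is a group automorphism sending `x_p(t) ↦ x_{ρ(p)}(t)` and `x_{-p}(t) ↦ x_{-ρ(p)}(t)` for every fundamental root `p`. -/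
theorem result {F : Type*} [Field F] (p : Cfsg.Lie.ChevalleyDatum × List ℕ)
    (hp : p ∈ [(Cfsg.Lie.chevE6, [5, 1, 4, 3, 2, 0]), (Cfsg.Lie.chevD4, [2, 1, 3, 0]), (Cfsg.Lie.chevD4, [3, 1, 0, 2])]) :
    ∃ α : ↥(p.1.group F) ≃* ↥(p.1.group F), ∀ (g : ↥(p.1.group F)) (i : ℕ) (t : F), i < p.1.rank →
      (((g : GL p.1.Idx F) : Matrix p.1.Idx p.1.Idx F) = p.1.x F (p.1.simple i) t →
        ((α g : GL p.1.Idx F) : Matrix p.1.Idx p.1.Idx F) = p.1.x F (p.1.simple (p.2.getD i 0)) t) ∧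
      (((g : GL p.1.Idx F) : Matrix p.1.Idx p.1.Idx F) = p.1.x F (p.1.neg (p.1.simple i)) t →
        ((α g : GL p.1.Idx F) : Matrix p.1.Idx p.1.Idx F) = p.1.x F (p.1.neg (p.1.simple (p.2.getD i 0))) t) := by
  simp only [List.mem_cons, List.not_mem_nil, or_false] at hp
  rcases hp with rfl | rfl | rfl
  · letI := good2E6
    exact aux (exists_grE6 F) _ (by decide +kernel)
  · letI := good2D4
    exact aux (exists_grD4a F) _ (by decide +kernel)
  · letI := good2D4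
    exact aux (exists_grD4b F) _ (by decide +kernel)

end Cfsg.Agent.S1081
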