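import Cfsg.Statements.S1082
import Mathlib
import Cfsg.Agent.Chev.OrthC
import Cfsg.Agent.S1054

set_option autoImplicit false
open Cfsg

namespace Cfsg.Agent.S1082
open Cfsg.Lie Cfsg.Agent.Chev

/-- D₄(F) ≅ PΩ₈⁺(F), the commutator subgroup of the orthogonal group of `Σ xᵢ yᵢ` modulo its centre. -/
theorem result {F : Type*} [Field F] : Nonempty (↥(Cfsg.Lie.chevD4.group F) ≃* Cfsg.POmega F (Cfsg.quadFormPlus 4 F)) := by
  exact iso_D4 (Cfsg.Agent.S1054.result chevD4 (by simp)).1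

end Cfsg.Agent.S1082
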