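import Cfsg.Statements.S1094
import Mathlib
import Cfsg.Agent.Chev.PoinG2
import Cfsg.Agent.Chev.PoinB2
import Cfsg.Agent.Chev.PoinD4
import Cfsg.Agent.Chev.PoinF4
import Cfsg.Agent.Chev.PoinE6
import Cfsg.Agent.Chev.PoinE7
import Cfsg.Agent.Chev.PoinE8

set_option autoImplicit false
open Cfsg

namespace Cfsg.Agent.S1094
open Cfsg.Agent.Chev

/-- The Coxeter element `s₁ s₂ ⋯ s_l` of the Coxeter group of type B₂, G₂, D₄, F₄, E₆, E₇, E₈ has order `h = 2N/l` = 4, 6, 6, 12, 12, 18, 30. -/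
theorem result (p : (Σ n : ℕ, CoxeterMatrix (Fin n)) × ℕ)
    (hp : p ∈ [(⟨2, CoxeterMatrix.B 2⟩, 4), (⟨2, CoxeterMatrix.G₂⟩, 6), (⟨4, Cfsg.Lie.coxeterD4⟩, 6), (⟨4, CoxeterMatrix.F₄⟩, 12),
      (⟨6, CoxeterMatrix.E₆⟩, 12), (⟨7, CoxeterMatrix.E₇⟩, 18), (⟨8, CoxeterMatrix.E₈⟩, 30)]) :
    orderOf ((List.finRange p.1.1).map p.1.2.simple).prod = p.2 := by
  simp only [List.mem_cons, List.not_mem_nil, or_false] at hp
  rcases hp with rfl | rfl | rfl | rfl | rfl | rfl | rfl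
  exacts [coxElt_B2, coxElt_G2, coxElt_D4, coxElt_F4, coxElt_E6, coxElt_E7, coxElt_E8]

end Cfsg.Agent.S1094
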