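import Cfsg.Statements.S1095
import Mathlib
import Cfsg.Agent.Chev.All
import Cfsg.Agent.Chev.Rel

set_option autoImplicit false
open Cfsg

namespace Cfsg.Agent.S1095
open Cfsg.Agent.Chev

/-- `n_p` (p = p_{i+1} fundamental) is the signed monomial matrix `h_{p_j} ↦ h_{p_j} - A_{p_j,p} h_p`, `e_s ↦ η_s e_{w_p(s)}`, with `η_s = ±1`, `η_p = η_{-p} = -1`, `η_s η_{w_p(s)} = (-1)^{A_{p,s}}`, `η_s η_{-s} = 1`. -/
theorem result {F : Type*} [Field F] (D : Cfsg.Lie.ChevalleyDatum) (hD : D ∈ [Cfsg.Lie.chevG2, Cfsg.Lie.chevB2, Cfsg.Lie.chevD4, Cfsg.Lie.chevF4, Cfsg.Lie.chevE6, Cfsg.Lie.chevE7, Cfsg.Lie.chevE8]) (i : ℕ) (hi : i < D.rank) :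
    ∃ η : ℕ → ℤ, (∀ s < D.nroots, η s = 1 ∨ η s = -1) ∧ η (D.simple i) = -1 ∧ η (D.neg (D.simple i)) = -1 ∧
      (∀ s < D.nroots, η s * η (D.reflectRoot i s) = (-1) ^ (D.cartan i s).natAbs ∧ η s * η (D.neg s) = 1) ∧
      D.nMat F (D.simple i) 1 = Matrix.of (fun (row col : D.Idx) =>
        Sum.elim
          (fun j' : Fin D.rank => Sum.elim
            (fun j : Fin D.rank => (if j' = j then (1 : F) else 0) - (if (j' : ℕ) = i then ((D.cartan j (D.simple i) : ℤ) : F) else 0))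
            (fun _ => (0 : F)) col)
          (fun s' : Fin D.nroots => Sum.elim
            (fun _ => (0 : F))
            (fun s : Fin D.nroots => if (s' : ℕ) = D.reflectRoot i s then ((η s : ℤ) : F) else 0) col)
          row) := by
  obtain ⟨g⟩ := good_of_mem hD
  lift i to Ix D using hi
  refine ⟨g.cert.eta i, fun s hs => eta_cases i ⟨s, hs⟩, eta_sim i, ?_, fun s hs => ⟨?_, ?_⟩, ?_⟩
  · exact (eta_ng i (sim i)).trans (eta_sim i)
  · exact eta_mul_eta_rf i ⟨s, hs⟩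
  · have := eta_sq i ⟨s, hs⟩
    nth_rewrite 2 [← eta_ng] at this
    exact this
  · rw [← sim_val, nMat_sim]
    ext a b
    rcases a with j' | s' <;> rcases b with j | s
    · simp [Aut.mat, rfAut, Matrix.one_apply, Fin.ext_iff, ca]
    · simp [Aut.mat]
    · simp [Aut.mat]
    · simp [Aut.mat, Fin.ext_iff, eta]

end Cfsg.Agent.S1095
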