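import Cfsg.Statements.S1098
import Mathlib
import Cfsg.Agent.Chev.GrCert

set_option autoImplicit false
open Cfsg

namespace Cfsg.Agent.S1098
open Cfsg.Lie Cfsg.Agent.Chev

theorem aux {F : Type*} [Field F] {D : ChevalleyDatum} [Good2 D] {σ : Sym D} {L : ℕ}
    (h : ∃ m : Mor (chSys D F) (chSys D F) σ, (∀ r t, m.φ r t = t ^ byte L r) ∧
      ∀ r, Function.Surjective (m.φ r)) (l : List (ℕ × ℕ))
    (hl : ∀ i : Ix D, (σ.π i : ℕ) = (l.getD i (0, 1)).1 ∧ byte L (D.simple i) = (l.getD i (0, 1)).2 ∧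
      byte L (D.neg (D.simple i)) = (l.getD i (0, 1)).2) :
    ∃ α : ↥(D.group F) ≃* ↥(D.group F), ∀ (g : ↥(D.group F)) (i : ℕ) (t : F), i < D.rank →
      (((g : GL D.Idx F) : Matrix D.Idx D.Idx F) = D.x F (D.simple i) t →
        ((α g : GL D.Idx F) : Matrix D.Idx D.Idx F) =
          D.x F (D.simple (l.getD i (0, 1)).1) (t ^ (l.getD i (0, 1)).2)) ∧
      (((g : GL D.Idx F) : Matrix D.Idx D.Idx F) = D.x F (D.neg (D.simple i)) t →
        ((α g : GL D.Idx F) : Matrix D.Idx D.Idx F) =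
          D.x F (D.neg (D.simple (l.getD i (0, 1)).1)) (t ^ (l.getD i (0, 1)).2)) := by
  obtain ⟨m, hm, hs⟩ := h
  refine ⟨m.equiv hs, fun a i t hi => ?_⟩
  lift i to Ix D using hi
  rw [← (hl i).1]
  constructor
  · intro h
    rw [(ch_val_iff (r := sim i)).mp h, Mor.equiv_apply, m.f_x, hm, σ.p_sim, ← (hl i).2.1]
    rfl
  · intro h
    rw [(ch_val_iff (r := ng (sim i))).mp h, Mor.equiv_apply, m.f_x, hm, σ.p_ng, σ.p_sim,
      ← (hl i).2.2]
    rfl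

/-- Graph automorphisms in characteristic 2 (K perfect): for B₂ (a short, b long) `x_a(t) ↦ x_b(t²)`, `x_b(t) ↦ x_a(t)`, and for F₄ (p₁, p₂ short, p₃, p₄ long) `x_{p₁}(t) ↦ x_{p₄}(t²)`, `x_{p₂}(t) ↦ x_{p₃}(t²)`, `x_{p₃}(t) ↦ x_{p₂}(t)`, `x_{p₄}(t) ↦ x_{p₁}(t)`, likewise on the negatives, extend to an automorphism of the group. -/
theorem result {K : Type*} [Field K] [CharP K 2] (hperf : ∀ x : K, ∃ y : K, y ^ 2 = x)
    (p : Cfsg.Lie.ChevalleyDatum × List (ℕ × ℕ))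
    (hp : p ∈ [(Cfsg.Lie.chevB2, [(1, 2), (0, 1)]), (Cfsg.Lie.chevF4, [(3, 2), (2, 2), (1, 1), (0, 1)])]) :
    ∃ α : ↥(p.1.group K) ≃* ↥(p.1.group K), ∀ (g : ↥(p.1.group K)) (i : ℕ) (t : K), i < p.1.rank →
      (((g : GL p.1.Idx K) : Matrix p.1.Idx p.1.Idx K) = p.1.x K (p.1.simple i) t →
        ((α g : GL p.1.Idx K) : Matrix p.1.Idx p.1.Idx K) = p.1.x K (p.1.simple (p.2.getD i (0, 1)).1) (t ^ (p.2.getD i (0, 1)).2)) ∧
      (((g : GL p.1.Idx K) : Matrix p.1.Idx p.1.Idx K) = p.1.x K (p.1.neg (p.1.simple i)) t →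
        ((α g : GL p.1.Idx K) : Matrix p.1.Idx p.1.Idx K) = p.1.x K (p.1.neg (p.1.simple (p.2.getD i (0, 1)).1)) (t ^ (p.2.getD i (0, 1)).2)) := by
  simp only [List.mem_cons, List.not_mem_nil, or_false] at hp
  rcases hp with rfl | rfl
  · letI := good2B2
    exact aux (exists_excB2 K hperf) _ (by decide +kernel)
  · letI := good2F4
    exact aux (exists_excF4 K hperf) _ (by decide +kernel)

end Cfsg.Agent.S1098
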