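import Cfsg.Statements.S1099
import Mathlib
import Cfsg.Agent.S1098

set_option autoImplicit false
open Cfsg

namespace Cfsg.Agent.S1099
open Cfsg.Lie Cfsg.Agent.Chev

/-- Graph automorphism of G₂ in characteristic 3 (K perfect): `x_a(t) ↦ x_b(t³)`, `x_b(t) ↦ x_a(t)`, `x_{-a}(t) ↦ x_{-b}(t³)`, `x_{-b}(t) ↦ x_{-a}(t)` extend to an automorphism of the group. -/
theorem result {K : Type*} [Field K] [CharP K 3] (hperf : ∀ x : K, ∃ y : K, y ^ 3 = x) :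
    ∃ α : ↥(Cfsg.Lie.chevG2.group K) ≃* ↥(Cfsg.Lie.chevG2.group K), ∀ (g : ↥(Cfsg.Lie.chevG2.group K)) (t : K),
      (((g : GL Cfsg.Lie.chevG2.Idx K) : Matrix _ _ K) = Cfsg.Lie.chevG2.x K Cfsg.Lie.g2a t →
        ((α g : GL Cfsg.Lie.chevG2.Idx K) : Matrix _ _ K) = Cfsg.Lie.chevG2.x K Cfsg.Lie.g2b (t ^ 3)) ∧
      (((g : GL Cfsg.Lie.chevG2.Idx K) : Matrix _ _ K) = Cfsg.Lie.chevG2.x K Cfsg.Lie.g2b t →
        ((α g : GL Cfsg.Lie.chevG2.Idx K) : Matrix _ _ K) = Cfsg.Lie.chevG2.x K Cfsg.Lie.g2a t) ∧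
      (((g : GL Cfsg.Lie.chevG2.Idx K) : Matrix _ _ K) = Cfsg.Lie.chevG2.x K Cfsg.Lie.g2ma t →
        ((α g : GL Cfsg.Lie.chevG2.Idx K) : Matrix _ _ K) = Cfsg.Lie.chevG2.x K Cfsg.Lie.g2mb (t ^ 3)) ∧
      (((g : GL Cfsg.Lie.chevG2.Idx K) : Matrix _ _ K) = Cfsg.Lie.chevG2.x K Cfsg.Lie.g2mb t →
        ((α g : GL Cfsg.Lie.chevG2.Idx K) : Matrix _ _ K) = Cfsg.Lie.chevG2.x K Cfsg.Lie.g2ma t) := by
  letI := good2G2
  obtain ⟨α, h⟩ := S1098.aux (exists_excG2 K hperf) [(1, 3), (0, 1)] (by decide +kernel)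
  refine ⟨α, fun g t => ⟨(h g 0 t (by decide)).1, fun e => ?_, (h g 0 t (by decide)).2, fun e => ?_⟩⟩
  · exact ((h g 1 t (by decide)).1 e).trans (by rw [show ([((1:ℕ), (3:ℕ)), (0, 1)].getD 1 (0, 1)).2 = 1 from rfl, pow_one]; rfl)
  · exact ((h g 1 t (by decide)).2 e).trans (by rw [show ([((1:ℕ), (3:ℕ)), (0, 1)].getD 1 (0, 1)).2 = 1 from rfl, pow_one]; rfl)

end Cfsg.Agent.S1099
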