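import Cfsg.Statements.S1100
import Mathlib
import Cfsg.Agent.Chev.All2
import Cfsg.Agent.Chev.Bridge

set_option autoImplicit false
open Cfsg

namespace Cfsg.Agent.S1100
open Cfsg.Agent.Chev

/-- Canonical form `g = b n_w u` (`b ∈ B`, `u ∈ U_w⁻ = ⟨X_r : r > 0, n_w X_r n_w⁻¹ ≤ V⟩`): such a decomposition exists for every element of the group; the coset `n_w H` is determined by `g`; and for a fixed representative `n_w` the factors `b`, `u` are unique. -/
theorem result {F : Type*} [Field F] (D : Cfsg.Lie.ChevalleyDatum) (hD : D ∈ [Cfsg.Lie.chevG2, Cfsg.Lie.chevB2, Cfsg.Lie.chevD4, Cfsg.Lie.chevF4, Cfsg.Lie.chevE6, Cfsg.Lie.chevE7, Cfsg.Lie.chevE8]) :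
    (∀ g ∈ D.group F, ∃ b ∈ D.borelSubgroup F, ∃ n ∈ D.monomialSubgroup F,
      ∃ u ∈ Subgroup.closure {x : GL D.Idx F | ∃ (r : ℕ) (t : F), D.IsPosRoot r ∧
            (D.rootSubgroup F r).map (MulAut.conj n).toMonoidHom ≤ D.negUnipotent F ∧ (x : Matrix D.Idx D.Idx F) = D.x F r t},
        g = b * n * u) ∧
    (∀ (b b' n n' u u' : GL D.Idx F), b ∈ D.borelSubgroup F → b' ∈ D.borelSubgroup F →
      n ∈ D.monomialSubgroup F → n' ∈ D.monomialSubgroup F →
      u ∈ Subgroup.closure {x : GL D.Idx F | ∃ (r : ℕ) (t : F), D.IsPosRoot r ∧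
            (D.rootSubgroup F r).map (MulAut.conj n).toMonoidHom ≤ D.negUnipotent F ∧ (x : Matrix D.Idx D.Idx F) = D.x F r t} →
      u' ∈ Subgroup.closure {x : GL D.Idx F | ∃ (r : ℕ) (t : F), D.IsPosRoot r ∧
            (D.rootSubgroup F r).map (MulAut.conj n').toMonoidHom ≤ D.negUnipotent F ∧ (x : Matrix D.Idx D.Idx F) = D.x F r t} →
      b * n * u = b' * n' * u' → n⁻¹ * n' ∈ D.diagonalSubgroup F ∧ (n = n' → b = b' ∧ u = u')) := by
  obtain ⟨g⟩ := good2_of_mem hD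
  have key : ∀ (n : GL D.Idx F) (w : W D), (glSys D F).Mono n w →
      Subgroup.closure {x : GL D.Idx F | ∃ (r : ℕ) (t : F), D.IsPosRoot r ∧
        (D.rootSubgroup F r).map (MulAut.conj n).toMonoidHom ≤ D.negUnipotent F ∧
          (x : Matrix D.Idx D.Idx F) = D.x F r t} = (glSys D F).Uw w := by
    intro n w hm
    have h := closure_x_eq (D := D) (F := F) (P := fun r => D.IsPosRoot r ∧
      (D.rootSubgroup F r).map (MulAut.conj n).toMonoidHom ≤ D.negUnipotent F) fun _ h => h.1.1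
    simp only [and_assoc] at h
    rw [h, StSys.Uw]; congr 1; ext r
    rw [Set.mem_setOf_eq, Set.mem_setOf_eq, mem_invs, rootSubgroup_eq, negUnipotent_eq, hm.map_XS]
    refine and_congr_right fun _ => ⟨fun h => StSys.not_pos_of_x_mem_V (S := glSys D F) one_ne_zero
      (h (StSys.x_mem _ (by simp) 1)), fun h => StSys.XS_mono _ fun s hs => ?_⟩
    rw [Set.mem_setOf_eq, Set.mem_singleton_iff, inv_smul_eq_iff] at hs
    rw [hs]; exact h
  rw [borelSubgroup_eq, monomialSubgroup_eq, group_eq, diagonalSubgroup_eq]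
  refine ⟨fun y hy => ?_, fun b b' n n' u u' hb hb' hn hn' hu hu' e => ?_⟩
  · obtain ⟨w, hw⟩ := StSys.exists_cell hy
    obtain ⟨a, ha, hm⟩ := (glSys D F).exists_N w
    obtain ⟨b, hb, u, hu, e⟩ := StSys.exists_normal ha hm hw
    exact ⟨b, hb, a, ha, u, by rwa [key a w hm], e⟩
  · obtain ⟨w, hm⟩ := StSys.exists_mono hn
    obtain ⟨w', hm'⟩ := StSys.exists_mono hn'
    rw [key n w hm] at hu
    rw [key n' w' hm'] at hu'
    obtain rfl : w = w' := StSys.cell_unique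
      ⟨n, hn, hm, b, hb, u, StSys.U_le_B _ (StSys.Uw_le_U _ hu), rfl⟩
      ⟨n', hn', hm', b', hb', u', StSys.U_le_B _ (StSys.Uw_le_U _ hu'), e⟩
    refine ⟨StSys.mem_H_of_mono_eq hn hn' hm hm', ?_⟩
    rintro rfl
    exact StSys.normal_unique hm hb hb' hu hu' e

end Cfsg.Agent.S1100
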