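import Cfsg.Statements.S1105
import Mathlib
import Cfsg.Agent.Chev.TwE6

set_option autoImplicit false
open Cfsg

namespace Cfsg.Agent.S1105
open Cfsg.Lie Cfsg.Agent.Chev

/-- The normal core of `B¹ = G¹ ∩ B` in ²E₆(q) is trivial. -/
theorem result {K : Type*} [Field K] [Fintype K] {q : ℕ} (hq : IsPrimePow q) (hK : Fintype.card K = q ^ 2) :
    ((Cfsg.Lie.chevE6.borelSubgroup K ⊓ Cfsg.Lie.twistedE6 K q).subgroupOf (Cfsg.Lie.twistedE6 K q)).normalCore = ⊥ := by
  letI := good2E6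
  obtain ⟨C⟩ := exists_CE6 hq hK
  rw [borelSubgroup_eq]
  exact C.isTw.normalCore_eq_bot gl_inj C.hx

end Cfsg.Agent.S1105
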