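import Cfsg.Statements.S1116
import Mathlib
import Cfsg.Agent.Chev.TwG2

set_option autoImplicit false
open Cfsg

namespace Cfsg.Agent.S1116
open Cfsg.Lie Cfsg.Agent.Chev

/-- ²G₂(3^(2m+1)) (m ≥ 1) equals its derived subgroup. -/
theorem result {K : Type*} [Field K] [Fintype K] {m : ℕ} (hK : Fintype.card K = 3 ^ (2 * m + 1)) (hm : 1 ≤ m) : commutator ↥(Cfsg.Lie.twistedG2 K (3 ^ m)) = ⊤ := by
  obtain ⟨C⟩ := exists_CG2 hK
  exact C.perfect (hK ▸ three_pow_mod m) (hK ▸ lt_self_pow₀ (by norm_num) (by omega))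

end Cfsg.Agent.S1116
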