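import Mathlib
import Cfsg.Statements.S1119
import Cfsg.Agent.RankOne.Setup
-- import your own Cfsg.Agent.* helpers here

set_option autoImplicit false
open Cfsg

namespace Cfsg.Agent.S1119

/-- In the rank-one set-up (`G` finite and doubly transitive on `Ω`, `t` an involution moving `a`, `Q` normal in `G_a` with `G_a = Q D`, `Q ⊓ D = 1` for the two-point stabiliser `D = G_a ⊓ G_{t • a}`, `|Q|` even, `|D|` odd): `Q` acts regularly on `Ω` minus `a`; hence `|Ω| = |Q| + 1`, `|G| = |Q| |D| (|Q| + 1)`, some Sylow 2-subgroup of `G` lies in `Q`, and each `g ∉ G_a` is uniquely `x t y` with `x ∈ G_a`, `y ∈ Q` (canonical form). -/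
theorem result {G Ω : Type*} [Group G] [Finite G] [MulAction G Ω] {a : Ω} {t : G} {Q : Subgroup G}
    (hS : Cfsg.IsRankOneSetup G Ω a t Q) :
    (∀ b c : Ω, b ≠ a → c ≠ a → ∃! x : Q, (x : G) • b = c) ∧
      Nat.card Ω = Nat.card Q + 1 ∧
      Nat.card G = Nat.card Q * Nat.card ↥(MulAction.stabilizer G a ⊓ MulAction.stabilizer G (t • a)) * (Nat.card Q + 1) ∧
      (∃ P : Sylow 2 G, (P : Subgroup G) ≤ Q) ∧
      ∀ g : G, g ∉ MulAction.stabilizer G a → ∃! p : G × G, p.1 ∈ MulAction.stabilizer G a ∧ p.2 ∈ Q ∧ g = p.1 * t * p.2 := by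
  have hfin := RankOne.Setup.finite_omega hS
  have htr : MulAction.IsPretransitive G Ω := ⟨RankOne.Setup.exists_smul_eq hS⟩
  have hH : Nat.card (MulAction.stabilizer G a) =
      Nat.card Q * Nat.card ↥(MulAction.stabilizer G a ⊓ MulAction.stabilizer G (t • a)) := by
    rw [← Nat.card_prod]
    symm
    apply Nat.card_congr
    refine Equiv.ofBijective (fun p => ⟨(p.1 : G) * (p.2 : G),
      Subgroup.mul_mem _ (hS.le p.1.2) p.2.2.1⟩) ⟨?_, ?_⟩
    · rintro ⟨q, d⟩ ⟨q', d'⟩ h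
      obtain ⟨e1, e2⟩ := RankOne.Setup.qd_unique hS q.2 d.2 q'.2 d'.2 (congrArg Subtype.val h)
      exact Prod.ext (Subtype.ext e1) (Subtype.ext e2)
    · rintro ⟨h, hh⟩
      obtain ⟨q, hq, d, hd1, hd2, rfl⟩ := RankOne.Setup.exists_mul hS hh
      exact ⟨(⟨q, hq⟩, ⟨d, hd1, hd2⟩), rfl⟩
  have hG : Nat.card G = Nat.card Q *
      Nat.card ↥(MulAction.stabilizer G a ⊓ MulAction.stabilizer G (t • a)) * (Nat.card Q + 1) := by
    rw [← hH, ← RankOne.Setup.card_omega hS, ← MulAction.index_stabilizer_of_transitive G a,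
      Subgroup.card_mul_index]
  refine ⟨?_, RankOne.Setup.card_omega hS, hG, ?_, ?_⟩
  · intro b c hb hc
    obtain ⟨q, hq, h⟩ := RankOne.Setup.exists_smul_eq_of_ne hS hb hc
    refine ⟨⟨q, hq⟩, h, ?_⟩
    intro r hr
    exact Subtype.ext (RankOne.Setup.eq_of_smul_eq hS r.2 hq hb (by rw [hr, h]))
  · have : Fact (Nat.Prime 2) := ⟨Nat.prime_two⟩
    have hidx : ¬ 2 ∣ Q.index := by
      have h1 := Q.card_mul_index
      rw [hG, mul_assoc] at h1
      have h2 := Nat.eq_of_mul_eq_mul_left (Nat.card_pos) h1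
      rw [h2, ← even_iff_two_dvd, Nat.not_even_iff_odd]
      exact hS.odd_card.mul hS.even_card.add_one
    obtain ⟨P⟩ : Nonempty (Sylow 2 Q) := inferInstance
    refine ⟨(P.isPGroup'.map Q.subtype).toSylow ?_, ?_⟩
    · rw [Subgroup.index_map_subtype]
      intro h
      rcases (Nat.Prime.dvd_mul Nat.prime_two).mp h with h | h
      · exact P.not_dvd_index h
      · exact hidx h
    · exact Subgroup.map_subtype_le _
  · intro g hg
    obtain ⟨x, y, hx, hy, he⟩ := RankOne.Setup.canon_exists hS hg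
    refine ⟨(x, y), ⟨hx, hy, he⟩, ?_⟩
    rintro ⟨x', y'⟩ ⟨hx', hy', he'⟩
    obtain ⟨e1, e2⟩ := RankOne.Setup.canon_unique hS hx' hy' hx hy (he'.symm.trans he)
    exact Prod.ext e1 e2

end Cfsg.Agent.S1119
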