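import Mathlib
import Cfsg.Statements.S1124
import Cfsg.Agent.RankOne.Inverted
-- import your own Cfsg.Agent.* helpers here

set_option autoImplicit false
open scoped Pointwise
open Cfsg

namespace Cfsg.Agent.S1124

/-- Let `t` be an element of order 2 of a finite group normalising a subgroup `X` of odd order, `Y = C_X(t)` and `Z` the set of elements of `X` inverted by `t`. Then `(y, z) ↦ y z` is a bijection `Y × Z → X`, so `|X| = |Y| |Z|`, and the subgroup generated by `Z` is normal in `X`. -/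
theorem result {M : Type*} [Group M] [Finite M]
    (t : M) (ht : orderOf t = 2) (X : Subgroup M) (hodd : Odd (Nat.card X))
    (hnorm : ∀ x ∈ X, t * x * t⁻¹ ∈ X) :
    (∀ x ∈ X, ∃! p : M × M, p.1 ∈ X ⊓ Subgroup.centralizer {t} ∧ p.2 ∈ Cfsg.invertedBy X t ∧ x = p.1 * p.2) ∧
      Nat.card X = Nat.card ↥(X ⊓ Subgroup.centralizer {t}) * Nat.card (Cfsg.invertedBy X t) ∧
      ∀ x ∈ X, MulAut.conj x • Subgroup.closure (Cfsg.invertedBy X t) = Subgroup.closure (Cfsg.invertedBy X t) := by
  have htt : t * t = 1 := by rw [← pow_two, ← ht, pow_orderOf_eq_one]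
  have hc : ∀ y : M, y ∈ Subgroup.centralizer ({t} : Set M) ↔ y * t = t * y :=
    fun y => Subgroup.mem_centralizer_singleton_iff
  refine ⟨?_, ?_, ?_⟩
  · intro x hx
    obtain ⟨y, hy, hyt, z, hz, e⟩ := RankOne.exists_cent_mul_invBy htt hodd hnorm hx
    refine ⟨(y, z), ⟨⟨hy, (hc y).mpr hyt⟩, hz, e⟩, ?_⟩
    rintro ⟨y', z'⟩ ⟨hy', hz', e'⟩
    obtain ⟨h1, h2⟩ := RankOne.cent_mul_invBy_unique hodd ((hc y').mp hy'.2) hz' hyt hz (e'.symm.trans e)
    exact Prod.ext h1 h2
  · rw [← Nat.card_prod]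
    symm
    apply Nat.card_congr
    refine Equiv.ofBijective (fun p => ⟨(p.1 : M) * (p.2 : M), X.mul_mem p.1.2.1 p.2.2.1⟩) ⟨?_, ?_⟩
    · rintro ⟨y, z⟩ ⟨y', z'⟩ h
      obtain ⟨h1, h2⟩ := RankOne.cent_mul_invBy_unique hodd ((hc y).mp y.2.2) z.2 ((hc y').mp y'.2.2) z'.2
        (congrArg Subtype.val h)
      exact Prod.ext (Subtype.ext h1) (Subtype.ext h2)
    · rintro ⟨x, hx⟩
      obtain ⟨y, hy, hyt, z, hz, rfl⟩ := RankOne.exists_cent_mul_invBy htt hodd hnorm hx
      exact ⟨(⟨y, hy, (hc y).mpr hyt⟩, ⟨z, hz⟩), rfl⟩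
  · have key : ∀ x ∈ X, ∀ w ∈ Subgroup.closure (Cfsg.invertedBy X t),
        x * w * x⁻¹ ∈ Subgroup.closure (Cfsg.invertedBy X t) := by
      intro x hx w hw
      obtain ⟨y, hy, hyt, z, hz, rfl⟩ := RankOne.exists_cent_mul_invBy htt hodd hnorm hx
      have h1 : z * w * z⁻¹ ∈ Subgroup.closure (Cfsg.invertedBy X t) :=
        Subgroup.mul_mem _ (Subgroup.mul_mem _ (Subgroup.subset_closure hz) hw)
          (Subgroup.inv_mem _ (Subgroup.subset_closure hz))
      have h2 : ∀ w ∈ Subgroup.closure (Cfsg.invertedBy X t),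
          y * w * y⁻¹ ∈ Subgroup.closure (Cfsg.invertedBy X t) := by
        intro w hw
        induction hw using Subgroup.closure_induction with
        | mem k hk => exact Subgroup.subset_closure (RankOne.invBy_conj hy hyt hk)
        | one => simp
        | mul u v _ _ hu hv =>
          have : y * (u * v) * y⁻¹ = (y * u * y⁻¹) * (y * v * y⁻¹) := by group
          rw [this]; exact Subgroup.mul_mem _ hu hv
        | inv u _ hu =>
          have : y * u⁻¹ * y⁻¹ = (y * u * y⁻¹)⁻¹ := by group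
          rw [this]; exact Subgroup.inv_mem _ hu
      have := h2 _ h1
      rwa [show y * (z * w * z⁻¹) * y⁻¹ = y * z * w * (y * z)⁻¹ by group] at this
    intro x hx
    ext w
    rw [Subgroup.mem_pointwise_smul_iff_inv_smul_mem]
    constructor
    · intro h
      have := key x hx _ h
      simpa [mul_assoc] using this
    · intro h
      have := key x⁻¹ (X.inv_mem hx) _ h
      simpa [mul_assoc] using this

end Cfsg.Agent.S1124
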