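import Mathlib
import Cfsg.Statements.S1127
import Cfsg.Agent.RankOne.FixedPoints
-- import your own Cfsg.Agent.* helpers here

set_option autoImplicit false
open Cfsg

namespace Cfsg.Agent.S1127

/-- In the rank-one set-up (`G` finite and doubly transitive on `Ω`, `t` an involution moving `a`, `Q` normal in `G_a` with `G_a = Q D`, `Q ⊓ D = 1` for the two-point stabiliser `D = G_a ⊓ G_{t • a}`, `|Q|` even, `|D|` odd): if `s` is an involution of `G_a` and `r ∈ Q` satisfy `t s t = r⁻¹ t r`, then `C_D(t) = C_D(s)`; moreover `C_D(t) ⊓ C_D(K) = C_D(I ∩ G_a)`, where `K` is the set of elements of `D` inverted by `t` and `I ∩ G_a` the set of involutions of `G_a`. -/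
theorem result {G Ω : Type*} [Group G] [Finite G] [MulAction G Ω] {a : Ω} {t : G} {Q : Subgroup G}
    (hS : Cfsg.IsRankOneSetup G Ω a t Q) :
    (∀ s r : G, s ∈ Cfsg.involutionsIn (MulAction.stabilizer G a : Set G) → r ∈ Q → t * s * t = r⁻¹ * t * r →
        (MulAction.stabilizer G a ⊓ MulAction.stabilizer G (t • a)) ⊓ Subgroup.centralizer {t} = (MulAction.stabilizer G a ⊓ MulAction.stabilizer G (t • a)) ⊓ Subgroup.centralizer {s}) ∧
      (MulAction.stabilizer G a ⊓ MulAction.stabilizer G (t • a)) ⊓ Subgroup.centralizer {t} ⊓ Subgroup.centralizer (Cfsg.invertedBy (MulAction.stabilizer G a ⊓ MulAction.stabilizer G (t • a)) t) =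
        (MulAction.stabilizer G a ⊓ MulAction.stabilizer G (t • a)) ⊓ Subgroup.centralizer (Cfsg.involutionsIn (MulAction.stabilizer G a : Set G)) := by
  have hc : ∀ y u : G, y ∈ Subgroup.centralizer ({u} : Set G) ↔ y * u = u * y :=
    fun y u => Subgroup.mem_centralizer_singleton_iff
  refine ⟨?_, ?_⟩
  · intro s r hs hr e
    ext d
    constructor
    · rintro ⟨hd, hdt⟩
      exact ⟨hd, (hc _ _).mpr (RankOne.Setup.V_comm_s hS hs hr e hd ((hc _ _).mp hdt))⟩
    · rintro ⟨hd, hds⟩
      exact ⟨hd, (hc _ _).mpr (RankOne.Setup.comm_t_of_comm_s hS hs hr e hd ((hc _ _).mp hds))⟩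
  · obtain ⟨s, hs, r, hr, e⟩ := RankOne.Setup.exists_structure hS
    ext d
    constructor
    · rintro ⟨⟨hd, hdt⟩, hdK⟩
      refine ⟨hd, Subgroup.mem_centralizer_iff.mpr ?_⟩
      intro s' hs'
      obtain ⟨k, hk, rfl⟩ := RankOne.Setup.K_trans hS hs hs'
      have h1 := RankOne.Setup.V_comm_s hS hs hr e hd ((hc _ _).mp hdt)
      have h2 := Subgroup.mem_centralizer_iff.mp hdK k hk
      calc k⁻¹ * s * k * d = k⁻¹ * s * (k * d) := by group
        _ = k⁻¹ * (s * d) * k := by rw [h2]; group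
        _ = k⁻¹ * (d * k) * (k⁻¹ * s * k) := by rw [← h1]; group
        _ = _ := by rw [← h2]; group
    · rintro ⟨hd, hdI⟩
      have hdI' := Subgroup.mem_centralizer_iff.mp hdI
      have hdt := RankOne.Setup.comm_t_of_comm_s hS hs hr e hd (hdI' s hs).symm
      refine ⟨⟨hd, (hc _ _).mpr hdt⟩, Subgroup.mem_centralizer_iff.mpr ?_⟩
      intro k hk
      have hk' := RankOne.invBy_conj hd hdt hk
      have hsk : k⁻¹ * s * k ∈ Cfsg.involutionsIn (MulAction.stabilizer G a : Set G) := by
        refine ⟨(MulAction.stabilizer G a).mul_mem ((MulAction.stabilizer G a).mul_mem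
          ((MulAction.stabilizer G a).inv_mem hk.1.1) hs.1) hk.1.1, ?_, ?_⟩
        · intro h; apply hs.2.1
          calc s = k * (k⁻¹ * s * k) * k⁻¹ := by group
            _ = 1 := by rw [h]; group
        · calc k⁻¹ * s * k * (k⁻¹ * s * k) = k⁻¹ * (s * s) * k := by group
            _ = 1 := by rw [hs.2.2]; group
      have h1 := RankOne.Setup.K_conj_inj hS hs.2.1 hs.2.2 hs.1 hk' hk (by
        calc (d * k * d⁻¹)⁻¹ * s * (d * k * d⁻¹) = d * k⁻¹ * d⁻¹ * (s * d) * k * d⁻¹ := by group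
          _ = (d * (k⁻¹ * s * k)) * d⁻¹ := by rw [hdI' s hs]; group
          _ = _ := by rw [← hdI' _ hsk]; group)
      exact (mul_inv_eq_iff_eq_mul.mp h1).symm

end Cfsg.Agent.S1127
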