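import Mathlib
import Cfsg.Statements.S1140
import Cfsg.Agent.RankOne.FieldQuad
-- import your own Cfsg.Agent.* helpers here

set_option autoImplicit false
open Cfsg

namespace Cfsg.Agent.S1140

/-- For a finite field `F` of characteristic 2, the automorphisms of `F`, viewed as additive maps `F → F`, are linearly independent over `F` (acting on values) every additive endomorphism of `F` is an `F`-linear combination of them, and every biadditive map `F → F → F` is an `F`-combination of the maps `(x, y) ↦ σ(x) τ(y)`. -/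
theorem result {F : Type*} [Field F] [Fintype F] [CharP F 2] :
    LinearIndependent F (fun σ : F ≃+* F => ((σ : F →+* F) : F → F)) ∧
      (∀ f : F →+ F, ∃ (s : Finset (F ≃+* F)) (c : (F ≃+* F) → F), ∀ x : F, f x = ∑ σ ∈ s, c σ * σ x) ∧
      ∀ B : F →+ F →+ F, ∃ (s : Finset ((F ≃+* F) × (F ≃+* F))) (c : (F ≃+* F) × (F ≃+* F) → F),
        ∀ x y : F, B x y = ∑ p ∈ s, c p * (p.1 x * p.2 y) := by
  classical
  let e : (F →+* F) → (F ≃+* F) := fun σ =>
    RingEquiv.ofBijective σ ⟨σ.injective, σ.injective.surjective_of_finite (Equiv.refl F)⟩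
  have he : Function.Injective e := fun σ τ h => RingHom.ext fun x => DFunLike.congr_fun h x
  refine ⟨RankOne.FQ.linInd.comp (fun σ : F ≃+* F => (σ : F →+* F))
    (fun _ _ h => RingEquiv.ext fun x => DFunLike.congr_fun h x), fun f => ?_, fun B => ?_⟩
  · obtain ⟨c, hc⟩ := RankOne.FQ.span₁ f
    refine ⟨Finset.univ.image e, fun σ => c σ, fun x => ?_⟩
    rw [hc, Finset.sum_image fun _ _ _ _ h => he h]
    rfl
  · obtain ⟨c, hc⟩ := RankOne.FQ.span₂ B
    refine ⟨Finset.univ.image (Prod.map e e), fun p => c (p.1, p.2), fun x y => ?_⟩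
    rw [hc, Finset.sum_image fun _ _ _ _ h => (he.prodMap he) h]
    rfl

end Cfsg.Agent.S1140
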