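import Mathlib
import Cfsg.Statements.S1151
import Cfsg.Agent.Ree.Lie3
import Cfsg.Agent.Ree.Easy
-- import your own Cfsg.Agent.* helpers here

set_option autoImplicit false
open Cfsg

namespace Cfsg.Agent.S1151

/-- In the small Ree group ²G₂(q), q = 3^(2m+1), realised as G¹ inside the Chevalley group G₂ over the field with q elements (θ the 3^m-th power map), with H¹ = G¹ ∩ H and U¹ = G¹ ∩ U the intersections with the ambient diagonal and positive unipotent subgroups: `H¹` has exactly `(q - 1)/2` elements of odd order, and each non-identity one centralises no non-identity element of `U¹`. -/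
theorem result {K : Type*} [Field K] [Fintype K] {m : ℕ} (hK : Fintype.card K = 3 ^ (2 * m + 1)) :
    2 * Nat.card {h : ↥(Cfsg.Lie.chevG2.diagonalSubgroup K ⊓ Cfsg.Lie.twistedG2 K (3 ^ m)) // Odd (orderOf h)} = 3 ^ (2 * m + 1) - 1 ∧
      ∀ h ∈ (Cfsg.Lie.chevG2.diagonalSubgroup K ⊓ Cfsg.Lie.twistedG2 K (3 ^ m)), h ≠ 1 → Odd (orderOf h) →
        (Cfsg.Lie.chevG2.posUnipotent K ⊓ Cfsg.Lie.twistedG2 K (3 ^ m)) ⊓ Subgroup.centralizer {h} = ⊥ := by
  obtain ⟨Z, hU, hH⟩ := Ree.exists_model hK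
  constructor
  · let f : Kˣ →* ↥(Cfsg.Lie.chevG2.diagonalSubgroup K ⊓ Cfsg.Lie.twistedG2 K (3 ^ m)) :=
      ((Cfsg.Lie.twistedG2 K (3 ^ m)).subtype.comp Z.M).codRestrict _
      fun κ => ⟨(hH _).mpr ⟨κ, rfl⟩, (Z.M κ).2⟩
    have hf : ∀ κ, (f κ).1 = (Z.M κ).1 := fun _ => rfl
    let e := MulEquiv.ofBijective f ⟨fun κ l h =>
        Z.M_inj (Subtype.ext (by rw [← hf, ← hf, h])), by
          rintro ⟨g, h1, h2⟩
          obtain ⟨κ, h⟩ := (hH ⟨g, h2⟩).mp h1
          exact ⟨κ, Subtype.ext (congrArg Subtype.val h).symm⟩⟩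
    have h := Z.q_mod
    rw [← Nat.card_congr (e.toEquiv.subtypeEquiv (p := fun κ => κ ^ (Fintype.card K / 2) = 1) fun κ => by
      rw [← Z.odd_orderOf_iff, ← e.orderOf_eq]; rfl), Chev.card_units_pow_eq_one ⟨2, by omega⟩, ← hK]
    omega
  · rintro h ⟨h1, h2⟩ h3 h4
    obtain ⟨κ, e⟩ := (hH ⟨h, h2⟩).mp h1
    obtain rfl : h = Z.M κ := congrArg Subtype.val e
    rw [Subgroup.orderOf_coe, Z.orderOf_M] at h4
    rw [eq_bot_iff]
    rintro u ⟨⟨h5, h6⟩, h7⟩
    exact congrArg Subtype.val (Z.one_of_comm_M (by rintro rfl; simp at h3) (Z.ne_neg_one_of_odd h4)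
      ((hU ⟨u, h6⟩).mp h5) (Subtype.ext (Subgroup.mem_centralizer_singleton_iff.mp h7).symm))

end Cfsg.Agent.S1151
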