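import Mathlib
import Cfsg.Statements.S1168
import Cfsg.Agent.RankOne.FieldQuad
-- import your own Cfsg.Agent.* helpers here

set_option autoImplicit false
open Cfsg

namespace Cfsg.Agent.S1168

/-- For a finite field `F` of characteristic 2: if `q : F → F` is quadratic over the prime field, i.e. `(x, y) ↦ q (x + y) + q x + q y` is additive in each variable, then `q x = Σ c_{σ,τ} σ(x) τ(x)` for some coefficients indexed by pairs of field automorphisms. -/
theorem result {F : Type*} [Field F] [Fintype F] [CharP F 2]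
    (q : F → F)
    (hq : ∀ x y z : F, q (x + y + z) + q (x + y) + q (x + z) + q (y + z) + q x + q y + q z = 0) :
    ∃ (s : Finset ((F ≃+* F) × (F ≃+* F))) (c : (F ≃+* F) × (F ≃+* F) → F),
      ∀ x : F, q x = ∑ p ∈ s, c p * (p.1 x * p.2 x) := by
  classical
  have two : (2 : F) = 0 := CharTwo.two_eq_zero
  have h0 : q 0 = 0 := by
    have := hq 0 0 0
    simp only [add_zero] at this
    linear_combination this - 3 * q 0 * two
  let B : F →+ F →+ F := AddMonoidHom.mk' (fun x => AddMonoidHom.mk' (fun y => q (x + y) + q x + q y) (fun y z => by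
      have := hq x y z
      rw [← add_assoc x y z]
      linear_combination this - (q (x + y) + q (x + z) + q x + q y + q z) * two)) (fun x y => by
      ext z
      have := hq z x y
      simp only [AddMonoidHom.mk'_apply, AddMonoidHom.add_apply]
      rw [show z + x + y = x + y + z by ring, add_comm z x, add_comm z y] at this
      linear_combination this - (q (x + z) + q (y + z) + q x + q y + q z) * two)
  have hB : ∀ x y, B x y = q (x + y) + q x + q y := fun _ _ => rfl
  obtain ⟨c, hc⟩ := RankOne.FQ.span₂ B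
  have hsym : ∀ p : (F →+* F) × (F →+* F), c p.swap = c p := fun p => by
    refine sub_eq_zero.mp (congrFun (RankOne.FQ.dedekind₂ (fun p => c p.swap - c p) fun x y => ?_) p)
    simp only [sub_mul, Finset.sum_sub_distrib, ← hc]
    rw [sub_eq_zero, hB, add_comm x y, add_right_comm, ← hB, hc]
    exact Fintype.sum_equiv (Equiv.prodComm _ _) _ _ fun p => by simp [mul_comm]
  let idx := Fintype.equivFin (F →+* F)
  let c' : (F →+* F) × (F →+* F) → F := fun p => if idx p.1 < idx p.2 then c p else 0
  let c₀ : (F →+* F) × (F →+* F) → F := fun p => if p.1 = p.2 then c p else 0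
  have hc' : ∀ p, c p = c' p + c' p.swap + c₀ p := fun p => by
    simp only [c', c₀, Prod.fst_swap, Prod.snd_swap, hsym]
    rcases lt_trichotomy (idx p.1) (idx p.2) with h | h | h
    · rw [if_pos h, if_neg h.not_gt, if_neg fun e => h.ne (by rw [e])]; ring
    · rw [if_neg h.not_lt, if_neg h.not_gt, if_pos (idx.injective h)]; ring
    · rw [if_neg h.not_gt, if_pos h, if_neg fun e => h.ne (by rw [e])]; ring
  have hsw : ∀ x y, ∑ p : (F →+* F) × (F →+* F), c' p.swap * (p.1 x * p.2 y) = ∑ p, c' p * (p.1 y * p.2 x) :=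
    fun x y => Fintype.sum_equiv (Equiv.prodComm _ _) _ _ fun p => by simp [mul_comm]
  have hc0 : ∀ x y, ∑ p : (F →+* F) × (F →+* F), c₀ p * (p.1 x * p.2 y) = 0 := fun x y => by
    have h1 : ∀ x y, ∑ p : (F →+* F) × (F →+* F), c₀ p * (p.1 x * p.2 y) = ∑ σ, c (σ, σ) * σ (x * y) :=
      fun x y => by
        rw [Fintype.sum_prod_type]
        refine Finset.sum_congr rfl fun σ _ => ?_
        rw [Finset.sum_eq_single σ (fun τ _ h => by simp [c₀, h.symm]) (by simp)]
        simp [c₀]
    obtain ⟨z, hz⟩ := (frobenius F 2).injective.surjective_of_finite (Equiv.refl F) (x * y)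
    rw [frobenius_def, sq] at hz
    rw [h1, ← hz, ← h1]
    have e := hc z z
    rw [hB, CharTwo.add_self_eq_zero, h0] at e
    simp only [hc', add_mul, Finset.sum_add_distrib, hsw] at e
    linear_combination -e + (q z - ∑ p, c' p * (p.1 z * p.2 z)) * two
  let f : F →+ F := AddMonoidHom.mk' (fun x => q x + ∑ p, c' p * (p.1 x * p.2 x)) (fun x y => by
    have e := hc x y
    rw [hB] at e
    simp only [hc', add_mul, Finset.sum_add_distrib, hsw, hc0] at e
    have e2 : ∑ p, c' p * (p.1 (x + y) * p.2 (x + y)) = ∑ p, c' p * (p.1 x * p.2 x) + ∑ p, c' p * (p.1 x * p.2 y) +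
        ∑ p, c' p * (p.1 y * p.2 x) + ∑ p, c' p * (p.1 y * p.2 y) := by
      simp only [← Finset.sum_add_distrib, map_add]
      exact Finset.sum_congr rfl fun p _ => by ring
    rw [e2]
    linear_combination e + (∑ p, c' p * (p.1 x * p.2 y) + ∑ p, c' p * (p.1 y * p.2 x) - q x - q y) * two)
  obtain ⟨d, hd⟩ := RankOne.FQ.span₁ (f.comp (frobenius F 2 : F →+ F))
  obtain ⟨r, hr⟩ : ∃ r : F →+* F, ∀ x, r x * r x = x :=
    ⟨(frobeniusEquiv F 2).symm, fun x => by
      have := (frobeniusEquiv F 2).apply_symm_apply x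
      rwa [frobeniusEquiv_def, sq] at this⟩
  obtain ⟨d', hd'⟩ := RankOne.FQ.span₁ f
  let e : (F →+* F) → (F ≃+* F) := fun σ =>
    RingEquiv.ofBijective σ ⟨σ.injective, σ.injective.surjective_of_finite (Equiv.refl F)⟩
  have he : Function.Injective e := fun σ τ h => RingHom.ext fun x => DFunLike.congr_fun h x
  let c₁ : (F →+* F) × (F →+* F) → F := fun p => if p.1 = p.2 then d' (p.1.comp (frobenius F 2)) else 0
  refine ⟨Finset.univ.image (Prod.map e e), fun p => c' (p.1, p.2) + c₁ (p.1, p.2), fun x => ?_⟩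
  rw [Finset.sum_image fun _ _ _ _ h => (he.prodMap he) h]
  change q x = ∑ p : (F →+* F) × (F →+* F), (c' p + c₁ p) * (p.1 x * p.2 x)
  have e1 : ∑ p : (F →+* F) × (F →+* F), c₁ p * (p.1 x * p.2 x) = f x := by
    rw [hd', Fintype.sum_prod_type]
    let E : (F →+* F) ≃ (F →+* F) := Equiv.ofBijective (fun σ => σ.comp (frobenius F 2))
      ((Finite.injective_iff_bijective).mp fun σ τ h => RingHom.ext fun y => by
        have := DFunLike.congr_fun h (r y)
        simpa [frobenius_def, sq, ← map_mul, hr] using this)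
    refine Fintype.sum_equiv E _ _ fun σ => ?_
    rw [Finset.sum_eq_single σ (fun τ _ h => by simp [c₁, h.symm]) (by simp)]
    simp [c₁, E, frobenius_def, sq]
  simp only [add_mul, Finset.sum_add_distrib, e1]
  change q x = _ + (q x + ∑ p, c' p * (p.1 x * p.2 x))
  linear_combination -(∑ p, c' p * (p.1 x * p.2 x)) * two

end Cfsg.Agent.S1168
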