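import Mathlib
import Cfsg.Statements.S1176
import Cfsg.Agent.Inv.Isolated

set_option autoImplicit false
open Cfsg

namespace Cfsg.Agent.S1176

open scoped commutatorElement

/-- Let x₀ be an involution of the finite group G and D its conjugacy class. Assume (a) for each x ∈ D the subgroup W(x) generated by the members of D commuting with x is a 2-group of nilpotency class at most 2, and (b) the product of two distinct commuting members of D again lies in D. Then for all x, y ∈ D, if xy has even order greater than 2, its order is 4. -/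
theorem result {G : Type*} [Group G] [Finite G] (x₀ : G) (hx₀ : orderOf x₀ = 2) (ha : ∀ x : G, IsConj x₀ x → IsPGroup 2 ↥(Subgroup.closure {y : G | IsConj x₀ y ∧ Commute y x}) ∧ ⁅⁅Subgroup.closure {y : G | IsConj x₀ y ∧ Commute y x}, Subgroup.closure {y : G | IsConj x₀ y ∧ Commute y x}⁆, Subgroup.closure {y : G | IsConj x₀ y ∧ Commute y x}⁆ = ⊥) (hb : ∀ x y : G, IsConj x₀ x → IsConj x₀ y → x ≠ y → Commute x y → IsConj x₀ (x * y)) (x y : G) (hx : IsConj x₀ x) (hy : IsConj x₀ y) (heven : Even (orderOf (x * y))) (hgt : 2 < orderOf (x * y)) : orderOf (x * y) = 4 := by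
  have hx2 : orderOf x = 2 := (Inv.orderOf_of_isConj hx) ▸ hx₀
  have hy2 : orderOf y = 2 := (Inv.orderOf_of_isConj hy) ▸ hx₀
  have hxx := Inv.mul_self_of_two hx2
  have hyy := Inv.mul_self_of_two hy2
  obtain ⟨hz2, hzx, hzy⟩ := Inv.half_power hxx hyy heven
  set z := (x * y) ^ (orderOf (x * y) / 2) with hz
  have hD : IsConj x₀ (z * x) := by
    have := Inv.zpow_mul_conj hxx hyy ((orderOf (x * y) / 2 : ℕ) : ℤ)
    rw [zpow_natCast] at this
    rcases this with ⟨-, d, -, hd⟩ | ⟨-, d, -, hd⟩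
    · exact hx.trans (hz ▸ hd ▸ Inv.isConj_conj d x)
    · exact hy.trans (hz ▸ hd ▸ Inv.isConj_conj d y)
  have hzD : IsConj x₀ z := by
    have := hb (z * x) x hD hx (fun h => Inv.ne_one_of_two hz2 (by simpa using h))
      (hzx.mul_left (Commute.refl x))
    rwa [mul_assoc, hxx, mul_one] at this
  obtain ⟨-, h3⟩ := ha z hzD
  set W := Subgroup.closure {y : G | IsConj x₀ y ∧ Commute y z}
  have hxW : x ∈ W := Subgroup.subset_closure ⟨hx, hzx.symm⟩
  have hyW : y ∈ W := Subgroup.subset_closure ⟨hy, hzy.symm⟩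
  have h4 : ⁅⁅x, y⁆, x⁆ = 1 := by
    have : ⁅⁅x, y⁆, x⁆ ∈ ⁅⁅W, W⁆, W⁆ :=
      Subgroup.commutator_mem_commutator (Subgroup.commutator_mem_commutator hxW hyW) hxW
    rwa [h3, Subgroup.mem_bot] at this
  have h5 : ⁅x, y⁆ = (x * y) ^ 2 := by
    rw [commutatorElement_def, Inv.inv_eq_of_two hx2, Inv.inv_eq_of_two hy2, sq]; group
  have h6 := Inv.conj_pow_of_inverts (Inv.inverts_mul_left hxx hyy) 2
  rw [commutatorElement_eq_one_iff_commute, h5] at h4
  rw [Inv.commute_iff_conj.1 h4.symm] at h6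
  have h7 : (x * y) ^ 4 = 1 := by
    rw [show 4 = 2 + 2 by rfl, pow_add]
    exact mul_eq_one_iff_eq_inv.2 h6
  have h8 := orderOf_dvd_of_pow_eq_one h7
  have h9 := Nat.le_of_dvd (by norm_num) h8
  interval_cases h : orderOf (x * y)
  · omega
  · rfl

end Cfsg.Agent.S1176
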