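import Mathlib
import Cfsg.Statements.S1177
import Cfsg.Agent.Inv.Isolated
import Cfsg.Agent.LocalEven.SylowIn

set_option autoImplicit false
open Cfsg

namespace Cfsg.Agent.S1177

open LocalEven Subgroup in
theorem aux {G : Type*} [Group G] [Finite G] (A : Subgroup G) (hA : Cfsg.IsElementaryAbelian 2 A)
    (hTI : ∀ g : G, cj g A ⊓ A = ⊥ ∨ cj g A = A)
    (hb : ∀ g : G, (∀ a ∈ A, ∀ b ∈ cj g A, a * b = b * a) → cj g A = A) (a : G) (ha : a ∈ A)
    (ha1 : a ≠ 1) (g : G) (hg : cj g A ≤ Subgroup.centralizer ({a} : Set G)) : cj g A = A := by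
  have : Fact (Nat.Prime 2) := ⟨Nat.prime_two⟩
  set B := cj g A with hB
  by_contra hne
  have hBA : B ⊓ A = ⊥ := (hTI g).resolve_right hne
  have hA2 : IsPGroup 2 A := isPGroup_iff_mem.2 fun x hx => ⟨1, by simpa using hA.2 x hx⟩
  have hB2 : IsPGroup 2 B := isPGroup_cj g hA2
  have hBN : B ≤ normalizer (A : Set G) := by
    intro b hb'
    rw [← cj_eq_self_iff]
    refine (hTI b).resolve_left fun h => ha1 ?_
    have h1 := Inv.commute_iff_conj.1 (Inv.mem_centralizer_single.1 (hg hb'))
    have : a ∈ cj b A ⊓ A := ⟨h1 ▸ conj_mem_cj ha, ha⟩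
    rwa [h, mem_bot] at this
  have hb' : ∀ h : G, cj h B ≤ centralizer (B : Set G) → cj h B = B := by
    intro h hh
    have := hb (g⁻¹ * h * g) (fun x hx y hy => by
      have h1 : g * y * g⁻¹ ∈ cj h B := by
        rw [hB, cj_cj]
        have := conj_mem_cj (g := g) hy
        rwa [cj_cj, show g * (g⁻¹ * h * g) = h * g by group] at this
      have h2 := hh h1 (g * x * g⁻¹) (conj_mem_cj hx)
      calc x * y = g⁻¹ * ((g * x * g⁻¹) * (g * y * g⁻¹)) * g := by group
        _ = _ := by rw [h2]; group)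
    rw [hB, cj_cj]
    calc cj (h * g) A = cj g (cj (g⁻¹ * h * g) A) := by rw [cj_cj]; congr 1; group
      _ = _ := by rw [this]
  have hP : IsPGroup 2 (B ⊔ A : Subgroup G) := isPGroup_sup hB2 hA2 hBN
  have hBc : B ≤ centralizer (B : Set G) := by
    have := isMulCommutative_cj g hA.1
    exact Subgroup.le_centralizer B
  have key : (B ⊔ A) ⊓ centralizer (B : Set G) = B ⊔ A := by
    by_contra h
    obtain ⟨x, hx, hxn, hxE⟩ := exists_mem_normalizer_of_lt hP (lt_of_le_of_ne inf_le_left h)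
    have h1 : cj x B = B := hb' x ((cj_le_of_mem_normalizer hxn (le_inf le_sup_left hBc)).trans
      inf_le_right)
    obtain ⟨b, hb1, a', ha', rfl⟩ := (mem_sup_iff_of_le_normalizer hBN).1 hx
    have h2 : a' ∈ normalizer (B : Set G) := by
      have := mul_mem (inv_mem (le_normalizer hb1)) (cj_eq_self_iff.1 h1)
      simpa using this
    refine hxE ⟨hx, mul_mem (hBc hb1) fun c hc => ?_⟩
    have h3 : a' * c * a'⁻¹ * c⁻¹ ∈ B ⊓ A := by
      refine ⟨mul_mem (conj_mem_of_mem_normalizer h2 hc) (B.inv_mem hc), ?_⟩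
      have := mul_mem ha' (conj_mem_of_mem_normalizer (hBN hc) (inv_mem ha'))
      simpa [mul_assoc] using this
    rw [hBA, mem_bot] at h3
    calc c * a' = (a' * c * a'⁻¹ * c⁻¹) * c * a' := by rw [h3, one_mul]
      _ = _ := by group
  refine hne (hb g fun x hx y hy => ?_)
  have : x ∈ (B ⊔ A) ⊓ centralizer (B : Set G) := key.symm ▸ mem_sup_right hx
  exact (this.2 y hy).symm

/-- Let A be a nontrivial elementary abelian 2-subgroup of a finite group G which is a T.I. set (each conjugate of A meets A trivially or equals A) and which does not commute elementwise with any conjugate of A other than A itself. Then for every a ∈ A, a ≠ 1, every conjugate of A contained in C_G(a) is equal to A (A is weakly closed in C_G(a)). -/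
theorem result {G : Type*} [Group G] [Finite G] (A : Subgroup G) (hA : Cfsg.IsElementaryAbelian 2 A) (hA1 : A ≠ ⊥) (hTI : ∀ g : G, A.map (MulAut.conj g).toMonoidHom ⊓ A = ⊥ ∨ A.map (MulAut.conj g).toMonoidHom = A) (hb : ∀ g : G, (∀ a ∈ A, ∀ b ∈ A.map (MulAut.conj g).toMonoidHom, a * b = b * a) → A.map (MulAut.conj g).toMonoidHom = A) (a : G) (ha : a ∈ A) (ha1 : a ≠ 1) (g : G) (hg : A.map (MulAut.conj g).toMonoidHom ≤ Subgroup.centralizer ({a} : Set G)) : A.map (MulAut.conj g).toMonoidHom = A := by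
  exact aux A hA hTI hb a ha ha1 g hg

end Cfsg.Agent.S1177
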