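import Mathlib
import Cfsg.Statements.S1181
import Cfsg.Agent.Inv.Isolated

set_option autoImplicit false
open Cfsg

namespace Cfsg.Agent.S1181

/-- Let z be an isolated involution of the finite group G and N a normal subgroup with z ∉ N. Then the centralizer of zN in G/N is the image of C_G(z), and zN is an isolated involution of G/N. -/
theorem result {G : Type*} [Group G] [Finite G] (z : G) (hz : Cfsg.IsIsolatedInvolution z) (N : Subgroup G) [N.Normal] (hzN : z ∉ N) : Subgroup.centralizer ({(QuotientGroup.mk z : G ⧸ N)} : Set (G ⧸ N)) = (Subgroup.centralizer ({z} : Set G)).map (QuotientGroup.mk' N) ∧ Cfsg.IsIsolatedInvolution (QuotientGroup.mk z : G ⧸ N) := by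
  have hz2 := Inv.mul_self_of_two hz.1
  constructor
  · ext x
    obtain ⟨g, rfl⟩ := QuotientGroup.mk_surjective x
    rw [Inv.mem_centralizer_single]
    constructor
    · intro hc
      obtain ⟨d, hd, h⟩ := Inv.isolated_exists_conj hz (Inv.isConj_conj g z)
      have hn : z * (g * z * g⁻¹) ∈ N := by
        rw [← QuotientGroup.eq_one_iff]
        simp only [QuotientGroup.mk_mul, QuotientGroup.mk_inv]
        rw [Inv.commute_iff_conj.1 hc, ← QuotientGroup.mk_mul, hz2, QuotientGroup.mk_one]
      have hdN : d ∈ N := (Subgroup.zpowers_le.2 hn) hd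
      refine ⟨d⁻¹ * g, ?_, ?_⟩
      · rw [SetLike.mem_coe, Inv.mem_centralizer_single, Inv.commute_iff_conj]
        calc d⁻¹ * g * z * (d⁻¹ * g)⁻¹ = d⁻¹ * (g * z * g⁻¹) * d := by group
          _ = z := by rw [← h]; group
      · simp [(QuotientGroup.eq_one_iff d).2 hdN]
    · rintro ⟨c, hc, hcg⟩
      rw [← hcg]
      exact (Inv.mem_centralizer_single.1 hc).map (QuotientGroup.mk' N)
  · refine Inv.isolated_of_odd (Inv.two_of_mul_self ?_ ?_) ?_
    · rwa [Ne, QuotientGroup.eq_one_iff]
    · rw [← QuotientGroup.mk_mul, hz2, QuotientGroup.mk_one]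
    · intro x
      obtain ⟨g, rfl⟩ := QuotientGroup.mk_surjective x
      exact (Inv.isolated_odd hz (Inv.isConj_conj g z)).of_dvd_nat
        (orderOf_map_dvd (QuotientGroup.mk' N) _)

end Cfsg.Agent.S1181
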