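import Mathlib
import Cfsg.Statements.S1182
import Cfsg.Agent.Inv.Isolated

set_option autoImplicit false
open Cfsg

namespace Cfsg.Agent.S1182

/-- Let z be an isolated involution of the finite group G and H a subgroup normalized by z. If x, y ∈ H both commute with z and y = h x h⁻¹ for some h ∈ H, then y = c x c⁻¹ for some c ∈ H commuting with z. -/
theorem result {G : Type*} [Group G] [Finite G] (z : G) (hz : Cfsg.IsIsolatedInvolution z) (H : Subgroup G) (hzH : z ∈ Subgroup.normalizer (H : Set G)) (x y : G) (hx : x ∈ H) (hy : y ∈ H) (hxz : Commute x z) (hyz : Commute y z) (h : G) (hh : h ∈ H) (hconj : h * x * h⁻¹ = y) : ∃ c ∈ H, Commute c z ∧ c * x * c⁻¹ = y := by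
  obtain ⟨d, hd, hdz⟩ := Inv.isolated_exists_conj hz (Inv.isConj_conj h⁻¹ z)
  rw [inv_inv] at hd hdz
  have hH : z * (h⁻¹ * z * h) ∈ H := by
    have h1 : z * h⁻¹ * z⁻¹ ∈ H := (Subgroup.mem_normalizer_iff.1 hzH _).1 (H.inv_mem hh)
    rw [Inv.inv_eq_of_two hz.1] at h1
    have : z * (h⁻¹ * z * h) = z * h⁻¹ * z * h := by group
    rw [this]; exact H.mul_mem h1 hh
  have hc : Commute (z * (h⁻¹ * z * h)) x := by
    refine hxz.symm.mul_left ?_
    have := hyz.symm.map (MulAut.conj h⁻¹)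
    rw [← hconj] at this
    simp only [MulAut.conj_apply, inv_inv] at this
    rwa [show h⁻¹ * (h * x * h⁻¹) * h = x by group] at this
  refine ⟨h * d, H.mul_mem hh ((Subgroup.zpowers_le.2 hH) hd), ?_, ?_⟩
  · rw [Inv.commute_iff_conj]
    calc h * d * z * (h * d)⁻¹ = h * (d * z * d⁻¹) * h⁻¹ := by group
      _ = z := by rw [hdz]; group
  · calc h * d * x * (h * d)⁻¹ = h * (d * x * d⁻¹) * h⁻¹ := by group
      _ = y := by rw [Inv.commute_iff_conj.1 (Inv.commute_of_mem_zpowers hc hd), hconj]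

end Cfsg.Agent.S1182
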