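import Mathlib
import Cfsg.Statements.S1183
import Cfsg.Agent.Inv.Isolated
import Cfsg.Agent.Transfer.Abelian
import Cfsg.Agent.LocalEven.SylowIn

set_option autoImplicit false
open Cfsg

namespace Cfsg.Agent.S1183

/-- Let z be an isolated involution of the finite group G and C = C_G(z). Then the subgroup of G generated by its elements of odd order is all of G if and only if the subgroup of C generated by its elements of odd order is all of C. -/
theorem result {G : Type*} [Group G] [Finite G] (z : G) (hz : Cfsg.IsIsolatedInvolution z) : Cfsg.pResidual 2 G = ⊤ ↔ Cfsg.pResidual 2 ↥(Subgroup.centralizer ({z} : Set G)) = ⊤ := by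
  have : Fact (Nat.Prime 2) := ⟨Nat.prime_two⟩
  have hzz := Inv.mul_self_of_two hz.1
  obtain ⟨S, hS⟩ := (Inv.isPGroup_zpowers_of_mul_self hzz).exists_le_sylow
  have hzS : z ∈ (S : Subgroup G) := hS (Subgroup.mem_zpowers z)
  set C := Subgroup.centralizer ({z} : Set G) with hC
  have hSC : (S : Subgroup G) ≤ C := fun x hx =>
    Inv.mem_centralizer_single.2 (Inv.isolated_commute_of_mem_two_group hz S.2 hzS hx)
  have hN : ∀ v ∈ Subgroup.normalizer (Subgroup.zpowers z : Set G), v ∈ C := fun v hv =>
    Inv.mem_centralizer_single.2 (Inv.commute_iff_conj.2 (Inv.isolated_eq_of_mem_two_group hz S.2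
      hzS (Inv.isConj_conj v z) (hS (LocalEven.conj_mem_of_mem_normalizer hv
      (Subgroup.mem_zpowers z)))))
  have hW : IsWeaklyClosed (Subgroup.zpowers z) (S : Subgroup G) := by
    refine ⟨hS, fun g hg => ?_⟩
    have h1 := Inv.isolated_eq_of_mem_two_group hz S.2 hzS (Inv.isConj_conj g z)
      (hg (LocalEven.conj_mem_cj (Subgroup.mem_zpowers z)))
    have := LocalEven.cj_zpowers g z
    rwa [h1] at this
  have key := Transfer.inf_pResidual_eq_of_control S hSC fun x hx g _ hg => by
    obtain ⟨v, hv, h⟩ := Transfer.control_of_isWeaklyClosed' (P := S) (Z := Subgroup.zpowers z)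
      (Subgroup.zpowers_le.2 fun y hy =>
        (Inv.isolated_commute_of_mem_two_group hz S.2 hzS hy).eq) hW hx.1 hg
    exact ⟨v, hN v hv, h⟩
  constructor
  · intro h
    rw [h, inf_top_eq] at key
    have h1 := (LocalEven.isSylowIn_of_sylow_le S hSC)
    have h2 := Transfer.pResidual_sup_sylow h1.toSylow
    rw [← h2, eq_comm, sup_eq_left, h1.coe_toSylow]
    intro x hx
    have : (x : G) ∈ (S : Subgroup G) ⊓ (pResidual 2 C).map C.subtype := key ▸ hx
    exact LocalEven.mem_map_subtype.1 this.2
  · intro h
    rw [← Transfer.pResidual_sup_sylow S, eq_comm, sup_eq_left, ← inf_eq_left, key, h, inf_eq_left]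
    intro x hx
    exact ⟨⟨x, hSC hx⟩, trivial, rfl⟩

end Cfsg.Agent.S1183
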