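import Mathlib
import Cfsg.Statements.S1184
import Cfsg.Agent.Inv.Isolated

set_option autoImplicit false
open Cfsg

namespace Cfsg.Agent.S1184

/-- Let z be an isolated involution of the finite group G. If s and t are distinct conjugates of z, then st does not commute with z. -/
theorem result {G : Type*} [Group G] [Finite G] (z : G) (hz : Cfsg.IsIsolatedInvolution z) (g h : G) (hne : g * z * g⁻¹ ≠ h * z * h⁻¹) : ¬ Commute (g * z * g⁻¹ * (h * z * h⁻¹)) z := by
  exact fun hc => hne (Inv.isolated_eq_of_commute_mul hz (Inv.isConj_conj g z)
    (Inv.isConj_conj h z) (IsConj.refl z) hc)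

end Cfsg.Agent.S1184
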