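import Mathlib
import Cfsg.Statements.S1185
import Cfsg.Agent.Inv.Isolated

set_option autoImplicit false
open Cfsg

namespace Cfsg.Agent.S1185

/-- Let z be an isolated involution of the finite group G with centralizer C. Then for every g ∈ G there is exactly one element k in the coset gC that has odd order and is inverted by z. -/
theorem result {G : Type*} [Group G] [Finite G] (z : G) (hz : Cfsg.IsIsolatedInvolution z) (g : G) : ∃! k : G, (Odd (orderOf k) ∧ z * k * z⁻¹ = k⁻¹) ∧ g⁻¹ * k ∈ Subgroup.centralizer ({z} : Set G) := by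
  have hz2 := Inv.mul_self_of_two hz.1
  have hv2 := Inv.mul_self_of_two (Inv.two_conj hz.1 g)
  have key : ∀ k : G, z * k * z⁻¹ = k⁻¹ →
      (g⁻¹ * k ∈ Subgroup.centralizer ({z} : Set G) ↔ k * k = g * z * g⁻¹ * z) := by
    intro k hk
    have e : k * z * k⁻¹ = k * k * z := by
      rw [mul_assoc, ← Inv.mul_eq_of_inverts' hk, mul_assoc]
    rw [Inv.mem_centralizer_single, Inv.commute_iff_conj]
    constructor
    · intro h
      have h1 : k * z * k⁻¹ = g * z * g⁻¹ := by
        calc k * z * k⁻¹ = g * (g⁻¹ * k * z * (g⁻¹ * k)⁻¹) * g⁻¹ := by group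
          _ = _ := by rw [h]
      rw [← h1, e, mul_assoc _ z, hz2, mul_one]
    · intro h
      calc g⁻¹ * k * z * (g⁻¹ * k)⁻¹ = g⁻¹ * (k * z * k⁻¹) * g := by group
        _ = z := by rw [e, h, mul_assoc _ z, hz2]; group
  have hodd := Inv.isolated_odd' hz (Inv.isConj_conj g z) (IsConj.refl z)
  obtain ⟨k, hk, hkk⟩ := Inv.exists_sq_of_odd hodd
  have hko := Inv.odd_orderOf_of_mem_zpowers hodd hk
  have hki := Inv.inverts_of_mem_zpowers (Inv.inverts_mul_right hv2 hz2) hk
  refine ⟨k, ⟨⟨hko, hki⟩, (key k hki).2 hkk⟩, ?_⟩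
  rintro l ⟨⟨hlo, hli⟩, hl⟩
  exact Inv.eq_of_sq_eq_of_odd hlo hko (((key l hli).1 hl).trans hkk.symm)

end Cfsg.Agent.S1185
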