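import Mathlib
import Cfsg.Statements.S1186
import Cfsg.Agent.Inv.Inverted

set_option autoImplicit false
open Cfsg

namespace Cfsg.Agent.S1186

/-- Let z be an isolated involution of the finite group G, C = C_G(z), K the set of elements of odd order inverted by z, and s an involution of C. Then |G| = |C| · |C_K(sz)| · |C_K(s)|. -/
theorem result {G : Type*} [Group G] [Finite G] (z : G) (hz : Cfsg.IsIsolatedInvolution z) (s : G) (hs : orderOf s = 2) (hsz : Commute s z) : Nat.card G = Nat.card (Subgroup.centralizer ({z} : Set G)) * Nat.card {k : G // Odd (orderOf k) ∧ z * k * z⁻¹ = k⁻¹ ∧ Commute k (s * z)} * Nat.card {k : G // Odd (orderOf k) ∧ z * k * z⁻¹ = k⁻¹ ∧ Commute k s} := by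
  classical
  have hzz := Inv.mul_self_of_two hz.1
  have hss := Inv.mul_self_of_two hs
  rw [Inv.isolated_card_inverted hz (hsz.symm.mul_right (Commute.refl z)),
    Inv.isolated_card_inverted hz hsz.symm, ← Inv.card_isConj_mul z, mul_assoc, mul_comm]
  congr 1
  have h1 : Nat.card {v : G // IsConj z v} = Nat.card (Σ u : {u : G // IsConj z u ∧ Commute u s},
      {v : G // IsConj z v ∧ Commute v (s * u)}) := by
    refine (Nat.card_congr (Equiv.ofBijective (fun q => ⟨q.2.1, q.2.2.1⟩) ⟨?_, ?_⟩)).symm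
    · rintro ⟨⟨u, hu, hus⟩, ⟨v, hv, hvu⟩⟩ ⟨⟨u', hu', hus'⟩, ⟨v', hv', hvu'⟩⟩ h
      obtain rfl : v = v' := congrArg Subtype.val h
      obtain rfl : u = u' := by
        refine Inv.isolated_eq_of_commute_mul hz hu hu' hv ?_
        have := hvu.mul_right hvu'
        rw [← hus.eq, mul_assoc, ← mul_assoc s, hss, one_mul] at this
        exact this.symm
      rfl
    · rintro ⟨v, hv⟩
      have hvv := Inv.mul_self_of_two ((Inv.orderOf_of_isConj hv).symm.trans hz.1)
      rcases Nat.even_or_odd (orderOf (s * v)) with he | ho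
      · have he' : orderOf (v * s) = orderOf (s * v) := by
          rw [← Inv.orderOf_conj s (v * s)]; congr 1; group
        have h2 := (Inv.isolated_half_odd (Inv.isolated_conj hz hv) hss (he' ▸ he)).1
        rw [he'] at h2
        obtain ⟨-, h3, h4⟩ := Inv.half_power hss hvv he
        rcases Inv.zpow_mul_conj hss hvv ((orderOf (s * v) / 2 : ℕ) : ℤ) with
          ⟨h5, -⟩ | ⟨-, d, -, hd⟩
        · exact absurd (Int.even_coe_nat _ |>.1 h5) (Nat.not_even_iff_odd.2 h2)
        · rw [zpow_natCast] at hd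
          refine ⟨⟨⟨_, hv.trans (hd ▸ Inv.isConj_conj d v), h3.mul_left (Commute.refl s)⟩,
            ⟨v, hv, ?_⟩⟩, rfl⟩
          dsimp only
          rw [h3.eq, ← mul_assoc, hss, one_mul]
          exact h4.symm
      · obtain rfl : s = z :=
          Inv.isolated_eq hz (hv.trans (Inv.isConj_of_odd hss hvv ho).symm) hsz.symm
        exact ⟨⟨⟨s, IsConj.refl s, Commute.refl s⟩, ⟨v, hv, by simp [hss]⟩⟩, rfl⟩
  have : Fintype {u : G // IsConj z u ∧ Commute u s} := Fintype.ofFinite _
  rw [h1, Nat.card_sigma, Finset.sum_congr rfl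
    (g := fun _ => Nat.card {v : G // IsConj z v ∧ Commute v (s * z)})]
  · rw [Finset.sum_const, Finset.card_univ, ← Nat.card_eq_fintype_card, smul_eq_mul, mul_comm]
  · rintro ⟨u, hu, hus⟩ -
    obtain ⟨d, hd, hdz⟩ := Inv.isolated_exists_conj hz hu
    have hds := Inv.commute_iff_conj.1 (Inv.commute_of_mem_zpowers (hsz.symm.mul_left hus) hd)
    refine (Nat.card_congr (Equiv.subtypeEquiv (MulAut.conj d).toEquiv fun v => ?_)).symm
    have h6 : s * u = MulAut.conj d (s * z) := by
      rw [map_mul, MulAut.conj_apply, MulAut.conj_apply, hds, hdz]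
    change _ ↔ IsConj z (MulAut.conj d v) ∧ Commute (MulAut.conj d v) (s * u)
    rw [h6]
    refine and_congr ⟨fun h => h.trans (Inv.isConj_conj d v),
      fun h => h.trans (Inv.isConj_conj d v).symm⟩ ⟨fun h => h.map _, fun h => ?_⟩
    exact (MulAut.conj d).injective (by simpa only [map_mul] using h.eq)

end Cfsg.Agent.S1186
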