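import Mathlib
import Cfsg.Statements.S1187
import Cfsg.Agent.Inv.ZStar

set_option autoImplicit false
open Cfsg

namespace Cfsg.Agent.S1187

/-- Let z be an isolated involution of the finite group G and p a prime. If Q is a p-subgroup normalized by z that is maximal among p-subgroups normalized by z, then Q is a Sylow p-subgroup of G. -/
theorem result {G : Type*} [Group G] [Finite G] (z : G) (hz : Cfsg.IsIsolatedInvolution z) {p : ℕ} [Fact p.Prime] (Q : Subgroup G) (hQ : IsPGroup p Q) (hzQ : z ∈ Subgroup.normalizer (Q : Set G)) (hmax : ∀ R : Subgroup G, IsPGroup p R → z ∈ Subgroup.normalizer (R : Set G) → Q ≤ R → R = Q) : ∃ P : Sylow p G, (P : Subgroup G) = Q := by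
  set N := Subgroup.normalizer (Q : Set G)
  obtain ⟨P, hP⟩ := Inv.zstar_exists_sylow (Inv.isolated_subgroup hz hzQ) p
  have h1 := LocalEven.isSylowIn_map P
  have h2 : Q ≤ (P : Subgroup N).map N.subtype :=
    h1.le_of_le_normalizer Subgroup.le_normalizer hQ h1.le
  have h3 := hmax _ h1.pgrp (Core.map_le_normalizer_map (A := Subgroup.zpowers _)
    (Subgroup.zpowers_le.2 hP) N.subtype ⟨_, Subgroup.mem_zpowers _, rfl⟩) h2
  rw [h3] at h1
  exact (LocalEven.IsSylowIn.of_normalizer (H := ⊤) (by rwa [top_inf_eq])).exists_sylow_top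

end Cfsg.Agent.S1187
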