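import Mathlib
import Cfsg.Statements.S1231
import Cfsg.Agent.Inv.Embed
import Cfsg.Agent.BG.Rank

set_option autoImplicit false
open Cfsg

namespace Cfsg.Agent.S1231

/-- Let H be a subgroup of the finite group G, p a prime, k ≥ 1, and P a Sylow p-subgroup of H whose p-rank is at least k. Then N_G(X) ≤ H for every subgroup X of P of p-rank at least k if and only if H ∩ gHg⁻¹ has p-rank less than k for every g ∉ H. -/
theorem result {G : Type*} [Group G] [Finite G] {p : ℕ} [Fact p.Prime] (k : ℕ) (hk : 1 ≤ k) (H : Subgroup G) (P : Sylow p ↥H) (hP : ¬ Cfsg.PRankLE p (k - 1) ↥(P : Subgroup ↥H)) : (∀ X : Subgroup G, X ≤ (P : Subgroup ↥H).map H.subtype → ¬ Cfsg.PRankLE p (k - 1) ↥X → Subgroup.normalizer (X : Set G) ≤ H) ↔ (∀ g : G, g ∉ H → Cfsg.PRankLE p (k - 1) ↥(H ⊓ H.map (MulAut.conj g).toMonoidHom)) := by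
  have hS := LocalEven.isSylowIn_map P
  constructor
  · intro h g hg
    by_contra hlt
    obtain ⟨A, hA, hAe, hAc⟩ := BG.Rank.not_pRankLE_iff.1 hlt
    exact hg (Inv.embed_mem (p := p) (fun X => ¬ PRankLE p (k - 1) X)
      (fun X Y hXY hX => BG.Rank.not_pRankLE_mono hX hXY)
      (fun X g hX hY => hX ((BG.Rank.pRankLE_conj g X).1 hY)) hS h (BG.Rank.elem_isPGroup hAe)
      (BG.Rank.not_pRankLE_of_elem le_rfl hAe hAc) hA)
  · intro h X hX hr g hg
    by_contra hgH
    refine hr (BG.Rank.pRankLE_mono (h g hgH) (le_inf (hX.trans hS.1) ?_))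
    rw [← LocalEven.cj_eq_of_mem_normalizer hg]
    exact LocalEven.cj_mono g (hX.trans hS.1)

end Cfsg.Agent.S1231
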