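import Mathlib
import Cfsg.Statements.S1233
import Cfsg.Agent.Isaacs.HR8
-- import your own Cfsg.Agent.* helpers here

set_option autoImplicit false
open Cfsg

namespace Cfsg.Agent.S1233

open Cfsg.Agent.Isaacs.HR Cfsg.Agent Subgroup

/-- Let S be a finite 2-group and Q a subgroup of order 32 generated by two elementwise-commuting subgroups Q₁, Q₂ each isomorphic to the quaternion group of order 8 (so Q = Q₁ ∗ Q₂). If C_S(Q) ≤ Q, then every section of S has 2-rank at most 4. -/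
theorem result {S : Type*} [Group S] [Finite S] (hS : IsPGroup 2 S) (Q Q₁ Q₂ : Subgroup S) (e₁ : Q₁ ≃* QuaternionGroup 2) (e₂ : Q₂ ≃* QuaternionGroup 2) (hcomm : ∀ a ∈ Q₁, ∀ b ∈ Q₂, a * b = b * a) (hQ : Q₁ ⊔ Q₂ = Q) (hQ32 : Nat.card Q = 32) (hC : Subgroup.centralizer (Q : Set S) ≤ Q) : Cfsg.SectionalPRankLE 2 4 S := by
  obtain ⟨z, h₁⟩ := exists_q8 e₁
  obtain ⟨z', h₂⟩ := exists_q8 e₂
  have hn : Q₂ ≤ normalizer (Q₁ : Set S) := fun b hb => PGrp.mem_normalizer_of_conj_mem fun a ha => by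
    rw [← hcomm a ha b hb]; simpa using ha
  have e := PGrp.card_sup_mul_card_inf hn
  rw [hQ, hQ32, h₁.card, h₂.card] at e
  have hne : Q₁ ⊓ Q₂ ≠ ⊥ := fun h => by rw [h, card_bot] at e; omega
  obtain ⟨⟨w, hw⟩, w1⟩ := ne_bot_iff_exists_ne_one.1 hne
  have w1 : w ≠ 1 := fun h => w1 (Subtype.ext h)
  have e1 : w = z := by
    rcases h₁.tri w hw.1 with r | r | r
    exacts [absurd r w1, r, by
      obtain ⟨y, hy, -, e⟩ := h₁.nc w hw.1 r
      rw [hcomm y hy w hw.2, left_eq_mul] at e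
      exact absurd e h₁.z1]
  have e2 : w = z' := by
    rcases h₂.tri w hw.2 with r | r | r
    exacts [absurd r w1, r, by
      obtain ⟨y, hy, -, e⟩ := h₂.nc w hw.2 r
      rw [hcomm w hw.1 y hy, left_eq_mul] at e
      exact absurd e h₂.z1]
  exact sectional_of_rk (q8q8 hS h₁ (e1 ▸ e2 ▸ h₂) hcomm hQ hC)

end Cfsg.Agent.S1233
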