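import Mathlib
import Cfsg.Statements.S1234
import Cfsg.Agent.Isaacs.HR7
-- import your own Cfsg.Agent.* helpers here

set_option autoImplicit false
open Cfsg

namespace Cfsg.Agent.S1234

open Cfsg.Agent.Isaacs.HR Cfsg.Agent Subgroup

/-- Let S be a finite 2-group and Q ≤ S a subgroup of order 32 having an elementary abelian subgroup E of order 16 and an involution s ∉ E whose centralizer in E has order 4 (so Q ≅ (Z₂ × Z₂) ≀ Z₂). If C_S(Z(Q)) = Q, then every section of S has 2-rank at most 4. -/
theorem result {S : Type*} [Group S] [Finite S] (hS : IsPGroup 2 S) (Q E : Subgroup S) (hEQ : E ≤ Q) (hE : Cfsg.IsElementaryAbelian 2 E) (hE16 : Nat.card E = 16) (hQ32 : Nat.card Q = 32) (s : S) (hsQ : s ∈ Q) (hsE : s ∉ E) (hs : orderOf s = 2) (hfix : Nat.card ↥(E ⊓ Subgroup.centralizer ({s} : Set S)) = 4) (hC : Subgroup.centralizer (((Subgroup.center Q).map Q.subtype : Subgroup S) : Set S) = Q) : Cfsg.SectionalPRankLE 2 4 S := by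
  have hE2 : ∀ x ∈ E, x * x = 1 := fun x hx => by rw [← sq]; exact hE.2 x hx
  have ss : s * s = 1 := by rw [← sq, ← hs, pow_orderOf_eq_one]
  set F := E ⊓ centralizer ({s} : Set S) with hF
  have dec : ∀ x ∈ Q, x ∉ E → s * x ∈ E := fun x hx hx' => mul_mem_of_card hEQ (by omega) hsQ hx hsE hx'
  have hsF : s ∈ normalizer (F : Set S) := PGrp.mem_normalizer_of_conj_mem fun x hx => by
    rw [← mem_centralizer_singleton_iff.1 hx.2, mul_inv_cancel_right]; exact hx
  have cA : Nat.card ↥(F ⊔ zpowers s) = 8 := by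
    rw [PGrp.card_sup_zpowers Nat.prime_two hsF (by rw [sq, ss]; exact F.one_mem) fun e => hsE e.1, hfix]
  have mA : ∀ x ∈ F ⊔ zpowers s, x ∉ F → s * x ∈ F := fun x hx hx' =>
    mul_mem_of_card le_sup_left (by omega) (mem_sup_right (mem_zpowers s)) hx (fun e => hsE e.1) hx'
  refine sectional_of_rk (harada hS (A := F ⊔ zpowers s) (fun x hx => ?_) cA fun x hx => ?_)
  · by_cases e : x ∈ F
    · exact hE2 x e.1
    · have e1 := mA x hx e
      have e2 := hE2 _ e1.1
      have e3 := mem_centralizer_singleton_iff.1 e1.2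
      rw [mul_assoc, mul_left_cancel_iff] at e3
      rwa [mul_assoc, ← mul_assoc x, e3, mul_assoc, ← mul_assoc, ss, one_mul] at e2
  · have xs := hx s (mem_sup_right (mem_zpowers s))
    have hxQ : x ∈ Q := by
      rw [← hC]
      refine mem_centralizer_iff.2 ?_
      rintro _ ⟨w, hw, rfl⟩
      have hw' : ∀ q ∈ Q, q * w = w * q := fun q hq => congrArg Subtype.val (mem_center_iff.1 hw ⟨q, hq⟩)
      by_cases e : (w : S) ∈ E
      · exact (hx _ (mem_sup_left ⟨e, mem_centralizer_singleton_iff.2 (hw' s hsQ).symm⟩)).symm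
      · exfalso
        have e1 := dec w w.2 e
        have : E ≤ F := fun v hv => ⟨hv, mem_centralizer_singleton_iff.2 (by
          have := comm_of_sq hE2 hv e1
          rw [mul_assoc, ← hw' v (hEQ hv), ← mul_assoc, ← mul_assoc] at this
          exact mul_right_cancel this)⟩
        have := card_le_of_le this
        omega
    by_cases e : x ∈ E
    · exact mem_sup_left ⟨e, mem_centralizer_singleton_iff.2 xs⟩
    · exact (mul_mem_cancel_left (mem_sup_right (mem_zpowers s))).1 (mem_sup_left
        ⟨dec x hxQ e, mem_centralizer_singleton_iff.2 (by rw [mul_assoc, xs])⟩)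

end Cfsg.Agent.S1234
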