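import Mathlib
import Cfsg.Statements.S1235
import Cfsg.Agent.Isaacs.HR2
-- import your own Cfsg.Agent.* helpers here

set_option autoImplicit false
open Cfsg

namespace Cfsg.Agent.S1235

open Cfsg.Agent.Isaacs.HR Cfsg.Agent Subgroup

/-- Let G be a finite group, x an involution and T ≤ G a Sylow 2-subgroup of C_G(x) (T ≤ C_G(x) with |C_G(x) : T| odd) which is the internal direct product of a subgroup D that is dihedral (of order ≥ 4) or quasi-dihedral and a Klein four-subgroup B. Suppose that for every involution b ∈ B, T ≤ C_G(b) with |C_G(b) : T| odd. Then every section of G has 2-rank at most 4. -/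
theorem result {G : Type*} [Group G] [Finite G] (x : G) (hx : orderOf x = 2) (T D B : Subgroup G) (hT : IsPGroup 2 T) (hTx : T ≤ Subgroup.centralizer ({x} : Set G)) (hTxi : Odd (T.relIndex (Subgroup.centralizer ({x} : Set G)))) (hprod : Cfsg.IsInternalDirectProduct D B T) (hD : (∃ m : ℕ, 2 ≤ m ∧ Nonempty (D ≃* DihedralGroup m)) ∨ Cfsg.IsQuasiDihedral D) (hB : IsKleinFour B) (hTb : ∀ b ∈ B, orderOf b = 2 → T ≤ Subgroup.centralizer ({b} : Set G) ∧ Odd (T.relIndex (Subgroup.centralizer ({b} : Set G)))) : Cfsg.SectionalPRankLE 2 4 G := by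
  have : Fact (Nat.Prime 2) := ⟨Nat.prime_two⟩
  obtain ⟨S, hTS⟩ := hT.exists_le_sylow
  obtain ⟨hDT, hBT, hc, hi, hs⟩ := hprod
  refine sectional_of_rk (rk_top_of_sylow S ?_)
  have cB : Nat.card B = 4 := hB.card_four
  have hB2 : ∀ b ∈ B, b * b = 1 := fun b hb =>
    congrArg Subtype.val (IsKleinFour.mul_self (⟨b, hb⟩ : B))
  have hC : ∀ b ∈ B, b ≠ 1 → ∀ g ∈ (S : Subgroup G), g * b = b * g → g ∈ T := by
    intro b hb b1 g hg e
    obtain ⟨h1, h2⟩ := hTb b hb (orderOf_eq_prime (by rw [sq, hB2 b hb]) b1)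
    have h3 : T ≤ (S : Subgroup G) ⊓ centralizer {b} := le_inf hTS h1
    have h4 := relIndex_mul_relIndex T _ _ h3 (inf_le_right : _ ≤ centralizer ({b} : Set G))
    have h5 : IsPGroup 2 ↥((S : Subgroup G) ⊓ centralizer {b}) := S.isPGroup'.to_le inf_le_left
    obtain ⟨k, hk⟩ := h5.index (T.subgroupOf _)
    have hk' : T.relIndex ((S : Subgroup G) ⊓ centralizer {b}) = 2 ^ k := hk
    have : k = 0 := by
      by_contra h0
      rw [← h4, hk'] at h2
      exact (Nat.not_even_iff_odd.2 h2) ((Nat.even_pow.2 ⟨even_two, h0⟩).mul_right _)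
    rw [this, pow_zero, relIndex_eq_one] at hk'
    exact hk' ⟨hg, mem_centralizer_singleton_iff.2 e⟩
  have hBn : B ≤ normalizer (D : Set G) := fun b hb => PGrp.mem_normalizer_of_conj_mem fun a ha => by
    rw [← hc a ha b hb]; simpa using ha
  have e := PGrp.card_sup_mul_card_inf hBn
  rw [hi, hs, card_bot, cB, mul_one] at e
  have big : ∀ (u v : G) (n : ℕ), Inv.MC D u v (n + 1) → Rk 4 (S : Subgroup G) := by
    intro u v n h
    obtain ⟨b₁, b₂, n1, n2, n12⟩ : ∃ b₁ b₂ : B, b₁ ≠ 1 ∧ b₂ ≠ 1 ∧ b₁ * b₂ ≠ 1 := by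
      classical
      have := Fintype.ofFinite B
      have h3 : 2 < (Finset.univ.erase (1 : B)).card := by
        rw [Finset.card_erase_of_mem (Finset.mem_univ _), Finset.card_univ, ← Nat.card_eq_fintype_card, cB]
        norm_num
      obtain ⟨a, b, _, ha, hb, -, hab, -, -⟩ := Finset.two_lt_card_iff.1 h3
      exact ⟨a, b, Finset.ne_of_mem_erase ha, Finset.ne_of_mem_erase hb, fun h' =>
        hab (mul_left_cancel ((IsKleinFour.mul_self a).trans h'.symm))⟩
    have hTS' := mc_case S.isPGroup' hTS h hB2 b₁.2 b₂.2 (fun h => n1 (Subtype.ext h))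
      (fun h => n2 (Subtype.ext h)) (fun h => n12 (Subtype.ext h)) hc hi hs hC
    rw [← hTS']
    exact rk_add_card (a := 2) (b := 2) (hs ▸ sup_le le_normalizer hBn) hDT (rk_mc h) (by omega)
  rcases hD with ⟨m, hm, ⟨f⟩⟩ | hD
  · obtain ⟨u, v, n, h⟩ := Inv.exists_dih (hT.to_le hDT) hm f
    rcases n with _ | n
    · have cD : Nat.card D = 4 := h.toMC.card
      have hu : u * u = 1 := by simpa using h.toMC.zz
      have hD2 : ∀ d ∈ D, d * d = 1 := fun d hd => by
        have huv : Commute u v := by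
          have := h.inv
          rw [inv_eq_of_mul_eq_one_right hu, mul_inv_eq_iff_eq_mul] at this
          exact this.symm
        have hdv : Commute d v := by
          rcases (h.mem d).1 hd with ⟨i, rfl⟩ | ⟨i, hi⟩
          · exact huv.zpow_left i
          · have : d = u ^ i * v := by rw [show u ^ i = _ from hi]; group
            rw [this]; exact (huv.zpow_left i).mul_left (Commute.refl v)
        rcases h.toMC.mem_of_commute hd hdv with rfl | rfl | rfl | rfl
        · simp
        · exact h.toMC.zz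
        · exact h.yy
        · simp only [pow_zero, pow_one]
          rw [mul_assoc, ← mul_assoc v, ← huv.eq, mul_assoc, h.yy, mul_one, hu]
      refine e16_rk S.isPGroup' hTS (fun a ha => ?_) (by omega) hBT cB hC
      obtain ⟨d, hd, b, hb, rfl⟩ := (PGrp.mem_sup_of_le_normalizer hBn).1 (hs ▸ ha)
      rw [mul_assoc, ← mul_assoc b, ← hc d hd b hb, mul_assoc, hB2 b hb, mul_one, hD2 d hd]
    · exact big u v n h.toMC
  · obtain ⟨u, v, m, h⟩ := Inv.exists_qd hD
    exact big u v (m + 1) h.toMC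

end Cfsg.Agent.S1235
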