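import Mathlib
import Cfsg.Statements.S1236
import Cfsg.Agent.Inv.QD
import Cfsg.Agent.Inv.WeakElem
import Cfsg.Agent.PGrp.Basic
import Cfsg.Agent.Core.Basic

set_option autoImplicit false
open Cfsg

namespace Cfsg.Agent.S1236

theorem dih {m : ℕ} (hm : 2 ≤ m) {T : Subgroup (DihedralGroup m)} (hT : IsKleinFour T) :
    Subgroup.centralizer (T : Set (DihedralGroup m)) ≤ T := by
  have : NeZero m := ⟨by omega⟩
  have h1 : ∀ i : ZMod m, DihedralGroup.r i = 1 ↔ i = 0 := fun i => by
    rw [DihedralGroup.one_def, DihedralGroup.r.injEq]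
  have h2 : ∀ i j : ZMod m, i ≠ 0 → j ≠ 0 → i + i = 0 → j + j = 0 → i = j := fun i j hi hj h1i h2 => by
    have := Inv.eq_of_two_of_mem_zpowers (w := DihedralGroup.r (1 : ZMod m)) (a := .r i) (b := .r j)
      ⟨i.val, by simp⟩ ⟨j.val, by simp⟩
      (Inv.two_of_mul_self (by simpa [h1] using hi)
        (by simp [h1i]))
      (Inv.two_of_mul_self (by simpa [h1] using hj)
        (by simp [h2]))
    simpa using this
  obtain ⟨i, k, hi, hk, hk0, hkk⟩ : ∃ i k : ZMod m, .sr i ∈ T ∧ .r k ∈ T ∧ k ≠ 0 ∧ k + k = 0 := by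
    obtain ⟨a, ha, b, hb, ha1, hb1, hab⟩ := Inv.four_exists_pair hT
    have h3 : ∀ k : ZMod m, .r k ∈ T → k + k = 0 := fun k hk => by
      simpa [h1] using Inv.four_mul_self hT hk
    rcases a with a | a <;> rcases b with b | b
    · exact absurd (congrArg _ (h2 a b (by simpa [h1] using ha1)
        (by simpa [h1] using hb1) (h3 a ha) (h3 b hb))) hab
    · exact ⟨b, a, hb, ha, by simpa [h1] using ha1, h3 a ha⟩
    · exact ⟨a, b, ha, hb, by simpa [h1] using hb1, h3 b hb⟩
    · exact ⟨a, b - a, ha, mul_mem ha hb, fun h => hab (by rw [sub_eq_zero.1 h]),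
        h3 _ (mul_mem ha hb)⟩
  have h4 : ∀ j : ZMod m, Commute (DihedralGroup.r j) (.sr i) → .r j ∈ T := fun j hj => by
    by_cases h0 : j = 0
    · exact h0 ▸ one_mem T
    · have : i - j = i + j := by simpa using hj.eq
      rwa [h2 j k h0 hk0 (by linear_combination -this) hkk]
  rintro (j | j) hj
  · exact h4 j (hj _ hi).symm
  · have := h4 (j - i) (Commute.mul_left (Commute.refl (DihedralGroup.sr i)) (hj _ hi).symm)
    simpa using mul_mem hi this

/-- Let R be a finite group, t a central involution of R such that R ⧸ ⟨t⟩ is dihedral (of order ≥ 4) or quasi-dihedral, and A ≤ R an elementary abelian subgroup of order 8 containing t. Then C_R(A) = A. -/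
theorem result {R : Type*} [Group R] [Finite R] (t : R) (ht : orderOf t = 2) (htz : t ∈ Subgroup.center R) [(Subgroup.zpowers t).Normal] (hq : (∃ m : ℕ, 2 ≤ m ∧ Nonempty (R ⧸ Subgroup.zpowers t ≃* DihedralGroup m)) ∨ Cfsg.IsQuasiDihedral (R ⧸ Subgroup.zpowers t)) (A : Subgroup R) (hA : Cfsg.IsElementaryAbelian 2 A) (hA8 : Nat.card A = 8) (htA : t ∈ A) : Subgroup.centralizer (A : Set R) = A := by
  refine le_antisymm (fun c hc => ?_) (Subgroup.le_centralizer_iff_isMulCommutative.2 hA.1)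
  set f := QuotientGroup.mk' (Subgroup.zpowers t)
  have hle : Subgroup.zpowers t ≤ A := Subgroup.zpowers_le.2 htA
  have hcm : (A.map f).comap f = A := by
    rw [Subgroup.comap_map_eq, QuotientGroup.ker_mk', sup_eq_left.2 hle]
  have hT : IsKleinFour (A.map f) := Inv.isKleinFour_of_card_of_mul_self (by
    have := Core.card_comap_mk' _ (A.map f)
    rw [hcm, hA8, Nat.card_zpowers, ht] at this
    omega) (by
    rintro _ ⟨a, ha, rfl⟩
    rw [← map_mul, ← pow_two, hA.2 a ha, map_one])
  have hc' : f c ∈ Subgroup.centralizer (A.map f : Set (R ⧸ Subgroup.zpowers t)) := by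
    rintro _ ⟨a, ha, rfl⟩
    rw [← map_mul, hc a ha, map_mul]
  rw [← hcm]
  show f c ∈ A.map f
  rcases hq with ⟨m, hm, ⟨e⟩⟩ | hq
  · have h1 := dih hm (Inv.isKleinFour_of_mulEquiv (e.subgroupMap (A.map f)) hT)
      (x := e (f c)) (by
        rintro _ ⟨a, ha, rfl⟩
        exact (map_mul e _ _).symm.trans ((congrArg e (hc' a ha)).trans (map_mul e _ _)))
    obtain ⟨a, ha, h⟩ := h1
    exact e.injective h ▸ ha
  · obtain ⟨x, y, m, h⟩ := Inv.exists_qd_top hq
    obtain ⟨s, hs, hs', -, hz, h1⟩ := h.exists_of_four hT le_top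
    rcases (h.change trivial hs').mem_of_commute trivial (hc' s hs).symm with h | h | h | h <;>
      rw [h]
    exacts [one_mem _, hz, hs, mul_mem hz hs]

end Cfsg.Agent.S1236
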