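import Mathlib
import Cfsg.Statements.S1239
import Cfsg.Agent.Inv.Wr2
import Cfsg.Agent.Inv.ZStar

set_option autoImplicit false
open Cfsg

namespace Cfsg.Agent.S1239

/-- Let X be a finite group whose Sylow 2-subgroup S is quasi-dihedral or wreathed, and suppose some involution of S is isolated in X. Then the product of the largest normal odd-order subgroup O(X) with the centre of S is normal in X. -/
theorem result {X : Type*} [Group X] [Finite X] (S : Sylow 2 X) (hS : Cfsg.IsQuasiDihedral (S : Subgroup X) ∨ Cfsg.IsWreathed (S : Subgroup X)) (z : X) (hzS : z ∈ S) (hz : Cfsg.IsIsolatedInvolution z) : (Cfsg.oddCore X ⊔ (Subgroup.center (S : Subgroup X)).map (S : Subgroup X).subtype).Normal := by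
  have key : ∀ w ∈ (Subgroup.center (S : Subgroup X)).map (S : Subgroup X).subtype,
      Inv.WkCl (S : Subgroup X) w := by
    rintro _ ⟨w, hw, rfl⟩
    refine Inv.wkCl_of_rank_two S ?_ (Inv.wkCl_of_isolated hz S.2 hzS) hz.1 w.2
      fun s hs => congrArg Subtype.val (Subgroup.mem_center_iff.1 hw ⟨s, hs⟩)
    rcases hS with hS | hS
    · obtain ⟨x, y, m, h⟩ := Inv.exists_qd hS
      exact h.rank_two
    · obtain ⟨x, y, t, m, h, -⟩ := Inv.exists_wr hS
      exact h.rank_two
  refine LocalEven.normal_of_cj_le fun g => ?_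
  rw [LocalEven.cj_sup, LocalEven.cj_eq_of_normal]
  refine sup_le le_sup_left (LocalEven.cj_le_iff'.2 fun w hw => ?_)
  have := mul_mem (Subgroup.mem_sup_left (inv_mem (Inv.zstar_elem (key w hw) g)))
    (Subgroup.mem_sup_right hw)
  simpa [mul_assoc] using this

end Cfsg.Agent.S1239
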