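import Mathlib
import Cfsg.Statements.S1242
import Cfsg.Agent.Transfer.PowTransfer
-- import your own Cfsg.Agent.* helpers here

set_option autoImplicit false
open Cfsg

namespace Cfsg.Agent.S1242

open Cfsg.Agent.Transfer

/-- Let G be a finite group, p a prime and H a subgroup of index prime to p such that any two elements of H of p-power order that are conjugate in G are conjugate in H. Then (O^p(G)·G') ∩ H = O^p(H)·H', where O^p denotes the subgroup generated by the elements of order prime to p. -/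
theorem result {G : Type*} [Group G] [Finite G] {p : ℕ} [Fact p.Prime] (H : Subgroup G) (hidx : Nat.Coprime p H.index) (hfus : ∀ g ∈ H, (∃ k : ℕ, orderOf g = p ^ k) → ∀ a : G, a * g * a⁻¹ ∈ H → ∃ h ∈ H, h * g * h⁻¹ = a * g * a⁻¹) : (Cfsg.pResidual p G ⊔ commutator G) ⊓ H = (Cfsg.pResidual p ↥H ⊔ commutator ↥H).map H.subtype := by
  set K := (Cfsg.pResidual p ↥H ⊔ commutator ↥H).map H.subtype with hK
  have hKH : K.subgroupOf H = Cfsg.pResidual p ↥H ⊔ commutator ↥H :=
    Subgroup.comap_map_eq_self_of_injective H.subtype_injective _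
  have hn : (K.subgroupOf H).Normal := by rw [hKH]; infer_instance
  have hab : ∀ x ∈ H, ∀ y ∈ H, x * y * x⁻¹ * y⁻¹ ∈ K := fun x hx y hy =>
    ⟨_, Subgroup.mem_sup_right (Subgroup.commutator_mem_commutator (Subgroup.mem_top (⟨x, hx⟩ : H))
      (Subgroup.mem_top (⟨y, hy⟩ : H))), rfl⟩
  refine le_antisymm ?_ (le_inf ?_ (Subgroup.map_subtype_le _))
  · rintro x ⟨hx, hxH⟩
    obtain ⟨f, hf, hf'⟩ := exists_hom_eq_pow_index hab
    have hQ : IsPGroup p (H ⧸ K.subgroupOf H) :=
      isPGroup_quotient_of_pResidual_le (by rw [hKH]; exact le_sup_left)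
    refine mem_of_forall_prime_pow_mem fun q hq _ y hy ⟨k, hk⟩ => ?_
    have hyH : y ∈ H := Subgroup.zpowers_le.2 hxH hy
    by_cases hqp : q = p
    · subst hqp
      have h1 := hf' y hyH fun m a ha => by
        obtain ⟨j, -, hj⟩ := (Nat.dvd_prime_pow hq).1 (hk ▸ orderOf_pow_dvd (x := y) m)
        obtain ⟨h, hh, e⟩ := hfus _ (pow_mem hyH m) ⟨j, hj⟩ a ha
        rw [← e]
        exact hab h hh _ (pow_mem hyH m)
      rw [MonoidHom.mem_ker.1 (sup_le (pResidual_le_ker hQ f) hf (Subgroup.zpowers_le.2 hx hy))] at h1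
      obtain ⟨j, hj⟩ := hQ (QuotientGroup.mk ⟨y, hyH⟩)
      exact (QuotientGroup.eq_one_iff (N := K.subgroupOf H) ⟨y, hyH⟩).1
        (eq_one_of_pow_eq_one_of_coprime hj hidx h1.symm)
    · refine ⟨⟨y, hyH⟩, Subgroup.mem_sup_left (mem_pResidual_of_coprime ?_), rfl⟩
      rw [Subgroup.orderOf_mk, hk]
      exact ((Nat.coprime_primes hq Fact.out).2 hqp).pow_left k
  · rw [hK, Subgroup.map_sup]
    refine sup_le_sup (map_subtype_pResidual_le H) ?_
    rw [commutator_def, Subgroup.map_commutator]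
    exact Subgroup.commutator_mono le_top le_top

end Cfsg.Agent.S1242
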