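import Mathlib
import Cfsg.Statements.S1243
import Cfsg.Agent.Transfer.Abelian
-- import your own Cfsg.Agent.* helpers here

set_option autoImplicit false
open Cfsg

namespace Cfsg.Agent.S1243

open Cfsg.Agent.Transfer

/-- Let T be a Sylow p-subgroup of the finite group G and W ≤ T a subgroup weakly closed in T. If d and g d g⁻¹ both centralize W, then g d g⁻¹ = h d h⁻¹ for some h ∈ N_G(W). -/
theorem result {G : Type*} [Group G] [Finite G] {p : ℕ} [Fact p.Prime] (T : Sylow p G) (W : Subgroup G) (hW : Cfsg.IsWeaklyClosed W (T : Subgroup G)) (d g : G) (hd : d ∈ Subgroup.centralizer (W : Set G)) (hgd : g * d * g⁻¹ ∈ Subgroup.centralizer (W : Set G)) : ∃ h ∈ Subgroup.normalizer (W : Set G), h * d * h⁻¹ = g * d * g⁻¹ := by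
  have hWp : IsPGroup p W := T.2.to_le hW.1
  have h1 : W ≤ Subgroup.centralizer ({g * d * g⁻¹} : Set G) := fun w hw => by
    rintro _ rfl
    exact (hgd w hw).symm
  have h2 : (W.map (MulAut.conj g).toMonoidHom) ≤ Subgroup.centralizer ({g * d * g⁻¹} : Set G) := by
    rintro _ ⟨w, hw, rfl⟩ _ rfl
    have := hd w hw
    simp only [MulEquiv.toMonoidHom_eq_coe, MonoidHom.coe_coe, MulAut.conj_apply]
    calc g * d * g⁻¹ * (g * w * g⁻¹) = g * (d * w) * g⁻¹ := by group
      _ = _ := by rw [← this]; group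
  obtain ⟨R, c, hc, hR, hc'⟩ := exists_conj_mem_common_sylow (hWp.map _) h2 hWp h1
  refine ⟨c * g, IsWeaklyClosed.conj_eq (IsWeaklyClosed.of_le_sylow hW hR) fun w hw => ?_, ?_⟩
  · simpa [mul_assoc] using hc' _ ⟨w, hw, rfl⟩
  · calc c * g * d * (c * g)⁻¹ = c * (g * d * g⁻¹) * c⁻¹ := by group
      _ = _ := by rw [← hc _ rfl]; group

end Cfsg.Agent.S1243
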