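import Mathlib
import Cfsg.Statements.S1244
import Cfsg.Agent.Transfer.Abelian
import Cfsg.Agent.Inv.Fus
import Cfsg.Agent.PGrp.Alperin
-- import your own Cfsg.Agent.* helpers here

set_option autoImplicit false
open Cfsg

namespace Cfsg.Agent.S1244

open Cfsg.Agent.Transfer

open Subgroup in
open scoped IsMulCommutative in
theorem aux {S : Type*} [Group S] [IsMulCommutative S] (A : Subgroup (MulAut S)) [Finite A]
    (hA : Odd (Nat.card A)) (hC : ∀ w : S, (∀ a ∈ A, a w = w) → w = 1) (R : Subgroup S) (t : S)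
    (ht : t * t = 1) (h1 : ∀ a ∈ A, a t * t ∈ R) : t ∈ R := by
  have := Fintype.ofFinite A
  have h2 : ∏ a : A, (a : MulAut S) t = 1 := hC _ fun b hb => by
    rw [map_prod]
    exact Fintype.prod_equiv (Equiv.mulLeft (⟨b, hb⟩ : A)) _ _ fun a => rfl
  have h3 : ∏ a : A, ((a : MulAut S) t * t) ∈ R := prod_mem fun a _ => h1 a a.2
  obtain ⟨m, hm⟩ := hA
  rwa [Finset.prod_mul_distrib, h2, one_mul, Finset.prod_const, Finset.card_univ,
    ← Nat.card_eq_fintype_card, hm, pow_succ, pow_mul, sq, ht, one_pow, one_mul] at h3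

/-- Let G be a finite group with no subgroup of index 2 whose Sylow 2-subgroup S is commutative, and let R ≤ S be a subgroup whose 2-rank is exactly one less than the 2-rank r of S. Then every involution of S is conjugate, by an element of N_G(S), to an element of R. -/
theorem result {G : Type*} [Group G] [Finite G] (hG : ∀ H : Subgroup G, H.index ≠ 2) (S : Sylow 2 G) (hS : IsMulCommutative (S : Subgroup G)) (r : ℕ) (hr1 : 1 ≤ r) (hSr : Cfsg.PRankLE 2 r (S : Subgroup G) ∧ ¬ Cfsg.PRankLE 2 (r - 1) (S : Subgroup G)) (R : Subgroup G) (hRS : R ≤ S) (hRr : Cfsg.PRankLE 2 (r - 1) R ∧ (r = 1 ∨ ¬ Cfsg.PRankLE 2 (r - 2) R)) (t : G) (ht : orderOf t = 2) (htS : t ∈ S) : ∃ n ∈ Subgroup.normalizer ((S : Subgroup G) : Set G), n * t * n⁻¹ ∈ R := by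
  have : Fact (Nat.Prime 2) := ⟨Nat.prime_two⟩
  by_contra hcon
  push Not at hcon
  set N := Subgroup.normalizer ((S : Subgroup G) : Set G) with hN
  set U := PGrp.powKer (S : Subgroup G) hS 2 with hU
  have hUS : U ≤ S := fun _ h => h.1
  have hpow : ∀ A : Subgroup G, A ≤ S → ∃ k, Nat.card A = 2 ^ k := fun A hA =>
    IsPGroup.iff_card.1 (S.2.to_le hA)
  have hUc : Nat.card U ≤ 2 ^ r := by
    have := hSr.1 (U.subgroupOf S) inferInstance fun a ha => Subtype.ext ha.2
    rwa [card_subgroupOf_eq, inf_eq_left.2 hUS] at this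
  have hRc : 2 ^ (r - 1) ≤ Nat.card (R ⊓ U :) := by
    rcases hRr.2 with rfl | h
    · exact Nat.card_pos
    by_cases hr : r = 1
    · subst hr; exact Nat.card_pos
    simp only [Cfsg.PRankLE, not_forall, not_le] at h
    obtain ⟨A, -, h2, h3⟩ := h
    have h4 : A.map R.subtype ≤ R ⊓ U := by
      rintro _ ⟨a, ha, rfl⟩
      exact ⟨a.2, hRS a.2, congrArg Subtype.val (h2 a ha)⟩
    refine le_trans ?_ (Subgroup.card_le_of_le h4)
    obtain ⟨k, hk⟩ := hpow _ (h4.trans (inf_le_left.trans hRS))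
    rw [← Subgroup.card_map_of_injective R.subtype_injective, hk] at h3
    rw [hk]
    have := (Nat.pow_lt_pow_iff_right (by norm_num)).1 h3
    exact Nat.pow_le_pow_right (by norm_num) (by omega)
  have htU : t ∈ U := ⟨htS, by rw [← ht, pow_orderOf_eq_one]⟩
  have htR : t ∉ R := by simpa using hcon 1 (one_mem _)
  have hidx : R.relIndex U = 2 := by
    have h1 : Nat.card (R ⊓ U :) * R.relIndex U = Nat.card U := by
      rw [← card_subgroupOf_eq]; exact (R.subgroupOf U).card_mul_index
    have h2 : R.relIndex U ≠ 1 := fun h => htR (Subgroup.relIndex_eq_one.1 h htU)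
    have h3 : R.relIndex U ≠ 0 := Subgroup.index_ne_zero_of_finite
    have h4 : 2 ^ r = 2 ^ (r - 1) * 2 := by rw [← pow_succ]; congr 1; omega
    by_contra h5
    have h6 : 3 ≤ R.relIndex U := by omega
    have h7 := Nat.mul_le_mul hRc h6
    have : 0 < 2 ^ (r - 1) := by positivity
    omega
  let f := (S : Subgroup G).normalizerMonoidHom
  have hodd : Odd (Nat.card f.range) := by
    rw [← Subgroup.index_ker, Subgroup.normalizerMonoidHom_ker, ← Nat.not_even_iff_odd,
      even_iff_two_dvd]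
    intro h
    refine S.not_dvd_index (h.trans ?_)
    have h1 : (S : Subgroup G) ≤ Subgroup.centralizer ((S : Subgroup G) : Set G) :=
      Subgroup.le_centralizer _
    exact (Subgroup.relIndex_dvd_of_le_left N h1).trans
      (Subgroup.relIndex_dvd_index_of_le Subgroup.le_normalizer)
  have hdec := (fitting_decomposition_sylow S).1
  rw [Inv.pResidual_eq_top_of_no_index_two hG, inf_top_eq, ← inf_assoc, inf_idem] at hdec
  refine htR (aux f.range hodd (fun w hw => ?_) (R.subgroupOf S) ⟨t, htS⟩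
    (Subtype.ext (Inv.mul_self_of_two ht)) ?_)
  · have h1 : (w : G) ∈ (S : Subgroup G) ⊓ Subgroup.centralizer (N : Set G) := ⟨w.2, fun n hn => by
      have := congrArg Subtype.val (hw _ ⟨⟨n, hn⟩, rfl⟩)
      exact mul_inv_eq_iff_eq_mul.1 this⟩
    rw [hdec] at h1
    exact Subtype.ext h1
  · rintro _ ⟨n, rfl⟩
    have h1 : (n : G) * t * (n : G)⁻¹ ∈ U := ⟨(Subgroup.mem_normalizer_iff.1 n.2 t).1 htS, by
      rw [conj_pow, htU.2]; simp⟩
    exact (Subgroup.mul_mem_iff_of_index_two hidx (a := ⟨_, h1⟩) (b := ⟨_, htU⟩)).2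
      (iff_of_false (hcon n n.2) htR)

end Cfsg.Agent.S1244
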