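import Mathlib
import Cfsg.Statements.S1247
import Cfsg.Agent.Comp2.Bender

set_option autoImplicit false
open Cfsg

namespace Cfsg.Agent.S1247

open Cfsg.Agent.Comp2


/-- Let G be a non-abelian finite simple group, A a maximal subgroup, F = F*(A) its generalized Fitting subgroup (viewed in G), and S ≤ F a subgroup subnormal in F with C_F(S) ≤ S. Let B be any subgroup of G containing S. Then (a) for every prime q not dividing |F(A)|, O_q(B) ∩ A = 1; and (b) for every prime p dividing |F(A)|, O_p(B) commutes elementwise with the subgroup of F generated by its elements of order prime to p. -/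
theorem result {G : Type*} [Group G] [Finite G] [IsSimpleGroup G] (hna : ¬ IsMulCommutative G) (A : Subgroup G) (hA : IsCoatom A) (S : Subgroup G) (hSF : S ≤ (Cfsg.generalizedFittingSubgroup ↥A).map A.subtype) (hSsn : (S.subgroupOf ((Cfsg.generalizedFittingSubgroup ↥A).map A.subtype)).IsSubnormal) (hSC : (Cfsg.generalizedFittingSubgroup ↥A).map A.subtype ⊓ Subgroup.centralizer (S : Set G) ≤ S) (B : Subgroup G) (hSB : S ≤ B) : (∀ q : ℕ, q.Prime → ¬ q ∣ Nat.card (Cfsg.fittingSubgroup ↥A) → (Cfsg.pCore q ↥B).map B.subtype ⊓ A = ⊥) ∧ (∀ p : ℕ, p.Prime → p ∣ Nat.card (Cfsg.fittingSubgroup ↥A) → ∀ x ∈ (Cfsg.pCore p ↥B).map B.subtype, ∀ y ∈ (Cfsg.pResidual p ↥(Cfsg.generalizedFittingSubgroup ↥A)).map ((Cfsg.generalizedFittingSubgroup ↥A).subtype) , x * (A.subtype y) = (A.subtype y) * x) := by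
  set F := (Cfsg.generalizedFittingSubgroup ↥A).map A.subtype with hF
  set E := (layer A).map A.subtype with hE
  set F₀ := (fittingSubgroup A).map A.subtype with hF₀
  have hFA : F ≤ A := Subgroup.map_subtype_le _
  have hFEF : F = E ⊔ F₀ := genFitting_map_subtype A
  have hEF : E ≤ F := hFEF ▸ le_sup_left
  have hF₀F : F₀ ≤ F := hFEF ▸ le_sup_right
  have hSA : S ≤ A := hSF.trans hFA
  have hEF₀ : ⁅E, F₀⁆ = ⊥ := by
    rw [hE, hF₀, ← Subgroup.map_commutator, layer_commutator_fitting, Subgroup.map_bot]
  have hSsA : (S.subgroupOf A).IsSubnormal := isSubnormal_subgroupOf_trans hSF hFA hSsn (by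
    rw [hF, subgroupOf_map_subtype_self]; exact Subgroup.Normal.isSubnormal inferInstance)
  have hES : E ≤ S := layer_map_subtype_le_iff.mpr fun K hKA hK => by
    rcases component_in_le_or_commutator_eq_bot hKA hK hSA hSsA with h | h
    · exact h
    · exact (le_inf ((le_layer_map_subtype hKA hK).trans hEF)
        (Subgroup.commutator_eq_bot_iff_le_centralizer.mp h)).trans hSC
  -- `S = E (S ∩ F(A))`
  have hS : S = E ⊔ (F₀ ⊓ S) := by
    rw [← Core.sup_inf_of_le_left (le_normalizer_of_commutator_eq_bot (commutator_eq_bot_comm.mp hEF₀)) hES,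
      ← hFEF, inf_eq_right.mpr hSF]
  have hFE : F ⊓ Subgroup.centralizer (E : Set G) ≤ F₀ := by
    rintro _ ⟨⟨x, hx, rfl⟩, hxE⟩
    refine ⟨x, ?_, rfl⟩
    have : x ∈ generalizedFittingSubgroup A ⊓ Subgroup.centralizer (layer A : Set A) :=
      ⟨hx, fun y hy => Subtype.ext (hxE _ ⟨y, hy, rfl⟩)⟩
    rwa [genFitting_inf_centralizer_layer] at this
  -- a solvable subgroup of `A` normalized by `S` centralizes `E`
  have hEU : ∀ U : Subgroup G, U ≤ A → Group.IsSolvable U → S ≤ Subgroup.normalizer (U : Set G) →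
      ⁅E, U⁆ = ⊥ := fun U hU hs hn =>
    layer_map_subtype_commutator_eq_bot_of_isSolvable hU hs (hES.trans hn)
  have hSO : ∀ q : ℕ, S ≤ Subgroup.normalizer (((pCore q B).map B.subtype : Subgroup G) : Set G) :=
    fun q => hSB.trans (le_normalizer_map_subtype_of_normal _)
  have hnil : Group.IsNilpotent F₀ := fitting_map_subtype_isNilpotent A
  constructor
  · intro q hq hqF
    haveI : Fact q.Prime := ⟨hq⟩
    set X := (pCore q B).map B.subtype ⊓ A with hX
    have hXq : IsPGroup q X := (pCore_map_subtype_isPGroup q B).to_le inf_le_left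
    have hSX : S ≤ Subgroup.normalizer (X : Set G) :=
      Core.le_normalizer_inf (hSO q) (hSA.trans Subgroup.le_normalizer)
    have hF₀c : (Nat.card F₀).Coprime q := by
      rw [hF₀, Core.card_map_subtype]; exact ((Nat.Prime.coprime_iff_not_dvd hq).mpr hqF).symm
    have hXE : ⁅E, X⁆ = ⊥ := hEU X inf_le_right (Core.solvable_of_isPGroup hXq) hSX
    have hXF₀ : X ≤ Subgroup.normalizer (F₀ : Set G) :=
      inf_le_right.trans (le_normalizer_map_subtype_of_normal _)
    have h1 : ⁅F₀ ⊓ S, X⁆ = ⊥ := by
      rw [eq_bot_iff, ← inf_eq_bot_of_isPGroup_of_coprime hXq hF₀c]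
      exact le_inf (Subgroup.le_normalizer_iff_commutator_le_right.mp (inf_le_right.trans hSX))
        ((Subgroup.commutator_mono inf_le_left le_rfl).trans
          (Subgroup.le_normalizer_iff_commutator_le_left.mp hXF₀))
    have h2 : ⁅F₀, X⁆ = ⊥ := by
      refine commutator_eq_bot_of_coprime_of_centralizer hnil inf_le_left hXF₀
        (coprime_card_card_of_isPGroup hXq hF₀c) h1 ?_
      refine le_trans ?_ (Subgroup.commutator_eq_bot_iff_le_centralizer.mp h1)
      refine le_inf inf_le_left (le_trans (le_inf (inf_le_left.trans hF₀F) ?_) hSC)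
      conv_rhs => rw [hS, LocalEven.centralizer_sup']
      exact le_inf (inf_le_left.trans (Subgroup.commutator_eq_bot_iff_le_centralizer.mp
        (commutator_eq_bot_comm.mp hEF₀))) inf_le_right
    have h3 : X ≤ F₀ := by
      refine le_trans (le_inf inf_le_right ?_) (inf_centralizer_genFitting_map_le A)
      rw [← hF, hFEF, LocalEven.centralizer_sup']
      exact le_inf (Subgroup.commutator_eq_bot_iff_le_centralizer.mp (commutator_eq_bot_comm.mp hXE))
        (Subgroup.commutator_eq_bot_iff_le_centralizer.mp (commutator_eq_bot_comm.mp h2))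
    exact eq_bot_of_isPGroup_of_coprime hXq (coprime_card_of_le h3 hF₀c)
  · intro p hp hpF
    haveI : Fact p.Prime := ⟨hp⟩
    set P := (pCore p B).map B.subtype with hP
    have hPp : IsPGroup p P := pCore_map_subtype_isPGroup p B
    set O := (pCore p A).map A.subtype with hO
    set Q := (fittingSubgroup A ⊓ pPrimeCore p A).map A.subtype with hQ
    have hOp : IsPGroup p O := pCore_map_subtype_isPGroup p A
    have hQc : (Nat.card Q).Coprime p :=
      coprime_card_map _ (coprime_card_of_le inf_le_right (pPrimeCore_coprime p))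
    have hF₀e : F₀ = O ⊔ Q := by
      rw [hF₀, hO, hQ, ← Subgroup.map_sup, ← fitting_eq_pCore_sup]
    have hOF₀ : O ≤ F₀ := hF₀e ▸ le_sup_left
    have hQF₀ : Q ≤ F₀ := hF₀e ▸ le_sup_right
    have hAO : A ≤ Subgroup.normalizer (O : Set G) := le_normalizer_map_subtype_of_normal _
    have hAQ : A ≤ Subgroup.normalizer (Q : Set G) := le_normalizer_map_subtype_of_normal _
    have hOQ : ⁅O, Q⁆ = ⊥ := commutator_eq_bot_of_inf_eq_bot ((hOF₀.trans (hF₀F.trans hFA)).trans hAQ)
      ((hQF₀.trans (hF₀F.trans hFA)).trans hAO) (inf_eq_bot_of_isPGroup_of_coprime hOp hQc)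
    have hEO : ⁅E, O⁆ = ⊥ := commutator_eq_bot_mono hEF₀ le_rfl hOF₀
    have hEQ : ⁅E, Q⁆ = ⊥ := commutator_eq_bot_mono hEF₀ le_rfl hQF₀
    -- the centre of a nontrivial nilpotent normal `R` with `R` one of `O`, `Q`
    have hcen : ∀ R : Subgroup G, R ≤ F₀ → R ≠ ⊥ → A ≤ Subgroup.normalizer (R : Set G) →
        R ⊓ Subgroup.centralizer (R : Set G) ≤ Subgroup.centralizer (F : Set G) →
        R ⊓ Subgroup.centralizer (R : Set G) ≤ S ∧
          Subgroup.centralizer ((R ⊓ Subgroup.centralizer (R : Set G) : Subgroup G) : Set G) ≤ A := by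
      intro R hR hne hn hc
      refine ⟨le_trans (le_inf (inf_le_left.trans (hR.trans hF₀F)) (hc.trans
        (Subgroup.centralizer_le (SetLike.coe_subset_coe.mpr hSF)))) hSC, ?_⟩
      haveI : Group.IsNilpotent R := isNilpotent_of_le hR hnil
      haveI : Nontrivial R := (Subgroup.nontrivial_iff_ne_bot R).mpr hne
      have h1 : R ⊓ Subgroup.centralizer (R : Set G) ≠ ⊥ := by
        rw [← map_center_subtype, Ne, Subgroup.map_eq_bot_iff_of_injective _ R.subtype_injective]
        exact Group.IsNilpotent.center_ne_bot R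
      rw [← normalizer_eq_of_isCoatom hA h1 (inf_le_left.trans (hR.trans (hF₀F.trans hFA)))
        (Core.le_normalizer_inf hn (Core.le_normalizer_centralizer hn))]
      exact Subgroup.centralizer_le_normalizer _
    have hO0 : O ≠ ⊥ := by
      intro h
      rw [h, bot_sup_eq] at hF₀e
      rw [← hF₀e, hF₀, Core.card_map_subtype] at hQc
      exact hp.ne_one (Nat.eq_one_of_dvd_coprimes hQc hpF dvd_rfl)
    obtain ⟨hZS, hZA⟩ := hcen O hOF₀ hO0 hAO (by
      rw [hFEF, hF₀e, LocalEven.centralizer_sup', LocalEven.centralizer_sup']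
      exact le_inf (inf_le_left.trans (Subgroup.commutator_eq_bot_iff_le_centralizer.mp
        (commutator_eq_bot_comm.mp hEO))) (le_inf inf_le_right
        (inf_le_left.trans (Subgroup.commutator_eq_bot_iff_le_centralizer.mp hOQ))))
    set Z := O ⊓ Subgroup.centralizer (O : Set G) with hZ
    have hZp : IsPGroup p Z := hOp.to_le inf_le_left
    have hUp : IsPGroup p (P ⊓ A : Subgroup G) := hPp.to_le inf_le_left
    have hSU : S ≤ Subgroup.normalizer ((P ⊓ A : Subgroup G) : Set G) :=
      Core.le_normalizer_inf (hSO p) (hSA.trans Subgroup.le_normalizer)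
    have hPE : ⁅P, E⁆ = ⊥ := by
      refine axb_perfect hZp hPp (layer_map_subtype_commutator_self A) (hZS.trans (hSO p))
        (hES.trans (hSO p)) (commutator_eq_bot_mono (commutator_eq_bot_comm.mp hEO) inf_le_left le_rfl) ?_
      exact (inf_le_inf_left _ hZA).trans (Subgroup.commutator_eq_bot_iff_le_centralizer.mp
        (commutator_eq_bot_comm.mp (hEU _ inf_le_right (Core.solvable_of_isPGroup hUp) hSU)))
    have hPQS : ⁅P, Q ⊓ S⁆ = ⊥ := by
      refine axb_coprime hZp hPp (coprime_card_of_le inf_le_left hQc) (hZS.trans (hSO p))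
        (inf_le_right.trans (hSO p)) (commutator_eq_bot_mono hOQ inf_le_left inf_le_left) ?_
      refine (inf_le_inf_left _ hZA).trans (Subgroup.commutator_eq_bot_iff_le_centralizer.mp ?_)
      rw [eq_bot_iff, ← inf_eq_bot_of_isPGroup_of_coprime hUp hQc]
      exact le_inf (Subgroup.le_normalizer_iff_commutator_le_left.mp (inf_le_right.trans hSU))
        ((Subgroup.commutator_mono le_rfl inf_le_left).trans
          (Subgroup.le_normalizer_iff_commutator_le_right.mp (inf_le_right.trans hAQ)))
    have hPQ : ⁅Q, P⁆ = ⊥ := by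
      by_cases hQ0 : Q = ⊥
      · rw [hQ0, Subgroup.commutator_bot_left]
      obtain ⟨hYS, hYA⟩ := hcen Q hQF₀ hQ0 hAQ (by
        rw [hFEF, hF₀e, LocalEven.centralizer_sup', LocalEven.centralizer_sup']
        exact le_inf (inf_le_left.trans (Subgroup.commutator_eq_bot_iff_le_centralizer.mp
          (commutator_eq_bot_comm.mp hEQ))) (le_inf
          (inf_le_left.trans (Subgroup.commutator_eq_bot_iff_le_centralizer.mp
            (commutator_eq_bot_comm.mp hOQ))) inf_le_right))
      have hPA : P ≤ A := ((Subgroup.commutator_eq_bot_iff_le_centralizer.mp hPQS).trans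
        (Subgroup.centralizer_le (SetLike.coe_subset_coe.mpr (le_inf inf_le_left hYS)))).trans hYA
      refine commutator_eq_bot_of_coprime_of_centralizer (P := Q ⊓ S) (isNilpotent_of_le hQF₀ hnil)
        inf_le_left (hPA.trans hAQ) (coprime_card_card_of_isPGroup hPp hQc)
        (commutator_eq_bot_comm.mp hPQS) ?_
      refine le_trans ?_ (Subgroup.commutator_eq_bot_iff_le_centralizer.mp
        (commutator_eq_bot_comm.mp hPQS))
      refine le_inf inf_le_left (le_trans (le_inf (inf_le_left.trans (hQF₀.trans hF₀F)) ?_) hSC)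
      have hS₀ : F₀ ⊓ S ≤ O ⊔ (Q ⊓ S) := by
        have h1 : (F₀ ⊓ S).subgroupOf A ≤ fittingSubgroup A := by
          intro x hx
          obtain ⟨y, hy, hxy⟩ := hx.1
          exact (Subtype.ext hxy : y = x) ▸ hy
        have h2 := congrArg (Subgroup.map A.subtype) (eq_inf_pCore_sup_of_le_fitting p h1)
        rw [Subgroup.subgroupOf_map_subtype, inf_eq_left.mpr (inf_le_right.trans hSA),
          Subgroup.map_sup] at h2
        refine h2.le.trans (sup_le_sup (Subgroup.map_mono inf_le_right) (le_inf
          (Subgroup.map_mono (le_inf (inf_le_left.trans h1) inf_le_right)) ?_))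
        rintro _ ⟨x, hx, rfl⟩
        exact hx.1.2
      refine le_trans ?_ (Subgroup.centralizer_le (SetLike.coe_subset_coe.mpr
        (hS.le.trans (sup_le_sup_left hS₀ E))))
      rw [LocalEven.centralizer_sup', LocalEven.centralizer_sup']
      exact le_inf (inf_le_left.trans (Subgroup.commutator_eq_bot_iff_le_centralizer.mp
          (commutator_eq_bot_comm.mp hEQ))) (le_inf
          (inf_le_left.trans (Subgroup.commutator_eq_bot_iff_le_centralizer.mp
            (commutator_eq_bot_comm.mp hOQ))) inf_le_right)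
    intro x hx y hy
    have h1 : LocalEven.pResOf p F ≤ E ⊔ Q := by
      have : F = (E ⊔ Q) ⊔ O := by rw [hFEF, hF₀e, sup_assoc, sup_comm O Q]
      rw [this]
      exact LocalEven.pResOf_sup_le hOp (Core.le_normalizer_sup
        (le_normalizer_of_commutator_eq_bot (commutator_eq_bot_comm.mp hEO))
        (le_normalizer_of_commutator_eq_bot hOQ))
    have h2 : A.subtype y ∈ LocalEven.pResOf p F := by
      rw [hF, LocalEven.pResOf_map_subtype]
      exact ⟨y, hy, rfl⟩
    have h3 : E ⊔ Q ≤ Subgroup.centralizer (P : Set G) :=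
      sup_le (Subgroup.commutator_eq_bot_iff_le_centralizer.mp (commutator_eq_bot_comm.mp hPE))
        (Subgroup.commutator_eq_bot_iff_le_centralizer.mp hPQ)
    exact h3 (h1 h2) x hx

end Cfsg.Agent.S1247
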