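import Mathlib
import Cfsg.Statements.S1253
import Cfsg.Agent.Inv.Inverted

set_option autoImplicit false
open Cfsg

namespace Cfsg.Agent.S1253

/-- Let z be an isolated involution of the finite group G with centralizer C, p an odd prime and P a Sylow p-subgroup of G normalized by z. Then P ∩ C has p-power-free index in C (it is a Sylow p-subgroup of C), and |P : C_P(z)| equals the number of elements x ∈ P with z x z⁻¹ = x⁻¹. -/
theorem result {G : Type*} [Group G] [Finite G] (z : G) (hz : Cfsg.IsIsolatedInvolution z) {p : ℕ} [Fact p.Prime] (hp : p ≠ 2) (P : Sylow p G) (hzP : z ∈ Subgroup.normalizer ((P : Subgroup G) : Set G)) : ¬ p ∣ ((P : Subgroup G) ⊓ Subgroup.centralizer ({z} : Set G)).relIndex (Subgroup.centralizer ({z} : Set G)) ∧ ((P : Subgroup G) ⊓ Subgroup.centralizer ({z} : Set G)).relIndex (P : Subgroup G) = Nat.card {x : G // x ∈ P ∧ z * x * z⁻¹ = x⁻¹} := by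
  have hzz := Inv.mul_self_of_two hz.1
  have hodd : ∀ x ∈ (P : Subgroup G), Odd (orderOf x) := fun x hx =>
    Inv.odd_orderOf_of_mem_pGroup hp P.2 hx
  have hzP' : ∀ x ∈ (P : Subgroup G), z * x * z⁻¹ ∈ (P : Subgroup G) := fun x hx =>
    LocalEven.conj_mem_of_mem_normalizer hzP hx
  set C := Subgroup.centralizer ({z} : Set G) with hC
  constructor
  · obtain ⟨Q, hQ⟩ := LocalEven.exists_isSylowIn p C
    obtain ⟨g, hg⟩ := Inv.exists_conj_le_sylow P hQ.pgrp
    refine (hQ.of_card_le inf_le_right (P.2.to_le inf_le_left) ?_).not_dvd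
    choose c hc i hi h1 h2 h3 using fun x : Q => Inv.exists_fixed_mul_inverted hodd hzz hzP'
      (hg x x.2)
    refine Nat.card_le_card_of_injective
      (fun x : Q => (⟨c x, hc x, Inv.mem_centralizer_single.2 (h1 x)⟩ :
        ((P : Subgroup G) ⊓ C : Subgroup G))) fun x y hxy => ?_
    have hxy : c x = c y := congrArg Subtype.val hxy
    have h4 : ∀ x, IsConj z ((i x)⁻¹ * z) := fun x =>
      Inv.isConj_mul_of_odd_inverts (by rw [inv_inv, conj_inv.symm, h2 x, inv_inv])
        (hodd _ (inv_mem (hi x)))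
    have h5 : (i x)⁻¹ * z * ((i y)⁻¹ * z) = g * ((x : G)⁻¹ * y) * g⁻¹ := by
      calc _ = (i x)⁻¹ * (z * (i y) * z⁻¹)⁻¹ * (z * z) := by group
        _ = (c x * i x)⁻¹ * (c y * i y) := by rw [hzz, h2 y, hxy]; group
        _ = _ := by rw [← h3, ← h3]; group
    have h6 := Inv.isolated_eq_of_commute_mul hz (h4 x) (h4 y) (Inv.isConj_conj g z) (by
      rw [h5]
      have := Inv.mem_centralizer_single.1 (hQ.le (mul_mem (inv_mem x.2) y.2))
      exact this.map (MulAut.conj g))
    have h7 : i x = i y := by simpa using h6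
    have h8 := h3 x
    rw [hxy, h7, ← h3] at h8
    exact Subtype.ext (by simpa using h8)
  · have h1 := Inv.card_eq_fixed_mul_inverted hodd hzz hzP'
    rw [← LocalEven.card_mul_relIndex (inf_le_left : (P : Subgroup G) ⊓ C ≤ P)] at h1
    exact Nat.eq_of_mul_eq_mul_left Nat.card_pos h1

end Cfsg.Agent.S1253
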