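import Mathlib
import Cfsg.Statements.S1254
import Cfsg.Agent.Inv.DihFus

set_option autoImplicit false
open Cfsg

namespace Cfsg.Agent.S1254

/-- Let X be a finite group whose Sylow 2-subgroup S is dihedral (of order at least 4). Then X has a normal 2-complement if and only if, for every Klein four-subgroup U ≤ S, the normalizer N_X(U) is generated by C_X(U) and N_S(U). -/
theorem result {X : Type*} [Group X] [Finite X] (S : Sylow 2 X) (m : ℕ) (hm : 2 ≤ m) (eS : (S : Subgroup X) ≃* DihedralGroup m) : Cfsg.HasNormalPComplement 2 X ↔ ∀ U : Subgroup X, U ≤ S → IsKleinFour U → Subgroup.normalizer (U : Set X) = Subgroup.centralizer (U : Set X) ⊔ ((S : Subgroup X) ⊓ Subgroup.normalizer (U : Set X)) := by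
  have : Fact (Nat.Prime 2) := ⟨Nat.prime_two⟩
  obtain ⟨x, y, n, h⟩ := Inv.exists_dih S.2 hm eS
  constructor
  · intro hN U hUS _
    obtain ⟨N, hNn, hc⟩ := (Transfer.hasNormalPComplement_iff_sylow S).1 hN
    refine le_antisymm (fun g hg => ?_) (sup_le (Subgroup.centralizer_le_normalizer _) inf_le_right)
    obtain ⟨⟨⟨k, hk⟩, ⟨s, hs⟩⟩, rfl, -⟩ := hc.existsUnique g
    have h1 : k * s ∈ Subgroup.normalizer (U : Set X) := hg
    have h2 : ∀ u ∈ U, s * u * s⁻¹ = k * s * u * (k * s)⁻¹ := fun u hu => by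
      have h3 : k * s * u * (k * s)⁻¹ * (s * u * s⁻¹)⁻¹ ∈ N := by
        have := mul_mem hk (hNn.conj_mem _ (inv_mem hk) (s * u * s⁻¹))
        simpa [mul_assoc] using this
      have h4 := Subgroup.disjoint_def.1 hc.disjoint h3 (mul_mem
        (hUS (LocalEven.conj_mem_of_mem_normalizer h1 hu))
        (inv_mem (mul_mem (mul_mem hs (hUS hu)) (inv_mem hs))))
      exact (mul_inv_eq_one.1 h4).symm
    have h3 : s ∈ Subgroup.normalizer (U : Set X) :=
      LocalEven.mem_normalizer_of_cj_le (LocalEven.cj_le_iff'.2 fun u hu =>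
        h2 u hu ▸ LocalEven.conj_mem_of_mem_normalizer h1 hu)
    refine mul_mem (Subgroup.mem_sup_left fun u hu => ?_) (Subgroup.mem_sup_right ⟨hs, h3⟩)
    have h4 := h2 _ (LocalEven.inv_conj_mem_of_mem_normalizer h3 hu)
    refine (Inv.commute_iff_conj.2 ?_).symm
    calc k * u * k⁻¹ = k * s * (s⁻¹ * u * s) * (k * s)⁻¹ := by group
      _ = u := by rw [← h4]; group
  · intro hU
    refine Inv.npc_of_no_essential S (h.no_essential (fun T h1 h2 g hg hodd => ?_)
      fun Q h1 e => (h.no_q8 h1 e).elim)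
    exact Inv.mem_of_odd_of_mem_sup (S.2.to_le inf_le_left)
      (inf_le_right.trans (LocalEven.normalizer_le_normalizer_centralizer T)) (hU T h1 h2 ▸ hg) hodd

end Cfsg.Agent.S1254
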