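import Mathlib
import Cfsg.Statements.S1255
import Cfsg.Agent.Inv.DihFus

set_option autoImplicit false
open Cfsg

namespace Cfsg.Agent.S1255

/-- Let X be a finite group whose Sylow 2-subgroup S is dihedral of order 2m ≥ 4. Then X has no subgroup of index 2 and no isolated involution if and only if either all involutions of X are conjugate, or for every Klein four-subgroup U ≤ S the index |N_X(U) : C_X(U)| equals 3 when |S| = 4 and equals 6 when |S| > 4. -/
theorem result {X : Type*} [Group X] [Finite X] (S : Sylow 2 X) (m : ℕ) (hm : 2 ≤ m) (eS : (S : Subgroup X) ≃* DihedralGroup m) : ((∀ H : Subgroup X, H.index ≠ 2) ∧ (∀ z : X, ¬ Cfsg.IsIsolatedInvolution z)) ↔ ((∀ a b : X, orderOf a = 2 → orderOf b = 2 → IsConj a b) ∨ (∀ U : Subgroup X, U ≤ S → IsKleinFour U → (Subgroup.centralizer (U : Set X)).relIndex (Subgroup.normalizer (U : Set X)) = (if Nat.card S = 4 then 3 else 6))) := by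
  have : Fact (Nat.Prime 2) := ⟨Nat.prime_two⟩
  obtain ⟨x, y, n, h⟩ := Inv.exists_dih S.2 hm eS
  constructor
  · rintro ⟨h1, -⟩
    exact Or.inl fun a b ha hb => (h.isConj_of_not_oddC (h.not_oddC h1) ha).symm.trans
      (h.isConj_of_not_oddC (h.not_oddC h1) hb)
  · intro h1
    have h2 : ∀ a b : X, orderOf a = 2 → orderOf b = 2 → IsConj a b := by
      refine h1.elim id fun h1 a b ha hb => ?_
      have h3 : ∀ U : Subgroup X, U ≤ S → IsKleinFour U → ¬ Inv.OddC U := fun U h3 h4 => by
        have := h1 U h3 h4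
        split_ifs at this
        exacts [Inv.not_oddC_of_le le_rfl (j := 1) this, Inv.not_oddC_of_le le_rfl (j := 2) this]
      exact (h.isConj_of_not_oddC h3 ha).symm.trans (h.isConj_of_not_oddC h3 hb)
    refine ⟨fun H hH => ?_, fun z hz => h.z_ne ?_⟩
    · have hn := Subgroup.normal_of_index_eq_two hH
      have h3 : ∃ t ∈ H, orderOf t = 2 := by
        by_cases h3 : y ∈ H
        · exact ⟨y, h3, h.y_two⟩
        by_cases h4 : x ^ 2 ^ n ∈ H
        · exact ⟨_, h4, h.z_two⟩
        exact ⟨_, (Subgroup.mul_mem_iff_of_index_two hH).2 (iff_of_false h4 h3),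
          (h.change (mul_mem h.z_mem h.y_mem) (h.mul_not_mem (Inv.MC.z_memX x n))).y_two⟩
      obtain ⟨t, ht, ht2⟩ := h3
      have h4 : ∀ a, orderOf a = 2 → a ∈ H := fun a ha => by
        obtain ⟨g, rfl⟩ := isConj_iff.1 (h2 t a ht2 ha)
        exact hn.conj_mem t ht g
      have h5 := h.le_of_mem (N := H)
        (by simpa using mul_mem (h4 _ h.change_xy.y_two) (inv_mem (h4 _ h.y_two))) (h4 _ h.y_two)
      exact S.not_dvd_index ((dvd_of_eq hH.symm).trans (Subgroup.index_dvd_of_le h5))
    · exact (Inv.isolated_eq (Inv.isolated_conj hz (h2 _ _ hz.1 h.z_two)) (h2 _ _ h.z_two h.y_two)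
        (h.commute_z h.y_mem).symm).symm

end Cfsg.Agent.S1255
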