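import Mathlib
import Cfsg.Statements.S1256
import Cfsg.Agent.Inv.DihFus
import Cfsg.Agent.Inv.AlperinSub

set_option autoImplicit false
open Cfsg

namespace Cfsg.Agent.S1256

/-- Let X be a finite group whose Sylow 2-subgroup S is dihedral of order 2m ≥ 4. If |S| = 4, any two Klein four-subgroups of X are conjugate; if |S| > 4, there are Klein four-subgroups U₁, U₂ of X that are not conjugate, and every Klein four-subgroup of X is conjugate to U₁ or to U₂. -/
theorem result {X : Type*} [Group X] [Finite X] (S : Sylow 2 X) (m : ℕ) (hm : 2 ≤ m) (eS : (S : Subgroup X) ≃* DihedralGroup m) : (Nat.card S = 4 → ∀ U V : Subgroup X, IsKleinFour U → IsKleinFour V → (∃ x : X, U.map (MulAut.conj x).toMonoidHom = V)) ∧ (4 < Nat.card S → ∃ U₁ U₂ : Subgroup X, IsKleinFour U₁ ∧ IsKleinFour U₂ ∧ ¬ (∃ x : X, U₁.map (MulAut.conj x).toMonoidHom = U₂) ∧ ∀ V : Subgroup X, IsKleinFour V → (∃ x : X, V.map (MulAut.conj x).toMonoidHom = U₁) ∨ (∃ x : X, V.map (MulAut.conj x).toMonoidHom =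 U₂)) := by
  have : Fact (Nat.Prime 2) := ⟨Nat.prime_two⟩
  obtain ⟨x, y, n, h⟩ := Inv.exists_dih S.2 hm eS
  have key : ∀ V : Subgroup X, IsKleinFour V → ∃ g, LocalEven.cj g V ≤ S := fun V hV =>
    (Inv.exists_conj_le_sylow S (Inv.four_isPGroup hV)).imp fun _ => LocalEven.cj_le_iff'.2
  constructor
  · intro h4 U V hU hV
    obtain ⟨g, hg⟩ := key U hU
    obtain ⟨k, hk⟩ := key V hV
    have e1 := LocalEven.eq_of_le_of_card_le hg (by rw [h4, LocalEven.card_cj, Inv.four_card hU])
    have e2 := LocalEven.eq_of_le_of_card_le hk (by rw [h4, LocalEven.card_cj, Inv.four_card hV])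
    refine ⟨k⁻¹ * g, ?_⟩
    change LocalEven.cj _ _ = _
    rw [LocalEven.cj_mul, e1, ← e2, LocalEven.cj_inv_cj]
  · intro h4
    obtain ⟨n, rfl⟩ : ∃ m, n = m + 1 := by
      rcases n with _ | n
      · rw [h.card] at h4; omega
      · exact ⟨n, rfl⟩
    have h' := h.change_xy
    refine ⟨_, _, h.four h.yy, h'.four h'.yy, ?_, fun V hV => ?_⟩
    · rintro ⟨g, hg⟩
      change LocalEven.cj _ _ = _ at hg
      have hM := h.relIndex_max h.y_sq_mem
      have := Inv.alperin_sub S (fun A => IsKleinFour A ∧ A ≤ Subgroup.closure {x * x, y})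
        (fun s hs A hA => ?_) (fun B hB hC _ g hg hodd hgC A hA => ?_) h.four_le (hg ▸ h'.four_le)
      · rw [hg] at this
        refine h.xy_not_mem_max h.y_sq_mem ((this.mpr ⟨h.four h.yy, ?_⟩).2
          (Subgroup.subset_closure (by simp)))
        rw [Subgroup.closure_le, Set.pair_subset_iff]
        exact ⟨Inv.MC.sq_le_max x y (Inv.MC.w_mem_sq x n), Inv.MC.y_mem_max x y⟩
      · refine propext (and_congr ⟨fun h1 => ?_, fun h1 => Inv.four_cj h1 s⟩ ?_)
        · exact LocalEven.cj_inv_cj s A ▸ Inv.four_cj h1 s⁻¹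
        · rw [LocalEven.cj_le_iff']
          exact forall₂_congr fun a ha => Inv.conj_mem_iff_of_relIndex_two hM hs (hA ha)
      · obtain ⟨t, ht, ht', h1⟩ := h.essential hB (hC ⟨h.z_mem, fun b hb => h.commute_z (hB hb)⟩)
          hg (Nat.coprime_two_right.1 hodd) hgC
        have h2 : IsKleinFour B := h1 ▸ (h.change ht ht').four (h.sq_one ht ht')
        by_cases h3 : IsKleinFour A
        · obtain rfl := LocalEven.eq_of_le_of_card_le hA (by rw [Inv.four_card h2, Inv.four_card h3])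
          rw [LocalEven.cj_eq_of_mem_normalizer hg]
        · refine propext (iff_of_false (fun h4 => h3 ?_) fun h4 => h3 h4.1)
          exact LocalEven.cj_inv_cj g A ▸ Inv.four_cj h4.1 g⁻¹
    · obtain ⟨g, hg⟩ := key V hV
      rcases h.four_cases (Inv.four_cj hV g) hg with ⟨s, -, h1⟩ | ⟨-, s, -, h1⟩
      · exact Or.inl ⟨s⁻¹ * g, by
          change LocalEven.cj _ _ = _
          rw [LocalEven.cj_mul, ← h1, LocalEven.cj_inv_cj]⟩
      · exact Or.inr ⟨s⁻¹ * g, by
          change LocalEven.cj _ _ = _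
          rw [LocalEven.cj_mul, ← h1, LocalEven.cj_inv_cj]⟩

end Cfsg.Agent.S1256
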