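import Mathlib
import Cfsg.Statements.S1258
import Cfsg.Agent.Comp2.Quasisimple

set_option autoImplicit false
open Cfsg

namespace Cfsg.Agent.S1258

open Cfsg.Agent.Comp2


/-- If the central quotient of a finite group X is non-abelian simple, then X = X' Z(X) and the commutator subgroup X' is quasisimple. -/
theorem result {X : Type*} [Group X] [Finite X] (hs : IsSimpleGroup (X ⧸ Subgroup.center X)) (hna : ¬ IsMulCommutative (X ⧸ Subgroup.center X)) : commutator X ⊔ Subgroup.center X = ⊤ ∧ Cfsg.IsQuasisimple ↥(commutator X) := by
  exact commutator_quasisimple_of_central_quotient hs hna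

end Cfsg.Agent.S1258
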