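import Mathlib
import Cfsg.Statements.S1263
import Cfsg.Agent.Comp2.GenFitting

set_option autoImplicit false
open Cfsg

namespace Cfsg.Agent.S1263

open Cfsg.Agent.Comp2


/-- For a finite group G, Z(E(G)) is the subgroup generated by the centres Z(L) of the components L of G (all viewed as subgroups of G). -/
theorem result {G : Type*} [Group G] [Finite G] : (Subgroup.center ↥(Cfsg.layer G)).map (Cfsg.layer G).subtype = ⨆ L : {K : Subgroup G // Cfsg.IsComponent K}, (Subgroup.center ↥(L : Subgroup G)).map (L : Subgroup G).subtype := by
  rw [map_center_subtype]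
  simp only [map_center_subtype]
  apply le_antisymm
  · rintro x ⟨hx, hc⟩
    have := mem_iSup_center_of_mem_sSup (S := {K : Subgroup G | IsComponent K}) (Set.toFinite _)
      (fun K hK => hK) x hx
      (fun K hK => Subgroup.centralizer_le (component_le_layer hK) hc)
    refine SetLike.le_def.mp (iSup₂_le fun K hK => ?_) this
    exact le_iSup (fun L : {K : Subgroup G // IsComponent K} =>
      (L : Subgroup G) ⊓ Subgroup.centralizer ((L : Subgroup G) : Set G)) ⟨K, hK⟩
  · refine iSup_le fun L => le_inf (inf_le_left.trans (component_le_layer L.2)) ?_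
    rw [Subgroup.le_centralizer_iff, layer_le_iff]
    intro K hK
    rw [Subgroup.le_centralizer_iff]
    by_cases h : (L : Subgroup G) = K
    · rw [← h]; exact inf_le_right
    · exact inf_le_left.trans (Subgroup.commutator_eq_bot_iff_le_centralizer.mp
        (component_commutator_eq_bot_of_ne L.2 hK h))

end Cfsg.Agent.S1263
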