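import Mathlib
import Cfsg.Statements.S1267
import Cfsg.Agent.Comp2.AxB

set_option autoImplicit false
open Cfsg

namespace Cfsg.Agent.S1267

open Cfsg.Agent.Comp2


/-- Let G be finite and P ≤ O_p(G). Then E(N_G(P)) = E(G). -/
theorem result {G : Type*} [Group G] [Finite G] (p : ℕ) [Fact p.Prime] (P : Subgroup G) (hP : P ≤ Cfsg.pCore p G) : (Cfsg.layer ↥(Subgroup.normalizer ((P : Subgroup G) : Set G))).map (Subgroup.normalizer ((P : Subgroup G) : Set G)).subtype = Cfsg.layer G := by
  have hPp : IsPGroup p P := (pCore_isPGroup p).to_le hP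
  have hC : Subgroup.centralizer (pCore p G : Set G) ≤ Subgroup.normalizer (P : Set G) :=
    (Subgroup.centralizer_le hP).trans (Subgroup.centralizer_le_normalizer _)
  have hE : layer G ≤ Subgroup.centralizer (pCore p G : Set G) :=
    layer_le_centralizer_fitting.trans (Subgroup.centralizer_le (pCore_le_fitting p))
  apply le_antisymm _ (layer_le_layer_map_subtype (hE.trans hC))
  refine layer_map_subtype_le_iff.mpr fun K hK hc => ?_
  have h1 : K ≤ Subgroup.centralizer (pCore p G : Set G) :=
    (le_layer_map_subtype hK hc).trans ((Subgroup.map_mono (layer_le_pE p)).trans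
      (pE_normalizer_le_centralizer_pCore p hPp))
  exact component_le_layer (component_of_subgroupOf (Subgroup.Normal.isSubnormal inferInstance)
    h1 (component_subgroupOf_of_le h1 hC hc))

end Cfsg.Agent.S1267
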