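import Mathlib
import Cfsg.Statements.S1271
import Cfsg.Agent.Comp2.Balance2

set_option autoImplicit false
open Cfsg

namespace Cfsg.Agent.S1271

open Cfsg.Agent.Comp2


/-- Let G be finite with O_{p'}(G) = 1. Suppose that for every component L of G and every subgroup H ≥ L in which L is normal, the quotient H / C_H(L) is balanced for the prime p. Then G is balanced for p. -/
theorem result {G : Type*} [Group G] [Finite G] (p : ℕ) [Fact p.Prime] (hO : Cfsg.pPrimeCore p G = ⊥) (h : ∀ L : Subgroup G, Cfsg.IsComponent L → ∀ H : Subgroup G, L ≤ H → (L.subgroupOf H).Normal → ∀ [((Subgroup.centralizer (L : Set G)).subgroupOf H).Normal], Cfsg.IsBalancedFor p (↥H ⧸ (Subgroup.centralizer (L : Set G)).subgroupOf H)) : Cfsg.IsBalancedFor p G := by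
  intro x hx
  have hx1 : orderOf x = p ^ 1 := by simpa using hx
  rw [eq_bot_of_centralizes_pCore_of_components hO (centralizerPPrimeCore_coprime x)
    (centralizerPPrimeCore_le_centralizer_pCore hx1) fun K hK => ?_]
  · exact bot_le
  by_cases hne : ⁅K, Subgroup.zpowers x⁆ = K
  swap
  · exact component_commutator_centralizerPPrimeCore hO hx hK hne
  have hxK := mem_normalizer_of_commutator_zpowers_eq hne
  set H := K ⊔ (Subgroup.centralizer {x} ⊓ Subgroup.normalizer (K : Set G)) with hH
  have hHK : H ≤ Subgroup.normalizer (K : Set G) := sup_le Subgroup.le_normalizer inf_le_right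
  have hxH : x ∈ H := (le_sup_right : _ ≤ H) ⟨Subgroup.mem_centralizer_singleton_iff.mpr rfl, hxK⟩
  have hYH : centralizerPPrimeCore p x ≤ H := (le_inf (centralizerPPrimeCore_le x)
    (centralizerPPrimeCore_le_normalizer_component hO hx1 hK)).trans le_sup_right
  haveI : ((Subgroup.centralizer (K : Set G)).subgroupOf H).Normal :=
    PGrp.normal_subgroupOf_of_le_normalizer (Core.le_normalizer_centralizer hHK)
  have hb := h K hK H le_sup_left ((Subgroup.normal_subgroupOf_iff_le_normalizer le_sup_left).mpr hHK)
  set f := QuotientGroup.mk' ((Subgroup.centralizer (K : Set G)).subgroupOf H) with hf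
  have hker : f.ker ≤ (Subgroup.centralizer (K : Set G)).subgroupOf H := by rw [hf, QuotientGroup.ker_mk']
  refine commutator_eq_bot_of_map_le_pPrimeCore hO hK le_sup_left f (QuotientGroup.mk'_surjective _)
    hker hYH ((map_centralizerPPrimeCore_le_of_component hO hK (x := ⟨x, hxH⟩) hx1 hxK le_rfl f
      (QuotientGroup.mk'_surjective _) hker).trans (hb _ ?_))
  refine orderOf_eq_prime ?_ fun e => ?_
  · rw [← map_pow, show (⟨x, hxH⟩ : H) ^ p = 1 from Subtype.ext (by
      simp only [SubmonoidClass.mk_pow, OneMemClass.coe_one]; rw [← hx]; exact pow_orderOf_eq_one x), map_one]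
  · have h3 : ⁅K, Subgroup.zpowers x⁆ = ⊥ := commutator_eq_bot_comm.mp
      (Subgroup.commutator_eq_bot_iff_le_centralizer.mpr (Subgroup.zpowers_le.mpr (hker e)))
    exact component_ne_bot hK (hne.symm.trans h3)

end Cfsg.Agent.S1271
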