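import Mathlib
import Cfsg.Statements.S1278
import Cfsg.Agent.Comp2.PLayer

set_option autoImplicit false
open Cfsg

namespace Cfsg.Agent.S1278

open Cfsg.Agent.Comp2


/-- Let K ≠ L be 2-components of the finite group X. Then ⁅K, L⁆ ≤ O(K) ⊓ O(L), and if K is quasisimple then ⁅K, L⁆ = 1. -/
theorem result {X : Type*} [Group X] [Finite X] (K L : Subgroup X) (hK : Cfsg.IsPComponent 2 K) (hL : Cfsg.IsPComponent 2 L) (hne : K ≠ L) : ⁅K, L⁆ ≤ ((Cfsg.oddCore ↥K).map K.subtype) ⊓ ((Cfsg.oddCore ↥L).map L.subtype) ∧ (Cfsg.IsQuasisimple ↥K → ⁅K, L⁆ = ⊥) := by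
  have h1 := pComponent_commutator_le_of_ne hK hL hne
  constructor
  · rw [pPrimeCore_map_subtype_eq_inf 2 hK.1, pPrimeCore_map_subtype_eq_inf 2 hL.1]
    exact le_inf (le_inf h1 (Subgroup.le_normalizer_iff_commutator_le_left.mp
      (pComponent_le_normalizer hK hL))) (le_inf h1
      (Subgroup.le_normalizer_iff_commutator_le_right.mp (pComponent_le_normalizer hL hK)))
  · intro hq
    exact (component_le_or_commutator_eq_bot ⟨hK.1, hq⟩ hL.1).resolve_left
      fun h => hne (pComponent_eq_of_le hK hL h)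

end Cfsg.Agent.S1278
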