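import Mathlib
import Cfsg.Statements.S1279
import Cfsg.Agent.Comp2.Sig2

set_option autoImplicit false
open Cfsg

namespace Cfsg.Agent.S1279

open Cfsg.Agent.Comp2


/-- Let A be a noncyclic elementary abelian p-subgroup of the finite group G such that C_G(a) is solvable for every non-identity a ∈ A. Then a ↦ O_{p'}(C_G(a)) is a solvable A-signalizer functor on G. -/
theorem result {G : Type*} [Group G] [Finite G] (p : ℕ) [Fact p.Prime] (A : Subgroup G) (hA : Cfsg.IsElementaryAbelian p A) (hA2 : p ^ 2 ≤ Nat.card ↥A) (hsolv : ∀ a ∈ A, a ≠ 1 → Group.IsSolvable ↥(Subgroup.centralizer ({a} : Set G))) : Cfsg.IsSolvableSignalizerFunctor p A (fun a => Cfsg.centralizerPPrimeCore p a) := by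
  refine ⟨⟨fun a _ _ => centralizerPPrimeCore_le a, fun a _ _ =>
    (Nat.Prime.coprime_iff_not_dvd Fact.out).1 (centralizerPPrimeCore_coprime a).symm,
    fun a ha _ b hb x hx => Core.conj_mem_of_le_normalizer
      (centralizer_le_normalizer_centralizerPPrimeCore a) (elem_le_centralizer_singleton hA ha hb) hx,
    fun a ha ha1 b hb hb1 => ?_⟩, fun a ha ha1 =>
      Core.solvable_of_le (centralizerPPrimeCore_le a) (hsolv a ha ha1)⟩
  exact centralizerPPrimeCore_inf_le_of_constrained (k := 1)
    (by rw [pow_one]; exact orderOf_eq_of_elementary hA ha ha1) (elem_comm hA ha hb)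
    (Core.isPConstrained_of_solvable p (hsolv b hb hb1))

end Cfsg.Agent.S1279
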