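import Mathlib
import Cfsg.Statements.S1286
import Cfsg.Agent.Comp2.Sig1

set_option autoImplicit false
open Cfsg

namespace Cfsg.Agent.S1286

open Cfsg.Agent.Comp2

open Subgroup Equiv

def a : Perm (Fin 5) := swap 0 1
def b : Perm (Fin 5) := swap 2 3
def u : Perm (Fin 5) := swap 2 3 * swap 3 4
def v : Perm (Fin 5) := swap 0 1 * swap 1 4

def A : Subgroup (Perm (Fin 5)) where
  carrier := {x | x = 1 ∨ x = a ∨ x = b ∨ x = a * b}
  one_mem' := Or.inl rfl
  mul_mem' := by
    rintro _ _ (rfl | rfl | rfl | rfl) (rfl | rfl | rfl | rfl) <;>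
      simp only [Set.mem_setOf_eq] <;> decide
  inv_mem' := by
    rintro _ (rfl | rfl | rfl | rfl) <;> simp only [Set.mem_setOf_eq] <;> decide

def C (w : Perm (Fin 5)) (h : w * w * w = 1) : Subgroup (Perm (Fin 5)) where
  carrier := {x | x = 1 ∨ x = w ∨ x = w * w}
  one_mem' := Or.inl rfl
  mul_mem' := by
    rintro _ _ (rfl | rfl | rfl) (rfl | rfl | rfl) <;> simp only [Set.mem_setOf_eq] <;>
      simp [h, ← mul_assoc]
  inv_mem' := by
    rintro _ (rfl | rfl | rfl) <;> simp only [Set.mem_setOf_eq]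
    · simp
    · exact Or.inr (Or.inr (inv_eq_of_mul_eq_one_left h))
    · exact Or.inr (Or.inl (inv_eq_of_mul_eq_one_right h))

def th (x : Perm (Fin 5)) : Subgroup (Perm (Fin 5)) :=
  if x = a then C u (by decide) else if x = b then C v (by decide) else ⊥

theorem th_a : th a = C u (by decide) := if_pos rfl
theorem th_b : th b = C v (by decide) := (if_neg (by decide)).trans (if_pos rfl)
theorem th_ab : th (a * b) = ⊥ := (if_neg (by decide)).trans (if_neg (by decide))

theorem cardC (w : Perm (Fin 5)) (h : w * w * w = 1) (h1 : w ≠ 1) : Nat.card (C w h) = 3 := by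
  have e : C w h = zpowers w := le_antisymm (by
    rintro _ (rfl | rfl | rfl)
    · exact one_mem _
    · exact mem_zpowers _
    · exact mul_mem (mem_zpowers _) (mem_zpowers _)) (zpowers_le.2 (Or.inr (Or.inl rfl)))
  haveI : Fact (Nat.Prime 3) := ⟨Nat.prime_three⟩
  rw [e, Nat.card_zpowers, orderOf_eq_prime (by rw [pow_three', h]) h1]

/-- There exist a finite group X, an elementary abelian subgroup A of order 4 and a solvable A-signalizer functor θ on X for the prime 2 which is not complete. -/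
theorem result : ∃ (X : Type) (_ : Group X) (_ : Finite X) (A : Subgroup X) (θ : X → Subgroup X), Cfsg.IsElementaryAbelian 2 A ∧ Nat.card ↥A = 4 ∧ Cfsg.IsSolvableSignalizerFunctor 2 A θ ∧ ¬ Cfsg.IsCompleteSignalizerFunctor 2 A θ := by
  haveI : Fact (Nat.Prime 3) := ⟨Nat.prime_three⟩
  have hs : ∀ w h, w ≠ 1 → Group.IsSolvable (C w h) := fun w h h1 =>
    haveI := isCyclic_of_prime_card (cardC w h h1)
    Group.isSolvable_of_comm fun x y => IsCyclic.isMulCommutative.is_comm.comm x y
  refine ⟨Perm (Fin 5), inferInstance, inferInstance, A, th, ⟨⟨⟨?_⟩⟩, ?_⟩, ?_, ⟨⟨?_, ?_, ?_, ?_⟩, ?_⟩, ?_⟩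
  · rintro ⟨_, rfl | rfl | rfl | rfl⟩ ⟨_, rfl | rfl | rfl | rfl⟩ <;> refine Subtype.ext ?_ <;>
      simp only [coe_mul] <;> decide
  · rintro _ (rfl | rfl | rfl | rfl) <;> decide
  · have : (A : Set (Perm (Fin 5))) = ({1, a, b, a * b} : Finset (Perm (Fin 5))) := by
      ext x; simp [A]
    rw [← SetLike.coe_sort_coe, this, Nat.card_coe_set_eq, Set.ncard_coe_finset]
    decide
  · rintro _ (rfl | rfl | rfl | rfl) h1
    · exact absurd rfl h1
    · rw [th_a]; rintro _ (rfl | rfl | rfl) <;> rw [mem_centralizer_singleton_iff] <;> decide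
    · rw [th_b]; rintro _ (rfl | rfl | rfl) <;> rw [mem_centralizer_singleton_iff] <;> decide
    · rw [th_ab]; exact bot_le
  · rintro _ (rfl | rfl | rfl | rfl) h1
    · exact absurd rfl h1
    · rw [th_a, cardC _ _ (by decide)]; decide
    · rw [th_b, cardC _ _ (by decide)]; decide
    · rw [th_ab, card_bot]; decide
  · rintro _ (rfl | rfl | rfl | rfl) h1
    · exact absurd rfl h1
    · rw [th_a]
      rintro _ (rfl | rfl | rfl | rfl) _ (rfl | rfl | rfl) <;> change _ ∨ _ ∨ _ <;> decide
    · rw [th_b]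
      rintro _ (rfl | rfl | rfl | rfl) _ (rfl | rfl | rfl) <;> change _ ∨ _ ∨ _ <;> decide
    · rw [th_ab]
      rintro y - _ rfl
      simp
  · rintro _ (rfl | rfl | rfl | rfl) h1
    · exact absurd rfl h1
    · rintro _ (rfl | rfl | rfl | rfl) h2
      · exact absurd rfl h2
      · exact inf_le_left
      all_goals
        rw [th_a]
        rintro _ ⟨rfl | rfl | rfl, h⟩
        · exact one_mem _
        all_goals exact absurd (mem_centralizer_singleton_iff.1 h) (by decide)
    · rintro _ (rfl | rfl | rfl | rfl) h2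
      · exact absurd rfl h2
      swap
      · exact inf_le_left
      all_goals
        rw [th_b]
        rintro _ ⟨rfl | rfl | rfl, h⟩
        · exact one_mem _
        all_goals exact absurd (mem_centralizer_singleton_iff.1 h) (by decide)
    · rw [th_ab]; exact fun _ _ _ => inf_le_left.trans bot_le
  · rintro _ (rfl | rfl | rfl | rfl) h1
    · exact absurd rfl h1
    · rw [th_a]; exact hs _ _ (by decide)
    · rw [th_b]; exact hs _ _ (by decide)
    · rw [th_ab]; infer_instance
  · rintro ⟨-, X, -, hX, h⟩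
    have h1 : u ∈ X := ((h a (Or.inr (Or.inl rfl)) (by decide)).ge
      (by rw [th_a]; exact Or.inr (Or.inl rfl))).1
    have h2 : v ∈ X := ((h b (Or.inr (Or.inr (Or.inl rfl))) (by decide)).ge
      (by rw [th_b]; exact Or.inr (Or.inl rfl))).1
    have h3 : orderOf (u * v * u * v⁻¹) = 2 := orderOf_eq_prime (by decide) (by decide)
    exact hX (h3 ▸ orderOf_dvd_natCard X
      (mul_mem (mul_mem (mul_mem h1 h2) h1) (inv_mem h2)))

end Cfsg.Agent.S1286
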