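import Mathlib
import Cfsg.Statements.S1288
import Cfsg.Agent.Comp2.Ssft2

set_option autoImplicit false
open Cfsg

namespace Cfsg.Agent.S1288

open Cfsg.Agent.Comp2

open Cfsg.Agent.BG Cfsg.Agent.BG.QuoApi Subgroup

/-- Let A be a noncyclic elementary abelian p-subgroup of a finite group H normalizing a solvable subgroup K of order prime to p, q a prime dividing |K|, and U ≤ K a subgroup of order prime to q such that ⁅U, C_K(B)⁆ has order prime to q for every subgroup B of index p in A. Then U ≤ O_{q'}(K). -/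
theorem result {H : Type*} [Group H] [Finite H] (p : ℕ) [Fact p.Prime] (A K : Subgroup H) (hA : Cfsg.IsElementaryAbelian p A) (hA2 : p ^ 2 ≤ Nat.card ↥A) (hK : ¬ p ∣ Nat.card ↥K) (hKs : Group.IsSolvable ↥K) (hAK : A ≤ Subgroup.normalizer (K : Set H)) (q : ℕ) [Fact q.Prime] (hqK : q ∣ Nat.card ↥K) (U : Subgroup H) (hU : U ≤ K) (hUq : ¬ q ∣ Nat.card ↥U) (hcomm : ∀ B : Subgroup H, B ≤ A → B.relIndex A = p → ¬ q ∣ Nat.card ↥⁅U, K ⊓ Subgroup.centralizer (B : Set H)⁆) : U ≤ (Cfsg.pPrimeCore q ↥K).map K.subtype := by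
  have hq : q.Prime := Fact.out
  rw [← Amb.piCoreOf_compl_eq hq]
  set N := piCoreOf {q}ᶜ K
  have hKN : K ≤ 𝐍(N) := Amb.le_norm_piCoreOf _ _
  have hAN : A ≤ 𝐍(N) := Amb.le_norm_piCoreOf_of _ hAK
  have hNK : N ≤ K := Amb.piCoreOf_le _ _
  have hNp : ¬ p ∣ Nat.card N := fun h => hK (h.trans (card_dvd_of_le hNK))
  haveI := hKs
  have hF : fittingOf (quo N K) = piCoreOf {q} (quo N K) :=
    Amb.fittingOf_eq_piCoreOf (piCoreOf_quo_piCoreOf _ K)
  have hFK := Amb.fittingOf_le (quo N K)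
  have hUq' := isPiSubgroup_quo ((Amb.pi_compl_singleton hq).2 hUq) N
  have hd : A ⊓ N = ⊥ := Amb.pi_inf_eq_bot (π := {p})
    (Amb.isPGroup_iff_pi.1 (Rank.elem_isPGroup hA)) ((Amb.pi_compl_singleton Fact.out).2 hNp)
  have hc : fittingOf (quo N K) ≤ 𝐂(quo N U) := by
    refine le_of_hyperplanes (elem_quo hA N) (mt (quo_eq_bot_iff hAN).1 fun h =>
      ne_bot_of_pow_le (k := 1) hA2 (le_bot_iff.1 ((le_inf le_rfl h).trans hd.le)))
      (Amb.le_norm_fittingOf_of (quo_le_normalizer hAK))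
      (fun h => hK ((h.trans (card_dvd_of_le hFK)).trans (card_quo_dvd _ _))) fun B' hB' hi => ?_
    have hB : coquo N B' ⊓ A ≤ A := inf_le_right
    have e : quo N (coquo N B' ⊓ A) = B' := by
      rw [quo_inf_of_le_left (le_coquo _), quo_coquo, inf_eq_left.2 hB']
    have hi' : (coquo N B' ⊓ A).relIndex A = p := by
      rw [inf_relIndex_right, relIndex_coquo _ hAN, hi]
    generalize coquo N B' ⊓ A = B at hB e hi'
    subst e
    refine Amb.le_cent_of_comm_le (X := fittingOf (quo N K)) (Y := quo N ⁅U, K ⊓ 𝐂(B)⁆)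
      (Amb.comm_le_of_left_le inf_le_left ((quo_mono hU).trans (Amb.le_norm_fittingOf _))) ?_ ?_
    · rw [quo_commutator (hU.trans hKN) (inf_le_left.trans hKN), commutator_comm,
        coprime_quo_cent (hB.trans hAK) (hB.trans hAN)
          (Core.coprime_of_le_right (elem_coprime hA hNp).symm hB) (Amb.solvable_mono hKs hNK)]
      exact commutator_mono le_rfl (inf_le_inf_right _ hFK)
    · rw [hF]
      exact Amb.pi_inf_eq_bot (Amb.piCoreOf_pi _ _)
        (isPiSubgroup_quo ((Amb.pi_compl_singleton hq).2 (hcomm B hB hi')) N)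
  have h1 : quo N U ≤ piCoreOf {q} (quo N K) := hF ▸ (le_inf (quo_mono hU) (Amb.le_cent_symm hc)).trans
    (Amb.cent_fittingOf_le (isSolvable_quo N))
  exact (quo_eq_bot_iff (hU.trans hKN)).1 (Amb.pi_eq_bot (Amb.pi_mono (Amb.piCoreOf_pi _ _) h1) hUq')

end Cfsg.Agent.S1288
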