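import Mathlib
import Cfsg.Statements.S1300
import Cfsg.Agent.Comp2.PLayer

set_option autoImplicit false
open Cfsg

namespace Cfsg.Agent.S1300

open Cfsg.Agent.Comp2


/-- For a finite group G, balance in the sense of commuting involutions is the same as 1-balance for the prime 2. -/
theorem result {G : Type*} [Group G] [Finite G] : Cfsg.IsBalanced G ↔ Cfsg.IsKBalanced 2 1 G := by
  constructor
  · intro h A hA hcard b hb hcomm
    have h2 : Nat.card A = 2 := by simpa using hcard
    haveI : Nontrivial A := Finite.one_lt_card_iff_nontrivial.mp (by omega)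
    obtain ⟨⟨a, ha⟩, ha1⟩ := exists_ne (1 : A)
    have ha1' : a ≠ 1 := fun e => ha1 (Subtype.ext e)
    haveI : Fact (Nat.Prime 2) := ⟨Nat.prime_two⟩
    have hoa : orderOf a = 2 := orderOf_eq_prime (hA.2 a ha) ha1'
    calc signalizerDelta 2 A ⊓ Subgroup.centralizer {b}
        ≤ centralizerPPrimeCore 2 a ⊓ Subgroup.centralizer {b} :=
          inf_le_inf_right _ (iInf_le (fun a : {a : G // a ∈ A ∧ a ≠ 1} =>
            centralizerPPrimeCore 2 (a : G)) ⟨a, ha, ha1'⟩)
      _ = centralizerPPrimeCore 2 b ⊓ Subgroup.centralizer {a} := h a b hoa hb (hcomm a ha)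
      _ ≤ _ := inf_le_left
  · intro h
    have key : ∀ x y : G, orderOf x = 2 → orderOf y = 2 → x * y = y * x →
        centralizerPPrimeCore 2 x ⊓ Subgroup.centralizer {y} ≤
          centralizerPPrimeCore 2 y ⊓ Subgroup.centralizer {x} := by
      intro x y hx hy hxy
      have hx2 : x ^ 2 = 1 := hx ▸ pow_orderOf_eq_one x
      have hmem : ∀ a ∈ Subgroup.zpowers x, a = 1 ∨ a = x := by
        intro a ha
        classical
        rw [mem_zpowers_iff_mem_range_orderOf, hx] at ha
        simp only [Finset.mem_image, Finset.mem_range] at ha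
        obtain ⟨n, hn, rfl⟩ := ha
        interval_cases n <;> simp
      have hA : IsElementaryAbelian 2 (Subgroup.zpowers x) := by
        refine ⟨inferInstance, fun a ha => ?_⟩
        rcases hmem a ha with rfl | rfl
        · simp
        · exact hx2
      have h1 := h (Subgroup.zpowers x) hA (by simp [Nat.card_zpowers, hx]) y hy (by
        intro a ha
        rcases hmem a ha with rfl | rfl
        · simp
        · exact hxy)
      have hD : centralizerPPrimeCore 2 x ≤ signalizerDelta 2 (Subgroup.zpowers x) := by
        refine le_iInf fun a => ?_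
        obtain ⟨a, ha, ha1⟩ := a
        rcases hmem a ha with rfl | rfl
        · exact absurd rfl ha1
        · exact le_rfl
      refine le_inf ((inf_le_inf_right _ hD).trans h1) (inf_le_left.trans ?_)
      exact Subgroup.map_subtype_le _
    intro x y hx hy hxy
    exact le_antisymm (key x y hx hy hxy) (key y x hy hx hxy.symm)

end Cfsg.Agent.S1300
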