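import Mathlib
import Cfsg.Statements.S1297
import Cfsg.Agent.Comp2.Balance2
import Cfsg.Agent.S1300

set_option autoImplicit false
open Cfsg

namespace Cfsg.Agent.S1297

open Cfsg.Agent.Comp2


/-- Let G be finite. Suppose that for every involution x, writing C = C_G(x), every component K of C / O(C) has K / Z(K) locally balanced. Then G is balanced. -/
theorem result {G : Type*} [Group G] [Finite G] (h : ∀ x : G, orderOf x = 2 → ∀ K : Subgroup (↥(Subgroup.centralizer ({x} : Set G)) ⧸ Cfsg.oddCore ↥(Subgroup.centralizer ({x} : Set G))), Cfsg.IsComponent K → Cfsg.IsLocallyBalanced (↥K ⧸ Subgroup.center ↥K)) : Cfsg.IsBalanced G := by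
  haveI : Fact (Nat.Prime 2) := ⟨Nat.prime_two⟩
  refine Cfsg.Agent.S1300.result.mpr (isKBalanced_of_locallyKBalanced le_rfl fun x hx K hK => ?_)
  intro H hH A hA hcard
  have hA0 : A ≠ ⊥ := by
    intro e
    rw [e, Subgroup.card_bot] at hcard
    norm_num at hcard
  obtain ⟨⟨a, ha⟩, ha1⟩ := Subgroup.ne_bot_iff_exists_ne_one.mp hA0
  have ha1' : a ≠ 1 := fun e => ha1 (Subtype.ext e)
  exact le_bot_iff.mp ((signalizerDelta_le ha ha1').trans
    (h x hx K hK H hH a (orderOf_eq_of_elementary hA ha ha1')).le)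

end Cfsg.Agent.S1297
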