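import Mathlib
import Cfsg.Statements.S1305
import Cfsg.Agent.Comp2.Pump
import Cfsg.Agent.BG.Rank2

set_option autoImplicit false
open Cfsg

namespace Cfsg.Agent.S1305

open Cfsg.Agent.Comp2

open Cfsg.Agent.BG Subgroup
open scoped Pointwise

theorem pLayerOf_le {G : Type*} [Group G] [Finite G] (hO : oddCore G = ⊥) (hB : HasBProperty G)
    {b : G} (hb : orderOf b = 2) : pLayerOf 2 𝐂[b] ≤ layerOf 𝐂[b] := by
  have h1 := hB b hb
  rw [hO, le_bot_iff, map_eq_bot_iff_of_injective _ (subtype_injective _)] at h1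
  exact map_mono (pLayer_le_iff.2 fun K hK => component_le_layer ((pComponent_component_iff hK).2
    (commutator_eq_bot_mono h1 (pComponent_le_pLayer hK) le_rfl)))

/-- Let G be a finite group of component type with the B-property and no nontrivial normal subgroup of odd order. Let a be an involution and K a component of C_G(a) such that (a) |K| is maximal among the orders of components of centralizers of involutions of G, (b) subject to (a) the 2-rank of the centralizer of K in C_G(a) is as large as possible, and (c) K has 2-rank at least 2. If B is an elementary abelian 2-subgroup of that centralizer of the largest possible order, then K is a component of C_G(b) for every non-identity b ∈ B. -/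
theorem result {G : Type*} [Group G] [Finite G] (hO : Cfsg.oddCore G = ⊥) (hB : Cfsg.HasBProperty G) (hct : Cfsg.IsComponentType G) (a : G) (ha : orderOf a = 2) (K : Subgroup G) (hKa : K ≤ Subgroup.centralizer ({a} : Set G)) (hK : Cfsg.IsComponent (K.subgroupOf (Subgroup.centralizer ({a} : Set G)))) (hmax : ∀ y : G, orderOf y = 2 → ∀ K' : Subgroup G, K' ≤ Subgroup.centralizer ({y} : Set G) → Cfsg.IsComponent (K'.subgroupOf (Subgroup.centralizer ({y} : Set G))) → Nat.card ↥K' ≤ Nat.card ↥K ∧ (Nat.card ↥K' = Nat.card ↥K → ∀ k : ℕ, Cfsg.PRankLE 2 k ↥(Subgroup.centralizer ({a} : Set G) ⊓ Subgroup.centralizer (K : Set G)) → Cfsg.PRankLE 2 k ↥(Subgroup.centralizer ({y} : Set G) ⊓ Subgroup.centralizer (K' : Set G)))) (hrk : ¬ Cfsg.PRankLE 2 1 ↥K) (B : Subgroup G) (hBle : B ≤ Subgroup.centralizer ({a} : Set G) ⊓ Subgroup.centralizer (K : Set G)) (hBel : Cfsg.IsElementaryAbelian 2 B) (hBmax : ∀ B' : Subgroup G, B' ≤ Subgroup.centralizer ({a}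 : Set G) ⊓ Subgroup.centralizer (K : Set G) → Cfsg.IsElementaryAbelian 2 B' → Nat.card ↥B' ≤ Nat.card ↥B) (b : G) (hb : b ∈ B) (hb1 : b ≠ 1) : K ≤ Subgroup.centralizer ({b} : Set G) ∧ Cfsg.IsComponent (K.subgroupOf (Subgroup.centralizer ({b} : Set G))) := by
  have hbK : K ≤ 𝐂[b] := Amb.le_cent1_iff.2 (hBle hb).2
  have hb2 : orderOf b = 2 := orderOf_eq_of_elementary hBel hb hb1
  have haa : a * a = 1 := by rw [← pow_two, ← ha, pow_orderOf_eq_one]
  have hKa' : CompIn K 𝐂[a] := ⟨hKa, hK⟩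
  have hab : a ∈ 𝐂[b] := Amb.mem_cent1_comm.1 (hBle hb).1
  have hK' : CompIn K (𝐂[b] ⊓ 𝐂[a]) := hKa'.of_le (le_inf hbK hKa) inf_le_right
  obtain ⟨D, hD, h | h | ⟨h1, h2, π, h3, h4⟩⟩ := pump_cases ha (le_normalizer hab) hK'
    ((hK'.le_pLayer_of_cent ha hab).trans (pLayerOf_le hO hB hb2))
  · exact h ▸ hD
  · exact absurd (eq_of_le_of_card_ge h.1.le (hmax b hb2 D hD.1 hD.2).1) h.1.ne
  exfalso
  have hD' := hD.conj (le_normalizer hab)
  have hDD := hD.comm_of_ne hD' (Ne.symm h1)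
  have hcard : Nat.card D = Nat.card K := le_antisymm (hmax b hb2 D hD.1 hD.2).1
    (h4 ▸ Nat.card_le_card_of_surjective _ π.rangeRestrict_surjective)
  have hbij : Function.Bijective π.rangeRestrict :=
    π.rangeRestrict_surjective.bijective_of_nat_card_le (by rw [h4, hcard])
  have hKX : K ≤ D ⊔ MulAut.conj a • D := h2.ge.trans ((Amb.der_le _).trans inf_le_left)
  have hBb : B ≤ 𝐂[b] := fun x hx => Amb.mem_cent1.2 (Rank.elem_comm hBel hx hb)
  have hBa : B ≤ 𝐂[a] := hBle.trans inf_le_left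
  have hza : IsElementaryAbelian 2 (zpowers a) := Rank.elem_zpowers (by rw [pow_two, haa])
  have haB : a ∈ B := by
    have h5 := hBmax (B ⊔ zpowers a) (sup_le hBle (zpowers_le.2
      ⟨Amb.mem_cent1_self a, Amb.le_cent1_iff.1 hKa⟩))
      (Rank.elem_sup hBel hza (by rwa [Amb.cent_zpowers]))
    rw [eq_of_le_of_card_ge le_sup_left h5]
    exact mem_sup_right (mem_zpowers a)
  have hKD : ¬ K ≤ 𝐂(D) := fun h => quasisimple_not_le_centralizer hD.quasi fun d hd => by
    have h5 : π ⟨d, hd⟩ ∈ 𝐂(D) := h (h4 ▸ ⟨_, rfl⟩)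
    rw [h3] at h5
    exact (mul_mem_cancel_right (Amb.le_cent_iff_comm_eq_bot'.2 hDD (Amb.conj_mem_conj.2 hd))).1 h5
  have hcase : ∀ x ∈ B, x ∈ 𝐍(D) ∨ a * x ∈ 𝐍(D) := fun x hx => by
    have h5 := hD.conj (le_normalizer (hBb hx))
    by_contra hcon
    push Not at hcon
    have e1 : MulAut.conj x • D ≠ D := fun e => hcon.1 (Amb.mem_normalizer_iff_conj.2 e)
    have e2 : MulAut.conj x • D ≠ MulAut.conj a • D := fun e => hcon.2 (by
      rw [Amb.mem_normalizer_iff_conj, ← Amb.conj_conj, e, conj_conj_of_two haa])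
    have h6 := Amb.le_cent_symm ((Amb.le_cent_sup (Amb.le_cent_iff_comm_eq_bot.2 (h5.comm_of_ne hD e1))
      (Amb.le_cent_iff_comm_eq_bot.2 (h5.comm_of_ne hD' e2))).trans (Amb.cent_anti hKX))
    rw [← Amb.conj_centralizer, ← Amb.conj_eq_of_mem_centralizer (hBle hx).2,
      Amb.conj_le_conj_iff] at h6
    exact hKD h6
  have hc0 : B ⊓ 𝐍(D) ≤ 𝐂(D) := fun x hx => by
    refine cent_of_cent_diag hD.perf hDD hx.2 ?_ fun d hd => ?_
    · rw [Amb.mem_normalizer_iff_conj, Amb.conj_conj, Amb.mem_cent1.1 (hBa hx.1), ← Amb.conj_conj,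
        Amb.conj_eq_of_mem_normalizer hx.2]
    · have h5 : π ⟨d, hd⟩ ∈ K := h4 ▸ ⟨_, rfl⟩
      rw [h3] at h5
      exact mul_inv_eq_iff_eq_mul.2 ((hBle hx.1).2 _ h5).symm
  have hc1 : B ⊓ 𝐍(D) ≤ 𝐂(MulAut.conj a • D) := by
    rw [← Amb.conj_centralizer]
    intro x hx
    rw [Amb.mem_conj, mul_assoc, Amb.mem_cent1.1 (hBa hx.1), inv_mul_cancel_left]
    exact hc0 hx
  have hdis : Disjoint (B ⊓ 𝐍(D)) (MulAut.conj a • D) := disjoint_def.2 fun {x} hx hx' => by
    rw [Amb.mem_conj, mul_assoc, Amb.mem_cent1.1 (hBa hx.1), inv_mul_cancel_left] at hx'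
    have h5 : π.rangeRestrict ⟨x, hx'⟩ = π.rangeRestrict 1 := Subtype.ext (by
      rw [map_one, MonoidHom.coe_rangeRestrict, h3, ← Amb.mem_cent1.1 (hBa hx.1), mul_inv_cancel_right,
        ← pow_two, hBel.2 x hx.1, coe_one])
    exact congrArg Subtype.val (hbij.1 h5)
  have hrk' : ¬ PRankLE 2 1 (MulAut.conj a • D : Subgroup G) := fun h => hrk (h4 ▸
    (Rank.pRankLE_congr ((Amb.conjEquiv a D).symm.trans (MulEquiv.ofBijective _ hbij))).1 h)
  obtain ⟨U, hU, hUe, hUc⟩ := Rank.not_pRankLE_iff.1 hrk'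
  obtain ⟨k, hk⟩ := Rank.elem_card hBel
  have h5 := (hmax b hb2 D hD.1 hD.2).2 hcard k (Rank.pRankLE_iff.2 fun E hE hE' =>
    hk ▸ hBmax E hE hE')
  have h6 := Rank.card_le_of_pRankLE h5 (sup_le (le_inf (inf_le_left.trans hBb) hc0)
    (hU.trans (le_inf hD'.1 (Amb.le_cent_iff_comm_eq_bot'.2 hDD))))
    (Rank.elem_sup (Rank.elem_mono hBel inf_le_left) hUe (hc1.trans (Amb.cent_anti hU)))
  rw [Core.card_sup_of_disjoint (Amb.le_norm_of_le_cent (Amb.le_cent_symm (hc1.trans (Amb.cent_anti hU))))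
    (hdis.mono_right hU), hUc, ← hk] at h6
  have h7 : B ≤ (B ⊓ 𝐍(D)) ⊔ zpowers a := fun x hx => (hcase x hx).elim
    (fun h => mem_sup_left ⟨hx, h⟩) fun h => (mul_mem_cancel_left (mem_sup_right (mem_zpowers a))).1
      (mem_sup_left ⟨B.mul_mem haB hx, h⟩)
  have h8 := (card_le_of_le h7).trans (Nat.le_of_dvd (Nat.mul_pos Nat.card_pos Nat.card_pos)
    (Core.card_sup_dvd (Amb.le_norm_of_le_cent (Amb.le_cent_of_comm hBel.1 (zpowers_le.2 haB)
      inf_le_left))))
  rw [Nat.card_zpowers, ha] at h8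
  have : 0 < Nat.card (B ⊓ 𝐍(D) : Subgroup G) := Nat.card_pos
  omega

end Cfsg.Agent.S1305
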