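import Mathlib
import Cfsg.Statements.S1306
import Cfsg.Agent.Comp2.Balance2

set_option autoImplicit false
open Cfsg

namespace Cfsg.Agent.S1306

open Cfsg.Agent.Comp2


/-- Let G be finite, x an involution and L ≤ C_G(x) a component of C_G(x). Suppose L is a component of C_G(y) for every involution y ∈ C_G(L), and ⁅L, g L g⁻¹⁆ ≠ 1 whenever g L g⁻¹ ≠ L. Then L is a standard subgroup of G. -/
theorem result {G : Type*} [Group G] [Finite G] (x : G) (hx : orderOf x = 2) (L : Subgroup G) (hLx : L ≤ Subgroup.centralizer ({x} : Set G)) (hL : Cfsg.IsComponent (L.subgroupOf (Subgroup.centralizer ({x} : Set G)))) (hne : ∀ y : G, orderOf y = 2 → y ∈ Subgroup.centralizer (L : Set G) → L ≤ Subgroup.centralizer ({y} : Set G) ∧ Cfsg.IsComponent (L.subgroupOf (Subgroup.centralizer ({y} : Set G)))) (hnc : ∀ g : G, L.map (MulAut.conj g).toMonoidHom ≠ L → ⁅L, L.map (MulAut.conj g).toMonoidHom⁆ ≠ ⊥) : Cfsg.IsStandardSubgroup L := by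
  haveI : Fact (Nat.Prime 2) := ⟨Nat.prime_two⟩
  have hq : IsQuasisimple L := (quasisimple_subgroupOf_iff hLx).mp hL.2
  set C := Subgroup.centralizer (L : Set G) with hC
  have hxC : x ∈ C := fun l hl => Subgroup.mem_centralizer_singleton_iff.mp (hLx hl)
  -- if an involution centralizes `L` and `L^g` then `g` normalizes `L`
  have key : ∀ g y : G, orderOf y = 2 → y ∈ C → y ∈ C.map (MulAut.conj g).toMonoidHom →
      g ∈ Subgroup.normalizer (L : Set G) := by
    intro g y hy h1 h2
    by_contra hg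
    have hne' : L.map (MulAut.conj g).toMonoidHom ≠ L := fun e => hg (map_conj_eq_iff.mp e)
    obtain ⟨z, hz, rfl⟩ := h2
    have hz2 : orderOf z = 2 := by
      rw [← hy]; exact (MulEquiv.orderOf_eq (MulAut.conj g) z).symm
    obtain ⟨a1, a2⟩ := hne _ hy h1
    obtain ⟨b1, b2⟩ := hne z hz2 hz
    have b3 := component_subgroupOf_map_injective (MulAut.conj g).toMonoidHom (MulAut.conj g).injective b1 b2
    have b4 := Subgroup.map_mono (f := (MulAut.conj g).toMonoidHom) b1
    rw [map_conj_centralizer_singleton] at b3 b4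
    exact hnc g hne' (component_in_commutator_eq_bot_of_ne a1 b4 a2 b3 hne'.symm)
  have hN : Subgroup.normalizer (L : Set G) = Subgroup.normalizer (C : Set G) := by
    refine le_antisymm (Core.normalizer_le_normalizer_centralizer _) fun g hg => key g x hx hxC ?_
    rw [map_conj_eq_iff.mpr hg]; exact hxC
  refine ⟨hq, ⟨?_, fun g hg => ?_⟩, hnc, hN⟩
  · rw [even_iff_two_dvd, ← hx]
    exact Subgroup.orderOf_dvd_natCard _ hxC
  · by_contra hodd
    obtain ⟨y, hy, hy2⟩ := exists_orderOf_eq_of_dvd_card (even_iff_two_dvd.mp (Nat.not_odd_iff_even.mp hodd))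
    exact hg (hN ▸ key g y hy2 hy.1 hy.2)

end Cfsg.Agent.S1306
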