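import Mathlib
import Cfsg.Statements.S1317
import Cfsg.Agent.Comp2.GenFitting

set_option autoImplicit false
open Cfsg

namespace Cfsg.Agent.S1317

open Cfsg.Agent.Comp2


/-- For a finite group X, the centre of the layer E(X) is F(X) ∩ E(X). -/
theorem result {X : Type*} [Group X] [Finite X] : (Subgroup.center ↥(Cfsg.layer X)).map (Cfsg.layer X).subtype = Cfsg.fittingSubgroup X ⊓ Cfsg.layer X := by
  rw [map_center_subtype]
  apply le_antisymm
  · exact le_inf layer_inf_centralizer_layer_le_fitting inf_le_left
  · exact le_inf inf_le_right (inf_le_left.trans fitting_le_centralizer_layer)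

end Cfsg.Agent.S1317
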