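import Mathlib
import Cfsg.Statements.S1319
import Cfsg.Agent.Comp2.Component

set_option autoImplicit false
open Cfsg

namespace Cfsg.Agent.S1319

open Cfsg.Agent.Comp2


/-- Let A be a subnormal subgroup of the finite group X with E(A) = A. Then A ≤ E(X) and A is normal in E(X). -/
theorem result {X : Type*} [Group X] [Finite X] (A : Subgroup X) (hsn : A.IsSubnormal) (hA : Cfsg.layer ↥A = ⊤) : A ≤ Cfsg.layer X ∧ (A.subgroupOf (Cfsg.layer X)).Normal := by
  have h1 : (layer A).map A.subtype = A := by
    rw [hA, ← MonoidHom.range_eq_map, Subgroup.range_subtype]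
  have hle : A ≤ layer X := h1 ▸ layer_map_subtype_le_of_subnormal hsn
  refine ⟨hle, Subgroup.normal_subgroupOf_of_le_normalizer ?_⟩
  rw [layer_le_iff]
  intro K hK
  rcases component_le_or_commutator_eq_bot hK hsn with h | h
  · exact h.trans Subgroup.le_normalizer
  · exact le_normalizer_of_commutator_eq_bot h

end Cfsg.Agent.S1319
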