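import Mathlib
import Cfsg.Statements.S1328
import Cfsg.Agent.Comp2.Balance2

set_option autoImplicit false
open Cfsg

namespace Cfsg.Agent.S1328

open Cfsg.Agent.Comp2


/-- Let G be finite, H ≤ G with O(H) = 1, t an involution of G normalizing H, and Y a nontrivial subgroup of O(C_H(t)). Then some component E of H is normalized by t and by Y and centralized by neither t nor Y. -/
theorem result {G : Type*} [Group G] [Finite G] (H : Subgroup G) (hO : Cfsg.oddCore ↥H = ⊥) (t : G) (ht : orderOf t = 2) (htH : t ∈ Subgroup.normalizer (H : Set G)) (Y : Subgroup G) (hY1 : Y ≠ ⊥) (hY : Y ≤ (Cfsg.oddCore ↥(H ⊓ Subgroup.centralizer ({t} : Set G))).map (H ⊓ Subgroup.centralizer ({t} : Set G)).subtype) : ∃ E : Subgroup ↥H, Cfsg.IsComponent E ∧ (E.map H.subtype).map (MulAut.conj t).toMonoidHom = E.map H.subtype ∧ Y ≤ Subgroup.normalizer ((E.map H.subtype : Subgroup G) : Set G) ∧ ¬ (t ∈ Subgroup.centralizer ((E.map H.subtype : Subgroup G) : Set G)) ∧ ¬ (Y ≤ Subgroup.centralizer ((E.map H.subtype : Subgroup G) : Set G))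 := by
  haveI : Fact (Nat.Prime 2) := ⟨Nat.prime_two⟩
  set M := H ⊔ Subgroup.zpowers t with hM
  have htz : Subgroup.zpowers t ≤ Subgroup.normalizer (H : Set G) := Subgroup.zpowers_le.mpr htH
  have hHM : H ≤ M := le_sup_left
  have htM : t ∈ M := (le_sup_right : _ ≤ M) (Subgroup.mem_zpowers t)
  have hMH : M ≤ Subgroup.normalizer (H : Set G) := sup_le Subgroup.le_normalizer htz
  have hP : IsPGroup 2 (Subgroup.zpowers t) := isPGroup_zpowers_of_orderOf (k := 1) (by simpa using ht)
  have hres : LocalEven.pResOf 2 M ≤ H := LocalEven.pResOf_sup_le hP htz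
  have hOM : pPrimeCore 2 M = ⊥ := by
    have h1 : (pPrimeCore 2 M).map M.subtype ≤ (pPrimeCore 2 H).map H.subtype :=
      le_pPrimeCore_map_subtype ((LocalEven.le_pResOf_of_coprime (Subgroup.map_subtype_le _)
        (pPrimeCore_map_subtype_coprime 2 M)).trans hres)
        (hHM.trans (le_normalizer_map_subtype_of_normal _)) (pPrimeCore_map_subtype_coprime 2 M)
    rw [show pPrimeCore 2 H = ⊥ from hO, Subgroup.map_bot, le_bot_iff,
      Subgroup.map_eq_bot_iff_of_injective _ M.subtype_injective] at h1
    exact h1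
  set O := (Cfsg.oddCore ↥(H ⊓ Subgroup.centralizer ({t} : Set G))).map
    (H ⊓ Subgroup.centralizer ({t} : Set G)).subtype with hOdef
  have hOle : O ≤ H ⊓ Subgroup.centralizer ({t} : Set G) := Subgroup.map_subtype_le _
  have hYM : Y ≤ M := (hY.trans hOle).trans (inf_le_left.trans hHM)
  have hcen : Subgroup.centralizer ({⟨t, htM⟩} : Set M) =
      (Subgroup.centralizer ({t} : Set G)).subgroupOf M := by
    ext y
    simp only [Subgroup.mem_subgroupOf, Subgroup.mem_centralizer_singleton_iff, Subtype.ext_iff,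
      Subgroup.coe_mul]
  have hYO : Y.subgroupOf M ≤ centralizerPPrimeCore 2 (⟨t, htM⟩ : M) := by
    refine (Subgroup.comap_mono hY).trans (le_centralizerPPrimeCore (N := O.subgroupOf M) ?_ ?_ ?_)
    · rw [hcen]; exact Subgroup.comap_mono (hOle.trans inf_le_right)
    · rw [hcen, ← Subgroup.inf_subgroupOf_right]
      refine Core.subgroupOf_le_normalizer_subgroupOf ?_ M
      exact (Core.le_normalizer_inf (inf_le_right.trans hMH) (inf_le_left.trans Subgroup.le_normalizer)).trans
        (normalizer_le_normalizer_map_subtype_of_characteristic _)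
    · rw [Core.card_subgroupOf]
      exact coprime_card_of_le inf_le_left (pPrimeCore_map_subtype_coprime 2 _)
  have ht1 : orderOf (⟨t, htM⟩ : M) = 2 := by rw [← Subgroup.orderOf_coe]; exact ht
  have hY0 : Y.subgroupOf M ≠ ⊥ := by
    rw [Ne, Subgroup.subgroupOf_eq_bot, disjoint_iff, inf_eq_left.mpr hYM]; exact hY1
  by_contra hcon
  refine hY0 (eq_bot_of_centralizes_pCore_of_components hOM
    (coprime_card_of_le hYO (centralizerPPrimeCore_coprime _))
    (hYO.trans (centralizerPPrimeCore_le_centralizer_pCore (k := 1) (by simpa using ht1))) fun K hK => ?_)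
  by_contra hKY
  have hKt : ⁅K, Subgroup.zpowers (⟨t, htM⟩ : M)⁆ = K := by
    by_contra hne
    exact hKY (commutator_eq_bot_mono (component_commutator_centralizerPPrimeCore hOM ht1 hK hne) le_rfl hYO)
  set K' := K.map M.subtype with hK'
  have hK'M : K' ≤ M := Subgroup.map_subtype_le _
  have hK'H : K' ≤ H := by
    have : ⁅K', K'⁆ = K' := by rw [hK', ← Subgroup.map_commutator, component_commutator_self hK]
    rw [← pResOf_eq_self_of_perfect (p := 2) this]
    exact (LocalEven.pResOf_mono hK'M).trans hres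
  have hmap : (K'.subgroupOf H).map H.subtype = K' := by
    rw [Subgroup.subgroupOf_map_subtype, inf_eq_left.mpr hK'H]
  refine hcon ⟨K'.subgroupOf H, component_subgroupOf_of_le hK'H hHM (component_subgroupOf_map_subtype hK), ?_⟩
  rw [hmap]
  refine ⟨map_conj_eq_iff.mpr (Core.map_le_normalizer_map le_rfl M.subtype
    ⟨_, mem_normalizer_of_commutator_zpowers_eq hKt, rfl⟩), ?_, fun h => ?_, fun h => hKY ?_⟩
  · have := Core.map_le_normalizer_map (hYO.trans (centralizerPPrimeCore_le_normalizer_component hOM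
      (k := 1) (by simpa using ht1) hK)) M.subtype
    rwa [Subgroup.subgroupOf_map_subtype, inf_eq_left.mpr hYM] at this
  · refine component_ne_bot hK (hKt.symm.trans (commutator_eq_bot_comm.mp
      (Subgroup.commutator_eq_bot_iff_le_centralizer.mpr (Subgroup.zpowers_le.mpr fun k hk => ?_))))
    exact Subtype.ext (h k ⟨k, hk, rfl⟩)
  · rw [commutator_eq_bot_iff_forall]
    intro k hk y hy
    exact Subtype.ext (h hy k ⟨k, hk, rfl⟩)

end Cfsg.Agent.S1328
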