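import Mathlib
import Cfsg.Statements.S1343
import Cfsg.Agent.Comp2.Ext2

set_option autoImplicit false
open Cfsg

namespace Cfsg.Agent.S1343

open Cfsg.Agent.Comp2

open Cfsg.Agent.BG

/-- Let X be finite. Then L*_{2'}(X) = L_{2'}(X) ⊔ F for some subgroup F of odd order normalized by a Sylow 2-subgroup of X. -/
theorem result {X : Type*} [Group X] [Finite X] : ∃ F : Subgroup X, Odd (Nat.card ↥F) ∧ (∃ S : Sylow 2 X, (S : Subgroup X) ≤ Subgroup.normalizer (F : Set X)) ∧ Cfsg.extendedTwoLayer X = Cfsg.pLayer 2 X ⊔ F := by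
  obtain ⟨S⟩ : Nonempty (Sylow 2 X) := inferInstance
  have hT := Amb.hall_inf_of_le_normalizer (Amb.isSylowOf_top S)
    (le_top : pLayer 2 X ⊔ pPrimePCore 2 X ≤ ⊤) Subgroup.le_normalizer_of_normal
  refine ⟨oddCore X ⊔ piCoreOf {2}ᶜ 𝐂((S : Subgroup X) ⊓ (pLayer 2 X ⊔ pPrimePCore 2 X)), ?_,
    ⟨S, ?_⟩, by rw [ext_eq hT, sup_assoc]⟩
  · rw [← Nat.not_even_iff_odd, even_iff_two_dvd, ← Amb.pi_compl_singleton Nat.prime_two]
    exact Amb.pi_sup ((Amb.pi_compl_singleton Nat.prime_two).2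
      (Nat.prime_two.coprime_iff_not_dvd.1 (pPrimeCore_coprime 2).symm)) (Amb.piCoreOf_pi _ _)
      Subgroup.le_normalizer_of_normal
  · exact Amb.le_norm_sup Subgroup.le_normalizer_of_normal (Amb.le_norm_piCoreOf_of _
      (Amb.le_norm_cent (Amb.le_norm_inf Subgroup.le_normalizer Subgroup.le_normalizer_of_normal)))

end Cfsg.Agent.S1343
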