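import Mathlib
import Cfsg.Statements.S1344
import Cfsg.Agent.Comp2.Ext2

set_option autoImplicit false
open Cfsg

namespace Cfsg.Agent.S1344

open Cfsg.Agent.Comp2

open Cfsg.Agent.BG

/-- Let K be a 2-component of the finite group X. Then K ≤ L*_{2'}(X) and K is normal in L*_{2'}(X). -/
theorem result {X : Type*} [Group X] [Finite X] (K : Subgroup X) (hK : Cfsg.IsPComponent 2 K) : K ≤ Cfsg.extendedTwoLayer X ∧ (K.subgroupOf (Cfsg.extendedTwoLayer X)).Normal := by
  obtain ⟨P, hP⟩ := Amb.exists_sylow 2 K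
  obtain ⟨T, hT, hPT⟩ := Amb.exists_sylow_ge (M := pLayer 2 X ⊔ pPrimePCore 2 X)
    (Amb.sylow_isPGroup hP) (((Amb.hall_le hP).trans (pComponent_le_pLayer hK)).trans le_sup_left)
  rw [ext_eq hT]
  refine ⟨((pComponent_le_pLayer hK).trans le_sup_left).trans le_sup_left,
    Amb.normal_subgroupOf_of_le_norm (sup_le (sup_le (pLayer_le_normalizer hK)
      (pPrimeCore_le_normalizer_pComponent hK)) fun y hy => ?_)⟩
  exact mem_norm_pComponent_of_cent_sylow hK hP (Amb.cent_anti hPT (Amb.piCoreOf_le _ _ hy))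

end Cfsg.Agent.S1344
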