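import Mathlib
import Cfsg.Statements.S1347
import Cfsg.Agent.Comp2.Pump

set_option autoImplicit false
open Cfsg

namespace Cfsg.Agent.S1347

open Cfsg.Agent.Comp2

open Cfsg.Agent.BG Subgroup
open scoped Pointwise

theorem cent_le_norm {G : Type*} [Group G] [Finite G] {A : Subgroup G} (hA : IsStandardSubgroup A)
    {u : G} (hu : orderOf u = 2) (huA : u ∈ 𝐂(A)) : 𝐂[u] ≤ 𝐍(A) := fun g hg => by
  rw [hA.2.2.2]
  by_contra h
  have h1 := hA.2.1.2 g h
  have h2 : u ∈ 𝐂(A) ⊓ (𝐂(A)).map (MulAut.conj g).toMonoidHom := ⟨huA, u, huA, by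
    change g * u * g⁻¹ = u
    rw [Amb.mem_cent1.1 hg, mul_inv_cancel_right]⟩
  have h3 := orderOf_dvd_natCard (⟨u, h2⟩ : ↥(𝐂(A) ⊓ (𝐂(A)).map (MulAut.conj g).toMonoidHom))
  rw [orderOf_mk, hu] at h3
  exact (Nat.not_even_iff_odd.2 h1) (even_iff_two_dvd.2 h3)

theorem key {G : Type*} [Group G] [Finite G] {A D : Subgroup G} (hA : IsStandardSubgroup A)
    (hO : oddCore G = ⊥) {t : G} (hD : CompIn D ⊤) (hAD : A ≤ D ⊔ MulAut.conj t • D)
    (hn : ¬ D ≤ 𝐍(A)) : D ⊔ MulAut.conj t • D = layer G ∧ 𝐂(layer G) = ⊥ := by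
  have hD' := hD.conj (g := t) (le_normalizer (mem_top t))
  have hodd : ¬ 2 ∣ Nat.card 𝐂(D ⊔ MulAut.conj t • D) := fun h => by
    obtain ⟨u, hu, hu2⟩ := exists_orderOf_eq_of_dvd_card h
    exact hn ((Amb.le_cent1_iff.2 (Amb.cent_anti le_sup_left hu)).trans
      (cent_le_norm hA hu2 (Amb.cent_anti hAD hu)))
  have hE : D ⊔ MulAut.conj t • D = layer G := by
    refine le_antisymm (layerOf_top (G := G) ▸ sup_le hD.le_layer hD'.le_layer)
      (layer_le_iff.2 fun K hK => ?_)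
    have hK' := compIn_top.2 hK
    by_cases h1 : K = D
    · exact h1.le.trans le_sup_left
    by_cases h2 : K = MulAut.conj t • D
    · exact h2.le.trans le_sup_right
    exact absurd ((two_dvd_card_of_quasi hK'.quasi).trans (card_dvd_of_le (Amb.le_cent_sup
      (Amb.le_cent_iff_comm_eq_bot.2 (hK'.comm_of_ne hD h1))
      (Amb.le_cent_iff_comm_eq_bot.2 (hK'.comm_of_ne hD' h2))))) hodd
  refine ⟨hE, eq_bot_iff.2 (hO ▸ le_pPrimeCore ?_)⟩
  rw [hE] at hodd
  exact ((Nat.Prime.coprime_iff_not_dvd Nat.prime_two).2 hodd).symm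

theorem simple_of {G : Type*} [Group G] {D : Subgroup G} (hD : IsQuasisimple D)
    (h : D ⊓ 𝐂(D) = ⊥) : IsSimpleGroup D := isSimpleGroup_of_quasisimple hD (by
  rw [← map_eq_bot_iff_of_injective _ D.subtype_injective, map_center_subtype, h])

/-- Let A be a standard subgroup of the finite group G with O(G) = 1, and t an involution of C_G(A). Then (i) A is normal in G; or (ii) there is a non-abelian simple subgroup X ≅ A with X and tXt⁻¹ commuting, meeting trivially and generating E(G), and C_G(A) = ⟨t⟩; or (iii) A ≤ E(G) and E(G) is non-abelian simple. -/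
theorem result {G : Type*} [Group G] [Finite G] (A : Subgroup G) (hA : Cfsg.IsStandardSubgroup A) (hO : Cfsg.oddCore G = ⊥) (t : G) (ht : orderOf t = 2) (htA : t ∈ Subgroup.centralizer (A : Set G)) : A.Normal ∨ (∃ X : Subgroup G, IsSimpleGroup ↥X ∧ ¬ IsMulCommutative ↥X ∧ Nonempty (↥X ≃* ↥A) ∧ (∀ a ∈ X, ∀ b ∈ X.map (MulAut.conj t).toMonoidHom, a * b = b * a) ∧ X ⊓ X.map (MulAut.conj t).toMonoidHom = ⊥ ∧ X ⊔ X.map (MulAut.conj t).toMonoidHom = Cfsg.layer G ∧ Subgroup.centralizer (A : Set G) = Subgroup.zpowers t) ∨ (A ≤ Cfsg.layer G ∧ IsSimpleGroup ↥(Cfsg.layer G) ∧ ¬ IsMulCommutative ↥(Cfsg.layer G)) := by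
  have htt : t * t = 1 := by rw [← pow_two, ← ht, pow_orderOf_eq_one]
  have hAt : A ≤ 𝐂[t] := Amb.le_cent1_iff.2 htA
  have hL : CompIn A (⊤ ⊓ 𝐂[t]) := by
    rw [top_inf_eq]; exact compIn_of_normal hA.1 hAt (cent_le_norm hA ht htA)
  have hLE : A ≤ layerOf ⊤ := by
    refine (hL.le_pLayer_of_cent ht (mem_top t)).trans ?_
    rw [Comp2.pLayerOf, pLayer_map_subtype_top, pLayer_eq_layer_of_pPrimeCore_eq_bot hO, layerOf_top]
  obtain ⟨D, hD, h | h | ⟨h1, h2, π, h3, h4⟩⟩ := pump_cases ht (le_normalizer (mem_top t)) hL hLE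
  · left
    refine normalizer_eq_top_iff.1 (eq_top_iff.2 fun g _ => ?_)
    by_contra hg
    have hg' : MulAut.conj g • A ≠ A := fun e => hg (Amb.mem_normalizer_iff_conj.2 e)
    subst h
    exact hA.2.2.1 g hg' (hD.comm_of_ne (hD.conj (le_normalizer (mem_top g))) hg'.symm)
  · right; right
    have htD : MulAut.conj t • D = D := Amb.conj_eq_of_mem_normalizer
      (mem_normalizer_of_commutator_zpowers_eq h.2.symm)
    obtain ⟨hE, hC⟩ := key hA hO hD (t := t) (h.1.le.trans le_sup_left) fun hn =>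
      h.1.ne ((compIn_of_normal hA.1 h.1.le hn).same_of_quasi hD.quasi h.1.le le_rfl)
    rw [htD, sup_idem] at hE
    rw [← hE] at hC ⊢
    exact ⟨h.1.le, simple_of hD.quasi (by rw [hC, inf_bot_eq]),
      quasisimple_not_isMulCommutative hD.quasi⟩
  right; left
  have hD' := hD.conj (g := t) (le_normalizer (mem_top t))
  have hDD := hD.comm_of_ne hD' (Ne.symm h1)
  have hAX : A ≤ D ⊔ MulAut.conj t • D := h2.ge.trans ((Amb.der_le _).trans inf_le_left)
  have hAD : ¬ A ≤ 𝐂(D) := fun h => quasisimple_not_le_centralizer hD.quasi fun d hd => by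
    have h5 : π ⟨d, hd⟩ ∈ 𝐂(D) := h (h4 ▸ ⟨_, rfl⟩)
    rw [h3] at h5
    exact (mul_mem_cancel_right (Amb.le_cent_iff_comm_eq_bot'.2 hDD (Amb.conj_mem_conj.2 hd))).1 h5
  obtain ⟨hE, hC⟩ := key hA hO hD (t := t) hAX fun hn => by
    rcases hD.le_or le_top hn with h5 | h5
    · have h6 := hD.same_of_quasi hA.1 h5 le_top
      exact h1 (by rw [h6]; exact Amb.conj_eq_of_mem_centralizer htA)
    · exact hAD (Amb.le_cent_iff_comm_eq_bot'.2 h5)
  rw [← hE, Amb.cent_sup] at hC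
  have hZ : D ⊓ 𝐂(D) = ⊥ := eq_bot_iff.2 (hC ▸ le_inf inf_le_right
    (inf_le_left.trans (Amb.le_cent_iff_comm_eq_bot.2 hDD)))
  have hdis : D ⊓ MulAut.conj t • D = ⊥ := eq_bot_iff.2 (hZ ▸ inf_le_inf_left _
    (Amb.le_cent_iff_comm_eq_bot'.2 hDD))
  have hinj : Function.Injective π := (injective_iff_map_eq_one π).2 fun l hl => by
    rw [h3] at hl
    have h5 : (l : G) ∈ D ⊓ MulAut.conj t • D := ⟨l.2, by
      rw [eq_inv_of_mul_eq_one_left hl]; exact Subgroup.inv_mem _ (Amb.conj_mem_conj.2 l.2)⟩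
    rw [hdis] at h5
    exact Subtype.ext h5
  have hN : ∀ g ∈ 𝐂(A), g ∈ 𝐍(D) → g ∈ 𝐍(MulAut.conj t • D) → g = 1 := fun g hg g1 g2 => by
    have h5 : ∀ d ∈ D, g * (d * (t * d * t⁻¹)) * g⁻¹ = d * (t * d * t⁻¹) := fun d hd => by
      have h5 : π ⟨d, hd⟩ ∈ A := h4 ▸ ⟨_, rfl⟩
      rw [h3] at h5
      exact mul_inv_eq_iff_eq_mul.2 (hg _ h5).symm
    have h6 := cent_of_cent_diag hD.perf hDD g1 g2 h5
    have h7 : g ∈ 𝐂(MulAut.conj t • D) := Amb.mem_cent.2 fun x hx => by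
      obtain ⟨d, hd, rfl⟩ := Amb.mem_conj'.1 hx
      have h8 := mul_inv_eq_iff_eq_mul.1 (h5 d hd)
      rw [← mul_assoc, ← h6 d hd, mul_assoc, mul_assoc d] at h8
      exact (mul_left_cancel h8).symm
    exact mem_bot.1 (hC ▸ ⟨h6, h7⟩ : g ∈ (⊥ : Subgroup G))
  have hcomp : ∀ K, CompIn K ⊤ → K = D ∨ K = MulAut.conj t • D := fun K hK => by
    by_contra hcon
    push Not at hcon
    refine quasisimple_ne_bot hK.quasi (eq_bot_iff.2 (hC ▸ le_inf ?_ ?_))
    · exact Amb.le_cent_iff_comm_eq_bot.2 (hK.comm_of_ne hD hcon.1)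
    · exact Amb.le_cent_iff_comm_eq_bot.2 (hK.comm_of_ne hD' hcon.2)
  have hN' : ∀ g ∈ 𝐂(A), g ∈ 𝐍(D) → g = 1 := fun g hg g1 => hN g hg g1 (by
    rcases hcomp _ (hD'.conj (g := g) (le_normalizer (mem_top g))) with h5 | h5
    · rw [← Amb.conj_eq_of_mem_normalizer g1, Amb.conj_eq_of_mem_normalizer g1] at h5
      have h6 : MulAut.conj g • MulAut.conj t • D = MulAut.conj g • D := by
        rw [Amb.conj_eq_of_mem_normalizer g1]; exact h5
      exact absurd (Amb.conj_inj.1 h6) h1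
    · exact Amb.mem_normalizer_iff_conj.2 h5)
  refine ⟨D, simple_of hD.quasi hZ, quasisimple_not_isMulCommutative hD.quasi,
    ⟨(MonoidHom.ofInjective hinj).trans (MulEquiv.subgroupCongr h4)⟩,
    commutator_eq_bot_iff_forall.1 hDD, hdis, hE, le_antisymm (fun g hg => ?_) (zpowers_le.2 htA)⟩
  rcases hcomp _ (hD.conj (g := g) (le_normalizer (mem_top g))) with h5 | h5
  · rw [hN' g hg (Amb.mem_normalizer_iff_conj.2 h5)]; exact one_mem _
  · have h6 := hN' (t * g) (mul_mem htA hg) (by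
      rw [Amb.mem_normalizer_iff_conj, ← Amb.conj_conj, h5, conj_conj_of_two htt])
    rw [eq_inv_of_mul_eq_one_right h6]
    exact inv_mem (mem_zpowers t)

end Cfsg.Agent.S1347
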