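import Mathlib
import Cfsg.Agent.BHS.GLBlk
import Cfsg.Agent.Classical.SL2Basic
import Cfsg.Statements.S1348
-- import your own Cfsg.Agent.* helpers here

set_option autoImplicit false
open Cfsg

namespace Cfsg.Agent.S1348

/-- Let F be a finite field of odd order, n ≥ 7 odd, and t ∈ SL(n, F) the diagonal matrix with entries −1, …, −1, 1. Then E(C(t)) is a standard subgroup of SL(n, F). -/
theorem result {F : Type*} [Field F] [Fintype F] [DecidableEq F] (hF : Odd (Fintype.card F)) (n : ℕ) (hn : 7 ≤ n) (hodd : Odd n) (t : Matrix.SpecialLinearGroup (Fin n) F) (ht : (t : Matrix (Fin n) (Fin n) F) = Matrix.diagonal (fun i : Fin n => if (i : ℕ) + 1 = n then (1 : F) else -1)) : Cfsg.IsStandardSubgroup ((Cfsg.layer ↥(Subgroup.centralizer ({t} : Set (Matrix.SpecialLinearGroup (Fin n) F)))).map (Subgroup.centralizer ({t} : Set (Matrix.SpecialLinearGroup (Fin n) F))).subtype) := by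
  obtain ⟨m, rfl⟩ : ∃ m, n = m + 1 := ⟨n - 1, by omega⟩
  have h2 : (2 : F) ≠ 0 := Classical.SL2Basic.two_ne_zero_of_odd hF
  have hm : Even m := by simpa [Nat.odd_add_one] using hodd
  have ht : t.1 = GLBlk.ex (-1) 1 := ht.trans (by convert GLBlk.diag_eq)
  have k : ∀ g ∈ Subgroup.centralizer ((GLBlk.emb m F).range : Set (Matrix.SpecialLinearGroup (Fin (m + 1)) F)),
      ∃ a c : F, g.1 = GLBlk.ex (a • 1) c := fun g hg => GLBlk.of_comm_all h2 hm fun X =>
    congrArg Subtype.val (hg _ ⟨X, rfl⟩)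
  have c : ∀ g, g ∈ Subgroup.centralizer {t} ↔ GLBlk.ex (-1) 1 * g.1 = g.1 * GLBlk.ex (-1) 1 := fun g => by
    rw [LocalEven.mem_centralizer_singleton, ← ht]
    exact Subtype.ext_iff
  have ne : ∀ a : F, GLBlk.ex (a • (1 : Matrix (Fin m) (Fin m) F)) 1 = 1 → a = 1 := fun a e => by
    simpa using congrFun (congrFun (GLBlk.ex_inj (e.trans GLBlk.ex_one.symm)).1 ⟨0, by omega⟩) ⟨0, by omega⟩
  refine GLBlk.std_of (L := (GLBlk.emb m F).range) (orderOf_eq_prime (Subtype.ext ?_) fun e => ?_)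
    (Comp2.quasisimple_of_mulEquiv (GLBlk.qs_sl (Or.inl (by omega))) (MonoidHom.ofInjective GLBlk.emb_inj))
    ?_ (LocalEven.le_normalizer_of_cj_le fun g hg => LocalEven.cj_le_iff'.2 ?_) (fun g hg h hh => ?_)
    fun s hs s2 => ?_
  · rw [sq, Matrix.SpecialLinearGroup.coe_mul, ht, GLBlk.ex_mul]
    simp [GLBlk.ex_one]
  · exact h2 (by linear_combination -ne (-1) (by rw [neg_smul, one_smul, ← ht, e]; rfl))
  · rintro _ ⟨X, rfl⟩
    exact (c _).2 (GLBlk.comm_t _ _).symm
  · rintro _ ⟨X, rfl⟩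
    obtain ⟨Y, e⟩ := GLBlk.conj_ex h2 (congrArg Subtype.val (mul_inv_cancel g)) ((c _).1 hg)
      ((c _).1 (inv_mem hg)) X
    exact ⟨Y, Subtype.ext e⟩
  · obtain ⟨a, b, e⟩ := k g hg
    obtain ⟨a', b', e'⟩ := k h hh
    refine Subtype.ext ?_
    rw [Matrix.SpecialLinearGroup.coe_mul, Matrix.SpecialLinearGroup.coe_mul, e, e', GLBlk.ex_mul,
      GLBlk.ex_mul, mul_comm b]
    simp [smul_smul, mul_comm]
  · obtain ⟨a, b, e⟩ := k s hs
    have e1 := congrArg Subtype.val (s2 ▸ pow_orderOf_eq_one s)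
    rw [sq, Matrix.SpecialLinearGroup.coe_mul, e, GLBlk.ex_mul, smul_mul_smul_comm, mul_one] at e1
    have e2 := (GLBlk.ex_inj (e1.trans GLBlk.ex_one.symm)).1
    have a2 := ne (a * a) (by rw [e2, GLBlk.ex_one])
    have d := s.2
    rw [e, GLBlk.det_ex, Matrix.det_smul, Matrix.det_one, Fintype.card_fin] at d
    rcases mul_self_eq_one_iff.1 a2 with rfl | rfl
    · rw [one_pow, one_mul, one_mul] at d
      rw [d, one_smul, GLBlk.ex_one] at e
      rw [show s = 1 from Subtype.ext e, orderOf_one] at s2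
      omega
    · rw [hm.neg_one_pow, one_mul, one_mul] at d
      exact Subtype.ext (by rw [e, ht, d, neg_smul, one_smul])

end Cfsg.Agent.S1348
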