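import Cfsg.Statements.S1354
import Cfsg.Agent.BG.T14_2
-- import your own Cfsg.Agent.* helpers here

set_option autoImplicit false
open Cfsg

namespace Cfsg.Agent.S1354

/-- Let G be a minimal simple group of odd order, M a maximal subgroup and K a cyclic Hall κ(M)-subgroup of M, and put K* = M_σ ∩ C_G(K). Then K* ≠ 1, and if K ≠ 1 then for every non-identity k ∈ K the centralizer C_M(k) is the subgroup generated by K and K* (an internal direct product, as K ∩ M_σ = 1 and K* centralizes K). -/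
theorem result {G : Type*} [Group G] [Finite G] (hG : Cfsg.IsMinSimpleOddOrder G)
    (M : Subgroup G) (hM : IsCoatom M) (K : Subgroup G)
    (hKc : IsCyclic K) (hK : Cfsg.IsPiHallOf (Cfsg.kappa M) K M) :
    Cfsg.sigmaCore M ⊓ Subgroup.centralizer (K : Set G) ≠ ⊥ ∧
      (K ≠ ⊥ → ∀ k ∈ K, k ≠ 1 →
        M ⊓ Subgroup.centralizer ({k} : Set G) = K ⊔ (Cfsg.sigmaCore M ⊓ Subgroup.centralizer (K : Set G))) := by

  refine ⟨BG.Ptype_Kstar_ne_bot hG hM hK, fun _ k hk hk1 => le_antisymm ?_ ?_⟩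
  · obtain ⟨X, hX, hXp, hC⟩ := BG.T14_2.exists_prime_le_zpowers hk1
    rw [← (BG.Ptype_norm hG hM hK (hX.trans (Subgroup.zpowers_le.mpr hk)) hXp).1]
    exact inf_le_inf_left _ (hC.trans (BG.Amb.cent_le_norm X))
  · exact le_inf (BG.T14_2.Z_le hK) (le_trans
      (sup_le (BG.Amb.comm_le_cent (BG.Amb.comm_of_cyclic hKc)) inf_le_right) (BG.Amb.cent_le_cent1 hk))

end Cfsg.Agent.S1354
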