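import Cfsg.Statements.S1357
import Cfsg.Agent.BG.T15_7

set_option autoImplicit false
open Cfsg

namespace Cfsg.Agent.S1357

open Cfsg.Agent.BG Cfsg.Agent.BG.Amb

/-- Let G be a minimal simple group of odd order and M a maximal subgroup with standard factorisation M = K U M_σ. If M_F ≠ M_σ then U = 1, the Fitting subgroup F(M) meets its conjugates by elements outside its normalizer trivially, and K has prime order. -/
theorem result {G : Type*} [Group G] [Finite G] (hG : Cfsg.IsMinSimpleOddOrder G)
    (M : Subgroup G) (hM : IsCoatom M) (K U : Subgroup G) (hKU : Cfsg.IsSigmaDecomposition M K U) (hne : Cfsg.fittingHallOf M ≠ Cfsg.sigmaCore M) :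
    U = ⊥ ∧ Cfsg.IsTISubset (Cfsg.fittingOf M : Set G) ∧ (Nat.card K).Prime := by
  obtain ⟨h1, -, h3, -⟩ := Fcore_structure hG hM hKU.hall hne rfl
  exact ⟨(kappaCompl_eq_bot_iff (kappaCompl_of_sigmaDecomp hG hM hKU)).2 h1.2,
    Fitting_TI hG hM (Or.inr hne), h3⟩

end Cfsg.Agent.S1357
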