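import Mathlib
import Cfsg.Agent.BG.T15_1
import Cfsg.Statements.S1358
-- import your own Cfsg.Agent.* helpers here

set_option autoImplicit false
open Cfsg

namespace Cfsg.Agent.S1358

/-- Let G be a minimal simple group of odd order and M a maximal subgroup with standard factorisation M = K U M_σ. Then for every prime p, every Sylow p-subgroup of U is abelian and has no elementary abelian subgroup of order p ^ 3. -/
theorem result {G : Type*} [Group G] [Finite G] (hG : Cfsg.IsMinSimpleOddOrder G)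
    (M : Subgroup G) (hM : IsCoatom M) (K U : Subgroup G) (hKU : Cfsg.IsSigmaDecomposition M K U) :
    ∀ (p : ℕ), p.Prime → ∀ P : Sylow p U, IsMulCommutative (P : Subgroup U) ∧ Cfsg.PRankLE p 2 (P : Subgroup U) := by
  intro p hp P
  have : Fact p.Prime := ⟨hp⟩
  have hU := BG.kappaCompl_of_sigmaDecomp hG hM hKU
  have hP := BG.Amb.isSylowOf_sylow P
  have hPM := hP.1.trans hU.hallU.1
  have hs : IsPiSubgroup (sigma M)ᶜ ((P : Subgroup U).map U.subtype) :=
    BG.Amb.pi_of_subset (BG.Amb.pi_mono (BG.Amb.hall_pi hU.hallU) hP.1) fun _ h h' => h (Or.inl h')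
  constructor
  · have h := BG.sigma'_nil_abelian hG hM hPM hs
      (BG.Amb.nilpotent_of_isPGroup (BG.Amb.sylow_isPGroup hP))
    exact ⟨⟨fun a b => Subtype.ext (Subtype.ext (BG.Amb.mem_cent_of_le_cent (BG.Amb.comm_le_cent h)
      (Subgroup.mem_map_of_mem _ a.2) (Subgroup.mem_map_of_mem _ b.2)))⟩⟩
  · rw [← BG.Rank.pRankLE_map_subtype]
    exact BG.B10.rankLE_of_alpha' hPM
      (BG.Amb.pi_of_subset hs (Set.compl_subset_compl.mpr (BG.alpha_sub_sigma hG hM))) p hp

end Cfsg.Agent.S1358
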