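import Mathlib
import Cfsg.Agent.BG.T15_1
import Cfsg.Statements.S1359
-- import your own Cfsg.Agent.* helpers here

set_option autoImplicit false
open Cfsg

namespace Cfsg.Agent.S1359

/-- Let G be a minimal simple group of odd order and M a maximal subgroup with standard factorisation M = K U M_σ. Then the subgroup generated by those elements of U which centralize some non-identity element of M_σ is abelian. -/
theorem result {G : Type*} [Group G] [Finite G] (hG : Cfsg.IsMinSimpleOddOrder G)
    (M : Subgroup G) (hM : IsCoatom M) (K U : Subgroup G) (hKU : Cfsg.IsSigmaDecomposition M K U) :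
    IsMulCommutative (Subgroup.closure ((U : Set G) ∩ Cfsg.sigmaHat M)) := by
  obtain ⟨A₀, -, hA, h⟩ := BG.kappa_compl_abelian hG hM (BG.kappaCompl_of_sigmaDecomp hG hM hKU)
  refine BG.Amb.comm_mono hA ((Subgroup.closure_le _).mpr ?_)
  rintro a ⟨ha, -, y, hy, hy1, hay⟩
  exact h y hy hy1 ⟨ha, BG.Amb.mem_cent1.mpr hay⟩

end Cfsg.Agent.S1359
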