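import Mathlib
import Cfsg.Agent.BG.T15_1
import Cfsg.Statements.S1362
-- import your own Cfsg.Agent.* helpers here

set_option autoImplicit false
open Cfsg

namespace Cfsg.Agent.S1362

/-- Let G be a minimal simple group of odd order and M a maximal subgroup with standard factorisation M = K U M_σ, and let A(M) be the set of elements of U M_σ centralizing some non-identity element of M_σ. Then A(M) with M_σ removed is a TI-subset of G. -/
theorem result {G : Type*} [Group G] [Finite G] (hG : Cfsg.IsMinSimpleOddOrder G)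
    (M : Subgroup G) (hM : IsCoatom M) (K U : Subgroup G) (hKU : Cfsg.IsSigmaDecomposition M K U) :
    Cfsg.IsTISubset (Cfsg.sigmaA M U \ (Cfsg.sigmaCore M : Set G)) := by
  have hU := BG.kappaCompl_of_sigmaDecomp hG hM hKU
  intro g hg x hx hgx
  refine absurd ?_ hg
  have hgM : g ∈ M := BG.sigmaA_TI hG hM hU hx.1 hx.2 hgx.1
  have hn : M ≤ Subgroup.normalizer ((U ⊔ sigmaCore M : Subgroup G) : Set G) := by
    rw [sup_comm]
    exact BG.Amb.sdProd_normal (BG.kappa_structure hG hM hU).1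
  have key : ∀ m ∈ M, ∀ a ∈ sigmaA M U \ (sigmaCore M : Set G),
      m * a * m⁻¹ ∈ sigmaA M U \ (sigmaCore M : Set G) := by
    rintro m hm a ⟨⟨⟨haM, y, hy, hy1, hay⟩, ha⟩, ha'⟩
    refine ⟨⟨⟨mul_mem (mul_mem hm haM) (inv_mem hm), m * y * m⁻¹,
      BG.Amb.conj_mem_of_le_norm (BG.Amb.le_norm_sigmaCore M) hm hy, fun h => hy1 (by simpa using h), ?_⟩,
      BG.Amb.conj_mem_of_le_norm hn hm ha⟩, fun h => ha' ?_⟩
    · calc m * a * m⁻¹ * (m * y * m⁻¹) = m * (a * y) * m⁻¹ := by group
        _ = m * y * m⁻¹ * (m * a * m⁻¹) := by rw [hay]; group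
    · have := BG.Amb.inv_conj_mem_of_le_norm (BG.Amb.le_norm_sigmaCore M) hm h
      simpa [mul_assoc] using this
  refine Subgroup.mem_set_normalizer_iff.mpr fun a => ⟨key g hgM a, fun h => ?_⟩
  simpa [mul_assoc] using key g⁻¹ (inv_mem hgM) _ h

end Cfsg.Agent.S1362
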