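import Cfsg.Statements.S1366
import Cfsg.Agent.BG.T14_7
-- import your own Cfsg.Agent.* helpers here

set_option autoImplicit false
open Cfsg

namespace Cfsg.Agent.S1366

/-- Let G be a minimal simple group of odd order, M a maximal subgroup with standard factorisation M = K U M_σ, K ≠ 1, and K* = M_σ ∩ C_G(K). Then there is exactly one maximal subgroup M* of G such that K = M*_σ ∩ C_G(K*) and K* is a Hall κ(M*)-subgroup of M* (in particular κ(M*) is nonempty). -/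
theorem result {G : Type*} [Group G] [Finite G] (hG : Cfsg.IsMinSimpleOddOrder G)
    (M : Subgroup G) (hM : IsCoatom M) (K U : Subgroup G) (hKU : Cfsg.IsSigmaDecomposition M K U) (hK1 : K ≠ ⊥) :
    ∃! Mstar : Subgroup G, IsCoatom Mstar ∧ K = Cfsg.sigmaCore Mstar ⊓ Subgroup.centralizer ((Cfsg.sigmaCore M ⊓ Subgroup.centralizer (K : Set G)) : Set G) ∧
        Cfsg.IsPiHallOf (Cfsg.kappa Mstar) (Cfsg.sigmaCore M ⊓ Subgroup.centralizer (K : Set G)) Mstar := by

  obtain ⟨L, h'⟩ := BG.Ptype_embedding hG ((BG.typeP_iff_ne_bot hM hKU.hall).mpr hK1) hKU.hall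
  refine ⟨L, ⟨h'.typeL.1, h'.defK.symm, h'.hallKs⟩, fun Mstar ⟨hMstar, hKst, hKstH⟩ => ?_⟩
  have h : BG.PPair M Mstar K _ := ⟨(BG.typeP_iff_ne_bot hM hKU.hall).mpr hK1,
    (BG.typeP_iff_ne_bot hMstar hKstH).mpr (BG.Ptype_Kstar_ne_bot hG hM hKU.hall), hKU.hall, hKstH, rfl,
    hKst.symm⟩
  obtain ⟨p, hp, X, hX, rfl⟩ := BG.Rank.exists_card_prime_le_of_ne_bot hK1
  exact (BG.ppair_uniq hG h' hX hp).2 _ hMstar (BG.ppair_uniq hG h hX hp).1

end Cfsg.Agent.S1366
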