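import Cfsg.Statements.S1369
import Cfsg.Agent.BG.T14_7
-- import your own Cfsg.Agent.* helpers here

set_option autoImplicit false
open Cfsg

namespace Cfsg.Agent.S1369

/-- Let G be a minimal simple group of odd order, M a maximal subgroup with standard factorisation M = K U M_σ, K ≠ 1, K* = M_σ ∩ C_G(K), and M* a maximal subgroup with K = M*_σ ∩ C_G(K*) and K* a Hall κ(M*)-subgroup of M*. Then either U ≠ 1 or every K*-invariant complement of K* M*_σ in M* is nontrivial; and every maximal subgroup H of G with κ(H) nonempty is conjugate to M or to M*. -/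
theorem result {G : Type*} [Group G] [Finite G] (hG : Cfsg.IsMinSimpleOddOrder G)
    (M : Subgroup G) (hM : IsCoatom M) (K U : Subgroup G) (hKU : Cfsg.IsSigmaDecomposition M K U) (hK1 : K ≠ ⊥) (Mstar : Subgroup G) (hMstar : IsCoatom Mstar)
    (hKst : K = Cfsg.sigmaCore Mstar ⊓ Subgroup.centralizer ((Cfsg.sigmaCore M ⊓ Subgroup.centralizer (K : Set G)) : Set G))
    (hKstH : Cfsg.IsPiHallOf (Cfsg.kappa Mstar) (Cfsg.sigmaCore M ⊓ Subgroup.centralizer (K : Set G)) Mstar) :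
    (U ≠ ⊥ ∨ ∀ Ustar : Subgroup G, Cfsg.IsSigmaDecomposition Mstar (Cfsg.sigmaCore M ⊓ Subgroup.centralizer (K : Set G)) Ustar → Ustar ≠ ⊥) ∧
      ∀ H : Subgroup G, IsCoatom H → (Cfsg.kappa H).Nonempty →
        ∃ g : G, H = M.map (MulAut.conj g).toMonoidHom ∨ H = Mstar.map (MulAut.conj g).toMonoidHom := by

  have h : BG.PPair M Mstar K _ := ⟨(BG.typeP_iff_ne_bot hM hKU.hall).mpr hK1,
    (BG.typeP_iff_ne_bot hMstar hKstH).mpr (BG.Ptype_Kstar_ne_bot hG hM hKU.hall), hKU.hall, hKstH, rfl,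
    hKst.symm⟩
  exact ⟨(BG.ppair_P2 hG h).imp
    (fun e e' => e.2 ((BG.kappaCompl_eq_bot_iff (BG.kappaCompl_of_sigmaDecomp hG hM hKU)).mp e'))
    fun e V hV e' => e.2 ((BG.kappaCompl_eq_bot_iff (BG.kappaCompl_of_sigmaDecomp hG hMstar hV)).mp e'),
    fun H hH hk => exists_or.mpr (BG.ppair_trans hG h ⟨hH, hk⟩)⟩

end Cfsg.Agent.S1369
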