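import Cfsg.Statements.S1370
import Cfsg.Agent.BG.T14_7
-- import your own Cfsg.Agent.* helpers here

set_option autoImplicit false
open Cfsg

namespace Cfsg.Agent.S1370

/-- Let G be a minimal simple group of odd order, M a maximal subgroup with standard factorisation M = K U M_σ, K ≠ 1, K* = M_σ ∩ C_G(K) and Z the subgroup generated by K and K*. Then the set of elements of Z lying in neither K nor K* is a TI-subset of G, and its set-normalizer in G is exactly Z. -/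
theorem result {G : Type*} [Group G] [Finite G] (hG : Cfsg.IsMinSimpleOddOrder G)
    (M : Subgroup G) (hM : IsCoatom M) (K U : Subgroup G) (hKU : Cfsg.IsSigmaDecomposition M K U) (hK1 : K ≠ ⊥) :
    Cfsg.IsTISubset ((↑(K ⊔ (Cfsg.sigmaCore M ⊓ Subgroup.centralizer (K : Set G))) : Set G) \ ((K : Set G) ∪ ↑(Cfsg.sigmaCore M ⊓ Subgroup.centralizer (K : Set G)))) ∧ Subgroup.normalizer ((↑(K ⊔ (Cfsg.sigmaCore M ⊓ Subgroup.centralizer (K : Set G))) : Set G) \ ((K : Set G) ∪ ↑(Cfsg.sigmaCore M ⊓ Subgroup.centralizer (K : Set G)))) = K ⊔ (Cfsg.sigmaCore M ⊓ Subgroup.centralizer (K : Set G)) := by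

  obtain ⟨L, h⟩ := BG.Ptype_embedding hG ((BG.typeP_iff_ne_bot hM hKU.hall).mpr hK1) hKU.hall
  obtain ⟨x, hx, hx1⟩ := BG.Amb.exists_mem_ne_one hK1
  obtain ⟨y, hy, hy1⟩ := BG.Amb.exists_mem_ne_one (BG.ppair_ne_bot h.symm)
  have h1 := (BG.ppair_selfNormalizing hG h).2.2.2.2.2 _ le_rfl
    ⟨_, (BG.ppair_mem_zHat hG h).mpr ⟨x, hx, hx1, y, hy, hy1, rfl⟩⟩
  exact ⟨fun g hg z hz e => absurd (h1.ge (BG.ppair_TI hG h hz e.1)) hg, h1⟩

end Cfsg.Agent.S1370
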