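import Cfsg.Statements.S1371
import Mathlib
import Cfsg.Agent.BG.T16_2

set_option autoImplicit false
open Cfsg

namespace Cfsg.Agent.S1371

/-- Let G be a minimal simple group of odd order, M a maximal subgroup with standard factorisation M = K U M_σ, K ≠ 1, K* = M_σ ∩ C_G(K), and Ẑ the set of elements of K K* outside K ∪ K*. Then the union of the M-conjugates of Ẑ equals A₀(M) with A(M) removed, and it is a TI-subset of G. -/
theorem result {G : Type*} [Group G] [Finite G] (hG : Cfsg.IsMinSimpleOddOrder G)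
    (M : Subgroup G) (hM : IsCoatom M) (K U : Subgroup G) (hKU : Cfsg.IsSigmaDecomposition M K U) (hK1 : K ≠ ⊥) :
    {a : G | ∃ m ∈ M, ∃ z ∈ ((↑(K ⊔ (Cfsg.sigmaCore M ⊓ Subgroup.centralizer (K : Set G))) : Set G) \ ((K : Set G) ∪ ↑(Cfsg.sigmaCore M ⊓ Subgroup.centralizer (K : Set G)))), a = m * z * m⁻¹} = Cfsg.sigmaA0 M K \ Cfsg.sigmaA M U ∧
      Cfsg.IsTISubset (Cfsg.sigmaA0 M K \ Cfsg.sigmaA M U) := by
  have hU := BG.kappaCompl_of_sigmaDecomp hG hM hKU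
  obtain ⟨L, hL⟩ := BG.Ptype_embedding hG ((BG.typeP_iff_ne_bot hM hKU.hall).mpr hK1) hKU.hall
  have e := BG.sigmaA0_diff hG hL hU
  refine ⟨e.symm, ?_⟩
  rw [e]
  rintro g hg _ ⟨m, hm, z, hz, rfl⟩ ⟨n, hn, w, hw, h⟩
  refine absurd ?_ hg
  have hgM : g ∈ M := by
    refine (mul_mem_cancel_right hm).mp (BG.ppair_mem_of_conj hG hL hz ?_)
    rw [show g * m * z * (g * m)⁻¹ = g * (m * z * m⁻¹) * g⁻¹ by group, h]
    exact mul_mem (mul_mem hn (sup_le hKU.hall.1 (inf_le_left.trans (BG.Amb.sigmaCore_le M)) hw.1))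
      (inv_mem hn)
  intro a
  constructor
  · rintro ⟨m, hm, z, hz, rfl⟩
    exact ⟨g * m, mul_mem hgM hm, z, hz, by group⟩
  · rintro ⟨m, hm, z, hz, h⟩
    refine ⟨g⁻¹ * m, mul_mem (inv_mem hgM) hm, z, hz, ?_⟩
    rw [show g⁻¹ * m * z * (g⁻¹ * m)⁻¹ = g⁻¹ * (m * z * m⁻¹) * g by group, ← h]
    group

end Cfsg.Agent.S1371
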