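import Cfsg.Statements.S1372
import Cfsg.Agent.BG.T15_7

set_option autoImplicit false
open Cfsg

namespace Cfsg.Agent.S1372

open Cfsg.Agent.BG Cfsg.Agent.BG.Amb

/-- Let G be a minimal simple group of odd order and M a maximal subgroup with standard factorisation M = K U M_σ, K ≠ 1 and U ≠ 1. Then K has prime order, and the Fitting subgroup F(M) contains M_σ and is a TI-subset of G. -/
theorem result {G : Type*} [Group G] [Finite G] (hG : Cfsg.IsMinSimpleOddOrder G)
    (M : Subgroup G) (hM : IsCoatom M) (K U : Subgroup G) (hKU : Cfsg.IsSigmaDecomposition M K U) (hK1 : K ≠ ⊥) (hU1 : U ≠ ⊥) :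
    (Nat.card K).Prime ∧ Cfsg.IsTISubset (Cfsg.fittingOf M : Set G) ∧ Cfsg.sigmaCore M ≤ Cfsg.fittingOf M := by
  have h : TypeP2 M := ⟨(typeP_iff_ne_bot hM hKU.hall).2 hK1,
    fun h => hU1 ((kappaCompl_eq_bot_iff (kappaCompl_of_sigmaDecomp hG hM hKU)).2 h)⟩
  obtain ⟨-, h2, h3, -⟩ := P2type_facts hG h hKU.hall
  exact ⟨h2, Fitting_TI hG hM (Or.inl h), le_fittingOf (sigmaCore_le M) (le_norm_sigmaCore M) h3⟩

end Cfsg.Agent.S1372
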