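import Cfsg.Statements.S1374
import Cfsg.Agent.BG.T14_4
-- import your own Cfsg.Agent.* helpers here

set_option autoImplicit false
open Cfsg

namespace Cfsg.Agent.S1374

/-- Let G be a minimal simple group of odd order, M a maximal subgroup and x a non-identity element of M_σ. Then C_M(x) has order coprime to its index in C_G(x), and C_G(x) has a normal subgroup R complementing C_M(x) such that for every conjugate gMg⁻¹ containing x there is exactly one r ∈ R with rMr⁻¹ = gMg⁻¹. -/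
theorem result {G : Type*} [Group G] [Finite G] (hG : Cfsg.IsMinSimpleOddOrder G)
    (M : Subgroup G) (hM : IsCoatom M) (x : G) (hx : x ∈ Cfsg.sigmaCore M) (hx1 : x ≠ 1) :
    (Nat.card ↥(M ⊓ Subgroup.centralizer ({x} : Set G))).Coprime ((M ⊓ Subgroup.centralizer ({x} : Set G)).relIndex (Subgroup.centralizer ({x} : Set G))) ∧
      ∃ R : Subgroup G, Subgroup.centralizer ({x} : Set G) ≤ Subgroup.normalizer (R : Set G) ∧ Cfsg.IsComplIn (M ⊓ Subgroup.centralizer ({x} : Set G)) R (Subgroup.centralizer ({x} : Set G)) ∧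
        ∀ g : G, x ∈ M.map (MulAut.conj g).toMonoidHom → ∃! r : G, r ∈ R ∧ M.map (MulAut.conj r).toMonoidHom = M.map (MulAut.conj g).toMonoidHom := by

  obtain ⟨h1, h2, -, h3, h4⟩ := BG.supportR_context hG hM hx hx1
  refine ⟨?_, supportR M x, BG.Amb.sdProd_normal h1,
    BG.Amb.isComplIn_symm (BG.Amb.isComplIn_symm (BG.Amb.isComplIn_symm
      (BG.Amb.isComplIn_of_sdProd h1))), fun g hg => ?_⟩
  · have h5 := BG.Amb.relIndex_sup_right_of_le_normalizer h1.2.2
    rw [h1.1, h1.2.1, Subgroup.relIndex_bot_left] at h5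
    rw [h5]
    exact h3.symm
  · obtain ⟨r, hr, h5⟩ := (h4 _ (BG.Amb.isCoatom_conj (g := g) hM)
      (BG.S13.mem_Ms hG (BG.Amb.isCoatom_conj hM) hg (by
        rw [BG.Amb.sigma_conj]; exact BG.Amb.piElem_of_mem (BG.Amb.sigmaCore_pi M) hx))).2
    refine ⟨r, ⟨hr, h5.symm⟩, fun s hs => ?_⟩
    have h6 := (BG.Amb.conj_max_eq_conj_iff hG hM).mp (hs.2.trans h5)
    have h7 : r⁻¹ * s ∈ supportR M x ⊓ M := ⟨Subgroup.mul_mem _ (Subgroup.inv_mem _ hr) hs.1, h6⟩
    rw [h2, Subgroup.mem_bot, inv_mul_eq_one] at h7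
    exact h7.symm

end Cfsg.Agent.S1374
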