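import Cfsg.Statements.S1375
import Cfsg.Agent.BG.T14_4
-- import your own Cfsg.Agent.* helpers here

set_option autoImplicit false
open Cfsg

namespace Cfsg.Agent.S1375

/-- Let G be a minimal simple group of odd order, M a maximal subgroup, x ≠ 1 in M_σ with C_G(x) not contained in M. Then exactly one maximal subgroup N contains C_G(x); for it N_σ = N_F, C_{N_σ}(x) is a normal subgroup of C_G(x) complementing C_M(x), M ∩ N is a complement to N_σ in N, and for every standard factorisation N = K' U' N_σ one has U' ≠ 1 and x ∈ A(N) with x ∉ N_σ. -/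
theorem result {G : Type*} [Group G] [Finite G] (hG : Cfsg.IsMinSimpleOddOrder G)
    (M : Subgroup G) (hM : IsCoatom M) (x : G) (hx : x ∈ Cfsg.sigmaCore M) (hx1 : x ≠ 1) (hxM : ¬ Subgroup.centralizer ({x} : Set G) ≤ M) :
    ∃ N : Subgroup G, (IsCoatom N ∧ Subgroup.centralizer ({x} : Set G) ≤ N) ∧ (∀ L : Subgroup G, IsCoatom L → Subgroup.centralizer ({x} : Set G) ≤ L → L = N) ∧
        Cfsg.sigmaCore N = Cfsg.fittingHallOf N ∧
        Subgroup.centralizer ({x} : Set G) ≤ Subgroup.normalizer ((Cfsg.sigmaCore N ⊓ Subgroup.centralizer ({x} : Set G) : Subgroup G) : Set G) ∧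
        Cfsg.IsComplIn (M ⊓ Subgroup.centralizer ({x} : Set G)) (Cfsg.sigmaCore N ⊓ Subgroup.centralizer ({x} : Set G)) (Subgroup.centralizer ({x} : Set G)) ∧
        Cfsg.IsComplIn (M ⊓ N) (Cfsg.sigmaCore N) N ∧
        ∀ K' U' : Subgroup G, Cfsg.IsSigmaDecomposition N K' U' → U' ≠ ⊥ ∧ x ∈ Cfsg.sigmaA N U' ∧ x ∉ Cfsg.sigmaCore N := by

  obtain ⟨N, hN, hxN⟩ := BG.Amb.exists_max_cent1 hG hx1
  obtain ⟨h1, h2, h3, h4, h5, -, h6, h7, h8, h9⟩ := BG.sigma_signalizer hG hM hx hx1 hxM hN hxN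
  have h10 := (BG.supportR_context hG hM hx hx1).1
  rw [h9] at h10
  have hx' : x ∈ N := hxN (BG.Amb.mem_cent1_self x)
  obtain ⟨p, hp, hd⟩ := BG.Amb.exists_prime_dvd_orderOf hx1
  have hpt := h4 p hp hd
  refine ⟨N, ⟨hN, hxN⟩, h1.2, h8.symm, BG.Amb.sdProd_normal h10,
    BG.Amb.isComplIn_symm (BG.Amb.isComplIn_of_sdProd h10), (BG.sdprod_sigma hG hN).2.mp h6,
    fun K U h => ⟨fun e => ?_, ⟨⟨hx', ?_⟩, ?_⟩, fun e => ?_⟩⟩
  · exact ((BG.kappaCompl_eq_bot_iff (BG.kappaCompl_of_sigmaDecomp hG hN h)).mp e p hp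
      (BG.Amb.tau2_dvd hpt)).elim (BG.Amb.tau2_not_sigma hpt) fun e => BG.Amb.kappa_not_tau2 e hpt
  · obtain ⟨y, hy, hy1⟩ := BG.Amb.exists_mem_ne_one h3
    exact ⟨y, hy.1, hy1, (BG.Amb.mem_cent1.mp hy.2).symm⟩
  · obtain ⟨h11, h12⟩ := BG.T14_4.normal_compl hG hN (BG.kappaCompl_of_sigmaDecomp hG hN h)
    rw [sup_comm]
    exact BG.Amb.mem_normal_hall h11 h12 hx' fun q hq hqd e => BG.Amb.kappa_not_tau2 e (h4 q hq hqd)
  · exact BG.Amb.tau2_not_sigma hpt (BG.Amb.piElem_of_mem (BG.Amb.sigmaCore_pi N) e p hp hd)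

end Cfsg.Agent.S1375
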