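import Cfsg.Statements.S1378
import Cfsg.Agent.BG.T13_8
-- import your own Cfsg.Agent.* helpers here

set_option autoImplicit false
open Cfsg

namespace Cfsg.Agent.S1378

/-- Let G be a minimal simple group of odd order. Then every prime dividing the order of G belongs to σ(M) for some maximal subgroup M, and if σ(M) and σ(N) have a prime in common for maximal subgroups M, N then N is conjugate to M; so the sets σ(M_i) over representatives of the conjugacy classes of maximal subgroups partition the prime divisors of #G. -/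
theorem result {G : Type*} [Group G] [Finite G] (hG : Cfsg.IsMinSimpleOddOrder G) :
    (∀ p : ℕ, p.Prime → p ∣ Nat.card G → ∃ M : Subgroup G, IsCoatom M ∧ p ∈ Cfsg.sigma M) ∧
      ∀ M N : Subgroup G, IsCoatom M → IsCoatom N → (Cfsg.sigma M ∩ Cfsg.sigma N).Nonempty → ∃ g : G, N = M.map (MulAut.conj g).toMonoidHom := by

  refine ⟨fun p hp hd => ?_, fun M N hM hN ⟨p, hp⟩ => ?_⟩
  · haveI := Fact.mk hp
    obtain ⟨P, hP⟩ := BG.Amb.exists_sylow p (⊤ : Subgroup G)
    have h1 : P ≠ ⊥ := BG.Amb.sylow_ne_bot hP (by rwa [Subgroup.card_top])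
    obtain ⟨M, hM, hN⟩ := BG.S7.exists_max (BG.S7.norm_pgroup_ne_top hG (BG.Amb.sylow_isPGroup hP) h1)
    exact ⟨M, hM, BG.Amb.mem_sigma_of_sylow hp
      (BG.Amb.hall_of_le hP (Subgroup.le_normalizer.trans hN) le_top) h1 hN⟩
  · by_contra h
    exact Set.disjoint_left.mp (BG.sigma_partition hG hM hN h) hp.1 hp.2

end Cfsg.Agent.S1378
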