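import Cfsg.Statements.S1386
import Cfsg.Agent.PF.TypeP

set_option autoImplicit false
open Cfsg

namespace Cfsg.Agent.S1386

open Cfsg.Agent.BG Cfsg.Agent.BG.Amb

/-- Let G be a finite group, W₁, W₂ subgroups forming a self-normalizing cyclic pair, S a subgroup with W₂ ≤ S and W₁ a complement to S' in S, and (W₁, U, W₂') type-P data for S. Then W₂' = W₂ (that is, C_{S'}(W₁) = W₂). -/
theorem result {G : Type*} [Group G] [Finite G] (W₁ W₂ S U W₂' : Subgroup G) (hW : Cfsg.IsSelfNormalizingCyclic W₁ W₂)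
    (hSW : Cfsg.IsComplIn ⁅S, S⁆ W₁ S) (hW₂S : W₂ ≤ S) (hP : Cfsg.IsTypePWith S W₁ U W₂') :
    W₂' = W₂ := by
  obtain ⟨h1, h2, h3, h4, h5, h6⟩ := hW
  obtain ⟨a, ha, ha1⟩ := exists_mem_ne_one h1
  obtain ⟨b, hb, hb1⟩ := exists_mem_ne_one h2
  have hc := le_cent_of_forall h4
  have h7 : W₁ ⊔ W₂ ≤ W₁ ⊔ W₂' := sup_le le_sup_left
    ((le_inf hW₂S ((le_cent_symm hc).trans (cent_le_cent1 ha))).trans (PF.tp_cent_M hP ha ha1).le)
  have hab : a * b ∈ W₁ ⊔ W₂ := Subgroup.mul_mem_sup ha hb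
  have h8 := h6 {a * b} (by
    rintro _ rfl
    refine ⟨hab, fun h => h.elim (fun h => hb1 ?_) fun h => ha1 ?_⟩
    · exact Subgroup.mem_bot.1 (h3.le ⟨(W₁.mul_mem_cancel_left ha).1 h, hb⟩)
    · exact Subgroup.mem_bot.1 (h3.le ⟨ha, (W₂.mul_mem_cancel_right hb).1 h⟩)) ⟨_, rfl⟩
  have hc' := hP.selfNormalizing.2.2.2.2.1
  have h9 : W₁ ⊔ W₂' ≤ W₁ ⊔ W₂ := by
    rw [← h8]
    exact ((comm_le_cent (comm_of_cyclic hc')).trans (cent_le_cent1 (h7 hab))).trans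
      (Subgroup.centralizer_le_normalizer _)
  have e1 := card_sdProd (⟨rfl, h3, le_norm_of_le_cent (le_cent_symm hc)⟩ : SdProd W₁ W₂ _)
  have e2 := card_sdProd (⟨rfl, hP.selfNormalizing.2.2.1,
    le_norm_of_le_cent (le_cent_symm (PF.TypeP.W₁_le_cent hP))⟩ : SdProd W₁ W₂' _)
  rw [le_antisymm h9 h7, ← e1] at e2
  exact eq_of_card_eq_of_cyclic h5 (le_sup_right.trans h9) le_sup_right
    (Nat.eq_of_mul_eq_mul_left Nat.card_pos e2)

end Cfsg.Agent.S1386
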