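import Cfsg.Statements.S1389
import Mathlib
import Cfsg.Agent.BG.T16_2

set_option autoImplicit false
open Cfsg

namespace Cfsg.Agent.S1389

/-- Let G be a minimal simple group of odd order and M a maximal subgroup, and let M_s be M' if M is of Type III or IV and M_F otherwise. Then N_G(P) ≤ M for every nontrivial Sylow subgroup P of M_s, and both M_F and M_s have order coprime to their index in G. -/
theorem result {G : Type*} [Group G] [Finite G] (hG : Cfsg.IsMinSimpleOddOrder G)
    (M : Subgroup G) (hM : IsCoatom M) :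
    (∀ (p : ℕ), p.Prime → ∀ (P : Sylow p ↥(Cfsg.typeCore M)), (P : Subgroup ↥(Cfsg.typeCore M)) ≠ ⊥ →
        Subgroup.normalizer ((((P : Subgroup ↥(Cfsg.typeCore M)).map (Cfsg.typeCore M).subtype : Subgroup G)) : Set G) ≤ M) ∧
      (Nat.card (Cfsg.fittingHallOf M)).Coprime (Cfsg.fittingHallOf M).index ∧
      (Nat.card (Cfsg.typeCore M)).Coprime (Cfsg.typeCore M).index := by
  rw [BG.typeCore_eq_sigma hG hM]
  have hs := BG.Msigma_Hall hG hM
  refine ⟨fun p hp P hP => ?_, ?_, ?_⟩
  · have := Fact.mk hp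
    have h := BG.Amb.isSylowOf_sylow P
    have hps : p ∈ sigma M := BG.Amb.mem_of_pi_of_isPGroup (BG.Amb.sigmaCore_pi M)
      (BG.Amb.sylow_isPGroup h) (fun e => hP ((Subgroup.map_eq_bot_iff_of_injective _
        (Subgroup.subtype_injective _)).mp e)) (BG.Amb.hall_le h)
    exact BG.Amb.norm_sylow_le_of_sigma hps (BG.Amb.sylow_of_hall h hs.1 hps)
  · have h1 := BG.Amb.hall_of_le (BG.Amb.fittingHallOf_hall M) (BG.Fcore_sub_Msigma hG hM)
      (BG.Amb.sigmaCore_le M)
    have h2 := BG.Amb.hall_congr h1 (ρ := {p | p ∣ Nat.card (fittingHallOf M)} ∩ sigma M)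
      fun p hp hd => ⟨fun h => ⟨h, BG.Amb.sigmaCore_pi M p hp hd⟩, fun h => h.1⟩
    have := BG.Amb.hall_coprime (BG.Amb.hall_trans h2 hs.2 Set.inter_subset_right)
    rwa [Subgroup.relIndex_top_right] at this
  · have := BG.Amb.hall_coprime hs.2
    rwa [Subgroup.relIndex_top_right] at this

end Cfsg.Agent.S1389
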