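import Cfsg.Statements.S1397
import Cfsg.Agent.BG.S8b

set_option autoImplicit false
open Cfsg

namespace Cfsg.Agent.S1397

/-- Let G be a minimal simple group of odd order, M a maximal subgroup, p a prime and A₀ an elementary abelian p-subgroup of F(M) of order at least p ^ 3 that is maximal among elementary abelian p-subgroups of F(M). (a) If F(M) is not a p-group, then F(M) ∩ C_G(A₀) lies in exactly one maximal subgroup of G. (b) If F(M) is a p-group and P is a Sylow p-subgroup of M, then p does not divide the index of P in G, and every normal self-centralizing subgroup A of P containing an elementary abelian subgroup of order p ^ 3 is contained in F(M) and lies in exactly one maximal subgroup of G. -/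
theorem result {G : Type*} [Group G] [Finite G] (hG : Cfsg.IsMinSimpleOddOrder G)
    (M : Subgroup G) (hM : IsCoatom M) (p : ℕ) [Fact p.Prime] (A₀ : Subgroup G)
    (hA₀ : A₀ ≤ Cfsg.fittingOf M) (hA₀e : Cfsg.IsElementaryAbelian p A₀) (hA₀3 : p ^ 3 ≤ Nat.card A₀)
    (hA₀max : ∀ B : Subgroup G, B ≤ Cfsg.fittingOf M → Cfsg.IsElementaryAbelian p B → A₀ ≤ B → B = A₀) :
    (¬ IsPGroup p ↥(Cfsg.fittingOf M) → Cfsg.InUniqueMaximal (Cfsg.fittingOf M ⊓ Subgroup.centralizer (A₀ : Set G))) ∧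
      (IsPGroup p ↥(Cfsg.fittingOf M) → ∀ P : Sylow p M,
        ¬ p ∣ ((P : Subgroup M).map M.subtype).index ∧
        ∀ A : Subgroup G, Cfsg.IsSCN ((P : Subgroup M).map M.subtype) A → ¬ Cfsg.PRankLE p 2 ↥A →
          A ≤ Cfsg.fittingOf M ∧ Cfsg.InUniqueMaximal A) := by
  refine ⟨fun hF => BG.S7.uniq_iff.mpr ⟨M, hM,
    BG.S7.non_pcore_Fitting_uniq hG hM ⟨hA₀, hA₀e, hA₀max⟩ hA₀3 hF⟩, fun hF P => ⟨?_, ?_⟩⟩
  · have h1 := BG.Amb.isSylowOf_sylow P
    have h2 := BG.Amb.sylow_not_dvd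
      (BG.S7.sylow_top_of_norm_le h1 (BG.S7.pcore_Fitting_norm_le hG hM hF h1))
    rwa [Subgroup.relIndex_top_right] at h2
  · intro A hA hA3
    obtain ⟨h1, h2⟩ := BG.S7.scn_Fitting_uniq hG hM hF (BG.Amb.isSylowOf_sylow P) hA hA3
    exact ⟨h1, BG.S7.uniq_iff.mpr ⟨M, hM, h2⟩⟩

end Cfsg.Agent.S1397
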