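import Mathlib
import Cfsg.Statements.S1405
import Cfsg.Agent.BG.T10_2

set_option autoImplicit false
open Cfsg

namespace Cfsg.Agent.S1405

open Cfsg.Agent.BG Cfsg.Agent.BG.Amb Cfsg.Agent.BG.B10
open scoped Pointwise

/-- Let G be a minimal simple group of odd order and M a maximal subgroup, α(M) the set of primes p with M of p-rank at least 3, and M_α = O_{α(M)}(M). Then M_α is a Hall α(M)-subgroup of M and of G, M_α ≤ M_σ, the quotient M/M_α has no elementary abelian subgroup of order p ^ 3 for any prime p, and the image of M' in M/M_α is nilpotent. -/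
theorem result {G : Type*} [Group G] [Finite G] (hG : Cfsg.IsMinSimpleOddOrder G)
    (M : Subgroup G) (hM : IsCoatom M) :
    Cfsg.IsPiHallOf (Cfsg.alpha M) (Cfsg.alphaCore M) M ∧ Cfsg.IsPiHall (Cfsg.alpha M) (Cfsg.alphaCore M) ∧
      Cfsg.alphaCore M ≤ Cfsg.sigmaCore M ∧ Cfsg.RankLE 2 (↥M ⧸ Cfsg.piCore (Cfsg.alpha M) ↥M) ∧
      Group.IsNilpotent ↥((commutator ↥M).map (QuotientGroup.mk' (Cfsg.piCore (Cfsg.alpha M) ↥M))) := by
  refine ⟨(Malpha_Hall hG hM).1, isPiHall_iff.2 (Malpha_Hall hG hM).2, Malpha_sub_Msigma hG hM,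
    (Rank.rankLE_congr (QuoApi.quotientEquiv (piCore (alpha M) M))).2 (Malpha_quo_rank2 hG hM), ?_⟩
  have h := Malpha_quo_nil hG hM
  rw [← Core.map_commutator_subtype] at h
  exact @Group.nilpotent_of_mulEquiv _ _ _ _ h
    (QuoApi.mapMkEquiv (piCore (alpha M) M) (commutator M)).symm

end Cfsg.Agent.S1405
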