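import Mathlib
import Cfsg.Statements.S1414
import Cfsg.Agent.BG.T10_8
import Cfsg.Agent.Transfer.Residual

set_option autoImplicit false
open Cfsg

namespace Cfsg.Agent.S1414

open Cfsg.Agent.BG

/-- Let G be a minimal simple group of odd order, M a maximal subgroup, β(M) the set of ideal primes in α(M), and M_β = O_{β(M)}(M). Then M_β is a Hall β(M)-subgroup of M and of G; M' and M_σ each have a nilpotent Hall β(M)'-subgroup; and for each prime p dividing the order of M with p ∉ β(M), both M' and M_σ have normal p-complements and every prime dividing the index of O_{p'}(M) in M is at most p. -/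
theorem result {G : Type*} [Group G] [Finite G] (hG : Cfsg.IsMinSimpleOddOrder G)
    (M : Subgroup G) (hM : IsCoatom M) :
    Cfsg.IsPiHallOf (Cfsg.beta M) (Cfsg.piCoreOf (Cfsg.beta M) M) M ∧ Cfsg.IsPiHall (Cfsg.beta M) (Cfsg.piCoreOf (Cfsg.beta M) M) ∧
      (∃ H : Subgroup G, Cfsg.IsPiHallOf {q | q.Prime ∧ q ∉ Cfsg.beta M} H ⁅M, M⁆ ∧ Group.IsNilpotent H) ∧
      (∃ H : Subgroup G, Cfsg.IsPiHallOf {q | q.Prime ∧ q ∉ Cfsg.beta M} H (Cfsg.sigmaCore M) ∧ Group.IsNilpotent H) ∧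
      ∀ p : ℕ, p.Prime → p ∣ Nat.card M → p ∉ Cfsg.beta M →
        Cfsg.HasNormalPComplement p ↥⁅M, M⁆ ∧ Cfsg.HasNormalPComplement p ↥(Cfsg.sigmaCore M) ∧
        ∀ q : ℕ, q.Prime → q ∣ (Cfsg.pPrimeCore p ↥M).index → q ≤ p := by
  have h1 : ∀ K : Subgroup G, K ≤ ⁅M, M⁆ → ∃ H : Subgroup G,
      IsPiHallOf {q | q.Prime ∧ q ∉ beta M} H K ∧ Group.IsNilpotent H := fun K hK => by
    obtain ⟨H, hH⟩ := B10.exists_hall (beta M)ᶜ (B10.sol_of_le hG hM (hK.trans (Amb.der_le M)))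
    exact ⟨H, Amb.hall_congr hH fun q hq _ => ⟨fun h => ⟨hq, h⟩, fun h => h.2⟩,
      beta'_der1_nil hG hM (Amb.hall_pi hH) (hH.1.trans hK)⟩
  have h2 : ∀ (p : ℕ) (K : Subgroup G), p.Prime → IsPiHallOf {p}ᶜ (piCoreOf {p}ᶜ K) K →
      HasNormalPComplement p K := fun p K hp h => by
    have := Fact.mk hp
    have h3 := Amb.hall_map_subtype_iff.1 h
    refine Transfer.hasNormalPComplement_of_normal (piCore {p}ᶜ K)
      (fun hd => h3.1 p hp hd rfl) ?_
    obtain ⟨k, hk⟩ := (Amb.piNat_singleton_iff hp (n := (piCore {p}ᶜ K).index)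
      Subgroup.FiniteIndex.index_ne_zero).1 fun q hq hd => by
        by_contra hne
        exact h3.2 q hq hne hd
    exact IsPGroup.of_card hk
  refine ⟨(Mbeta_Hall hG hM).1, Amb.isPiHall_iff.2 (Mbeta_Hall hG hM).2, h1 _ le_rfl,
    h1 _ (Msigma_der1 hG hM), fun p hp _ hb => ?_⟩
  obtain ⟨a, b, c⟩ := beta_max_pdiv hG hM hp hb
  refine ⟨h2 p _ hp a, h2 p _ hp b, fun q hq hd => c q hq ?_⟩
  rwa [Amb.piCoreOf_compl_eq hp, Subgroup.relIndex, ← Subgroup.comap_subtype,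
    Subgroup.comap_map_eq_self_of_injective M.subtype_injective]

end Cfsg.Agent.S1414
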