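import Cfsg.Statements.S1417
import Cfsg.Agent.BG.T12_5

set_option autoImplicit false
open Cfsg

namespace Cfsg.Agent.S1417

/-- Let G be a minimal simple group of odd order, M a maximal subgroup, p ∈ τ₂(M) and A ≤ M elementary abelian of order p ^ 2. Then (a) M_σ is nilpotent; (b) every Sylow p-subgroup P of M is abelian, and if A ≤ P then the elements of P of order dividing p are exactly those of A and N_G(P) is not contained in M; (c) M normalizes M_σA; (d) M_σ ∩ C_G(A) = 1; (e) M_σ ∩ M* = 1 for every maximal subgroup M* ≠ M containing A; (f) M_σ ∩ C_G(A₁) = 1 for some subgroup A₁ ≤ A of order p. -/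
theorem result {G : Type*} [Group G] [Finite G] (hG : Cfsg.IsMinSimpleOddOrder G)
    (M : Subgroup G) (hM : IsCoatom M) (p : ℕ) [Fact p.Prime] (hp : p ∈ Cfsg.tau2 M) (A : Subgroup G) (hA : (A ≤ M ∧ Cfsg.IsElementaryAbelian p A ∧ Nat.card A = p ^ 2)) :
    Group.IsNilpotent (Cfsg.sigmaCore M) ∧
      (∀ P : Sylow p M, IsMulCommutative (P : Subgroup M) ∧
        (A ≤ (P : Subgroup M).map M.subtype →
          (∀ x ∈ (P : Subgroup M).map M.subtype, x ^ p = 1 ↔ x ∈ A) ∧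
          ¬ Subgroup.normalizer ((((P : Subgroup M).map M.subtype : Subgroup G)) : Set G) ≤ M)) ∧
      M ≤ Subgroup.normalizer ((Cfsg.sigmaCore M ⊔ A : Subgroup G) : Set G) ∧
      Cfsg.sigmaCore M ⊓ Subgroup.centralizer (A : Set G) = ⊥ ∧
      (∀ Mstar : Subgroup G, IsCoatom Mstar → Mstar ≠ M → A ≤ Mstar → Cfsg.sigmaCore M ⊓ Mstar = ⊥) ∧
      ∃ A₁ : Subgroup G, A₁ ≤ A ∧ Nat.card A₁ = p ∧ Cfsg.sigmaCore M ⊓ Subgroup.centralizer (A₁ : Set G) = ⊥ := by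
  obtain ⟨h1, h2⟩ := BG.tau2_context hG hM hp hA
  refine ⟨BG.tau2_Msigma_nil hG hM hp, fun P => ?_, h2⟩
  obtain ⟨h3, h4⟩ := h1 _ (BG.Amb.isSylowOf_sylow P)
  refine ⟨?_, fun hAP => ⟨fun x hx => ?_, (h4 hAP).2⟩⟩
  · refine BG.Amb.comm_of_le_cent (BG.Amb.le_cent_of_forall fun x hx y hy => Subtype.ext ?_)
    exact BG.Amb.mem_cent_of_le_cent (BG.Amb.comm_le_cent h3) ⟨x, hx, rfl⟩ ⟨y, hy, rfl⟩
  · rw [← (h4 hAP).1, BG.Rank.mem_omegaOne_iff h3]
    exact ⟨fun h => ⟨hx, h⟩, fun h => h.2⟩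

end Cfsg.Agent.S1417
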