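import Mathlib
import Cfsg.Statements.S1451
import Cfsg.Agent.BG.T4_20
-- import your own Cfsg.Agent.* helpers here

set_option autoImplicit false
open Cfsg

namespace Cfsg.Agent.S1451

/-- Let G be a solvable group of odd order such that G, or its Fitting subgroup, has no elementary abelian subgroup of order q ^ 3 for any prime q. Then G' is nilpotent; for every Sylow subgroup S of G, every characteristic subgroup T of S with T ≤ [S, S] is normal in G; and for every prime p, G has a characteristic subgroup that is a Hall subgroup for the set of primes greater than p. -/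
theorem result {G : Type*} [Group G] [Finite G] [Group.IsSolvable G] (hodd : Odd (Nat.card G)) (hr : Cfsg.RankLE 2 G ∨ Cfsg.RankLE 2 (Cfsg.fittingSubgroup G)) :
    Group.IsNilpotent ↥(commutator G) ∧
      (∀ (q : ℕ) [Fact q.Prime] (S : Sylow q G) (T : Subgroup ↥(S : Subgroup G)), T.Characteristic → T.map (S : Subgroup G).subtype ≤ ⁅(S : Subgroup G), (S : Subgroup G)⁆ →
        (T.map (S : Subgroup G).subtype).Normal) ∧
      ∀ p : ℕ, ∃ N : Subgroup G, N.Characteristic ∧ Cfsg.IsPiHall {q | q.Prime ∧ p < q} N := by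
  have hF : Cfsg.fittingOf (⊤ : Subgroup G) = Cfsg.fittingSubgroup G := by
    rw [Cfsg.fittingOf, Core.map_fitting_subtype, inf_top_eq]
  have hs : Group.IsSolvable (⊤ : Subgroup G) := inferInstance
  have ho : Odd (Nat.card (⊤ : Subgroup G)) := by rwa [Subgroup.card_top]
  have hr' : Cfsg.RankLE 2 (Cfsg.fittingOf (⊤ : Subgroup G)) := by
    rw [hF]
    exact hr.elim (fun h => BG.Rank.rankLE_subgroup h _) id
  refine ⟨BG.Amb.nilpotent_of_le_fittingOf (BG.rank2_der1_sub_Fitting hs ho hr'), ?_, fun p => ?_⟩
  · intro q hq S T hT hle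
    exact PGrp.normal_iff_top_le_normalizer.mpr (BG.rank2_char_Sylow_normal hq.out hs ho hr'
      (BG.Amb.isSylowOf_top S) hle
      (inf_le_right.trans (Core.normalizer_le_normalizer_map_subtype _ T)))
  · refine ⟨Cfsg.piCore {q | p + 1 ≤ q} G, inferInstance, BG.Amb.isPiHall_iff.mpr ?_⟩
    rw [← BG.Amb.piCoreOf_top]
    exact BG.Amb.hall_congr (BG.rank2_ge_pcore_Hall (p + 1) hs ho hr')
      fun q hq _ => ⟨fun h => ⟨hq, h⟩, fun h => h.2⟩

end Cfsg.Agent.S1451
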