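import Mathlib
import Cfsg.Statements.S1452
import Cfsg.Agent.PGrp.Alperin
-- import your own Cfsg.Agent.* helpers here

set_option autoImplicit false
open Cfsg

namespace Cfsg.Agent.S1452

/-- Let p be an odd prime and R a finite p-group containing an elementary abelian subgroup of order p ^ 3. If E is a normal elementary abelian subgroup of R of order p ^ 2, then E ≤ A for some normal subgroup A of R with C_R(A) = A that contains an elementary abelian subgroup of order p ^ 3. -/
theorem result {R : Type*} [Group R] [Finite R] (p : ℕ) [Fact p.Prime] (hp : p ≠ 2) (hR : IsPGroup p R) (hr : ¬ Cfsg.PRankLE p 2 R)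
    (E : Subgroup R) [E.Normal] (hE : Cfsg.IsElementaryAbelian p E) (hE2 : Nat.card E = p ^ 2) :
    ∃ A : Subgroup R, E ≤ A ∧ A.Normal ∧ Subgroup.centralizer (A : Set R) = A ∧ ¬ Cfsg.PRankLE p 2 A := by
  have := hR.isNilpotent
  have hp' : p.Prime := Fact.out
  simp only [Cfsg.PRankLE, not_forall, not_le] at hr
  obtain ⟨F, h1, h2, h3⟩ := hr
  obtain ⟨A, h0, h4, h5, h6, -⟩ := PGrp.exists_normal_elementary_cube_ge hp hR ⟨h1, h2⟩ h3 E hE
  obtain ⟨B, hAB, hBn, hB, hCB⟩ := PGrp.exists_scn_ge A h5.1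
  refine ⟨B, h0.trans hAB, hBn, hCB, fun hr => ?_⟩
  have h7 := hr (A.subgroupOf B) inferInstance (fun a ha => Subtype.ext (h5.2 a ha))
  rw [Nat.card_congr (Subgroup.subgroupOfEquivOfLe hAB).toEquiv] at h7
  have := (Nat.pow_le_pow_iff_right hp'.one_lt).mp (h6.trans h7)
  omega

end Cfsg.Agent.S1452
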