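import Mathlib
import Cfsg.Statements.S1454
import Cfsg.Agent.BG.T5_5
-- import your own Cfsg.Agent.* helpers here

set_option autoImplicit false
open Cfsg

namespace Cfsg.Agent.S1454

/-- Let G be a finite group, p an odd prime, R a narrow p-subgroup and A a solvable subgroup of odd order normalizing R with A ∩ C_G(R) = 1. Then [A, A] ≤ O_p(A) and the index of O_p(A) in A is coprime to p; if R has an elementary abelian subgroup of order p ^ 3 then the order of every element of A of order coprime to p divides p − 1; and if the order of A is a prime not dividing p(p − 1), then 2·#A divides p + 1, and if in addition [R, A] = R and R is non-abelian then #R = p ^ 3. -/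
theorem result {G : Type*} [Group G] [Finite G] (p : ℕ) [Fact p.Prime] (hp : p ≠ 2) (R A : Subgroup G) (hR : IsPGroup p R) (hRn : Cfsg.IsNarrow p R)
    (hA : (A ≤ Subgroup.normalizer (R : Set G))) (hAs : Group.IsSolvable A) (hAodd : Odd (Nat.card A)) (hfaith : A ⊓ Subgroup.centralizer (R : Set G) = ⊥) :
    (commutator ↥A ≤ Cfsg.pCore p ↥A ∧ ((Cfsg.pCore p ↥A).index).Coprime p) ∧
      (¬ Cfsg.PRankLE p 2 R → ∀ a ∈ A, (orderOf a).Coprime p → orderOf a ∣ p - 1) ∧
      ((Nat.card A).Prime → ¬ Nat.card A ∣ p * (p - 1) →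
        2 * Nat.card A ∣ p + 1 ∧ (⁅R, A⁆ = R → ¬ IsMulCommutative R → Nat.card R = p ^ 3)) := by
  have hp' : p.Prime := Fact.out
  rw [← BG.narrowE_iff_isNarrow hp' hp hR] at hRn
  obtain ⟨h1, h2⟩ := BG.Aut_narrow_der1 hp' hp hR hRn hA hAs hAodd
  have h3 : commutator A ≤ Cfsg.pCore p A := by
    refine Core.le_pCore inferInstance ?_
    have h4 : IsPGroup p ↥⁅A, A⁆ := by
      refine PGrp.isPGroup_of_relIndex_eq_pow (C := ⁅A, A⁆ ⊓ Subgroup.centralizer (R : Set G)) ?_
        ((BG.Amb.piNat_singleton_iff hp' Subgroup.FiniteIndex.index_ne_zero).mp h1)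
      refine IsPGroup.to_le IsPGroup.of_bot ?_
      rw [← hfaith]
      exact inf_le_left.trans (inf_le_inf_right _ (BG.Amb.der_le A))
    rw [← Core.map_commutator_subtype] at h4
    exact h4.of_equiv (Subgroup.equivMapOfInjective _ _ A.subtype_injective).symm
  refine ⟨⟨h3, ((Nat.Prime.coprime_iff_not_dvd hp').mpr
    (PGrp.not_dvd_index_pCore_of_commutator_le h3)).symm⟩, fun hr a ha hc => ?_, fun hAp hnd => ?_⟩
  · exact orderOf_dvd_of_pow_eq_one (Subgroup.mem_bot.mp (hfaith.le ⟨pow_mem ha _, h2 hr a ha hc⟩))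
  · refine BG.Aut_narrow_prime hp' hp hR hRn hA hAp hAodd (fun h => ?_) hnd
    rw [inf_eq_left.mpr h] at hfaith
    rw [hfaith, Subgroup.card_bot] at hAp
    exact Nat.not_prime_one hAp

end Cfsg.Agent.S1454
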