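import Mathlib
import Cfsg.Statements.S1458
import Cfsg.Agent.PLocal.ZJ

set_option autoImplicit false
open Cfsg

namespace Cfsg.Agent.S1458

/-- Let G be a solvable group of odd order, p a prime and S a Sylow p-subgroup of G. Then the subgroup generated by the centre of the Thompson subgroup of S and O_{p'}(G) is normal in G. -/
theorem result {G : Type*} [Group G] [Finite G] [Group.IsSolvable G] (hodd : Odd (Nat.card G)) (p : ℕ) [Fact p.Prime] (S : Sylow p G) :
    (Cfsg.centerThompsonOf p (S : Subgroup G) ⊔ Cfsg.pPrimeCore p G).Normal := by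
  by_cases hp : p = 2
  · subst hp
    rw [PLocal.eq_bot_of_two_of_odd hodd (S := Cfsg.centerThompsonOf 2 (S : Subgroup G))
      (S.isPGroup'.to_le (inf_le_left.trans (Subgroup.map_subtype_le _))), bot_sup_eq]
    infer_instance
  · have h := ((PLocal.noQuadPair_of_odd hp hodd).quotient _).stabP.zOf_jn_factorization hp
      (Or.inr rfl) (PLocal.charP_quotient_of_solvable inferInstance) S
    rw [PLocal.centerThompsonOf_eq]
    refine Core.normal_of_le_normalizer (h.ge.trans (sup_le ?_ ?_))
    · exact Core.le_normalizer_of_le le_sup_right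
    · exact Core.le_normalizer_sup le_rfl Subgroup.le_normalizer_of_normal

end Cfsg.Agent.S1458
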