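import Mathlib
import Cfsg.Statements.S1478
import Cfsg.Agent.H2.CN2
import Cfsg.Agent.S1474

set_option autoImplicit false
open scoped Pointwise commutatorElement
open Cfsg

namespace Cfsg.Agent.S1478

open Cfsg.Agent.BG Cfsg.Agent.BG.Amb Cfsg.Agent.H2 Subgroup in
theorem aux {G : Type*} [Group G] [Finite G] (hq : Group.IsNilpotent (G ⧸ fittingHall G)) {p : ℕ} :
    ¬ IsThreeStepGroup p G := by
  rintro ⟨hK0, A, hA0, -, -, hAp, hn, hne, ⟨n, hi⟩, hs, hx⟩
  have hKn : (pCore p G).Normal := inferInstance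
  generalize pCore p G = K at *
  have hAK := coprime_of_semiregular (K := K) (H := A) le_norm_of_normal hs
  have hF : IsPiHallOf {p | p ∣ Nat.card (fittingHall G)} (fittingHall G) ⊤ :=
    fittingHallOf_top (G := G) ▸ fittingHallOf_hall ⊤
  have hAF : (Nat.card A).Coprime (Nat.card (fittingHall G)) := by
    by_contra hc
    obtain ⟨q, hq, h1, h2⟩ := Nat.Prime.not_coprime_iff_dvd.1 hc
    have := Fact.mk hq
    obtain ⟨a, ha, hao⟩ := FGS.exists_prime_orderOf_mem hq h1
    have h3 : IsSylowOf q (piCoreOf {q} ⊤) (⊤ : Subgroup G) :=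
      sylow_of_dvd_fittingHallOf (by rwa [fittingHallOf_top])
    have h4 : a ∈ piCoreOf {q} (⊤ : Subgroup G) := mem_normal_hall h3 (le_norm_piCoreOf _ _)
      (mem_top a) (by rw [hao]; exact (piNat_prime hq).2 rfl)
    have h5 : K ≤ 𝐂(piCoreOf {q} (⊤ : Subgroup G)) := le_cent_of_disjoint
      (le_top.trans (le_norm_piCoreOf _ _)) le_norm_of_normal (by
        rw [inf_comm]
        exact pi_inf_eq_bot (piCoreOf_pi _ _) ((pi_compl_singleton hq).2 fun hd =>
          hq.one_lt.ne' (Nat.eq_one_of_dvd_coprimes hAK h1 hd)))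
    refine hK0 (le_bot_iff.1 ?_)
    rw [← hs a ha fun e => hq.one_lt.ne' (by rw [← hao, e, orderOf_one])]
    exact le_inf le_rfl (h5.trans (cent_le_cent1 h4))
  obtain ⟨r, hr, hd⟩ := Nat.exists_prime_and_dvd (n := (K ⊔ A).index) fun e => hne (index_eq_one.1 e)
  have := Fact.mk hr
  obtain ⟨R, hR⟩ := Amb.exists_sylow r (⊤ : Subgroup G)
  have hRle : ¬ R ≤ K ⊔ A := fun hle =>
    (piNat_compl_singleton hr).1 (hall_index_of_le hR hle le_top) (by rwa [relIndex_top_right])
  obtain ⟨x, hxR, hxn⟩ := SetLike.not_le_iff_exists.1 hRle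
  obtain ⟨a, ha, ha1⟩ := exists_mem_ne_one hA0
  refine hx x hxn a ha ha1 ?_
  have hrA : ¬ r ∣ Nat.card A := fun h => hr.one_lt.ne'
    (Nat.eq_one_of_dvd_coprimes hAp h (hr.dvd_of_dvd_pow (hi ▸ hd)))
  have hRA : (Nat.card R).Coprime (Nat.card A) :=
    pi_coprime (hall_pi hR) ((pi_compl_singleton hr).2 hrA)
  have h1 : ⁅R, A⁆ ≤ fittingHall G := by
    rw [← map_le_cent_map_iff]
    exact nil_le_cent_of_pi (K := ⊤) inferInstance le_top le_top (pi_map (hall_pi hR) _)
      (pi_map ((pi_compl_singleton hr).2 hrA) _)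
  have h2 : x * a * x⁻¹ * a⁻¹ ∈ fittingHall G := h1 (commutator_mem_commutator hxR ha)
  have h3 : x * a * x⁻¹ * a⁻¹ ∈ K ⊔ A :=
    mul_mem (hn.conj_mem _ (mem_sup_right ha) x) (inv_mem (mem_sup_right ha))
  have h4 : IsPiHallOf {p | p ∣ Nat.card A}ᶜ K (K ⊔ A) :=
    hall_left_of_sup (piNat_of_coprime hAK) (piNat_compl_compl.2 (pi_self A)) le_norm_of_normal
  exact mem_normal_hall h4 le_norm_of_normal h3 (piElem_of_mem (piNat_of_coprime hAF) h2)

/-- Let G be a minimal simple group of odd order in which every non-identity element has nilpotent centralizer. Then no subgroup of G is a three-step group with respect to any prime. -/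
theorem result {G : Type*} [Group G] [Finite G] (hG : Cfsg.IsMinSimpleOddOrder G) (hCN : Cfsg.IsCNGroup G) :
    ∀ (H : Subgroup G) (p : ℕ), ¬ Cfsg.IsThreeStepGroup p ↥H := by
  intro H p h
  by_cases hH : H = ⊤
  · subst hH
    obtain ⟨hK0, A, -, -, -, -, hn, hne, -⟩ := h
    have := hG.2.1
    have : IsSimpleGroup (⊤ : Subgroup G) := Subgroup.topEquiv.isSimpleGroup
    exact hK0 (le_bot_iff.1 (le_sup_left.trans (hn.eq_bot_or_eq_top.resolve_right hne).le))
  refine aux ?_ h
  by_cases hn : Group.IsNilpotent H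
  · infer_instance
  have h0 : H ≠ ⊥ := by
    rintro rfl
    exact hn inferInstance
  refine (S1474.aux (H2.CN.subgroup hCN H) hn fun e => H2.CN.fh_ne_bot hG hCN hH h0 ?_).2.2
  rw [fittingHallOf, e, Subgroup.map_bot]

end Cfsg.Agent.S1478
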