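import Mathlib
import Cfsg.Statements.S1481
import Cfsg.Agent.BG.T1_15
import Cfsg.Agent.BG.S7Aux
import Cfsg.Agent.BG.AmbCore
import Cfsg.Agent.Comp2.Bender
-- import your own Cfsg.Agent.* helpers here

set_option autoImplicit false
open Cfsg

namespace Cfsg.Agent.S1481

/-- Let G be a finite group and H a local subgroup (the normalizer of a nontrivial subgroup of prime-power order) not properly contained in any local subgroup; let F = F(H), suppose at least two primes divide #F, put X = H ∩ C_G(F), let M ≤ F with F ∩ C_G(M) ≤ M, and let R be a solvable subgroup normalized by M and by X. Then for every prime q not dividing #F there is exactly one maximal M-invariant q-subgroup of R, and it is a Sylow q-subgroup of the largest normal subgroup of R of order coprime to #F. -/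
theorem result {G : Type*} [Group G] [Finite G] (H : Subgroup G) (hH : Cfsg.IsLocalSubgroup H) (hHmax : ∀ L : Subgroup G, Cfsg.IsLocalSubgroup L → H ≤ L → L = H)
    (hF2 : 2 ≤ (Nat.card (Cfsg.fittingOf H)).primeFactors.card)
    (M : Subgroup G) (hM : M ≤ Cfsg.fittingOf H) (hCM : Cfsg.fittingOf H ⊓ Subgroup.centralizer (M : Set G) ≤ M)
    (R : Subgroup G) (hR : Group.IsSolvable R) (hMR : M ≤ Subgroup.normalizer (R : Set G))
    (hXR : H ⊓ Subgroup.centralizer (Cfsg.fittingOf H : Set G) ≤ Subgroup.normalizer (R : Set G))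
    (q : ℕ) [Fact q.Prime] (hq : ¬ q ∣ Nat.card (Cfsg.fittingOf H)) :
    ∃! Q : Subgroup G, Q ∈ Cfsg.maxInvSubgroups R M {q} ∧
      (∀ Q' : Subgroup G, Q' ∈ Cfsg.maxInvSubgroups R M {q} →
        Q' ≤ Cfsg.piCoreOf (Cfsg.primesNotDvd (Nat.card (Cfsg.fittingOf H))) R ∧
        ¬ q ∣ Q'.relIndex (Cfsg.piCoreOf (Cfsg.primesNotDvd (Nat.card (Cfsg.fittingOf H))) R)) := by
  open Subgroup Cfsg.Agent.BG Cfsg.Agent.BG.Amb in
  set F := fittingOf H with hF
  have hFn : Group.IsNilpotent F := fittingOf_nilpotent H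
  have hHF : H ≤ normalizer (F : Set G) := le_norm_fittingOf H
  have hFH : F ≤ H := fittingOf_le H
  let Z : ℕ → Subgroup G := fun p => piCoreOf {p} F ⊓ centralizer (F : Set G)
  have hZF : ∀ p, Z p ≤ F := fun p => inf_le_left.trans (piCoreOf_le _ _)
  have hZM : ∀ p, Z p ≤ M := fun p => le_trans (le_inf (hZF p) (inf_le_right.trans (cent_anti hM))) hCM
  have hHZ : ∀ p, H ≤ normalizer (Z p : Set G) := fun p =>
    le_norm_inf_cent (le_norm_piCoreOf_of _ hHF) hHF
  have hZp : ∀ p, p.Prime → IsPGroup p (Z p) := fun p hp =>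
    haveI := Fact.mk hp
    (piCoreOf_isPGroup F).to_le inf_le_left
  have hCZ : ∀ p, p.Prime → p ∣ Nat.card F → centralizer (Z p : Set G) ≤ H := by
    intro p hp hd
    haveI := Fact.mk hp
    have h0 : Z p ≠ ⊥ := Core.inf_centralizer_ne_bot_of_nilpotent hFn (piCoreOf_le _ _) le_rfl
      (le_norm_piCoreOf _ _) (by
        rw [piCoreOf_fittingOf]; exact piCoreOf_ne_bot_of_dvd_fittingOf hd)
    rw [← hHmax _ ⟨p, Z p, hp, hZp p hp, h0, rfl⟩ (hHZ p)]
    exact cent_le_norm _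
  set X := H ⊓ centralizer (F : Set G) with hX
  have key1 : X ⊓ R ≤ F := by
    have h1 : fittingOf X = F ⊓ X := fittingOf_normal_eq inf_le_left
      (le_norm_inf_cent le_normalizer hHF)
    haveI : ((X ⊓ R).subgroupOf X).Normal :=
      normal_subgroupOf_of_le_norm (le_norm_inf le_normalizer hXR)
    have h2 := Core.le_fitting_of_solvable_of_le_centralizer ((X ⊓ R).subgroupOf X)
      (Core.solvable_subgroupOf (Core.solvable_of_le inf_le_right hR)) (fun y _ z hz => Subtype.ext (by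
        have : (z : G) ∈ F ⊓ X := h1 ▸ ⟨z, hz, rfl⟩
        exact y.2.2 z this.1))
    have h3 : X ⊓ R ≤ fittingOf X := (le_map_subtype_iff inf_le_left).2 h2
    exact h3.trans (h1 ▸ inf_le_left)
  have key2 : ∀ p, p.Prime → p ∣ Nat.card F → ∀ W : Subgroup G, W ≤ R → W ≤ centralizer (Z p : Set G) →
      M ≤ normalizer (W : Set G) → (Nat.card W).Coprime (Nat.card F) → W = ⊥ := by
    intro p hp hd W hWR hWZ hMW hc
    have hWH : W ≤ H := hWZ.trans (hCZ p hp hd)
    have hdis : W ⊓ F = ⊥ := disjoint_iff.1 (Core.disjoint_of_coprime hc)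
    have h1 : W ≤ centralizer (M : Set G) := le_cent_of_comm_le (comm_le_left hMW)
      (comm_le_of_right_le (hWH.trans hHF) hM) hdis
    have h2 := Comp2.commutator_eq_bot_of_coprime_of_centralizer hFn hM (hWH.trans hHF) hc
      (le_cent_iff_comm_eq_bot'.1 h1) (hCM.trans (le_cent_symm h1))
    rw [eq_bot_iff, ← hdis]
    exact le_inf le_rfl ((le_inf (le_inf hWH (le_cent_iff_comm_eq_bot'.2 h2)) hWR).trans key1)
  have hMs : Group.IsSolvable M := solvable_of_nilpotent (Core.nilpotent_of_le hM hFn)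
  have hother : ∀ p, ∃ r, r ≠ p ∧ r.Prime ∧ r ∣ Nat.card F := by
    intro p
    obtain ⟨r, hr, hrp⟩ := Finset.exists_mem_ne (s := (Nat.card F).primeFactors) (by omega) p
    exact ⟨r, hrp, Nat.prime_of_mem_primeFactors hr, Nat.dvd_of_mem_primeFactors hr⟩
  set K := piCoreOf (primesNotDvd (Nat.card F)) R with hK
  have hqp : q.Prime := Fact.out
  have key4 : ∀ Q ∈ invSubgroups R M {q}, Q ≤ K := by
    rintro Q ⟨hQR, hQq, hMQ⟩
    have hc : (Nat.card Q).Coprime (Nat.card F) :=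
      Nat.coprime_of_dvd fun s hs h1 h2 => hq ((show s = q from hQq s hs h1) ▸ h2)
    have h1 : ∀ p, p.Prime → p ∣ Nat.card F → Q ≤ piCoreOf {p}ᶜ R := by
      intro p hp hd
      obtain ⟨r, hrp, hr, hrd⟩ := hother p
      haveI := Fact.mk hr
      have hZS : ∀ p, Z p ≤ R ⊔ M := fun p => (hZM p).trans le_sup_right
      have h2 : Z r ≤ piCoreOf {p}ᶜ (R ⊔ M) := by
        refine le_trans ?_ (pPrimeCore_cent_pgroup hp (solvable_sup hR hMs hMR) (hZp p hp) (hZS p))
        exact le_piCoreOf (le_inf (hZS r) (inf_le_right.trans (cent_anti (hZF p))))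
          (inf_le_right.trans ((hCZ p hp hd).trans (hHZ r))) (pi_of_isPGroup (hZp r hr) hrp)
      have h3 := key2 r hr hrd (Q ⊓ centralizer (Z r : Set G)) (inf_le_left.trans hQR) inf_le_right
        (le_norm_inf_cent hMQ (hM.trans (hFH.trans (hHZ r)))) (Core.coprime_of_le_left hc inf_le_left)
      have h4 := Core.commutator_sup_centralizer (Z r) Q ((hZM r).trans hMQ)
        (Core.coprime_of_le_left hc.symm (hZF r)) (Or.inr (Core.solvable_of_le hQR hR))
      rw [h3, sup_bot_eq] at h4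
      refine le_trans (le_inf ?_ hQR) (piCoreOf_inf_le (H := R ⊔ M) le_sup_left)
      rw [← h4]
      exact comm_le_of_right_le ((hQR.trans le_sup_left).trans (le_norm_piCoreOf _ _)) h2
    let K0 : Subgroup G := R ⊓ ⨅ p : {p : ℕ // p.Prime ∧ p ∣ Nat.card F}, piCoreOf {p.1}ᶜ R
    refine le_trans (le_inf hQR (le_iInf fun p => h1 p.1 p.2.1 p.2.2) : Q ≤ K0)
      (le_piCoreOf inf_le_left (le_norm_inf le_normalizer (le_norm_of_conj_mem fun a ha k hk => ?_)) ?_)
    · rw [mem_iInf] at hk ⊢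
      exact fun p => conj_mem_of_le_norm (le_norm_piCoreOf _ _) ha (hk p)
    · intro s hs hd
      refine ⟨hs, fun h => ?_⟩
      have h5 : K0 ≤ piCoreOf {s}ᶜ R := inf_le_right.trans
        (iInf_le (fun p : {p : ℕ // p.Prime ∧ p ∣ Nat.card F} => piCoreOf {p.1}ᶜ R) ⟨s, hs, h⟩)
      exact pi_mono (piCoreOf_pi {s}ᶜ R) h5 s hs hd rfl
  have hMK : M ≤ normalizer (K : Set G) := le_norm_piCoreOf_of _ hMR
  have hKR : K ≤ R := piCoreOf_le _ _
  have hKF : (Nat.card K).Coprime (Nat.card F) :=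
    Nat.coprime_of_dvd fun s hs h1 => (piCoreOf_pi _ R s hs h1).2
  have hMKc : (Nat.card M).Coprime (Nat.card K) := Core.coprime_of_le_left hKF.symm hM
  have hsyl : ∀ Q ∈ maxInvSubgroups R M {q}, BG.IsSylowOf q Q K := by
    rintro Q ⟨hQ, hmax⟩
    obtain ⟨P, hP, hMP, hQP⟩ := S7.exists_inv_sylow_ge hMK hMKc (Or.inl hMs)
      (isPGroup_of_pi hQ.2.1) (key4 Q hQ) hQ.2.2
    rwa [← hmax P ⟨hP.1.trans hKR, hP.2.1, hMP⟩ hQP]
  obtain ⟨P, hP, hMP⟩ := S7.exists_inv_sylow q hMK hMKc (Or.inl hMs)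
  refine ⟨P, ⟨⟨⟨hP.1.trans hKR, hP.2.1, hMP⟩, fun Q hQ hPQ => ?_⟩, fun Q hQ =>
    ⟨(hsyl Q hQ).1, (hsyl Q hQ).2.2 q hqp rfl⟩⟩, fun Q hQ => ?_⟩
  · exact ((Core.isSylowOf_iff_isPiHallOf.2 hP).eq_of_le (isPGroup_of_pi hQ.2.1) (key4 Q hQ) hPQ).symm
  · obtain ⟨c, hc, e⟩ := S7.inv_sylow_conj hMK hMKc (Or.inl hMs) hP (hsyl Q hQ.1) hMP hQ.1.1.2.2
    obtain ⟨r, -, hr, hrd⟩ := hother 0
    rw [key2 r hr hrd (K ⊓ centralizer (M : Set G)) (inf_le_left.trans hKR)
      (inf_le_right.trans (cent_anti (hZM r))) (le_norm_inf_cent hMK le_normalizer)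
      (Core.coprime_of_le_left hKF inf_le_left), mem_bot] at hc
    rw [e, hc, map_one, one_smul]

end Cfsg.Agent.S1481
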