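import Mathlib
import Cfsg.Statements.S1483
import Cfsg.Agent.H2.CN

set_option autoImplicit false
open scoped Pointwise commutatorElement
open Cfsg

namespace Cfsg.Agent.S1483

open Cfsg.Agent.BG Cfsg.Agent.BG.Amb Cfsg.Agent.H2 Subgroup in
theorem aux {G : Type*} [Group G] [Finite G] (hCN : Cfsg.IsCNGroup G) {p q : ℕ} (hp : p.Prime)
    [hq : Fact q.Prime] (hpq : p ≠ q) {Q : Subgroup G} (hQ : IsSylowOf q Q ⊤) {x y : G} (hx : x ≠ 1)
    (hy : y ≠ 1) (hxp : IsPGroup p (zpowers x)) (hyq : IsPGroup q (zpowers y)) (h : x * y = y * x) :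
    ∃ x' : G, x' ≠ 1 ∧ IsPGroup p (zpowers x') ∧ x' ∈ 𝐂(Q) := by
  have := Fact.mk hp
  obtain ⟨g, -, hg⟩ := sylow_conj_le hQ hyq le_top
  rw [conj_zpowers] at hg
  have h1 : IsPGroup p (zpowers (g * x * g⁻¹)) := by rwa [← conj_zpowers, isPGroup_conj]
  refine ⟨g * x * g⁻¹, by simpa using hx, h1, ?_⟩
  refine CN.le_cent hCN (nilpotent_of_isPGroup h1) (nilpotent_of_isPGroup (sylow_isPGroup hQ))
    (IsPGroup.coprime_card_of_ne p q hpq _ _ h1 (sylow_isPGroup hQ)) (mem_zpowers _)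
    (by simpa using hx) (hg (mem_zpowers _)) (by simpa using hy) ?_ (mem_zpowers _)
  calc _ = g * (x * y) * g⁻¹ := by group
    _ = _ := by rw [h]; group

/-- Let G be a minimal simple group of odd order in which every non-identity element has nilpotent centralizer. Then any two nilpotent subgroups each contained in no larger nilpotent subgroup are either conjugate or of coprime orders; and for primes p, q, r: if some elements x, y ≠ 1 of p-power and q-power order commute, and some elements y', z ≠ 1 of q-power and r-power order commute, then some elements of p-power and r-power order, both ≠ 1, commute. -/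
theorem result {G : Type*} [Group G] [Finite G] (hG : Cfsg.IsMinSimpleOddOrder G) (hCN : Cfsg.IsCNGroup G) :
    (∀ H₁ H₂ : Subgroup G, (Group.IsNilpotent ↥H₁ ∧ ∀ L : Subgroup G, Group.IsNilpotent L → H₁ ≤ L → L = H₁) → (Group.IsNilpotent ↥H₂ ∧ ∀ L : Subgroup G, Group.IsNilpotent L → H₂ ≤ L → L = H₂) → (∃ g : G, H₂ = H₁.map (MulAut.conj g).toMonoidHom) ∨ (Nat.card H₁).Coprime (Nat.card H₂)) ∧
      ∀ (p q r : ℕ), p.Prime → q.Prime → r.Prime → ∀ (x y y' z : G), x ≠ 1 → y ≠ 1 → y' ≠ 1 → z ≠ 1 →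
        IsPGroup p (Subgroup.zpowers x) → IsPGroup q (Subgroup.zpowers y) → IsPGroup q (Subgroup.zpowers y') → IsPGroup r (Subgroup.zpowers z) →
        x * y = y * x → y' * z = z * y' →
        ∃ x' z' : G, x' ≠ 1 ∧ z' ≠ 1 ∧ IsPGroup p (Subgroup.zpowers x') ∧ IsPGroup r (Subgroup.zpowers z') ∧ x' * z' = z' * x' := by
  refine ⟨fun H₁ H₂ h1 h2 => H2.CN.MaxNil.conj_or_coprime hCN h1 h2, ?_⟩
  intro p q r hp hq hr x y y' z hx hy hy' hz hxp hyq hyq' hzr h1 h2
  by_cases hpq : p = q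
  · subst hpq
    exact ⟨y', z, hy', hz, hyq', hzr, h2⟩
  by_cases hrq : r = q
  · subst hrq
    exact ⟨x, y, hx, hy, hxp, hyq, h1⟩
  by_cases hpr : p = r
  · subst hpr
    exact ⟨x, x, hx, hx, hxp, hxp, rfl⟩
  have := Fact.mk hp
  have := Fact.mk hq
  have := Fact.mk hr
  obtain ⟨Q, hQ, hyQ⟩ := BG.Amb.exists_sylow_ge hyq le_top
  obtain ⟨x', hx', hxp', hxQ⟩ := aux hCN hp hpq hQ hx hy hxp hyq h1
  obtain ⟨z', hz', hzr', hzQ⟩ := aux hCN hr hrq hQ hz hy' hzr hyq' h2.symm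
  have hyQ' := hyQ (Subgroup.mem_zpowers y)
  refine ⟨x', z', hx', hz', hxp', hzr', BG.Amb.nil_commute_of_coprime (hCN y hy)
    (BG.Amb.cent_le_cent1 hyQ' hxQ) (BG.Amb.cent_le_cent1 hyQ' hzQ) ?_⟩
  simpa using IsPGroup.coprime_card_of_ne p r hpr _ _ hxp' hzr'

end Cfsg.Agent.S1483
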