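import Mathlib
import Cfsg.Statements.S1484
import Cfsg.Agent.H2.CN2

set_option autoImplicit false
open scoped Pointwise commutatorElement
open Cfsg

namespace Cfsg.Agent.S1484

open Cfsg.Agent.BG Cfsg.Agent.BG.Amb Cfsg.Agent.H2 Subgroup in
theorem aux {G : Type*} [Group G] [Finite G] (hG : Cfsg.IsMinSimpleOddOrder G) (hCN : Cfsg.IsCNGroup G)
    {k : ℕ} {Mrep : Fin k → Subgroup G}
    (hall : ∀ M : Subgroup G, IsCoatom M → ∃ i, ∃ g : G, M = MulAut.conj g • Mrep i)
    {A : Subgroup G} (hA : Group.IsNilpotent A) :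
    ∃ i, ∃ g : G, A ≤ MulAut.conj g • fittingHallOf (Mrep i) := by
  obtain ⟨L, hL, hle⟩ := CN.exists_maxNil hA
  obtain ⟨i, g, hg⟩ := hall _ (hL.isCoatom hG hCN)
  exact ⟨i, g, by rwa [← fittingHallOf_conj, ← hg, hL.fittingHallOf_norm hCN]⟩

/-- Let G be a minimal simple group of odd order in which every non-identity element has nilpotent centralizer, and M₁, …, M_k maximal subgroups, pairwise non-conjugate, such that every maximal subgroup is conjugate to some M_i. Let H_i be the largest normal nilpotent Hall subgroup of M_i. Then the orders of the H_i are pairwise coprime, their product is the order of G, and every element of G is conjugate to an element of some H_i. -/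
theorem result {G : Type*} [Group G] [Finite G] (hG : Cfsg.IsMinSimpleOddOrder G) (hCN : Cfsg.IsCNGroup G) (k : ℕ) (Mrep : Fin k → Subgroup G) (hmax : ∀ i, IsCoatom (Mrep i))
    (hnc : ∀ i j, i ≠ j → ∀ g : G, Mrep j ≠ (Mrep i).map (MulAut.conj g).toMonoidHom) (hall : ∀ M : Subgroup G, IsCoatom M → ∃ i, ∃ g : G, M = (Mrep i).map (MulAut.conj g).toMonoidHom) :
    (∀ i j, i ≠ j → (Nat.card (Cfsg.fittingHallOf (Mrep i))).Coprime (Nat.card (Cfsg.fittingHallOf (Mrep j)))) ∧
      ∏ i, Nat.card (Cfsg.fittingHallOf (Mrep i)) = Nat.card G ∧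
      ∀ x : G, ∃ i, ∃ g : G, g * x * g⁻¹ ∈ Cfsg.fittingHallOf (Mrep i) := by
  have h1 : ∀ i j, i ≠ j → (Nat.card (Cfsg.fittingHallOf (Mrep i))).Coprime
      (Nat.card (Cfsg.fittingHallOf (Mrep j))) := fun i j hij => by
    refine ((H2.CN.maxNil_fh hG hCN (hmax i)).conj_or_coprime hCN
      (H2.CN.maxNil_fh hG hCN (hmax j))).resolve_left ?_
    rintro ⟨g, hg⟩
    refine hnc i j hij g ?_
    change Mrep j = MulAut.conj g • Mrep i
    rw [← H2.CN.norm_fh hG hCN (hmax j), hg, ← BG.Amb.conj_normalizer, H2.CN.norm_fh hG hCN (hmax i)]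
  refine ⟨h1, Nat.dvd_antisymm ?_ ?_, fun x => ?_⟩
  · exact Finset.prod_dvd_of_isRelPrime
      (fun i _ j _ hij => Nat.coprime_iff_isRelPrime.1 (h1 i j hij))
      fun i _ => Subgroup.card_subgroup_dvd_card _
  · refine (Nat.dvd_iff_prime_pow_dvd_dvd _ _).2 fun p n hp hd => ?_
    have := Fact.mk hp
    obtain ⟨P, hP⟩ := Sylow.exists_subgroup_card_pow_prime p hd
    obtain ⟨i, g, hg⟩ := aux hG hCN hall (BG.Amb.nilpotent_of_isPGroup (IsPGroup.of_card hP))
    have h2 := Subgroup.card_dvd_of_le hg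
    rw [hP, BG.Amb.card_conj] at h2
    exact h2.trans (Finset.dvd_prod_of_mem _ (Finset.mem_univ i))
  · obtain ⟨i, g, hg⟩ := aux hG hCN hall (A := Subgroup.zpowers x)
      (BG.Amb.nilpotent_of_comm (BG.Amb.comm_of_cyclic inferInstance))
    exact ⟨i, g⁻¹, by simpa using BG.Amb.mem_conj.1 (hg (Subgroup.mem_zpowers x))⟩

end Cfsg.Agent.S1484
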