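import Mathlib
import Cfsg.Statements.S1487
import Cfsg.Agent.Char.Clifford
import Cfsg.Agent.Char.Kernel

set_option autoImplicit false
open Cfsg

namespace Cfsg.Agent.S1487

/-- Let A ≤ H be normal subgroups of the finite group G and θ an irreducible character of H. Then θ takes the value θ 1 on all of A if and only if the function induced from θ to G takes its value at 1 on all of A. -/
theorem result {G : Type*} [Group G] [Fintype G] (A H : Subgroup G) [A.Normal] [H.Normal] (hAH : A ≤ H) (θ : H → ℂ) (hθ : Cfsg.IsIrrCharacter H θ) : (∀ a : H, (a : G) ∈ A → θ a = θ 1) ↔ (∀ a : G, a ∈ A → Cfsg.indFun H θ a = Cfsg.indFun H θ 1) := by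
  open Cfsg.Agent.Char Cfsg.Agent.Char.Ind Cfsg.Agent.Char.IndRep in
  have := Fintype.ofFinite H
  constructor
  · intro h a ha
    have h1 := indFun_coe_normal H θ ⟨a, hAH ha⟩
    have h2 := indFun_coe_normal H θ 1
    simp only [OneMemClass.coe_one] at h1 h2
    rw [h1, h2]
    congr 1
    refine Finset.sum_congr rfl fun x _ => ?_
    rw [h _ (‹A.Normal›.conj_mem a ha x)]
    exact (h _ (by simp)).symm
  · intro h a ha
    have hc := isChar_res H (isChar_indFun H (isIrr_isChar hθ))
    have h1 : classInner (fun n : H => indFun H θ n) θ ≠ 0 := by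
      rw [← inner_indFun_right H θ (indFun_classFun H θ), Clifford.inner_indFun_self hθ,
        Nat.cast_ne_zero]
      exact Subgroup.index_ne_zero_of_finite
    exact apply_eq_of_mem_charKer
      (charKer_le_of_constituent hc hθ h1 ((mem_charKer_iff hc).mpr (h a ha)))

end Cfsg.Agent.S1487
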