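import Mathlib
import Cfsg.Statements.S1490
import Cfsg.Agent.Char.Gallagher

set_option autoImplicit false
open Cfsg

namespace Cfsg.Agent.S1490

/-- Let H be a normal subgroup of the finite group G, θ an irreducible character of H with inertia group T, and suppose the commutator of any two elements of T lies in H (T/H abelian). Then there are a positive integer e and a finite set C of irreducible characters of G with e ^ 2 * |C| * |H| = |T|, such that the function induced from θ is e times the sum of the members of C and every member of C has degree [G:T] * e * θ(1). -/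
theorem result {G : Type*} [Group G] [Fintype G] (H T : Subgroup G) [hN : H.Normal] (θ : H → ℂ) (hθ : Cfsg.IsIrrCharacter H θ) (hT : ∀ g : G, g ∈ T ↔ ∀ h : H, θ ⟨g * h * g⁻¹, hN.conj_mem h h.2 g⟩ = θ h) (hab : ∀ x ∈ T, ∀ y ∈ T, x * y * x⁻¹ * y⁻¹ ∈ H) : ∃ (e : ℕ) (C : Finset (G → ℂ)), 0 < e ∧ (∀ χ ∈ C, Cfsg.IsIrrCharacter G χ) ∧ e ^ 2 * C.card * Nat.card H = Nat.card T ∧ Cfsg.indFun H θ = (e : ℂ) • ∑ χ ∈ C, χ ∧ ∀ χ ∈ C, χ 1 = (T.index : ℂ) * e * θ 1 := by
  open Cfsg.Agent.Char Cfsg.Agent.Char.Clifford Cfsg.Agent.Char.Gallagher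
    Cfsg.Agent.Char.CliffordCorr Cfsg.Agent.Char.Ind in
  classical
  have := Fintype.ofFinite H
  have hT' := eq_inertia hT
  have hHT : H ≤ T := hT' ▸ le_inertia (isIrr_classFun hθ)
  have hcomm : commutator T ≤ H.subgroupOf T := by
    rw [commutator_def, Subgroup.commutator_le]
    intro x _ y _
    exact hab x x.2 y y.2
  obtain ⟨e, he, h1, h2, h3⟩ := exists_of_commutator_le hcomm ((isIrr_toSub_iff hHT).mpr hθ)
    (inertia_toSub_eq_top hHT hT'.le)
  have hov : ∀ ψ ∈ irrOver (H.subgroupOf T) (toSub T θ), IsIrrCharacter T ψ ∧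
      classInner (fun n : H => ψ ⟨n, hHT n.2⟩) θ ≠ 0 := by
    intro ψ hψ
    rw [mem_irrOver, inner_res_toSub hHT] at hψ
    exact hψ
  have hinj : Set.InjOn (indFun T) (irrOver (H.subgroupOf T) (toSub T θ) : Set (T → ℂ)) :=
    fun ψ hψ ψ' hψ' e => indFun_injective hθ hT' hHT (hov ψ hψ).1 (hov ψ' hψ').1 (hov ψ hψ).2
      (hov ψ' hψ').2 e
  refine ⟨e, (irrOver (H.subgroupOf T) (toSub T θ)).image (indFun T), he, ?_, ?_, ?_, ?_⟩
  · intro χ hχ
    obtain ⟨ψ, hψ, rfl⟩ := Finset.mem_image.mp hχ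
    exact isIrr_indFun hθ hT' hHT (hov ψ hψ).1 (hov ψ hψ).2
  · rw [Finset.card_image_of_injOn hinj, h3, mul_comm,
      ← Nat.card_congr (Subgroup.subgroupOfEquivOfLe hHT).toEquiv, Subgroup.card_mul_index]
  · rw [Finset.sum_image hinj, ← indFun_indFun_toSub hHT, h2, indFun_smul, indFun_sum]
  · intro χ hχ
    obtain ⟨ψ, hψ, rfl⟩ := Finset.mem_image.mp hχ
    have : ψ 1 = e * θ 1 := congrFun (h1 ψ hψ) 1
    rw [indFun_one, this, mul_assoc]

end Cfsg.Agent.S1490
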