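import Mathlib
import Cfsg.Statements.S1493
import Cfsg.Agent.Char.Galois

set_option autoImplicit false
open Cfsg

namespace Cfsg.Agent.S1493

/-- Let G be a finite group of order a * b with a and b coprime, let k be coprime to a, and let χ be a character of G. Then there is a character χ' of G such that χ'(g) = χ(g ^ k) whenever the order of g divides a and χ'(g) = χ(g) whenever the order of g is coprime to a; moreover χ' is irreducible if χ is. -/
theorem result {G : Type*} [Group G] [Finite G] (a b k : ℕ) (hab : Nat.card G = a * b) (hcop : Nat.Coprime a b) (hk : Nat.Coprime k a) (χ : G → ℂ) (hχ : Cfsg.IsCharacter G χ) : ∃ χ' : G → ℂ, Cfsg.IsCharacter G χ' ∧ (Cfsg.IsIrrCharacter G χ → Cfsg.IsIrrCharacter G χ') ∧ (∀ g : G, orderOf g ∣ a → χ' g = χ (g ^ k)) ∧ (∀ g : G, Nat.Coprime (orderOf g) a → χ' g = χ g) := by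
  open Cfsg.Agent.Char.Galois in
  obtain ⟨m, hma, hmb⟩ := Nat.chineseRemainder hcop k 1
  have hm : m.Coprime (Nat.card G) := by
    rw [hab]
    refine Nat.Coprime.mul_right ?_ ?_
    · rw [Nat.Coprime, hma.gcd_eq]
      exact hk
    · rw [Nat.Coprime, hmb.gcd_eq]
      exact Nat.gcd_one_left b
  refine ⟨fun g => χ (g ^ m), isChar_pow_arg hχ hm, fun h => isIrr_pow_arg h hm, ?_, ?_⟩
  · intro g hg
    simp only
    rw [pow_eq_pow_iff_modEq.mpr (hma.of_dvd hg)]
  · intro g hg
    have hb : orderOf g ∣ b := hg.dvd_of_dvd_mul_left (hab ▸ orderOf_dvd_natCard g)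
    simp only
    rw [pow_eq_pow_iff_modEq.mpr (hmb.of_dvd hb), pow_one]

end Cfsg.Agent.S1493
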