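import Mathlib
import Cfsg.Statements.S1496

set_option autoImplicit false
open Cfsg

namespace Cfsg.Agent.S1496

/-- Let H be a subgroup of the finite group G and g an element normalising H whose order is coprime to the order of H. Then for every h ∈ H there are x ∈ H and c ∈ H commuting with g such that x * (h * g) * x⁻¹ = c * g. -/
theorem result {G : Type*} [Group G] [Finite G] (H : Subgroup G) (g : G) (hg : g ∈ Subgroup.normalizer (H : Set G)) (hcop : Nat.Coprime (orderOf g) (Nat.card H)) (h : G) (hh : h ∈ H) : ∃ x ∈ H, ∃ c ∈ H, c * g = g * c ∧ x * (h * g) * x⁻¹ = c * g := by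
  classical
  let C : Subgroup H := (Subgroup.centralizer ({g} : Set G)).subgroupOf H
  have hC : ∀ c : H, c ∈ C ↔ (c : G) * g = g * c := fun c => by
    simp [C, Subgroup.mem_subgroupOf, Subgroup.mem_centralizer_iff, eq_comm]
  have hn : ∀ x ∈ H, g * x * g⁻¹ ∈ H := fun x hx => (Subgroup.mem_normalizer_iff.mp hg x).mp hx
  obtain ⟨m, hm1, hm2⟩ := Nat.chineseRemainder hcop 1 0
  have key : ∀ c : H, c ∈ C → ((c : G) * g) ^ m = g := by
    intro c hc
    rw [(show Commute (c : G) g from (hC c).mp hc).mul_pow, pow_eq_pow_iff_modEq.mpr hm1, pow_one]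
    have : (c : G) ^ m = 1 := by
      have h1 : c ^ m = 1 := orderOf_dvd_iff_pow_eq_one.mp
        ((orderOf_dvd_natCard c).trans (Nat.modEq_zero_iff_dvd.mp hm2))
      exact_mod_cast congrArg Subtype.val h1
    rw [this, one_mul]
  let Φ : (H ⧸ C) × C → H := fun p =>
    ⟨(p.1.out : G)⁻¹⁻¹ * (p.2 : H) * (g * (p.1.out : G)⁻¹ * g⁻¹),
      H.mul_mem (H.mul_mem (by simp) (p.2 : H).2) (hn _ (by simp))⟩
  have hinj : Function.Injective Φ := by
    rintro ⟨q, c⟩ ⟨q', c'⟩ e
    have e1 : (q.out : G) * ((c : H) * g) * (q.out : G)⁻¹ =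
        (q'.out : G) * ((c' : H) * g) * (q'.out : G)⁻¹ := by
      have := congrArg (fun x : H => (x : G) * g) e
      simpa [Φ, mul_assoc] using this
    have e2 := congrArg (· ^ m) e1
    simp only [conj_pow, key _ c.2, key _ c'.2] at e2
    have hq : q = q' := by
      rw [← q.out_eq, ← q'.out_eq, QuotientGroup.eq, hC]
      simp only [Subgroup.coe_mul, InvMemClass.coe_inv]
      calc (q.out : G)⁻¹ * q'.out * g
          = (q.out : G)⁻¹ * (q'.out * g * (q'.out : G)⁻¹) * q'.out := by group
        _ = (q.out : G)⁻¹ * (q.out * g * (q.out : G)⁻¹) * q'.out := by rw [e2]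
        _ = _ := by group
    subst hq
    have : ((c : H) : G) = (c' : H) := by simpa using e1
    rw [Subtype.ext (Subtype.ext this : (c : H) = c')]
  have hbij : Function.Bijective Φ := by
    refine hinj.bijective_of_nat_card_le ?_
    rw [Nat.card_prod, ← Subgroup.card_eq_card_quotient_mul_card_subgroup]
  obtain ⟨⟨q, c⟩, e⟩ := hbij.2 ⟨h, hh⟩
  refine ⟨(q.out : G)⁻¹, by simp, (c : H), (c : H).2, (hC _).mp c.2, ?_⟩
  have := congrArg Subtype.val e
  simp only [Φ] at this
  rw [← this]
  group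

end Cfsg.Agent.S1496
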