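import Cfsg.Statements.S1497
import Cfsg.Agent.PF.Dade

set_option autoImplicit false
open Cfsg

namespace Cfsg.Agent.S1497

/-- Let A be a nonempty subset of the finite group G not containing 1 and L a subgroup. Then A is a TI-subset whose normaliser is L if and only if the Dade hypothesis holds for A, L and the constant choice H(a) = ⊥. -/
theorem result {G : Type*} [Group G] [Finite G] (A : Set G) (hA : A.Nonempty) (h1 : (1 : G) ∉ A) (L : Subgroup G) : (Cfsg.IsTISubset A ∧ Subgroup.normalizer A = L) ↔ Cfsg.DadeHypothesis A L (fun _ => ⊥) := by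
  constructor
  · rintro ⟨hTI, rfl⟩
    have key : ∀ a ∈ A, ∀ g : G, g * a * g⁻¹ ∈ A → g ∈ Subgroup.normalizer A := by
      intro a ha g hg
      by_contra hn
      exact h1 (hTI g hn a ha hg ▸ ha)
    refine ⟨h1, fun a ha => key a ha a (by simpa using ha), fun x hx a ha =>
      (Subgroup.mem_set_normalizer_iff.mp hx a).mp ha, fun a ha g hg => ⟨g, key a ha g hg, rfl⟩,
      fun _ _ => bot_le, fun a _ c _ u hu => by rw [Subgroup.mem_bot.mp hu]; simp,
      fun _ _ => bot_inf_eq _, fun a ha => ?_, fun _ _ _ _ => by simp⟩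
    rw [bot_sup_eq, inf_eq_right]
    intro c hc
    refine key a ha c ?_
    rw [Subgroup.mem_centralizer_singleton_iff.mp hc]
    simpa using ha
  · intro hD
    have key : ∀ a ∈ A, ∀ g : G, g * a * g⁻¹ ∈ A → g ∈ L := by
      intro a ha g hg
      obtain ⟨x, hx, e⟩ := hD.fusion a ha g hg
      have hc : x⁻¹ * g ∈ Subgroup.centralizer ({a} : Set G) := by
        rw [Subgroup.mem_centralizer_singleton_iff]
        calc x⁻¹ * g * a = x⁻¹ * (g * a * g⁻¹) * g := by group
          _ = x⁻¹ * (x * a * x⁻¹) * g := by rw [e]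
          _ = _ := by group
      have := L.mul_mem hx ((PF.dade_H_eq_bot_iff hD ha).mp rfl hc)
      simpa using this
    have hL : Subgroup.normalizer A = L := by
      apply le_antisymm
      · intro g hg
        obtain ⟨a, ha⟩ := hA
        exact key a ha g ((Subgroup.mem_set_normalizer_iff.mp hg a).mp ha)
      · intro x hx
        rw [Subgroup.mem_set_normalizer_iff]
        intro a
        refine ⟨hD.conj_mem x hx a, fun h => ?_⟩
        have := hD.conj_mem _ (L.inv_mem hx) _ h
        simpa [mul_assoc] using this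
    refine ⟨fun g hg a ha hga => absurd (key a ha g hga) (hL ▸ hg), hL⟩

end Cfsg.Agent.S1497
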