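import Cfsg.Statements.S1499
import Cfsg.Agent.PF.Dade

set_option autoImplicit false
open Cfsg

namespace Cfsg.Agent.S1499

/-- Under the Dade hypothesis for (A, L, H), let a, b ∈ A. If an element of the coset a·H(a) is conjugate in G to an element of b·H(b), then a and b are conjugate by an element of L. Moreover the set normaliser of the coset a·H(a) is the centraliser of a. -/
theorem result {G : Type*} [Group G] [Finite G] (A : Set G) (L : Subgroup G) (H : G → Subgroup G) (hD : Cfsg.DadeHypothesis A L H) (a b : G) (ha : a ∈ A) (hb : b ∈ A) : ((∃ u ∈ H a, ∃ v ∈ H b, ∃ g : G, g * (a * u) * g⁻¹ = b * v) → ∃ x ∈ L, x * a * x⁻¹ = b) ∧ Subgroup.normalizer ((fun u : G => a * u) '' (H a : Set G)) = Subgroup.centralizer ({a} : Set G) := by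
  refine ⟨fun ⟨u, hu, v, hv, g, h⟩ => PF.dade_conj_of_coset hD ha hb hu hv h, ?_⟩
  have key : ∀ c ∈ Subgroup.centralizer ({a} : Set G), ∀ h ∈ (fun u : G => a * u) '' (H a : Set G),
      c * h * c⁻¹ ∈ (fun u : G => a * u) '' (H a : Set G) := by
    rintro c hc _ ⟨u, hu, rfl⟩
    refine ⟨c * u * c⁻¹, hD.conj_mem_H a ha c hc u hu, ?_⟩
    have := Subgroup.mem_centralizer_singleton_iff.mp hc
    calc a * (c * u * c⁻¹) = (a * c) * u * c⁻¹ := by group
      _ = (c * a) * u * c⁻¹ := by rw [this]
      _ = _ := by group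
  apply le_antisymm
  · intro g hg
    obtain ⟨v, hv, e⟩ := (Subgroup.mem_set_normalizer_iff.mp hg (a * 1)).mp ⟨1, one_mem _, rfl⟩
    exact Subgroup.mem_centralizer_singleton_iff.mpr
      (PF.dade_coset_TI hD ha (one_mem _) hv e.symm)
  · intro c hc
    rw [Subgroup.mem_set_normalizer_iff]
    intro h
    refine ⟨key c hc h, fun h' => ?_⟩
    have := key _ (Subgroup.inv_mem _ hc) _ h'
    simpa [mul_assoc] using this

end Cfsg.Agent.S1499
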