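import Mathlib
import Cfsg.Statements.S1504

set_option autoImplicit false
open Cfsg

namespace Cfsg.Agent.S1504

/-- Let W₁, W₂ be subgroups of a finite group with W₁ ⊓ W₂ = ⊥ whose elements commute, and W = W₁ ⊔ W₂. For linear characters φ, ψ of W with φ trivial on W₂ and ψ trivial on W₁, the function (1 − φ)(1 − ψ) vanishes on W₁ ∪ W₂; and the family of these functions, indexed by pairs (φ, ψ) with φ ≠ 1 ≠ ψ, is linearly independent over ℂ. -/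
theorem result {G : Type*} [Group G] [Finite G] (W₁ W₂ : Subgroup G) (hdisj : W₁ ⊓ W₂ = ⊥) (hcomm : ∀ a ∈ W₁, ∀ b ∈ W₂, a * b = b * a) : (∀ φ ψ : ↥(W₁ ⊔ W₂) →* ℂˣ, (∀ w : ↥(W₁ ⊔ W₂), (w : G) ∈ W₂ → φ w = 1) → (∀ w : ↥(W₁ ⊔ W₂), (w : G) ∈ W₁ → ψ w = 1) → ∀ w : ↥(W₁ ⊔ W₂), ((w : G) ∈ W₁ ∨ (w : G) ∈ W₂) → (1 - (φ w : ℂ) - (ψ w : ℂ) + (φ w : ℂ) * (ψ w : ℂ)) = 0) ∧ LinearIndependent ℂ (fun p : {p : (↥(W₁ ⊔ W₂) →* ℂˣ) × (↥(W₁ ⊔ W₂) →* ℂˣ) // p.1 ≠ 1 ∧ p.2 ≠ 1 ∧ (∀ w : ↥(W₁ ⊔ W₂), (w : G) ∈ W₂ → p.1 w = 1) ∧ (∀ w : ↥(W₁ ⊔ W₂), (w : G) ∈ W₁ → p.2 w = 1)} => fun w : ↥(W₁ ⊔ W₂) => 1 - (p.1.1 w : ℂ) - (p.1.2 w : ℂ) + (p.1.1 w : ℂ) * (p.1.2 w : ℂ)) := by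
  classical
  refine ⟨fun φ ψ h1 h2 w hw => ?_, ?_⟩
  · rcases hw with hw | hw
    · rw [h2 w hw]; simp
    · rw [h1 w hw]; simp
  have ext : ∀ ω ω' : ↥(W₁ ⊔ W₂) →* ℂˣ, (∀ w : ↥(W₁ ⊔ W₂), (w : G) ∈ W₁ → ω w = ω' w) →
      (∀ w : ↥(W₁ ⊔ W₂), (w : G) ∈ W₂ → ω w = ω' w) → ω = ω' := by
    intro ω ω' h1 h2
    have : W₁ ⊔ W₂ ≤ (ω.eqLocus ω').map (W₁ ⊔ W₂).subtype :=
      sup_le (fun x hx => ⟨⟨x, Subgroup.mem_sup_left hx⟩, h1 _ hx, rfl⟩)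
        (fun x hx => ⟨⟨x, Subgroup.mem_sup_right hx⟩, h2 _ hx, rfl⟩)
    ext1 w
    obtain ⟨v, hv, e⟩ := this w.2
    rw [← (Subtype.ext e : v = w)]
    exact hv
  have li : LinearIndependent ℂ fun ω : ↥(W₁ ⊔ W₂) →* ℂˣ => fun w => (ω w : ℂ) :=
    (linearIndependent_monoidHom ↥(W₁ ⊔ W₂) ℂ).comp (fun ω => (Units.coeHom ℂ).comp ω)
      fun a b e => MonoidHom.ext fun w => Units.ext (DFunLike.congr_fun e w)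
  let P := {p : (↥(W₁ ⊔ W₂) →* ℂˣ) × (↥(W₁ ⊔ W₂) →* ℂˣ) // p.1 ≠ 1 ∧ p.2 ≠ 1 ∧
    (∀ w : ↥(W₁ ⊔ W₂), (w : G) ∈ W₂ → p.1 w = 1) ∧ (∀ w : ↥(W₁ ⊔ W₂), (w : G) ∈ W₁ → p.2 w = 1)}
  let u : P → (↥(W₁ ⊔ W₂) →* ℂˣ) →₀ ℂ := fun p => Finsupp.single 1 1 - Finsupp.single p.1.1 1 -
    Finsupp.single p.1.2 1 + Finsupp.single (p.1.1 * p.1.2) 1
  have n1 : ∀ p : P, ∀ ω : ↥(W₁ ⊔ W₂) →* ℂˣ, (∀ w : ↥(W₁ ⊔ W₂), (w : G) ∈ W₂ → ω w = 1) →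
      ω ≠ p.1.1 * p.1.2 := by
    rintro ⟨⟨a, b⟩, h1, h2, h3, h4⟩ ω hω rfl
    refine h2 (ext _ _ h4 fun w hw => ?_)
    simpa [h3 w hw] using hω w hw
  have n2 : ∀ p : P, ∀ ω : ↥(W₁ ⊔ W₂) →* ℂˣ, (∀ w : ↥(W₁ ⊔ W₂), (w : G) ∈ W₁ → ω w = 1) →
      ω ≠ p.1.1 * p.1.2 := by
    rintro ⟨⟨a, b⟩, h1, h2, h3, h4⟩ ω hω rfl
    refine h1 (ext _ _ (fun w hw => ?_) h3)
    simpa [h4 w hw] using hω w hw
  have val : ∀ p q : P, u q (p.1.1 * p.1.2) =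
      if q.1.1 * q.1.2 = p.1.1 * p.1.2 then 1 else 0 := fun p q => by
    simp only [u, Finsupp.add_apply, Finsupp.sub_apply, Finsupp.single_apply]
    rw [if_neg (n1 p 1 fun _ _ => rfl), if_neg (n1 p _ q.2.2.2.1), if_neg (n2 p _ q.2.2.2.2)]
    simp
  have lu : LinearIndependent ℂ u := by
    refine LinearIndependent.of_pairwise_dual_eq_zero_one u
      (fun p => Finsupp.lapply (p.1.1 * p.1.2)) (fun p q hpq => ?_) fun p => ?_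
    · change u q (p.1.1 * p.1.2) = 0
      rw [val, if_neg]
      intro e
      refine hpq (Subtype.ext (Prod.ext (ext _ _ (fun w hw => ?_) fun w hw => ?_)
        (ext _ _ (fun w hw => ?_) fun w hw => ?_)))
      · simpa [p.2.2.2.2 w hw, q.2.2.2.2 w hw] using (DFunLike.congr_fun e w).symm
      · rw [p.2.2.2.1 w hw, q.2.2.2.1 w hw]
      · rw [p.2.2.2.2 w hw, q.2.2.2.2 w hw]
      · simpa [p.2.2.2.1 w hw, q.2.2.2.1 w hw] using (DFunLike.congr_fun e w).symm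
    · rw [Finsupp.lapply_apply, val, if_pos rfl]
  have := lu.map' _ (LinearMap.ker_eq_bot.mpr li)
  have e : ⇑(Finsupp.linearCombination ℂ fun ω : ↥(W₁ ⊔ W₂) →* ℂˣ => fun w => (ω w : ℂ)) ∘ u =
      fun p : P => fun w : ↥(W₁ ⊔ W₂) =>
        1 - (p.1.1 w : ℂ) - (p.1.2 w : ℂ) + (p.1.1 w : ℂ) * (p.1.2 w : ℂ) := by
    funext p w
    simp [u]
  rw [e] at this
  exact this

end Cfsg.Agent.S1504
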