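import Cfsg.Statements.S1507
import Cfsg.Agent.PF.CycBridge

set_option autoImplicit false
open Cfsg

namespace Cfsg.Agent.S1507

open Classical in
/-- Let W₁, W₂ ≤ G form a self-normalising cyclic subgroup W = W₁ ⊔ W₂ of odd order with Nat.card W₁ < Nat.card W₂, and χ an orthonormal family of irreducible characters of G up to sign, indexed by the linear characters ω of W, with χ_1 = 1, χ_ω = ω on W outside W₁ ∪ W₂, and the induction identity for (1 − φ)(1 − ψ). Let θ be a class function of G vanishing on W outside W₁ ∪ W₂, and suppose fewer than 2 · Nat.card W₁ linear characters ω of W have ⟨θ, χ ω⟩ ≠ 0. Then one of: all ⟨θ, χ ω⟩ vanish; or there are ψ₀ and a with ⟨θ, χ ω⟩ = a when ω ψ₀⁻¹ is trivial on W₂ and 0 otherwise; or there are φ₀ and a with ⟨θ, χ ω⟩ = a when ω φ₀⁻¹ is trivial on W₁ and 0 otherwise.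 -/
theorem result {G : Type*} [Group G] [Fintype G] (W₁ W₂ : Subgroup G) (hW : Cfsg.IsSelfNormalizingCyclic W₁ W₂) (hodd : Odd (Nat.card ↥(W₁ ⊔ W₂))) (χ : (↥(W₁ ⊔ W₂) →* ℂˣ) → (G → ℂ)) (hχ : Cfsg.IsCyclicTIFamily W₁ W₂ χ) (hlt : Nat.card W₁ < Nat.card W₂) (θ : G → ℂ) (hθ : Cfsg.IsClassFunction G θ) (hθV : ∀ w : ↥(W₁ ⊔ W₂), (w : G) ∉ W₁ → (w : G) ∉ W₂ → θ w = 0) (hfew : Nat.card {ω : ↥(W₁ ⊔ W₂) →* ℂˣ // Cfsg.classInner θ (χ ω) ≠ 0} < 2 * Nat.card W₁) : (∀ ω, Cfsg.classInner θ (χ ω) = 0) ∨ (∃ (ψ₀ : ↥(W₁ ⊔ W₂) →* ℂˣ) (a : ℂ), ∀ ω, Cfsg.classInner θ (χ ω) = if (∀ w : ↥(W₁ ⊔ W₂), (w : G) ∈ W₂ → (ω * ψ₀⁻¹) w = 1) then a else 0) ∨ (∃ (φ₀ : ↥(W₁ ⊔ W₂) →* ℂˣ) (a : ℂ), ∀ ω, Cfsg.classInner θ (χ ω) = if (∀ w : ↥(W₁ ⊔ W₂), (w : G) ∈ W₁ → (ω * φ₀⁻¹) w = 1) then a else 0) := by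
  classical
  have h := Cfsg.Agent.PF.Bridge.toTI hW hodd
  have e := Cfsg.Agent.PF.Bridge.eq_eta h hχ
  by_cases h0 : ∀ ω, Cfsg.classInner θ (χ ω) = 0
  · exact Or.inl h0
  right
  push Not at h0
  obtain ⟨ω₀, h0⟩ := h0
  have hN : Cfsg.Agent.PF.NC W₁.subtype W₂.subtype θ =
      Nat.card {ω : ↥(W₁ ⊔ W₂) →* ℂˣ // Cfsg.classInner θ (χ ω) ≠ 0} := by
    refine Nat.card_congr (Equiv.subtypeEquiv (Cfsg.Agent.PF.Bridge.pairEquiv h.to0) fun p => ?_)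
    rw [e]
    change _ ↔ Cfsg.classInner θ (Cfsg.Agent.PF.eta _ _
      (Cfsg.Agent.PF.Bridge.r₁ (Cfsg.Agent.PF.Bridge.omg _ _ _))
      (Cfsg.Agent.PF.Bridge.r₂ (Cfsg.Agent.PF.Bridge.omg _ _ _))) ≠ 0
    rw [Cfsg.Agent.PF.Bridge.r₁_omg, Cfsg.Agent.PF.Bridge.r₂_omg]
  rw [e] at h0
  set a := Cfsg.classInner θ (Cfsg.Agent.PF.eta W₁.subtype W₂.subtype (Cfsg.Agent.PF.Bridge.r₁ ω₀)
    (Cfsg.Agent.PF.Bridge.r₂ ω₀)) with ha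
  refine (h.small_NC hθ (Cfsg.Agent.PF.Bridge.vanish h.to0 hθV)
    (by rw [hN, min_eq_left hlt.le]; exact hfew) h0).imp (fun hs => ⟨ω₀, a, fun ω => ?_⟩)
    fun hs => ⟨ω₀, a, fun ω => ?_⟩
  · rw [e, hs]
    refine @if_congr _ _ _ (_) (_) _ _ _ _ ?_ rfl rfl
    rw [← Cfsg.Agent.PF.Bridge.r₂_eq_one, Cfsg.Agent.PF.Bridge.r₂_mul,
      Cfsg.Agent.PF.Bridge.r₂_inv, mul_inv_eq_one (a := Cfsg.Agent.PF.Bridge.r₂ ω)]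
  · rw [e, hs]
    refine @if_congr _ _ _ (_) (_) _ _ _ _ ?_ rfl rfl
    rw [← Cfsg.Agent.PF.Bridge.r₁_eq_one, Cfsg.Agent.PF.Bridge.r₁_mul,
      Cfsg.Agent.PF.Bridge.r₁_inv, mul_inv_eq_one (a := Cfsg.Agent.PF.Bridge.r₁ ω)]

end Cfsg.Agent.S1507
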