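import Mathlib
import Cfsg.Statements.S1511
import Cfsg.Agent.PF.PrimeBridge

set_option autoImplicit false
open Cfsg

namespace Cfsg.Agent.S1511

/-- Let L be a finite group with K normal with complement W₁ ≠ 1 a cyclic Hall subgroup, and W₂ ≠ 1 a cyclic subgroup of K equal to C_K(x) for every non-identity x ∈ W₁, with W₁W₂ of odd order. Then there are a map μ from the linear characters of W = W₁ ⊔ W₂ to irreducible characters of L, injective, and a sign δ(ω) ∈ {1, −1} depending only on the values of ω on W₂, such that: for ω, ω' agreeing on W₂, the function induced to L from ω − ω' equals δ(ω) • (μ ω − μ ω'); μ ω x = δ(ω) ω x for x ∈ W outside W₂; every irreducible character of L not of the form μ ω vanishes on W outside W₂; and μ ω 1 − δ(ω) is an integer multiple of Nat.card W₁. -/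
theorem result {L : Type*} [Group L] [Fintype L] (K W₁ W₂ : Subgroup L) [hK : K.Normal] (hKW₁ : K ⊓ W₁ = ⊥) (hKW₁' : K ⊔ W₁ = ⊤) (hW₁ : W₁ ≠ ⊥) (hW₁c : IsCyclic W₁) (hHall : Nat.Coprime (Nat.card W₁) W₁.index) (hW₂ : W₂ ≠ ⊥) (hW₂c : IsCyclic W₂) (hW₂K : W₂ ≤ K) (hC : ∀ x ∈ W₁, x ≠ 1 → K ⊓ Subgroup.centralizer ({x} : Set L) = W₂) (hodd : Odd (Nat.card ↥(W₁ ⊔ W₂))) : ∃ (μ : (↥(W₁ ⊔ W₂) →* ℂˣ) → (L → ℂ)) (δ : (↥(W₁ ⊔ W₂) →* ℂˣ) → ℂ), Function.Injective μ ∧ (∀ ω, Cfsg.IsIrrCharacter L (μ ω)) ∧ (∀ ω, δ ω = 1 ∨ δ ω = -1) ∧ (∀ ω ω' : ↥(W₁ ⊔ W₂) →* ℂˣ, (∀ w : ↥(W₁ ⊔ W₂), (w : L) ∈ W₂ → ω w = ω' w) → δ ω = δ ω' ∧ Cfsg.indFun (W₁ ⊔ W₂) (fun w => (ω w : ℂ) - (ω' w : ℂ)) = δ ω • (μ ω - μ ω')) ∧ (∀ ω, ∀ w : ↥(W₁ ⊔ W₂), (w : L) ∉ W₂ → μ ω w = δ ω * (ω w : ℂ)) ∧ (∀ θ : L → ℂ, Cfsg.IsIrrCharacter L θ → (∀ ω, θ ≠ μ ω) → ∀ w : ↥(W₁ ⊔ W₂),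 (w : L) ∉ W₂ → θ w = 0) ∧ (∀ ω, ∃ n : ℤ, μ ω 1 - δ ω = n * (Nat.card W₁ : ℂ)) := by
  classical
  have h := Cfsg.Agent.PF.Bridge.toPrimeTI K W₁ W₂ hKW₁ hKW₁' hW₁ hW₁c hHall hW₂ hW₂c hC hodd
  have c := h.cycTI.to0
  refine ⟨fun ω => Cfsg.Agent.PF.mu W₁.subtype W₂.subtype (Cfsg.Agent.PF.Bridge.r₁ ω)
    (Cfsg.Agent.PF.Bridge.r₂ ω),
    fun ω => Cfsg.Agent.PF.delta W₁.subtype W₂.subtype (Cfsg.Agent.PF.Bridge.r₂ ω),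
    fun ω ω' e => (Cfsg.Agent.PF.Bridge.ext_r c).mpr (h.mu_inj.mp e), fun ω => h.mu_irr _ _,
    fun ω => ?_, fun ω ω' e => ?_, fun ω w hw => ?_, fun θ hθ hne w hw => ?_, fun ω => ?_⟩
  · rcases Cfsg.Agent.PF.PrimeTI.delta_eq W₁.subtype W₂.subtype (Cfsg.Agent.PF.Bridge.r₂ ω) with
      e | e <;> simp [e]
  · rw [← Cfsg.Agent.PF.Bridge.r₂_eq_iff] at e
    refine ⟨by simp only [e], ?_⟩
    simp only [← e]
    rw [smul_sub, ← Cfsg.Agent.PF.PrimeTI.eta_eq, ← Cfsg.Agent.PF.PrimeTI.eta_eq, ← h.ind_om_sub,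
      Cfsg.Agent.PF.Bridge.indFun_eq c]
    congr 1
    funext p
    simp only [Cfsg.Agent.PF.Bridge.apply_E, ← e, Cfsg.Agent.PF.om, Pi.sub_apply, Units.val_mul]
  · obtain ⟨p, rfl⟩ := (Cfsg.Agent.PF.Bridge.E c).surjective w
    rw [Cfsg.Agent.PF.Bridge.mem₂_iff] at hw
    rw [Cfsg.Agent.PF.Bridge.apply_E, Cfsg.Agent.PF.Bridge.coe_E, Units.val_mul]
    exact h.mu_apply _ _ hw _
  · obtain ⟨p, rfl⟩ := (Cfsg.Agent.PF.Bridge.E c).surjective w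
    rw [Cfsg.Agent.PF.Bridge.mem₂_iff] at hw
    refine h.vanish hθ (fun i j => ?_) ?_
    · have := hne (Cfsg.Agent.PF.Bridge.omg c i j)
      simpa only [Cfsg.Agent.PF.Bridge.r₁_omg, Cfsg.Agent.PF.Bridge.r₂_omg] using this
    · rw [← h.proj_eq_one, Cfsg.Agent.PF.Bridge.coe_E, map_mul]
      have e1 := h.proj_f₁ p.1
      have e2 := h.proj_f₂ p.2
      simp only [Subgroup.coe_subtype] at e1 e2
      rwa [e1, e2, mul_one]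
  · obtain ⟨n, hn⟩ := h.mu_one_mod (Cfsg.Agent.PF.Bridge.r₁ ω) (Cfsg.Agent.PF.Bridge.r₂ ω)
    exact ⟨n, by simp only [hn]; ring⟩

end Cfsg.Agent.S1511
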