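import Mathlib
import Cfsg.Statements.S1513
import Cfsg.Agent.PF.PrimeBridge

set_option autoImplicit false
open Cfsg

namespace Cfsg.Agent.S1513

/-- Let L be a finite group with K normal with complement W₁ ≠ 1 a cyclic Hall subgroup, and W₂ ≠ 1 a cyclic subgroup of K equal to C_K(x) for every non-identity x ∈ W₁, with W₁W₂ of odd order. For an irreducible character θ of K: if θ is not fixed under conjugation by some element of W₁, then the function induced from θ to L is an irreducible character of L; and the irreducible characters of K fixed by all of W₁ are exactly Nat.card W₂ in number, each inducing to the sum of Nat.card W₁ pairwise distinct irreducible characters of L. -/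
theorem result {L : Type*} [Group L] [Fintype L] (K W₁ W₂ : Subgroup L) [hK : K.Normal] (hKW₁ : K ⊓ W₁ = ⊥) (hKW₁' : K ⊔ W₁ = ⊤) (hW₁ : W₁ ≠ ⊥) (hW₁c : IsCyclic W₁) (hHall : Nat.Coprime (Nat.card W₁) W₁.index) (hW₂ : W₂ ≠ ⊥) (hW₂c : IsCyclic W₂) (hW₂K : W₂ ≤ K) (hC : ∀ x ∈ W₁, x ≠ 1 → K ⊓ Subgroup.centralizer ({x} : Set L) = W₂) (hodd : Odd (Nat.card ↥(W₁ ⊔ W₂))) : (∀ θ : K → ℂ, Cfsg.IsIrrCharacter K θ → (∃ x ∈ W₁, (fun k : K => θ ⟨x * k * x⁻¹, hK.conj_mem (k : L) k.2 x⟩) ≠ θ) → Cfsg.IsIrrCharacter L (Cfsg.indFun K θ)) ∧ Nat.card {θ : Cfsg.IrrCharacter K // ∀ x ∈ W₁, (fun k : K => (θ : K → ℂ) ⟨x * k * x⁻¹, hK.conj_mem (k : L) k.2 x⟩) = θ} = Nat.card W₂ ∧ (∀ θ : K → ℂ, Cfsg.IsIrrCharacter K θ → (∀ x ∈ W₁, (fun k : K => θ ⟨x * k * x⁻¹, hK.conj_mem (k : L) k.2 x⟩) = θ) → ∃ C : Finset (L → ℂ), C.card = Nat.card W₁ ∧ (∀ μ ∈ C, Cfsg.IsIrrCharacter L μ) ∧ Cfsg.indFun K θ = ∑ μ ∈ C, μ) :=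 by
  classical
  have h := Cfsg.Agent.PF.Bridge.toPrimeTI K W₁ W₂ hKW₁ hKW₁' hW₁ hW₁c hHall hW₂ hW₂c hC hodd
  have inv : ∀ j, ∀ x : L, (fun k : K => Cfsg.Agent.PF.chi K W₁.subtype W₂.subtype j
      ⟨x * k * x⁻¹, hK.conj_mem (k : L) k.2 x⟩) = Cfsg.Agent.PF.chi K W₁.subtype W₂.subtype j := by
    intro j x
    have : x ∈ Cfsg.Agent.Char.Clifford.inertia K (Cfsg.Agent.PF.chi K W₁.subtype W₂.subtype j) := by
      rw [h.chi_inertia]; trivial
    exact this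
  have fix : ∀ θ : K → ℂ, Cfsg.IsIrrCharacter K θ →
      (∀ x ∈ W₁, (fun k : K => θ ⟨x * k * x⁻¹, hK.conj_mem (k : L) k.2 x⟩) = θ) →
      ∃ j, θ = Cfsg.Agent.PF.chi K W₁.subtype W₂.subtype j := by
    intro θ hθ hf
    obtain ⟨x, hx⟩ := @exists_ne _ h.nontriv₁ 1
    exact h.chi_of_fixed hθ hx (hf x x.2)
  refine ⟨fun θ hθ ⟨x, _, hx⟩ => ?_, ?_, fun θ hθ hf => ?_⟩
  · rcases h.irr_cases hθ with ⟨j, rfl⟩ | h1
    · exact absurd (inv j x) hx
    · exact h1.1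
  · rw [← Cfsg.Agent.PF.card_lin_of_cyclic hW₂c, ← Nat.card_eq_fintype_card]
    symm
    refine Nat.card_congr (Equiv.ofBijective
      (fun j => ⟨⟨Cfsg.Agent.PF.chi K W₁.subtype W₂.subtype j, h.chi_irr j⟩, fun x _ => inv j x⟩)
      ⟨fun j j' e => h.chi_inj (congrArg (fun χ => χ.1.1) e), fun θ => ?_⟩)
    obtain ⟨j, e⟩ := fix θ.1.1 θ.1.2 θ.2
    exact ⟨j, Subtype.ext (Subtype.ext e.symm)⟩
  · obtain ⟨j, rfl⟩ := fix θ hθ hf
    have inj : Function.Injective fun i => Cfsg.Agent.PF.mu W₁.subtype W₂.subtype i j :=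
      fun i i' e => (h.mu_inj.mp e).1
    refine ⟨Finset.univ.image fun i => Cfsg.Agent.PF.mu W₁.subtype W₂.subtype i j, ?_, ?_, ?_⟩
    · rw [Finset.card_image_of_injective _ inj, Finset.card_univ,
        Cfsg.Agent.PF.card_lin_of_cyclic hW₁c]
    · intro μ hμ
      obtain ⟨i, -, rfl⟩ := Finset.mem_image.mp hμ
      exact h.mu_irr i j
    · rw [Finset.sum_image fun a _ b _ e => inj e, h.ind_chi]
      rfl

end Cfsg.Agent.S1513
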