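import Mathlib
import Cfsg.Statements.S1514
import Cfsg.Agent.Coh.Sec5b

set_option autoImplicit false
open Cfsg

namespace Cfsg.Agent.S1514

/-- Let S be a nonempty set of irreducible characters of the finite group L, closed under complex conjugation and containing no real-valued member, and τ a linear isometry on the integer combinations of S vanishing at 1, with values virtual characters of G vanishing at 1. Then there is a choice R making (S, τ, R) a coherence system. -/
theorem result {L : Type*} [Group L] [Fintype L] {G : Type*} [Group G] [Fintype G] (S : Set (L → ℂ)) (hS : S.Nonempty) (hirr : ∀ χ ∈ S, Cfsg.IsIrrCharacter L χ) (hconj : ∀ χ ∈ S, Cfsg.conjFun χ ∈ S ∧ Cfsg.conjFun χ ≠ χ) (τ : (L → ℂ) → (G → ℂ)) (hτ : Cfsg.IsLinearIsometryOn (Cfsg.zspanOn S {1}ᶜ) τ) (hτ1 : ∀ α ∈ Cfsg.zspanOn S {1}ᶜ, τ α 1 = 0) : ∃ R : (L → ℂ) → Finset (G → ℂ), Cfsg.IsCoherenceSystem S τ R := by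
  obtain ⟨T, hT, e⟩ := Coh.exists_iso0 (fun φ hφ => Coh.vc_deg_int (Coh.vc_of_irr (hirr φ hφ)))
    hτ hτ1
  obtain ⟨R, hR⟩ := Coh.irr_subCoh hirr (fun χ hχ => (hconj χ hχ).1) (fun χ hχ => (hconj χ hχ).2) hT
  exact ⟨R, hR.isCoherenceSystem hS e⟩

end Cfsg.Agent.S1514
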