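import Mathlib
import Cfsg.Statements.S1515
import Cfsg.Agent.Coh.Sec5b

set_option autoImplicit false
open Cfsg

namespace Cfsg.Agent.S1515

/-- Let (S, τ, R) be a coherence system from L to G, χ ∈ S, and ψ an integer combination of S with ⟨χ, ψ⟩ = ⟨conj χ, ψ⟩ = 0. Let τ₁ be a linear isometry on the integer combinations of χ − ψ and χ − conj χ, with virtual-character values, agreeing with τ on integer multiples of χ − conj χ. Then the sum over α ∈ R χ of the squared absolute values of ⟨τ₁(χ − ψ), α⟩ is at least ⟨χ, χ⟩; and if ⟨τ₁(χ − ψ), τ₁(χ − ψ)⟩ minus that sum is at least ⟨ψ, ψ⟩, then the sum equals ⟨χ, χ⟩ and every ⟨τ₁(χ − ψ), α⟩ with α ∈ R χ is 0 or 1. -/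
theorem result {L : Type*} [Group L] [Fintype L] {G : Type*} [Group G] [Fintype G] (S : Set (L → ℂ)) (τ : (L → ℂ) → (G → ℂ)) (R : (L → ℂ) → Finset (G → ℂ)) (hS : Cfsg.IsCoherenceSystem S τ R) (χ : L → ℂ) (hχ : χ ∈ S) (ψ : L → ℂ) (hψ : ψ ∈ Cfsg.zspan S) (h1 : Cfsg.classInner χ ψ = 0) (h2 : Cfsg.classInner (Cfsg.conjFun χ) ψ = 0) (τ₁ : (L → ℂ) → (G → ℂ)) (hτ₁ : Cfsg.IsLinearIsometryOn (Cfsg.zspan {χ - ψ, χ - Cfsg.conjFun χ}) τ₁) (hagree : ∀ n : ℤ, τ₁ (n • (χ - Cfsg.conjFun χ)) = τ (n • (χ - Cfsg.conjFun χ))) : (Cfsg.classInner χ χ).re ≤ ∑ α ∈ R χ, ‖Cfsg.classInner (τ₁ (χ - ψ)) α‖ ^ 2 ∧ ((Cfsg.classInner ψ ψ).re ≤ (Cfsg.classInner (τ₁ (χ - ψ)) (τ₁ (χ - ψ))).re - ∑ α ∈ R χ, ‖Cfsg.classInner (τ₁ (χ - ψ)) α‖ ^ 2 → (∑ α ∈ R χ, ‖Cfsg.classInner (τ₁ (χ - ψ)) α‖ ^ 2 = (Cfsg.classInner χ χ).re ∧ ∀ α ∈ R χ, Cfsg.classInner (τ₁ (χ - ψ))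 α = 0 ∨ Cfsg.classInner (τ₁ (χ - ψ)) α = 1)) := by
  obtain ⟨T, h, e⟩ := Coh.exists_subCoh hS
  have m1 : χ - ψ ∈ Cfsg.zspan {χ - ψ, χ - Cfsg.conjFun χ} := Coh.subset_zspan (by simp)
  have m2 : χ - Cfsg.conjFun χ ∈ Cfsg.zspan {χ - ψ, χ - Cfsg.conjFun χ} :=
    Coh.subset_zspan (by simp)
  set B := τ₁ (χ - ψ) with hB
  have vB : Coh.VC G B := hτ₁.2.2.2 _ m1
  have r1 : Coh.rin ψ χ = 0 := by rw [Coh.rin_comm]; exact Coh.rin_eq_zero_of_ci h1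
  have r2 : Coh.rin ψ (Cfsg.conjFun χ) = 0 := by rw [Coh.rin_comm]; exact Coh.rin_eq_zero_of_ci h2
  have hp : Coh.rin B (T (χ - Cfsg.conjFun χ)) = Coh.rin χ χ := by
    have := hagree 1
    rw [one_smul] at this
    rw [e _ (h.sub_conj_mem hχ) (h.sub_conj_one hχ), ← this, Coh.rin_apply, hτ₁.2.2.1 _ m1 _ m2,
      ← Coh.rin_apply]
    simp only [map_sub, LinearMap.sub_apply]
    rw [h.rin_conj hχ, r1, r2]; ring
  have hn : (Cfsg.classInner B B).re = Coh.rin χ χ + Coh.rin ψ ψ := by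
    rw [hB, hτ₁.2.2.1 _ m1 _ m1, ← Coh.rin_apply, Coh.rin_sub_self, Coh.rin_comm χ ψ, r1]; ring
  have hc : ∀ α ∈ R χ, Cfsg.classInner B α = (Coh.rin B α : ℂ) := fun α hα =>
    Coh.vc_ci_eq_rin vB ((h.on χ hχ).vc hα)
  have hs : ∑ α ∈ R χ, ‖Cfsg.classInner B α‖ ^ 2 = ∑ α ∈ R χ, Coh.rin B α ^ 2 :=
    Finset.sum_congr rfl fun α hα => by rw [hc α hα, Complex.norm_real, Real.norm_eq_abs, sq_abs]
  have l := h.norm_le hχ vB hp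
  rw [hs, hn, ← Coh.rin_apply, ← Coh.rin_apply]
  refine ⟨l, fun hle => ⟨by linarith, fun α hα => ?_⟩⟩
  have hle' : ∑ α ∈ R χ, Coh.rin B α ^ 2 ≤ Coh.rin B (∑ α ∈ R χ, α) := by
    rw [← h.sum_eq χ hχ, hp]; linarith
  rw [hc α hα]
  rcases (h.on χ hχ).zero_or_one vB hle' hα with h0 | h0 <;> simp [h0]

end Cfsg.Agent.S1515
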