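import Mathlib
import Cfsg.Statements.S1521
import Cfsg.Agent.Coh.Sec6

set_option autoImplicit false
open Cfsg

namespace Cfsg.Agent.S1521

/-- Let K be a solvable normal subgroup of the finite group L of odd order and (S, τ, R) a coherence system from L to G with S the functions induced from non-principal irreducible characters of K; S(A) as before. Let M ≤ K be normal in L with K/M nilpotent, H₁ = [K, K] ⊔ M, H₁ < K < L, and suppose every element of K outside H₁ is centralised modulo H₁ only from inside K (L/H₁ is a Frobenius group with kernel K/H₁). Suppose one of the following: some normal subgroup of L lies strictly between H₁ and K; or [K:H₁] > 4[L:K]^2 + 1; or [K:M] is not a prime power; or [K,K] ≤ M; or [K:M] is a power of a prime p with [L:K] dividing p − 1. Then S(M) is coherent. -/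
theorem result {L : Type*} [Group L] [Fintype L] {G : Type*} [Group G] [Fintype G] (K : Subgroup L) [hK : K.Normal] (hsolv : Group.IsSolvable K) (τ : (L → ℂ) → (G → ℂ)) (R : (L → ℂ) → Finset (G → ℂ)) (hS : Cfsg.IsCoherenceSystem (Cfsg.inducedIrrAbove K ⊥) τ R) (hodd : Odd (Nat.card L)) (M : Subgroup L) [M.Normal] (hMK : M ≤ K) [(M.subgroupOf K).Normal] (hnil : Group.IsNilpotent (↥K ⧸ M.subgroupOf K)) (H₁ : Subgroup L) (hH₁ : H₁ = ⁅K, K⁆ ⊔ M) (hH₁K : H₁ < K) (hKL : K < ⊤) (hfrob : ∀ k ∈ K, k ∉ H₁ → ∀ x : L, x * k * x⁻¹ * k⁻¹ ∈ H₁ → x ∈ K) (hgood : (∃ N : Subgroup L, N.Normal ∧ H₁ < N ∧ N < K) ∨ 4 * K.index ^ 2 + 1 < H₁.relIndex K ∨ (¬ ∃ p m : ℕ, p.Prime ∧ M.relIndex K = p ^ m) ∨ ⁅K, K⁆ ≤ M ∨ (∃ p m : ℕ, p.Prime ∧ M.relIndex K = p ^ m ∧ K.index ∣ p - 1)) : Cfsg.IsCoherent (Cfsg.inducedIrrAbove K M) {1}ᶜ τ := by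
  simp only [Coh.inducedIrrAbove_eq] at *
  obtain ⟨T, hT, e⟩ := Coh.exists_subCoh hS
  refine hT.isCoherent_of e (Coh.indSet_mono le_rfl bot_le) (fun χ h => Coh.indSet_conj h)
    (Coh.indSet_nonempty le_rfl hMK fun h => hH₁K.not_ge (h.trans (hH₁ ▸ le_sup_right))) ?_
  by_contra hB
  obtain ⟨h1, h2, h3, p, m, hp, hm, hd⟩ := Coh.indSet_non_coherent hsolv hT hodd hMK
    (Coh.nilpotent_map_of_quotient hnil) hH₁ hH₁K hKL.ne hfrob hB
  rcases hgood with ⟨N, hN, h4, h5⟩ | h4 | h4 | h4 | ⟨q, n, hq, hn, h4⟩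
  · exact h5.ne (h1 N hN h4 h5.le)
  · exact h4.not_ge h2
  · exact h4 ⟨p, m, hp, hm⟩
  · exact h3 h4
  · have h6 : 1 < M.relIndex K :=
      Coh.one_lt_relIndex (lt_of_le_of_lt (hH₁ ▸ le_sup_right) hH₁K)
    have h7 : n ≠ 0 := by rintro rfl; simp [hn] at h6
    have h8 : q ∣ p ^ m := by rw [← hm, hn]; exact dvd_pow_self q h7
    rw [(Nat.prime_dvd_prime_iff_eq hq hp).mp (hq.dvd_of_dvd_pow h8)] at h4
    exact hd h4

end Cfsg.Agent.S1521
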