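import Mathlib
import Cfsg.Statements.S1524
import Cfsg.Agent.Coh.FeitSib

set_option autoImplicit false
open Cfsg

namespace Cfsg.Agent.S1524

/-- Let G be a finite group and H ≤ L subgroups with L of odd order, H ≠ ⊥ nilpotent and normal in L with a nontrivial complement W₁ in L (H ⊓ W₁ = ⊥, H ⊔ W₁ = L) acting on H without non-identity fixed points (L is a Frobenius group with kernel H), and suppose the underlying set of H is a TI-subset of G whose normaliser is L. Let S be the set of functions on L induced from the non-principal irreducible characters of H. Then (S, L minus 1, induction to G) is coherent. -/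
theorem result {G : Type*} [Group G] [Fintype G] (H L W₁ : Subgroup G) [Fintype L] (hodd : Odd (Nat.card L)) (hHL : H ≤ L) (hW₁L : W₁ ≤ L) (hH1 : H ≠ ⊥) (hW1 : W₁ ≠ ⊥) (hnil : Group.IsNilpotent H) (hHn : ∀ x ∈ L, ∀ h ∈ H, x * h * x⁻¹ ∈ H) (hinf : H ⊓ W₁ = ⊥) (hsup : H ⊔ W₁ = L) (hfpf : ∀ w ∈ W₁, w ≠ 1 → ∀ h ∈ H, w * h = h * w → h = 1) (hTI : Cfsg.IsTISubset (H : Set G)) (hN : Subgroup.normalizer (H : Set G) = L) : Cfsg.IsCoherent (Cfsg.inducedIrrAbove (H.subgroupOf L) ⊥) {1}ᶜ (fun α : L → ℂ => Cfsg.indFun L α) := by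
  have hn : (H.subgroupOf L).Normal := Coh.normal_subgroupOf_of_conj hHn
  have hC : ∀ k ∈ H.subgroupOf L, k ≠ 1 → Subgroup.centralizer ({k} : Set L) ≤ H.subgroupOf L :=
    Coh.centralizer_le_of_fpf (W := W₁.subgroupOf L)
      (by rw [← Subgroup.subgroupOf_sup hHL hW₁L, hsup, Subgroup.subgroupOf_self])
      fun w hw h1 k hk e => Subtype.ext
        (hfpf w hw (fun e => h1 (Subtype.ext e)) k hk (congrArg Subtype.val e))
  have hnil' : Group.IsNilpotent (H.subgroupOf L) :=
    Group.nilpotent_of_mulEquiv (Subgroup.subgroupOfEquivOfLe hHL).symm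
  rw [Coh.inducedIrrAbove_eq]
  obtain ⟨χ, hχ⟩ := Coh.indSet_nonempty (K := H.subgroupOf L) le_rfl (M := ⊥) bot_le
    (by simpa using Coh.subgroupOf_ne_bot hHL hH1)
  exact (Coh.sibley_frob' (T := Char.Ind.indL L) hodd hnil' (Coh.ti_subgroupOf hTI hN) hC
    fun _ _ _ _ => rfl).isCoherent (fun _ _ _ => rfl)
    (Coh.exists_ne_zero_of_conj hχ (Coh.indSet_vc hχ) (Coh.indSet_conj hχ)
      (Coh.indSet_conj_ne hodd hχ))

end Cfsg.Agent.S1524
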