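import Mathlib
import Cfsg.Statements.S1527
import Cfsg.Agent.Coh.Sec7c

set_option autoImplicit false
open Cfsg

namespace Cfsg.Agent.S1527

/-- Let G be a finite group and H i (i in a finite index type) subgroups of pairwise coprime orders, each of whose underlying sets is a TI-subset of G, such that every non-identity element of G is conjugate to an element of some H i. Then Nat.card G − 1 = Σ_i [G : N_G(H i)] · (Nat.card (H i) − 1). -/
theorem result {G : Type*} [Group G] [Finite G] {ι : Type*} [Fintype ι] (H : ι → Subgroup G) (hcop : ∀ i j, i ≠ j → Nat.Coprime (Nat.card (H i)) (Nat.card (H j))) (hTI : ∀ i, Cfsg.IsTISubset (H i : Set G)) (hcover : ∀ g : G, g ≠ 1 → ∃ i, ∃ x : G, x * g * x⁻¹ ∈ H i) : Nat.card G - 1 = ∑ i, (Subgroup.normalizer (H i : Set G)).index * (Nat.card (H i) - 1) := by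
  classical
  have := Fintype.ofFinite G
  have h := Coh.sum_eq_sum_disjoint (M := ℕ) _
    (fun i j h => Coh.disjoint_dadeSupport_of_coprime (hcop i j h)) fun _ => 1
  have h0 := Coh.filter_not_mem_eq H hcover
  simp only [Finset.sum_const, smul_eq_mul, mul_one] at h
  rw [Finset.card_univ, ← Nat.card_eq_fintype_card] at h
  rw [h, show ∀ s : Finset G, s = {1} → ∀ n, s.card + n - 1 = n from
    fun s hs n => by simp [hs]]
  · refine Finset.sum_congr rfl fun i _ => ?_
    have := Fintype.ofFinite (Subgroup.normalizer (H i : Set G))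
    rw [← Set.ncard_coe_finset, Finset.coe_filter_univ, Set.setOf_mem_eq,
      PF.dade_ncard_support (Coh.dadeHyp_of_TI (hTI i) rfl), mul_comm,
      Set.ncard_diff_singleton_of_mem (one_mem (H i))]
    rfl
  · convert h0

end Cfsg.Agent.S1527
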