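import Mathlib
import Cfsg.Statements.S1529
import Cfsg.Agent.Coh.Sec5b

set_option autoImplicit false
open Cfsg

namespace Cfsg.Agent.S1529

/-- Let N be a subgroup of the finite group G, S a set of irreducible characters of N with at least two members, and τ₁ a linear isometry on the integer combinations of S with virtual-character values such that τ₁ α vanishes at 1 whenever α ∈ ℤ[S] does. Then there is ε ∈ {1, −1} such that ε • τ₁ χ is an irreducible character of G for every χ ∈ S, and distinct members of S give distinct characters. -/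
theorem result {G : Type*} [Group G] [Fintype G] (N : Subgroup G) [Fintype N] (S : Set (N → ℂ)) (hirr : ∀ χ ∈ S, Cfsg.IsIrrCharacter N χ) (htwo : ∃ χ ∈ S, ∃ ψ ∈ S, χ ≠ ψ) (τ₁ : (N → ℂ) → (G → ℂ)) (hτ₁ : Cfsg.IsLinearIsometryOn (Cfsg.zspan S) τ₁) (h0 : ∀ α ∈ Cfsg.zspan S, α 1 = 0 → τ₁ α 1 = 0) : ∃ ε : ℂ, (ε = 1 ∨ ε = -1) ∧ (∀ χ ∈ S, Cfsg.IsIrrCharacter G (ε • τ₁ χ)) ∧ (∀ χ ∈ S, ∀ ψ ∈ S, τ₁ χ = τ₁ ψ → χ = ψ) := by
  obtain ⟨ν, hν⟩ := Coh.exists_linear_of_isometry _ τ₁ hτ₁.2.2.1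
  have hdeg : ∀ φ ∈ S, ∃ n : ℤ, φ 1 = n := fun φ hφ => Coh.vc_deg_int (Coh.vc_of_irr (hirr φ hφ))
  obtain ⟨ν', hc, -⟩ := Coh.exists_cohWith (T := ν) hdeg hτ₁ (fun α hα _ => (hν α hα).symm)
  have hc' : Coh.CohWith S ν ν :=
    ⟨fun α hα β hβ => by
      rw [hν α (Coh.subset_zspan hα), hν β (Coh.subset_zspan hβ)]
      exact hτ₁.2.2.1 _ (Coh.subset_zspan hα) _ (Coh.subset_zspan hβ),
    fun α hα => by rw [hν α (Coh.subset_zspan hα)]; exact hτ₁.2.2.2 _ (Coh.subset_zspan hα),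
    fun _ _ _ => rfl⟩
  have hT : Coh.Iso0 S ν := Coh.Iso0.of_zspan hdeg
    (fun α hα _ β hβ _ => hc'.ci_span (Coh.zspan_le_span hα) (Coh.zspan_le_span hβ))
    (fun α hα _ => hc'.vc_zspan hα) (fun α hα h1 => by rw [hν α hα]; exact h0 α hα h1)
  obtain ⟨ε, hε, hi⟩ := hc'.exists_sign hT hirr
  refine ⟨ε, by rcases hε with rfl | rfl <;> simp, fun χ hχ => ?_, fun χ hχ ψ hψ h => ?_⟩
  · rw [← hν χ (Coh.subset_zspan hχ)]; exact hi χ hχ
  · refine hc'.injOn (Submodule.subset_span hχ) (Submodule.subset_span hψ) ?_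
    rw [hν χ (Coh.subset_zspan hχ), hν ψ (Coh.subset_zspan hψ), h]

end Cfsg.Agent.S1529
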