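import Mathlib
import Cfsg.Statements.S1530
import Cfsg.Agent.Coh.IrrCoh

set_option autoImplicit false
open Cfsg

namespace Cfsg.Agent.S1530

/-- Let N be a subgroup of the finite group G and S₀ a finite set of irreducible characters of N, χ an irreducible character of N not in S₀, with degrees ξ 1 = d ξ. Let τ be a linear isometry on the integer combinations of S₀ ∪ {χ} vanishing at 1, with values virtual characters of G vanishing at 1, such that (S₀, N minus 1, τ) is coherent. If some ψ ∈ S₀ has d ψ dividing d χ and 2 · d ψ · d χ < Σ_{ξ ∈ S₀} (d ξ)², then (S₀ ∪ {χ}, N minus 1, τ) is coherent. -/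
theorem result {G : Type*} [Group G] [Fintype G] (N : Subgroup G) [Fintype N] (S₀ : Finset (N → ℂ)) (χ : N → ℂ) (hirr : ∀ ξ ∈ S₀, Cfsg.IsIrrCharacter N ξ) (hχ : Cfsg.IsIrrCharacter N χ) (hχS : χ ∉ S₀) (d : (N → ℂ) → ℕ) (hd : ∀ ξ ∈ insert χ S₀, ξ 1 = (d ξ : ℂ)) (τ : (N → ℂ) → (G → ℂ)) (hτ : Cfsg.IsLinearIsometryOn (Cfsg.zspanOn (↑(insert χ S₀) : Set (N → ℂ)) {1}ᶜ) τ) (hτ1 : ∀ α ∈ Cfsg.zspanOn (↑(insert χ S₀) : Set (N → ℂ)) {1}ᶜ, τ α 1 = 0) (hcoh : Cfsg.IsCoherent (↑S₀ : Set (N → ℂ)) {1}ᶜ τ) (ψ : N → ℂ) (hψ : ψ ∈ S₀) (hdvd : d ψ ∣ d χ) (hlt : 2 * d ψ * d χ < ∑ ξ ∈ S₀, d ξ ^ 2) : Cfsg.IsCoherent (↑(insert χ S₀) : Set (N → ℂ)) {1}ᶜ τ := by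
  classical
  have hdi : ∀ φ ∈ (↑(insert χ S₀) : Set (N → ℂ)), ∃ n : ℤ, φ 1 = n := fun φ hφ =>
    ⟨d φ, by rw [hd φ (by simpa using hφ)]; simp⟩
  have hsub : (↑S₀ : Set (N → ℂ)) ⊆ ↑(insert χ S₀) := by simp
  obtain ⟨T, hT, e⟩ := Coh.exists_iso0 hdi hτ hτ1
  have hc := Coh.coherent_of_isCoherent (fun φ h => hdi φ (hsub h))
    (fun α hα h1 => e α (Coh.zspan_mono hsub hα) h1) hcoh
  obtain ⟨a, ha⟩ := hdvd
  have hψ' := hd ψ (Finset.mem_insert_of_mem hψ)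
  have hχ' := hd χ (Finset.mem_insert_self _ _)
  have := hT.irr_extend S₀ hsub hirr hc hψ (by simp) hχ hχS a
    (by rw [hψ', hχ', ha]; push_cast; ring)
    (by
      rw [hψ', hχ', Finset.sum_congr rfl
        (fun φ hφ => by rw [hd φ (Finset.mem_insert_of_mem hφ)])]
      simp only [Complex.natCast_re]
      have : ((2 * d ψ * d χ : ℕ) : ℝ) < ((∑ ξ ∈ S₀, d ξ ^ 2 : ℕ) : ℝ) := by exact_mod_cast hlt
      push_cast at this
      linarith)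
  rw [← Finset.coe_insert] at this
  exact this.isCoherent e (Coh.exists_ne_zero_of_two (by simp) (hsub hψ) hχ (hirr ψ hψ)
    (fun h => hχS (h ▸ hψ)))

end Cfsg.Agent.S1530
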