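import Mathlib
import Cfsg.Statements.S1531
import Cfsg.Agent.Coh.Sec5b

set_option autoImplicit false
open Cfsg

namespace Cfsg.Agent.S1531

/-- Let N be a subgroup of the finite group G, S a set of irreducible characters of N, and α a linear isometry on the integer combinations of S vanishing at 1 with values virtual characters of G vanishing at 1. Let X, Y ⊆ S be disjoint, each with at least two members, and σ, τ linear isometries on ℤ[X], ℤ[Y] into virtual characters agreeing with α on the members vanishing at 1. Then ⟨σ χ, τ η⟩ = 0 for χ ∈ X, η ∈ Y; and if for some χ₀ ∈ X, η₀ ∈ Y with degrees c = χ₀ 1, e = η₀ 1 one has α (c • η₀ − e • χ₀) = c • τ η₀ − e • σ χ₀, then (X ∪ Y, N minus 1, α) is coherent. -/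
theorem result {G : Type*} [Group G] [Fintype G] (N : Subgroup G) [Fintype N] (S X Y : Set (N → ℂ)) (hirr : ∀ ξ ∈ S, Cfsg.IsIrrCharacter N ξ) (hXS : X ⊆ S) (hYS : Y ⊆ S) (hXY : Disjoint X Y) (hX2 : ∃ a ∈ X, ∃ b ∈ X, a ≠ b) (hY2 : ∃ a ∈ Y, ∃ b ∈ Y, a ≠ b) (α : (N → ℂ) → (G → ℂ)) (hα : Cfsg.IsLinearIsometryOn (Cfsg.zspanOn S {1}ᶜ) α) (hα1 : ∀ θ ∈ Cfsg.zspanOn S {1}ᶜ, α θ 1 = 0) (σ τ : (N → ℂ) → (G → ℂ)) (hσ : Cfsg.IsLinearIsometryOn (Cfsg.zspan X) σ) (hσα : ∀ θ ∈ Cfsg.zspanOn X {1}ᶜ, σ θ = α θ) (hτ : Cfsg.IsLinearIsometryOn (Cfsg.zspan Y) τ) (hτα : ∀ θ ∈ Cfsg.zspanOn Y {1}ᶜ, τ θ = α θ) : (∀ χ ∈ X, ∀ η ∈ Y, Cfsg.classInner (σ χ) (τ η) = 0) ∧ ((∃ χ₀ ∈ X, ∃ η₀ ∈ Y, α (χ₀ 1 • η₀ - η₀ 1 • χ₀) = χ₀ 1 • τ η₀ - η₀ 1 • σ χ₀) → Cfsg.IsCoherent (X ∪ Y) {1}ᶜ α) := by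
  have hdeg : ∀ φ ∈ S, ∃ n : ℤ, φ 1 = n := fun φ hφ => Coh.vc_deg_int (Coh.vc_of_irr (hirr φ hφ))
  obtain ⟨T, hT, e⟩ := Coh.exists_iso0 hdeg hα hα1
  obtain ⟨σ', hσ', eσ⟩ := Coh.exists_cohWith (T := T) (fun φ hφ => hdeg φ (hXS hφ)) hσ
    (fun θ hθ h1 => by
      rw [hσα θ (Coh.mem_zspanOn_one.mpr ⟨hθ, h1⟩), e θ (Coh.zspan_mono hXS hθ) h1])
  obtain ⟨τ', hτ', eτ⟩ := Coh.exists_cohWith (T := T) (fun φ hφ => hdeg φ (hYS hφ)) hτ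
    (fun θ hθ h1 => by
      rw [hτα θ (Coh.mem_zspanOn_one.mpr ⟨hθ, h1⟩), e θ (Coh.zspan_mono hYS hθ) h1])
  have hd : ∀ a ∈ X, ∀ b ∈ Y, a ≠ b := by
    rintro a ha b hb rfl; exact Set.disjoint_left.mp hXY ha hb
  have key : ∀ χ ∈ X, ∀ η ∈ Y, Cfsg.classInner (σ' χ) (τ' η) = 0 := by
    intro χ hχ η hη
    obtain ⟨χ', hχ', n1⟩ : ∃ χ' ∈ X, χ ≠ χ' := by
      obtain ⟨a, ha, b, hb, hab⟩ := hX2
      by_cases h : χ = a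
      · exact ⟨b, hb, h ▸ hab⟩
      · exact ⟨a, ha, h⟩
    obtain ⟨η', hη', n2⟩ : ∃ η' ∈ Y, η ≠ η' := by
      obtain ⟨a, ha, b, hb, hab⟩ := hY2
      by_cases h : η = a
      · exact ⟨b, hb, h ▸ hab⟩
      · exact ⟨a, ha, h⟩
    exact Coh.vc_ci_eq_zero (hσ'.virt χ hχ) (hτ'.virt η hη)
      (Coh.irr_coh_ortho hT hirr hXS hYS hσ' hτ' hχ hχ' hη hη' n1 n2 (hd _ hχ _ hη)
        (hd _ hχ _ hη') (hd _ hχ' _ hη) (hd _ hχ' _ hη'))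
  refine ⟨fun χ hχ η hη => ?_, ?_⟩
  · rw [← eσ χ (Coh.subset_zspan hχ), ← eτ η (Coh.subset_zspan hη)]; exact key χ hχ η hη
  rintro ⟨χ₀, hχ₀, η₀, hη₀, hbr⟩
  obtain ⟨c, hc0, hc⟩ := Char.isIrr_degree (hirr _ (hXS hχ₀))
  obtain ⟨d, hd0, hdd⟩ := Char.isIrr_degree (hirr _ (hYS hη₀))
  have hm : χ₀ 1 • η₀ - η₀ 1 • χ₀ ∈ Cfsg.zspan S := by
    rw [hc, hdd]
    exact Coh.zspan_sub (Coh.zspan_natsmul c (Coh.subset_zspan (hYS hη₀)))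
      (Coh.zspan_natsmul d (Coh.subset_zspan (hXS hχ₀)))
  obtain ⟨ν, hν, -⟩ := Coh.cohWith_union hτ' hσ' (fun η hη χ hχ => by
      rw [Coh.ci_eq_zero_symm (key χ hχ η hη),
        Char.classInner_isIrr_ne (hirr _ (hYS hη)) (hirr _ (hXS hχ)) (hd _ hχ _ hη).symm])
    (a := χ₀ 1 • η₀) (b := η₀ 1 • χ₀) (Submodule.smul_mem _ _ (Submodule.subset_span hη₀))
    (Submodule.smul_mem _ _ (Submodule.subset_span hχ₀)) (by simp [mul_comm])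
    (by simp [hc, hdd, hc0.ne', hd0.ne'])
    (by rw [e _ hm (by simp [mul_comm]), hbr, map_smul, map_smul, eσ _ (Coh.subset_zspan hχ₀),
      eτ _ (Coh.subset_zspan hη₀)])
  rw [Set.union_comm] at hν
  refine Coh.Coherent.isCoherent ⟨ν, hν⟩
    (fun θ hθ h1 => e θ (Coh.zspan_mono (Set.union_subset hXS hYS) hθ) h1) ?_
  exact Coh.exists_ne_zero_of_two (Or.inl hχ₀) (Or.inr hη₀) (hirr _ (hXS hχ₀)) (hirr _ (hYS hη₀))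
    (hd _ hχ₀ _ hη₀)

end Cfsg.Agent.S1531
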