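import Mathlib
import Cfsg.Statements.S1532
import Cfsg.Agent.Coh.FrobK

set_option autoImplicit false
open Cfsg

namespace Cfsg.Agent.S1532

theorem aux {G : Type*} [Group G] [Fintype G] (p : ℕ) [Fact p.Prime] (hp : p ≠ 2) (P : Sylow p G)
    (hna : ¬ IsMulCommutative (P : Subgroup G)) (hTI : Cfsg.IsTISubset ((P : Subgroup G) : Set G))
    (N : Subgroup G) (hN : Subgroup.normalizer ((P : Subgroup G) : Set G) = N)
    (hC : ∀ k ∈ (P : Subgroup G), k ≠ 1 → Subgroup.centralizer ({k} : Set G) ≤ (P : Subgroup G))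
    [Fintype N] (Z : Subgroup G) (hZ1 : Z ≠ ⊥)
    (hZP : ∀ z ∈ Z, z ∈ (P : Subgroup G) ∧ ∀ y ∈ (P : Subgroup G), z * y = y * z)
    (hZn : ∀ x ∈ N, ∀ z ∈ Z, x * z * x⁻¹ ∈ Z) :
    Cfsg.IsCoherent {χ : N → ℂ | Cfsg.IsIrrCharacter N χ ∧ ∃ z : N, (z : G) ∈ Z ∧ χ z ≠ χ 1} {1}ᶜ
      (fun α => Cfsg.indFun N α) := by
  classical
  have hp' : p.Prime := Fact.out
  have hle : (P : Subgroup G) ≤ N := hN ▸ Subgroup.le_normalizer
  have hKn : ((P : Subgroup G).subgroupOf N).Normal :=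
    Subgroup.normal_subgroupOf_of_le_normalizer hN.ge
  have hZn' : (Z.subgroupOf N).Normal := Coh.normal_subgroupOf_of_conj hZn
  have hZP' : Z ≤ P := fun z hz => (hZP z hz).1
  have hC' := Coh.frob_subgroupOf (H := P) (N := N) fun k hk h1 => inf_le_right.trans (hC k hk h1)
  have hZK : Z.subgroupOf N ≤ (P : Subgroup G).subgroupOf N := Subgroup.comap_mono hZP'
  have hset := Coh.frob_indSet_eq hC' hZK
  have hKp : IsPGroup p ((P : Subgroup G).subgroupOf N) := P.isPGroup'.comap_subtype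
  have hT := (Coh.iso0_indL_indAll (Coh.ti_subgroupOf hTI hN)).mono
    (Coh.indSet_subset_indAll _ (Z.subgroupOf N) ⊥)
  have hodd : Odd (Nat.card N) := by
    rw [← Subgroup.card_mul_index ((P : Subgroup G).subgroupOf N), Nat.odd_mul]
    constructor
    · obtain ⟨m, hm⟩ := IsPGroup.iff_card.mp hKp
      rw [hm]
      exact (hp'.odd_of_ne_two hp).pow
    · rw [← Nat.not_even_iff_odd]
      exact fun h => hna ((Coh.isMulCommutative_subgroupOf_iff hle).mp
        (Coh.frob_comm_of_even hC' h))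
  have hcoh := (Coh.frob_cohFam hC' hT).center_coherent hp' hp hKp
    (fun h => P.not_dvd_index (h.trans (Subgroup.relIndex_dvd_index_of_le hle))) hZK
    (fun z hz k hk => Subtype.ext ((hZP z hz).2 k hk)) (fun χ h => Coh.indSet_irr_of_frob' hC' h)
  obtain ⟨χ, hχ⟩ := Coh.indSet_nonempty hZK (M := ⊥) bot_le
    (by simpa using Coh.subgroupOf_ne_bot (hZP'.trans hle) hZ1)
  have := hcoh.isCoherent (τ := fun α => indFun N α) (fun _ _ _ => rfl)
    (Coh.exists_ne_zero_of_conj hχ (Coh.indSet_vc hχ) (Coh.indSet_conj hχ)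
      (Coh.indSet_conj_ne hodd hχ))
  rw [hset] at this
  exact this


/-- Let G be a finite group, p an odd prime and P a Sylow p-subgroup that is non-abelian, whose underlying set is a TI-subset of G, with P properly contained in its set normaliser N and C_G(x) ≤ P for every non-identity x ∈ P. Let Z be a nontrivial subgroup of the centre of P normalised by N. Then the set of irreducible characters χ of N with χ z ≠ χ 1 for some z ∈ Z is coherent for the map induced by induction from N to G. -/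
theorem result {G : Type*} [Group G] [Fintype G] (p : ℕ) [Fact p.Prime] (hp : p ≠ 2) (P : Sylow p G) (hna : ¬ IsMulCommutative (P : Subgroup G)) (hTI : Cfsg.IsTISubset ((P : Subgroup G) : Set G)) (hlt : (P : Subgroup G) < Subgroup.normalizer ((P : Subgroup G) : Set G)) (hC : ∀ k ∈ (P : Subgroup G), k ≠ 1 → Subgroup.centralizer ({k} : Set G) ≤ (P : Subgroup G)) [Fintype ↥(Subgroup.normalizer ((P : Subgroup G) : Set G))] (Z : Subgroup G) (hZ1 : Z ≠ ⊥) (hZP : ∀ z ∈ Z, z ∈ (P : Subgroup G) ∧ ∀ y ∈ (P : Subgroup G), z * y = y * z) (hZn : ∀ x ∈ Subgroup.normalizer ((P : Subgroup G) : Set G), ∀ z ∈ Z, x * z * x⁻¹ ∈ Z) : Cfsg.IsCoherent {χ : ↥(Subgroup.normalizer ((P : Subgroup G) : Set G)) → ℂ | Cfsg.IsIrrCharacter ↥(Subgroup.normalizer ((P : Subgroup G) : Set G)) χ ∧ ∃ z : ↥(Subgroup.normalizer ((P : Subgroup G) : Set G)), (z : G) ∈ Z ∧ χ z ≠ χ 1} {1}ᶜ (fun α => Cfsg.indFun (Subgroup.normalizer ((P : Subgroup G) : Set G)) α) := by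
  exact aux p hp P hna hTI _ rfl hC Z hZ1 hZP hZn

end Cfsg.Agent.S1532
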