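import Mathlib
import Cfsg.Statements.S1536
import Cfsg.Agent.Char.BrauerPerm
-- import your own Cfsg.Agent.* helpers here

set_option autoImplicit false
open Cfsg

namespace Cfsg.Agent.S1536

/-- Let H be a normal subgroup of the finite group M whose order is coprime to its index. For x ∈ M: some non-principal irreducible character of H is unchanged under h ↦ θ(x h x⁻¹) if and only if some non-identity element of H commutes with x. -/
theorem result {M : Type*} [Group M] [Finite M] (H : Subgroup M) [hN : H.Normal] (hHall : Nat.Coprime (Nat.card H) H.index) (x : M) : (∃ θ : H → ℂ, Cfsg.IsIrrCharacter H θ ∧ θ ≠ (fun _ => 1) ∧ (fun h : H => θ ⟨x * h * x⁻¹, hN.conj_mem h h.2 x⟩) = θ) ↔ ∃ h ∈ H, h ≠ 1 ∧ x * h = h * x := by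
  constructor
  · rintro ⟨θ, hθ, h1, hx⟩
    by_contra hcon
    refine h1 (Char.BrauerPerm.eq_one_of_conjFn_eq H (g := x) (fun n hn e => ?_) hθ hx)
    by_contra hn1
    exact hcon ⟨n, hn, hn1, e.symm⟩
  · rintro ⟨h, hh, h1, e⟩
    by_contra hcon
    have hc := Char.BrauerPerm.card_fixed_aut (MulAut.conjNormal (H := H) x)
    have h2 : Nat.card {χ : IrrCharacter H //
        (χ : H → ℂ) ∘ (MulAut.conjNormal (H := H) x) = (χ : H → ℂ)} ≤ 1 := by
      rw [Finite.card_le_one_iff_subsingleton]
      have key : ∀ χ : IrrCharacter H, (χ : H → ℂ) ∘ (MulAut.conjNormal (H := H) x) = (χ : H → ℂ) →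
          (χ : H → ℂ) = fun _ => 1 := by
        intro χ hχ
        by_contra hne
        exact hcon ⟨χ, χ.2, hne, hχ⟩
      exact ⟨fun a b => Subtype.ext (Subtype.ext ((key a.1 a.2).trans (key b.1 b.2).symm))⟩
    rw [← hc, Finite.card_le_one_iff_subsingleton] at h2
    have e1 : MulAut.conjNormal (H := H) x ⟨h, hh⟩ = ⟨h, hh⟩ := by
      apply Subtype.ext
      change x * h * x⁻¹ = h
      rw [e]; group
    have := h2.elim ⟨ConjClasses.mk ⟨h, hh⟩, congrArg ConjClasses.mk e1⟩
      ⟨ConjClasses.mk 1, congrArg ConjClasses.mk (map_one _)⟩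
    have h3 := ConjClasses.mk_eq_mk_iff_isConj.mp (congrArg Subtype.val this)
    exact h1 (congrArg Subtype.val (isConj_one_left.mp h3))

end Cfsg.Agent.S1536
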