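import Mathlib
import Cfsg.Statements.S1542
import Cfsg.Agent.PF.Sec12Coh
-- import your own Cfsg.Agent.* helpers here

set_option autoImplicit false
open Cfsg

namespace Cfsg.Agent.S1542

/-- Let G be a minimal simple group of odd order and L a maximal subgroup of Type I in which every non-identity element of H = L_F has its centraliser within L inside H. Let S be the set of functions on L induced from non-principal irreducible characters of H. Then every member of S is an irreducible character of L, and (S, L minus 1, τ) is coherent for τ the Dade map relative to A(L), L and a ↦ R(a). -/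
theorem result {G : Type*} [Group G] [Fintype G] (hG : Cfsg.IsMinSimpleOddOrder G) (L : Subgroup G) [Fintype L] (hL : IsCoatom L) (hI : Cfsg.IsOfTypeI L) (hfrob : ∀ x ∈ Cfsg.fittingHallOf L, x ≠ 1 → L ⊓ Subgroup.centralizer ({x} : Set G) ≤ Cfsg.fittingHallOf L) : (∀ χ ∈ Cfsg.inducedIrrAbove (Cfsg.fittingHall L) ⊥, Cfsg.IsIrrCharacter L χ) ∧ Cfsg.IsCoherent (Cfsg.inducedIrrAbove (Cfsg.fittingHall L) ⊥) {1}ᶜ (Cfsg.dadeIsometry (Cfsg.typeA L) L (Cfsg.supportR L)) := by
  have hH : fittingHallOf L ≠ ⊥ := PF.ft_fh_ne hG hL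
  have hlt : fittingHallOf L < L := by
    refine lt_of_le_of_ne (PF.fh_le L) fun e => hI.1.2.2.2.1 ?_
    rw [eq_top_iff]
    intro x _
    rw [← PF.coe_mem_fh_iff, e]
    exact x.2
  have h : PF.FrobWith (fittingHallOf L) L := ⟨hH, hlt, PF.fh_norm L, hfrob⟩
  rw [Coh.inducedIrrAbove_eq]
  refine ⟨fun χ hχ => PF.ft_frob_irr h hχ, (PF.ft_frob_coherent hG hL h).isCoherent ?_ ?_⟩
  · intro α _ _
    have hI' := PF.typeI_of_isOfTypeI hI
    rw [PF.tau0_apply, BG.ftA0_of_typeI hI', BG.ftA_eq_typeA ⟨fun _ => hI, fun _ => hI'⟩]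
  · obtain ⟨φ, hφ, -⟩ := PF.ft_frob_exists_lin h
    exact Coh.exists_ne_zero_of_conj hφ (Coh.indSet_vc hφ) (Coh.indSet_conj hφ)
      (Coh.indSet_conj_ne (PF.ft_odd hG L) hφ)

end Cfsg.Agent.S1542
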