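import Mathlib
import Cfsg.Statements.S1551
import Cfsg.Agent.Golay.Loc2

set_option autoImplicit false
open scoped Pointwise
open Cfsg

namespace Cfsg.Agent.S1551

open Cfsg.Agent.Golay

/-- Structure of a sextet stabiliser: it induces every permutation of the six tetrads, the subgroup fixing each tetrad setwise has order 192, and there is a normal subgroup of order 64 consisting of elements squaring to the identity. -/
theorem result (S : Finset (Finset Cfsg.GolayPt)) (hS : S ∈ Cfsg.sextets) : (∀ e : Equiv.Perm ↥S, ∃ g ∈ MulAction.stabilizer Cfsg.M24 S, ∀ t : ↥S, (g : Equiv.Perm Cfsg.GolayPt) • (t : Finset Cfsg.GolayPt) = ((e t : ↥S) : Finset Cfsg.GolayPt)) ∧ Nat.card {g : ↥(MulAction.stabilizer Cfsg.M24 S) // ∀ t ∈ S, ((g : Cfsg.M24) : Equiv.Perm Cfsg.GolayPt) • t = t} = 192 ∧ ∃ N : Subgroup ↥(MulAction.stabilizer Cfsg.M24 S), N.Normal ∧ Nat.card N = 64 ∧ ∀ x ∈ N, x * x = 1 := by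
  obtain ⟨k, hk, e⟩ := sextet_trans sex0_mem hS
  have h1 : ∀ g ∈ M24, (∀ t ∈ S, g • t = t) ↔ k⁻¹ * g * k ∈ sexKer := fun g hg => by
    rw [mem_sexKer, and_iff_right (M24.mul_mem (M24.mul_mem (M24.inv_mem hk) hg) hk), ← e]
    simp only [mul_smul, inv_smul_eq_iff]
    exact ⟨fun h t ht => h _ (smul_mem_smul_fam.2 ht), fun h t ht => by
      obtain ⟨u, hu, rfl⟩ := Finset.mem_smul_finset.1 ht
      exact h u hu⟩
  let ψ : MulAction.stabilizer M24 S →* P24 := (MulAut.conj k⁻¹).toMonoidHom.comp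
    (M24.subtype.comp (MulAction.stabilizer M24 S).subtype)
  have h2 : ∀ g, ψ g = k⁻¹ * g * k := fun g => by simp [ψ]
  have h3 : ∀ H ≤ St M24 sex0, Nat.card (H.comap ψ) = Nat.card H := fun H hH => by
    rw [← Subgroup.card_map_of_injective (f := ψ) ((MulAut.conj k⁻¹).injective.comp
      (Subtype.val_injective.comp Subtype.val_injective)), Subgroup.map_comap_eq_self]
    intro x hx
    have := (conj_mem_St hk (g := k * x * k⁻¹)).2 (by simpa [mul_assoc] using hH hx)
    exact ⟨⟨⟨_, this.1⟩, e ▸ this.2⟩, by rw [h2]; simp [mul_assoc]⟩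
  refine ⟨exists_induced hk e (t := fun i => um (tblTet i)) (by decide +kernel) (by decide +kernel)
    sex_hom, ?_, (Cl gensHex).comap ψ, ⟨fun x hx g => ?_⟩, ?_, fun x hx => ?_⟩
  · rw [← card_sexKer, ← h3 _ inf_le_left]
    exact Nat.card_congr (Equiv.subtypeEquivRight fun g => by
      rw [h1 _ g.1.2, Subgroup.mem_comap, h2])
  · rw [Subgroup.mem_comap, mem_Hex, ← map_mul, h2, ← h1 _ (Subtype.prop _)] at hx ⊢
    refine ⟨fun t ht => ?_, ?_⟩
    · show (g.1.1 * x.1.1 * g.1.1⁻¹) • t = t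
      rw [mul_smul, mul_smul, hx.1, smul_inv_smul]
      rw [Finset.inv_smul_mem_iff, show g.1.1 • S = S from g.2]; exact ht
    · rw [show g * x * g⁻¹ * (g * x * g⁻¹) = g * (x * x) * g⁻¹ by group, map_mul, map_mul, hx.2]
      simp
  · rw [h3 _ fun x hx => (mem_Hex.1 hx).1.1, card_Hex]
  · have := (mem_Hex.1 hx).2
    rw [← map_mul, h2] at this
    refine Subtype.ext (Subtype.ext ?_)
    rwa [mul_eq_one_iff_eq_inv, inv_mul_eq_iff_eq_mul, mul_inv_cancel] at this

end Cfsg.Agent.S1551
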