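import Mathlib
import Cfsg.Statements.S1553
import Cfsg.Agent.Golay.Octads

set_option autoImplicit false
open scoped Pointwise
open Cfsg

namespace Cfsg.Agent.S1553

open Cfsg.Agent.Golay

/-- The stabiliser of an octad in the group of the length-24 code induces on the octad exactly its alternating group. -/
theorem result (o : Finset Cfsg.GolayPt) (ho : o ∈ Cfsg.octads) : {e : Equiv.Perm ↥o | ∃ g : Equiv.Perm Cfsg.GolayPt, g ∈ Cfsg.M24 ∧ ∃ h : (∀ x, g x ∈ o ↔ x ∈ o), g.subtypePerm h = e} = (alternatingGroup ↥o : Set (Equiv.Perm ↥o)) := by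
  have hD : ∀ g ∈ St M24 o, g • o = o := fun g hg => hg.2
  have h1 := range_eq_alternating (permHom (St M24 o) o hD) (by
    have : Nat.card (permHom (St M24 o) o hD).ker = Nat.card (fixOct o) :=
      Nat.card_congr (equivOfMemIff (G := St M24 o) (H := fixOct o)
        (fun g hg => ⟨hg.1, smul_eq_of_fix (mem_fixOct.1 hg).2⟩)
        (fun g => by rw [mem_ker_permHom, mem_fixOct]; exact (and_iff_right g.2.1).symm)).toEquiv
    rw [this, card_fixOct ho, card_St_oct ho, Fintype.card_coe, ho.2]; rfl)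
  rw [← h1]
  ext e
  constructor
  · rintro ⟨g, hg, h, rfl⟩
    refine ⟨⟨g, hg, ?_⟩, rfl⟩
    refine Finset.eq_of_subset_of_card_le (fun a ha => ?_) (by rw [Finset.card_smul_finset])
    obtain ⟨b, hb, rfl⟩ := Finset.mem_smul_finset.1 ha
    exact (h b).2 hb
  · rintro ⟨g, rfl⟩
    exact ⟨g, g.2.1, mem_iff_of_smul_eq (hD g g.2), rfl⟩

end Cfsg.Agent.S1553
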