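import Mathlib
import Cfsg.Statements.S1554
import Cfsg.Agent.Golay.Octads

set_option autoImplicit false
open scoped Pointwise
open Cfsg

namespace Cfsg.Agent.S1554

open Cfsg.Agent.Golay

/-- An octad stabiliser is a split extension: the joint stabiliser of the octad and a point outside it is a complement to the pointwise stabiliser of the octad, and is isomorphic to the alternating group of degree 8. -/
theorem result (o : Finset Cfsg.GolayPt) (ho : o ∈ Cfsg.octads) (p : Cfsg.GolayPt) (hp : p ∉ o) : (Cfsg.M24 ⊓ fixingSubgroup (Equiv.Perm Cfsg.GolayPt) (o : Set Cfsg.GolayPt)) ⊓ (Cfsg.M24 ⊓ MulAction.stabilizer (Equiv.Perm Cfsg.GolayPt) o ⊓ MulAction.stabilizer (Equiv.Perm Cfsg.GolayPt) p) = ⊥ ∧ (Cfsg.M24 ⊓ fixingSubgroup (Equiv.Perm Cfsg.GolayPt) (o : Set Cfsg.GolayPt)) ⊔ (Cfsg.M24 ⊓ MulAction.stabilizer (Equiv.Perm Cfsg.GolayPt) o ⊓ MulAction.stabilizer (Equiv.Perm Cfsg.GolayPt) p) = (Cfsg.M24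 ⊓ MulAction.stabilizer (Equiv.Perm Cfsg.GolayPt) o) ∧ Nonempty (↥(Cfsg.M24 ⊓ MulAction.stabilizer (Equiv.Perm Cfsg.GolayPt) o ⊓ MulAction.stabilizer (Equiv.Perm Cfsg.GolayPt) p) ≃* alternatingGroup (Fin 8)) := by
  have hf : ∀ g ∈ St (St M24 o) p, (∀ a ∈ o, g a = a) → g = 1 := fun g hg h =>
    eq_one_of_fix_oct ho hp hg.1.1 h hg.2
  refine ⟨eq_bot_iff.2 fun g hg => hf g hg.2 (mem_fixOct.1 hg.1).2, le_antisymm (sup_le
    (fun g hg => ⟨hg.1, smul_eq_of_fix (mem_fixOct.1 hg).2⟩) inf_le_left) fun g hg => ?_,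
    equiv_alt_of_card (H := St (St M24 o) p) (fun g hg => hg.1.2) hf ho.2 (by rw [card_St_oct_out ho hp]; rfl)⟩
  obtain ⟨k, hk, e⟩ := fixOct_trans ho hp (q' := g p)
    (fun h => hp ((mem_iff_of_smul_eq hg.2 p).1 h))
  have : g = k * (k⁻¹ * g) := by group
  rw [this]
  refine Subgroup.mul_mem_sup hk ⟨(St M24 o).mul_mem ((St M24 o).inv_mem
    ⟨hk.1, smul_eq_of_fix (mem_fixOct.1 hk).2⟩) hg, ?_⟩
  show k⁻¹ (g p) = p
  rw [← e]; simp

end Cfsg.Agent.S1554
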