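import Mathlib
import Cfsg.Statements.S1558
import Cfsg.Agent.Golay.Loc2

set_option autoImplicit false
open scoped Pointwise
open Cfsg

namespace Cfsg.Agent.S1558

open Cfsg.Agent.Golay

/-- Structure of a trio stabiliser: every permutation of the three octads is induced, and there is a normal subgroup of order 64 of elements squaring to the identity whose quotient is isomorphic to the product of GL(3, 2) with the symmetric group of degree 3. -/
theorem result (T : Finset (Finset Cfsg.GolayPt)) (hT : T ∈ Cfsg.trios) : (∀ e : Equiv.Perm ↥T, ∃ g ∈ MulAction.stabilizer Cfsg.M24 T, ∀ o : ↥T, (g : Equiv.Perm Cfsg.GolayPt) • (o : Finset Cfsg.GolayPt) = ((e o : ↥T) : Finset Cfsg.GolayPt)) ∧ ∃ (N : Subgroup ↥(MulAction.stabilizer Cfsg.M24 T)) (_ : N.Normal), Nat.card N = 64 ∧ (∀ x ∈ N, x * x = 1) ∧ Nonempty (↥(MulAction.stabilizer Cfsg.M24 T) ⧸ N ≃* GL (Fin 3) (ZMod 2) × Equiv.Perm (Fin 3)) := by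
  obtain ⟨φ, h1, h2, h3⟩ := trio_hom
  obtain ⟨k, hk, e⟩ := trio_trans trio0_mem hT
  refine ⟨exists_induced hk e (t := fun i => um (tblOct3 i)) (by decide +kernel) (by decide +kernel)
    fun σ => ?_, ?_⟩
  · obtain ⟨g, hg⟩ := h1 (1, σ)
    exact ⟨g, g.2.1, fun i => by rw [h3, hg]⟩
  · obtain ⟨e⟩ := equiv_St ⟨k, hk, e⟩ (K := MulAction.stabilizer M24 T) fun _ => Iff.rfl
    obtain ⟨N, h4, h5, h6, h7⟩ := exists_normal_quot e h1 (k := 64) (by
      rw [card_St_trio trio0_mem, Nat.card_prod, card_GL32, Nat.card_perm, Nat.card_fin]; rfl) h2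
    exact ⟨N, h4, h5, fun x hx => e.injective (by rw [map_mul, h6 x hx, map_one]), h7⟩

end Cfsg.Agent.S1558
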