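import Mathlib
import Cfsg.Statements.S1560
import Cfsg.Agent.Golay.Octads

set_option autoImplicit false
open scoped Pointwise
open Cfsg

namespace Cfsg.Agent.S1560

open Cfsg.Agent.Golay

/-- Intersection numbers of dodecads: a dodecad meets every other dodecad in 0, 4, 6 or 8 points, meeting 495 of them in 4 points, 1584 in 6 points and 495 in 8 points. -/
theorem result (d : Finset Cfsg.GolayPt) (hd : d ∈ Cfsg.dodecads) : (∀ d' ∈ Cfsg.dodecads, d' ≠ d → (d ∩ d').card = 0 ∨ (d ∩ d').card = 4 ∨ (d ∩ d').card = 6 ∨ (d ∩ d').card = 8) ∧ {d' : Finset Cfsg.GolayPt | d' ∈ Cfsg.dodecads ∧ (d ∩ d').card = 4}.ncard = 495 ∧ {d' : Finset Cfsg.GolayPt | d' ∈ Cfsg.dodecads ∧ (d ∩ d').card = 6}.ncard = 1584 ∧ {d' : Finset Cfsg.GolayPt | d' ∈ Cfsg.dodecads ∧ (d ∩ d').card = 8}.ncard = 495 := by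
  have h := (classif_dod_dod hd).count
  refine ⟨fun d' hd' hne => ?_, h (4, 495) (by simp), h (6, 1584) (by simp), h (8, 495) (by simp)⟩
  obtain ⟨v, hv, e⟩ := (classif_dod_dod hd).val d' hd'
  simp only [List.mem_cons, List.not_mem_nil, or_false] at hv
  have : (d ∩ d').card ≠ 12 := fun h => hne
    (eq_of_CW_of_inter hd.1 hd'.1 (by rw [hd.2, hd'.2, h]; norm_num)).symm
  rcases hv with rfl | rfl | rfl | rfl | rfl <;> simp only at e <;> omega

end Cfsg.Agent.S1560
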