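import Mathlib
import Cfsg.Statements.S1562
import Cfsg.Agent.Golay.Flags

set_option autoImplicit false
open scoped Pointwise
open Cfsg

namespace Cfsg.Agent.S1562

open Cfsg.Agent.Golay

/-- Orbits of a triad stabiliser on the triads disjoint from it: the 210 triads inside a common octad with it form one orbit and the remaining 1120 another. -/
theorem result (T : Finset Cfsg.GolayPt) (hT : T.card = 3) : {U : Finset Cfsg.GolayPt | U.card = 3 ∧ Disjoint T U ∧ (∃ o ∈ Cfsg.octads, T ∪ U ⊆ o)}.ncard = 210 ∧ {U : Finset Cfsg.GolayPt | U.card = 3 ∧ Disjoint T U ∧ ¬ (∃ o ∈ Cfsg.octads, T ∪ U ⊆ o)}.ncard = 1120 ∧ ∀ U U' : Finset Cfsg.GolayPt, U.card = 3 → U'.card = 3 → Disjoint T U → Disjoint T U' → ((∃ o ∈ Cfsg.octads, T ∪ U ⊆ o) ↔ (∃ o ∈ Cfsg.octads, T ∪ U' ⊆ o)) → ∃ g : Equiv.Perm Cfsg.GolayPt, g ∈ Cfsg.M24 ∧ g • T = T ∧ g • U = U' := by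
  have hc := classif_triad hT
  have h3 : ∀ U : Finset GolayPt, (T ∩ U).card ≤ 3 := fun U =>
    hT ▸ Finset.card_le_card Finset.inter_subset_left
  have h10 : ∀ U, pairInv T U = 10 ↔ Disjoint T U ∧ InOct (T ∪ U) := fun U => by
    have := h3 U
    rw [Finset.disjoint_iff_inter_eq_empty, ← Finset.card_eq_zero, pairInv]
    split_ifs with h <;> simp only [h, and_true, and_false, iff_false] <;> omega
  have h0 : ∀ U, pairInv T U = 0 ↔ Disjoint T U ∧ ¬ InOct (T ∪ U) := fun U => by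
    rw [Finset.disjoint_iff_inter_eq_empty, ← Finset.card_eq_zero, pairInv]
    split_ifs with h <;> simp [h]
  refine ⟨?_, ?_, fun U U' hU hU' hd hd' h => hc.trans U hU U' hU' ?_⟩
  · simpa only [Set.mem_ofPred_eq, h10, InOct] using hc.count (10, 210) (by simp)
  · simpa only [Set.mem_ofPred_eq, h0, InOct] using hc.count (0, 1120) (by simp)
  · by_cases h1 : InOct (T ∪ U)
    · rw [(h10 U).2 ⟨hd, h1⟩, (h10 U').2 ⟨hd', h.1 h1⟩]
    · rw [(h0 U).2 ⟨hd, h1⟩, (h0 U').2 ⟨hd', fun h2 => h1 (h.2 h2)⟩]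

end Cfsg.Agent.S1562
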