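import Mathlib
import Cfsg.Statements.S1564
import Cfsg.Agent.Golay.Flags

set_option autoImplicit false
open scoped Pointwise
open Cfsg

namespace Cfsg.Agent.S1564

open Cfsg.Agent.Golay

/-- The stabiliser of a set of three points (setwise) is a maximal proper subgroup of the group of the length-24 code. -/
theorem result (s : Finset Cfsg.GolayPt) (hs : s.card = 3) : IsCoatom (MulAction.stabilizer Cfsg.M24 s) := by
  exact isCoatom_of_orbDec' (S := {U : Finset GolayPt | U.card = 3})
    (fun g _ => (Finset.card_smul_finset g s).trans hs)
    (fun y hy => trans_set (hs.trans hy.symm) (by omega))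
    ((classif_triad hs).orbDec (fun g _ _ y hy => (Finset.card_smul_finset g y).trans hy)
      (fun g hg e y _ => by rw [← pairInv_smul hg s y, e]) (by decide) (by decide))
    (ncard_card_eq 3) (by decide +kernel) (by decide +kernel)

end Cfsg.Agent.S1564
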