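import Mathlib
import Cfsg.Statements.S1565
import Cfsg.Agent.Golay.Octads

set_option autoImplicit false
open scoped Pointwise
open Cfsg

namespace Cfsg.Agent.S1565

open Cfsg.Agent.Golay

/-- The stabiliser of an octad is a maximal proper subgroup of the group of the length-24 code. -/
theorem result (o : Finset Cfsg.GolayPt) (ho : o ∈ Cfsg.octads) : IsCoatom (MulAction.stabilizer Cfsg.M24 o) := by
  exact isCoatom_of_orbDec' (fun g hg => smul_mem_octads hg ho) (fun y hy => octad_trans ho hy)
    ((classif_oct_oct ho).orbDec (fun g hg _ y hy => smul_mem_octads hg hy)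
      (fun g _ e y _ => by rw [← card_smul_inter g o y, e]) (by decide) (by decide))
    ncard_octads (by norm_num) (by decide)

end Cfsg.Agent.S1565
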