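import Mathlib
import Cfsg.Statements.S1568
import Cfsg.Agent.Leech.Count

set_option autoImplicit false
open Cfsg

namespace Cfsg.Agent.S1568

open Leech in
theorem ex_abs (k : ℤ) (N : ℕ) (h : cntAll (fun a => decide (|a| ≠ k)) 48 + N = 16773120) :
    {x : GolayPt → ℤ | x ∈ leechLattice ∧ sqNorm x = 48 ∧ ∃ i, |x i| = k}.ncard = N := by
  have h1 := count_all (fun a => decide (|a| ≠ k)) 48 (by norm_num)
  have h2 := ncard48
  have h3 := Set.ncard_union_eq (s := {x : V | x ∈ leechLattice ∧ sqNorm x = 48 ∧ ∃ i, |x i| = k})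
    (t := {x : V | x ∈ leechLattice ∧ sqNorm x = (48 : ℕ) ∧ ∀ i, decide (|x i| ≠ k) = true}) ?_
    ((finite_norm 48).subset fun x hx => hx.2.1) ((finite_norm 48).subset fun x hx => hx.2.1)
  · have h4 : {x : V | x ∈ leechLattice ∧ sqNorm x = 48 ∧ ∃ i, |x i| = k} ∪
        {x : V | x ∈ leechLattice ∧ sqNorm x = (48 : ℕ) ∧ ∀ i, decide (|x i| ≠ k) = true} =
        {x : V | x ∈ leechLattice ∧ sqNorm x = 48} := by
      ext x
      simp only [Set.mem_union, Set.mem_ofPred_eq, decide_eq_true_eq]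
      constructor
      · rintro (h | h)
        · exact ⟨h.1, h.2.1⟩
        · exact ⟨h.1, h.2.1⟩
      · rintro ⟨a, b⟩
        by_cases hh : ∃ i, |x i| = k
        · exact Or.inl ⟨a, b, hh⟩
        · push Not at hh
          exact Or.inr ⟨a, b, hh⟩
    rw [h4, h2, h1, ← h, add_comm] at h3
    exact (Nat.add_right_cancel h3).symm
  · rw [Set.disjoint_left]
    rintro x ⟨-, -, i, hi⟩ ⟨-, -, h⟩
    have := h i
    simp [hi] at this

open Leech in
theorem three {x : GolayPt → ℤ} (hx : x ∈ leechLattice) (hn : sqNorm x = 48) (i : GolayPt)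
    (hi : |x i| = 3) :
    ∃ i j k, i ≠ j ∧ j ≠ k ∧ i ≠ k ∧ |x i| = 3 ∧ |x j| = 3 ∧ |x k| = 3 := by
  classical
  have ho : ∀ j, Odd (x j) := leech_all_odd hx (i₀ := i) (by
    rcases (abs_eq (by norm_num)).1 hi with h | h <;> rw [h] <;> decide)
  have hs : ∑ j, (x j ^ 2 - 1) = 24 := by
    rw [Finset.sum_sub_distrib, ← sqNorm_def, hn]; simp
  have pos : ∀ j, 0 ≤ x j ^ 2 - 1 := fun j => by
    have : x j ≠ 0 := by intro h; have := ho j; rw [h] at this; simp at this
    have := sq_pos_of_ne_zero this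
    omega
  have hi2 : x i ^ 2 = 9 := by rw [← sq_abs, hi]; rfl
  have bd : ∀ j, x j ^ 2 - 1 = if |x j| = 3 then 8 else 0 := by
    intro j
    split_ifs with h
    · rw [← sq_abs, h]; rfl
    · have hji : j ≠ i := by rintro rfl; exact h hi
      have := Finset.sum_le_sum_of_subset_of_nonneg (f := fun j => x j ^ 2 - 1)
        (Finset.subset_univ {i, j}) (fun a _ _ => pos a)
      rw [Finset.sum_pair hji.symm, hs, hi2] at this
      have h1 : -5 < x j := by nlinarith
      have h2 : x j < 5 := by nlinarith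
      have h3 := ho j
      interval_cases (x j) <;> first | rfl | (exfalso; revert h3; decide) | (exfalso; exact h rfl)
  simp only [bd] at hs
  rw [← Finset.sum_filter, Finset.sum_const] at hs
  have hc : (Finset.univ.filter fun j => |x j| = 3).card = 3 := by
    simp only [nsmul_eq_mul] at hs; omega
  obtain ⟨a, b, c, h1, h2, h3, h4⟩ := Finset.card_eq_three.1 hc
  have m : ∀ j, j ∈ ({a, b, c} : Finset GolayPt) → |x j| = 3 := fun j hj => by
    rw [← h4] at hj; exact (Finset.mem_filter.1 hj).2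
  exact ⟨a, b, c, h1, h3, h2, m a (by simp), m b (by simp), m c (by simp)⟩

/-- Shape census of the lattice vectors of sum of squares 48 (customary norm 6): the four families (2^12, 0^12), (±3^3, ±1^21), (±4, ±2^8, 0^15) and (±5, ±1^23) have 5275648, 8290304, 3108864 and 98304 members. -/
theorem result : {x : Cfsg.GolayPt → ℤ | x ∈ Cfsg.leechLattice ∧ Cfsg.sqNorm x = 48 ∧ ∀ i, x i = 0 ∨ x i = 2 ∨ x i = -2}.ncard = 5275648 ∧ {x : Cfsg.GolayPt → ℤ | x ∈ Cfsg.leechLattice ∧ Cfsg.sqNorm x = 48 ∧ ∃ i j k, i ≠ j ∧ j ≠ k ∧ i ≠ k ∧ |x i| = 3 ∧ |x j| = 3 ∧ |x k| = 3}.ncard = 8290304 ∧ {x : Cfsg.GolayPt → ℤ | x ∈ Cfsg.leechLattice ∧ Cfsg.sqNorm x = 48 ∧ ∃ i, |x i| = 4}.ncard = 3108864 ∧ {x : Cfsg.GolayPt → ℤ | x ∈ Cfsg.leechLattice ∧ Cfsg.sqNorm x = 48 ∧ ∃ i, |x i| = 5}.ncard = 98304 := by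
  refine ⟨?_, ?_, ex_abs 4 _ (by decide +kernel), ex_abs 5 _ (by decide +kernel)⟩
  · have h1 := Leech.count_all (fun a => decide (a = 0 ∨ a = 2 ∨ a = -2)) 48 (by norm_num)
    have h2 : Leech.cntAll (fun a => decide (a = 0 ∨ a = 2 ∨ a = -2)) 48 = 5275648 := by
      decide +kernel
    rw [← h2, ← h1]
    simp only [decide_eq_true_eq]
    rfl
  · rw [← ex_abs 3 8290304 (by decide +kernel)]
    congr 1
    ext x
    simp only [Set.mem_ofPred_eq]
    constructor
    · rintro ⟨a, b, i, -, -, -, -, -, h, -⟩; exact ⟨a, b, i, h⟩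
    · rintro ⟨a, b, i, h⟩; exact ⟨a, b, three a b i h⟩

end Cfsg.Agent.S1568
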