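import Mathlib
import Cfsg.Statements.S1575
import Cfsg.Agent.Leech.Orb2

set_option autoImplicit false
open Cfsg

namespace Cfsg.Agent.S1575

/-- The stabiliser of a minimal vector is transitive on the minimal vectors of customary inner product −1 with it. -/
theorem result (v w w' : ↥Cfsg.leechLattice) (hv : Cfsg.sqNorm (v : Cfsg.GolayPt → ℤ) = 32) (hw : Cfsg.sqNorm (w : Cfsg.GolayPt → ℤ) = 32) (hw' : Cfsg.sqNorm (w' : Cfsg.GolayPt → ℤ) = 32) (hd : Cfsg.dotInt (v : Cfsg.GolayPt → ℤ) (w : Cfsg.GolayPt → ℤ) = -8) (hd' : Cfsg.dotInt (v : Cfsg.GolayPt → ℤ) (w' : Cfsg.GolayPt → ℤ) = -8) : ∃ g : ↥Cfsg.Co0, g • v = v ∧ g • w = w' := by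
  obtain ⟨g, h1, h2⟩ := Leech.exists_vw hw hv (by rw [Leech.dot_comm]; exact hd)
  obtain ⟨k, h3, h4⟩ := Leech.exists_vw hw' hv (by rw [Leech.dot_comm]; exact hd')
  refine ⟨k * g⁻¹, ?_, ?_⟩
  · have e1 : g • (Leech.uu - Leech.vv) = v := by rw [smul_sub, h1, h2]; abel
    have e2 : k • (Leech.uu - Leech.vv) = v := by rw [smul_sub, h3, h4]; abel
    rw [mul_smul, inv_smul_eq_iff.2 e1.symm, e2]
  · rw [mul_smul, inv_smul_eq_iff.2 h2.symm, h4]

end Cfsg.Agent.S1575
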