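import Mathlib
import Cfsg.Statements.S1582
import Cfsg.Agent.Golay.LeU43

set_option autoImplicit false
open Cfsg

namespace Cfsg.Agent.S1582


/-- The point stabiliser in the rank-3 action of the McLaughlin group on 275 points is isomorphic to PSU(4, 3). -/
theorem result (u v x : ↥Cfsg.leechLattice) (hu : Cfsg.sqNorm (u : Cfsg.GolayPt → ℤ) = 48) (hv : Cfsg.sqNorm (v : Cfsg.GolayPt → ℤ) = 32 ∧ Cfsg.sqNorm ((u - v) : Cfsg.GolayPt → ℤ) = 32) (hx : x ∈ {x : ↥Cfsg.leechLattice | Cfsg.sqNorm (x : Cfsg.GolayPt → ℤ) = 32 ∧ Cfsg.sqNorm ((u - x) : Cfsg.GolayPt → ℤ) = 32 ∧ Cfsg.dotInt (v : Cfsg.GolayPt → ℤ) (x : Cfsg.GolayPt → ℤ) = 16}) (F : Type) [Field F] [Fintype F] (hF : Fintype.card F = 9) : Nonempty (↥(MulAction.stabilizer ↥Cfsg.Co0 u ⊓ MulAction.stabilizer ↥Cfsg.Co0 v ⊓ MulAction.stabilizer ↥Cfsg.Co0 x) ≃* Cfsg.PSU 4 F 3) :=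 by
  have h1 := (Leech.mem_C1_24 hu).1 hv
  have h2 := (Leech.mem_C1_24 hu).1 ⟨hx.1, hx.2.1⟩
  obtain ⟨g, rfl, rfl, rfl⟩ := Leech.exists_uvx hu h1 ⟨h2, hx.2.2⟩
  obtain ⟨e⟩ := LeU.U43.iso F hF
  exact ⟨(Leech.stab3Equiv g _ _ _).symm.trans e⟩

end Cfsg.Agent.S1582
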