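import Mathlib
import Cfsg.Statements.S1586
import Cfsg.Agent.Golay.HsG
import Cfsg.Agent.S0428

set_option autoImplicit false
open Cfsg

namespace Cfsg.Agent.S1586


/-- The Higman–Sims graph built from an S(3, 6, 22) has exactly 88704000 automorphisms. -/
theorem result {α : Type*} [Fintype α] [DecidableEq α] (hα : Fintype.card α = 22) {B : Set (Finset α)} (hB : Cfsg.IsSteinerSystem 3 6 B) : Nat.card (Cfsg.pointBlockGraph B ≃g Cfsg.pointBlockGraph B) = 88704000 := by
  classical
  exact HsG.srg100_card_aut (Cfsg.Agent.S0428.result hα hB)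

end Cfsg.Agent.S1586
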