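import Mathlib
import Cfsg.Statements.S1587
import Cfsg.Agent.Leech.Short

set_option autoImplicit false
open Matrix
open Cfsg

namespace Cfsg.Agent.S1587

/-- First step of the characterisation of the rank-24 lattice: in an even lattice without roots, norm-8 vectors congruent modulo 2 are equal, opposite or orthogonal. -/
theorem result (B : Matrix (Fin 24) (Fin 24) ℤ) (hsymm : B.IsSymm) (hpos : ∀ x : Fin 24 → ℤ, x ≠ 0 → 0 < x ⬝ᵥ (B *ᵥ x)) (heven : ∀ x : Fin 24 → ℤ, (2 : ℤ) ∣ x ⬝ᵥ (B *ᵥ x)) (h2 : ∀ x : Fin 24 → ℤ, x ⬝ᵥ (B *ᵥ x) ≠ 2) (x y : Fin 24 → ℤ) (hx : x ⬝ᵥ (B *ᵥ x) = 8) (hy : y ⬝ᵥ (B *ᵥ y) = 8) (hc : ∀ i, (2 : ℤ) ∣ (x - y) i) : y = x ∨ y = -x ∨ x ⬝ᵥ (B *ᵥ y) = 0 := by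
  have hb : ∀ u v, Matrix.toBilin' B u v = u ⬝ᵥ (B *ᵥ v) := fun u v => Matrix.toBilin'_apply' B u v
  have hs : ∀ u v, Matrix.toBilin' B u v = Matrix.toBilin' B v u := by
    intro u v
    rw [hb, hb, Matrix.dotProduct_mulVec, ← Matrix.mulVec_transpose, hsymm.eq, dotProduct_comm]
  have hmin : ∀ u, u ≠ 0 → 4 ≤ Matrix.toBilin' B u u := by
    intro u hu
    have := hpos u hu; have := heven u; have := h2 u
    rw [hb]; omega
  choose z hz using hc
  by_cases e1 : y = x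
  · exact Or.inl e1
  by_cases e2 : y = -x
  · exact Or.inr (Or.inl e2)
  have := Leech.Short.short_pair (Matrix.toBilin' B) 4 hs hmin (x := x) (y := y) (z := z)
    (by funext i; rw [hz i]; simp) (by rw [hb, hx]; norm_num) (by rw [hb, hy]; norm_num)
    (Ne.symm e1) (fun e => e2 (by rw [e, neg_neg]))
  rw [hb, hb, hb] at this
  exact Or.inr (Or.inr this.2.2)

end Cfsg.Agent.S1587
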