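import Mathlib
import Cfsg.Statements.S1591
import Cfsg.Agent.Golay.Mono

set_option autoImplicit false
open Cfsg

namespace Cfsg.Agent.S1591

open Cfsg.Agent.Golay

/-- Any two words of the length-12 ternary code have dot product zero. -/
theorem result (x y : Cfsg.ArrayPt → ZMod 3) (hx : x ∈ Cfsg.ternaryGolayCode) (hy : y ∈ Cfsg.ternaryGolayCode) : ∑ p, x p * y p = 0 := by
  have key : ∀ (P : (ArrayPt → ZMod 3) → Prop), (∀ x y, P x → P y → P (x + y)) →
      (∀ (a : ZMod 3) x, P x → P (a • x)) → (∀ k < 6, P (tb k)) → ∀ x ∈ ternaryGolayCode, P x :=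
    fun P h1 h2 h3 x hx => eq_tw hx ▸ tw_induction h1 h2 h3 _
  refine key (fun x => ∑ p, x p * y p = 0)
    (fun a b h h' => by simp only [Pi.add_apply, add_mul, Finset.sum_add_distrib, h, h', add_zero])
    (fun a b h => by simp only [Pi.smul_apply, smul_eq_mul, mul_assoc, ← Finset.mul_sum, h, mul_zero])
    (fun k hk => key (fun y => ∑ p, tb k p * y p = 0) (fun a b h h' => ?_) (fun a b h => ?_)
      (fun l hl => ?_) y hy) x hx
  · simp only [Pi.add_apply, mul_add, Finset.sum_add_distrib, h, h', add_zero]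
  · simp only [Pi.smul_apply, smul_eq_mul, mul_left_comm _ a, ← Finset.mul_sum, h, mul_zero]
  · exact (by decide +kernel : ∀ k < 6, ∀ l < 6, ∑ p, tb k p * tb l p = 0) k hk l hl

end Cfsg.Agent.S1591
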