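import Mathlib
import Cfsg.Statements.S1594
import Cfsg.Agent.Golay.Mono

set_option autoImplicit false
open Cfsg

namespace Cfsg.Agent.S1594

open Cfsg.Agent.Golay

/-- The monomial automorphism group of the length-12 ternary code has order 190080 and its permutation parts are exactly the automorphisms of its hexad system. -/
theorem result : Nat.card {f : Equiv.Perm Cfsg.ArrayPt × (Cfsg.ArrayPt → (ZMod 3)ˣ) // (∀ x ∈ Cfsg.ternaryGolayCode, Cfsg.monomialMap f.1 f.2 x ∈ Cfsg.ternaryGolayCode)} = 190080 ∧ {σ : Equiv.Perm Cfsg.ArrayPt | ∃ c : Cfsg.ArrayPt → (ZMod 3)ˣ, (∀ x ∈ Cfsg.ternaryGolayCode, Cfsg.monomialMap σ c x ∈ Cfsg.ternaryGolayCode)} = (Cfsg.setSystemAut {h : Finset Cfsg.ArrayPt | ∃ x ∈ Cfsg.ternaryGolayCode, Cfsg.ternarySupport x = h ∧ h.card = 6} : Set (Equiv.Perm Cfsg.ArrayPt)) := by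
  refine ⟨?_, congrArg SetLike.coe monoP_eq⟩
  rw [card_mono, monoP_eq, card_aut_tern]
  have : {c : ArrayPt → (ZMod 3)ˣ | ∀ x ∈ ternaryGolayCode, monomialMap 1 c x ∈ ternaryGolayCode}
      = {1, -1} := by
    ext c
    refine ⟨fun h => (tern_diag h).imp funext funext, ?_⟩
    rintro (rfl | rfl) x hx
    · rwa [mono_one]
    · rw [show monomialMap 1 (-1) x = -x by ext i; simp [monomialMap, Equiv.Perm.one_def]]
      exact neg_mem hx
  rw [show Nat.card {c : ArrayPt → (ZMod 3)ˣ // ∀ x ∈ ternaryGolayCode,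
    monomialMap 1 c x ∈ ternaryGolayCode} = 2 from (congrArg Set.ncard this).trans
      (Set.ncard_pair (by decide))]

end Cfsg.Agent.S1594
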