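import Mathlib
import Cfsg.Statements.S1595
import Cfsg.Agent.Golay.Steiner

set_option autoImplicit false
open Cfsg

namespace Cfsg.Agent.S1595

open Cfsg.Agent.Golay

/-- Leech triangle of S(5, 6, 12): blocks meet in 0, 2, 3 or 4 points, and a block is met exactly in a given 2-, 3- or 4-subset by 3, 2, 3 blocks respectively. -/
theorem result {α : Type*} [Fintype α] [DecidableEq α] (hα : Fintype.card α = 12) {B : Set (Finset α)} (hB : Cfsg.IsSteinerSystem 5 6 B) (b : Finset α) (hb : b ∈ B) : (∀ c ∈ B, c ≠ b → (b ∩ c).card = 0 ∨ (b ∩ c).card = 2 ∨ (b ∩ c).card = 3 ∨ (b ∩ c).card = 4) ∧ ∀ s ⊆ b, (s.card = 2 → {c : Finset α | c ∈ B ∧ b ∩ c = s}.ncard = 3) ∧ (s.card = 3 → {c : Finset α | c ∈ B ∧ b ∩ c = s}.ncard = 2) ∧ (s.card = 4 → {c : Finset α | c ∈ B ∧ b ∩ c = s}.ncard = 3) := by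
  refine ⟨fun c hc hcb => ?_, fun s hs => ?_⟩
  · have h0 := card_inter_le_of_ne hB hb hc hcb.symm
    have h1 := steiner_inter_ne hB (by norm_num) hα hb hc (i := 1) (by decide)
    omega
  · have h := steiner_inter_eq hB (by norm_num) hα (Or.inr ⟨b, hb, subset_rfl⟩) hs
    rw [hB.1 b hb] at h
    refine ⟨fun e => ?_, fun e => ?_, fun e => ?_⟩ <;> rw [e] at h
    · exact_mod_cast h.trans (by decide : _ = (3 : ℤ))
    · exact_mod_cast h.trans (by decide : _ = (2 : ℤ))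
    · exact_mod_cast h.trans (by decide : _ = (3 : ℤ))

end Cfsg.Agent.S1595
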