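import Mathlib
import Cfsg.Statements.S1598
import Cfsg.Agent.Golay.Loc

set_option autoImplicit false
open scoped Pointwise
open Cfsg

namespace Cfsg.Agent.S1598

open Cfsg.Agent.Golay

/-- A quartet stabiliser inside the dodecad stabiliser has order 432, a normal subgroup of order 9 with quotient GL(2, 3), and is transitive on the dodecad. -/
theorem result (d : Finset Cfsg.GolayPt) (hd : d ∈ Cfsg.dodecads) (Q : Finset (Finset Cfsg.GolayPt)) (hQ : Q ∈ Cfsg.quartets d) : Nat.card ↥(MulAction.stabilizer Cfsg.M24 d ⊓ MulAction.stabilizer Cfsg.M24 Q) = 432 ∧ (∃ (N : Subgroup ↥(MulAction.stabilizer Cfsg.M24 d ⊓ MulAction.stabilizer Cfsg.M24 Q)) (_ : N.Normal), Nat.card N = 9 ∧ Nonempty (↥(MulAction.stabilizer Cfsg.M24 d ⊓ MulAction.stabilizer Cfsg.M24 Q) ⧸ N ≃* GL (Fin 2) (ZMod 3))) ∧ ∀ p ∈ d, ∀ q ∈ d, ∃ g ∈ (MulAction.stabilizer Cfsg.M24 d ⊓ MulAction.stabilizer Cfsg.M24 Q), ((g : ↥Cfsg.M24)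 : Equiv.Perm Cfsg.GolayPt) p = q := by
  have h : ∀ g : M24, g ∈ MulAction.stabilizer M24 d ⊓ MulAction.stabilizer M24 Q ↔
      (g : P24) • (d, Q) = (d, Q) := fun g => by simp [Subgroup.smul_def]
  obtain ⟨k, hk, e⟩ := quartet_trans dod0_mem hd cQuar_ok.mem hQ
  refine ⟨by rw [card_eq_of_mem_iff h, card_St_quartet hd hQ], ?_, fun x hx y hy => ?_⟩
  · obtain ⟨e⟩ := equiv_St ⟨k, hk, e⟩ h
    obtain ⟨φ, hφ⟩ := quar_hom
    obtain ⟨N, h1, h2, -, h3⟩ := exists_normal_quot e hφ (k := 9) (Q := fun _ => True)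
      (by rw [card_St_quartet dod0_mem cQuar_ok.mem, card_GL23]) fun _ _ => trivial
    exact ⟨N, h1, h2, h3⟩
  have e1 : k • um 340831 = d := congrArg Prod.fst e
  obtain ⟨g, hg, h1⟩ := quar_trans (x := k⁻¹ • x) (y := k⁻¹ • y)
    (by rwa [Finset.inv_smul_mem_iff, e1]) (by rwa [Finset.inv_smul_mem_iff, e1])
  have h2 : k * g * k⁻¹ ∈ St M24 (d, Q) := e ▸ (conj_mem_St hk).2 (by simpa [mul_assoc] using hg)
  refine ⟨⟨_, h2.1⟩, (h _).2 h2.2, ?_⟩
  show (k * g * k⁻¹) • x = y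
  rw [mul_smul, mul_smul, h1, smul_inv_smul]

end Cfsg.Agent.S1598
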