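import Mathlib
import Cfsg.Statements.S1600
import Cfsg.Agent.Golay.Loc

set_option autoImplicit false
open scoped Pointwise
open Cfsg

namespace Cfsg.Agent.S1600

open Cfsg.Agent.Golay

/-- The pointwise stabiliser of three points of a dodecad inside the dodecad stabiliser (order 72) is transitive on the complementary dodecad. -/
theorem result (d : Finset Cfsg.GolayPt) (hd : d ∈ Cfsg.dodecads) (p q r : Cfsg.GolayPt) (hp : p ∈ d) (hq : q ∈ d) (hr : r ∈ d) (hpq : p ≠ q) (hpr : p ≠ r) (hqr : q ≠ r) : Nat.card ↥(MulAction.stabilizer Cfsg.M24 d ⊓ MulAction.stabilizer Cfsg.M24 p ⊓ MulAction.stabilizer Cfsg.M24 q ⊓ MulAction.stabilizer Cfsg.M24 r) = 72 ∧ ∀ x ∉ d, ∀ y ∉ d, ∃ g ∈ (MulAction.stabilizer Cfsg.M24 d ⊓ MulAction.stabilizer Cfsg.M24 p ⊓ MulAction.stabilizer Cfsg.M24 q ⊓ MulAction.stabilizer Cfsg.M24 r), ((g : ↥Cfsg.M24) : Equiv.Perm Cfsg.GolayPt) x = y := by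
  obtain ⟨k, hk, e⟩ := dod_pt3_trans hd hp hq hr hpq hpr hqr
  have h : ∀ g : M24, g ∈ MulAction.stabilizer M24 d ⊓ MulAction.stabilizer M24 p ⊓
      MulAction.stabilizer M24 q ⊓ MulAction.stabilizer M24 r ↔
      (g : P24) • (((d, p), q), r) = (((d, p), q), r) := fun g => by simp [Subgroup.smul_def]
  refine ⟨by rw [card_eq_of_mem_iff h, card_St_eq ⟨k, hk, e⟩, card_M9], fun x hx y hy => ?_⟩
  have e1 : k • um 340831 = d := congrArg (·.1.1.1) e
  obtain ⟨g, hg, h1⟩ := M9_trans (x := k⁻¹ • x) (y := k⁻¹ • y)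
    (by rwa [Finset.inv_smul_mem_iff, e1]) (by rwa [Finset.inv_smul_mem_iff, e1])
  have h2 : k * g * k⁻¹ ∈ St M24 (((d, p), q), r) :=
    e ▸ (conj_mem_St hk).2 (by simpa [mul_assoc] using hg)
  refine ⟨⟨_, h2.1⟩, (h _).2 h2.2, ?_⟩
  show (k * g * k⁻¹) • x = y
  rw [mul_smul, mul_smul, h1, smul_inv_smul]

end Cfsg.Agent.S1600
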