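import Mathlib
import Cfsg.Statements.S1601
import Cfsg.Agent.Golay.PSL

set_option autoImplicit false
open scoped Pointwise
open Cfsg

namespace Cfsg.Agent.S1601

open Cfsg.Agent.Golay

/-- In the 3-transitive action of the smallest Mathieu group on the complementary dodecad, a point stabiliser is isomorphic to PSL(2, 11). -/
theorem result (d : Finset Cfsg.GolayPt) (hd : d ∈ Cfsg.dodecads) (p q : Cfsg.GolayPt) (hp : p ∈ d) (hq : q ∉ d) : Nonempty (↥(MulAction.stabilizer Cfsg.M24 d ⊓ MulAction.stabilizer Cfsg.M24 p ⊓ MulAction.stabilizer Cfsg.M24 q) ≃* Matrix.ProjectiveSpecialLinearGroup (Fin 2) (ZMod 11)) := by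
  obtain ⟨g, hg, e1, e2, e3⟩ := dod_pt_compl_trans (k := 1) (by norm_num) squareDodecad_mem hd
    zero_mem_squareDodecad hp (x := ![none]) (y := ![q]) (Function.injective_of_subsingleton _)
    (Function.injective_of_subsingleton _) (by rw [squareDodecad_eq]; decide +kernel) (by simp [hq])
  obtain ⟨e⟩ := equiv_St (x := ((Spor.squareDodecad, some 0), none)) (y := ((d, p), q))
    ⟨g, hg, Prod.ext (Prod.ext e1 e2) (e3 0)⟩ (K := MulAction.stabilizer M24 d ⊓
    MulAction.stabilizer M24 p ⊓ MulAction.stabilizer M24 q) fun g => by simp [Subgroup.smul_def]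
  obtain ⟨e'⟩ := L211_equiv
  exact ⟨(e.trans (MulEquiv.subgroupCongr (by rw [M11_eq, St_St]))).trans e'⟩

end Cfsg.Agent.S1601
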