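import Mathlib
import Cfsg.Statements.S1602
import Cfsg.Agent.Golay.Loc

set_option autoImplicit false
open scoped Pointwise
open Cfsg

namespace Cfsg.Agent.S1602

open Cfsg.Agent.Golay
theorem card0 : Nat.card (St M24 ((um 340831, pt 0), um 8388640)) = 120 := by
  have h1 : St M24 (um 340831, pt 0) = Spor.M11 := by rw [M11_eq, squareDodecad_eq]; rfl
  rw [St_prod, h1]
  refine card_St_of_trans (S := {s | s.card = 2 ∧ s ⊆ um 16436384}) (fun g hg => ⟨?_, ?_⟩)
    (fun y hy => ?_) card_M11 (ncard_card_subset _ _) (by decide +kernel) (by decide +kernel)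
  · rw [Finset.card_smul_finset]; decide +kernel
  · rw [← smul_M12' g hg.1]; exact Finset.smul_finset_subset_smul_finset (by decide +kernel)
  · exact homog_M11' 2 (by norm_num) _ (by decide +kernel) _ hy.2 (by decide +kernel) hy.1

theorem gen0 : Gen pc (St M24 ((um 340831, pt 0), um 8388640))
    [230380743615963768346752783139375360, 980627066914811913385087217265187328] :=
  gen_of_chain ((((fixTest_um (by norm_num)).prod (fixTest_pt (by norm_num))).prod
    (fixTest_um (by norm_num))).in_St (by decide +kernel)) card0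
    [(1, 66374, 3, [[1, 0, 0], [1, 0, 1, 1]]), (2, 66372, 2, [[1, 1, 1]]), (4, 274448, 3, [])]
    (by decide +kernel)

theorem inv0 : ∀ g ∈ St M24 ((um 340831, pt 0), um 8388640), g • um 274456 = um 274456 := by
  intro g hg
  have := (isCAct_mk M24).forall_orbit inf_le_left gen0 trivial (mk_um (m := 274456) (by norm_num))
    5 (fun m => Nat.xor m 274456) (by decide +kernel) g hg
  exact eq_um_of_mk_eq (xor_eq_zero' this)

/-- In the 12-point action of the smallest Mathieu group the setwise stabiliser of a pair is isomorphic to the symmetric group of degree 5. -/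
theorem result (d : Finset Cfsg.GolayPt) (hd : d ∈ Cfsg.dodecads) (p q q' : Cfsg.GolayPt) (hp : p ∈ d) (hq : q ∉ d) (hq' : q' ∉ d) (hqq' : q ≠ q') : Nonempty (↥(MulAction.stabilizer Cfsg.M24 d ⊓ MulAction.stabilizer Cfsg.M24 p ⊓ MulAction.stabilizer Cfsg.M24 ({q, q'} : Finset Cfsg.GolayPt)) ≃* Equiv.Perm (Fin 5)) := by
  obtain ⟨g, hg, e1, e2, e3⟩ := dod_pt_compl_trans (k := 2) (by norm_num) dod0_mem hd
    (p := pt 0) (by decide +kernel) hp (x := ![pt 23, pt 5]) (by decide) (inj2 hqq')
    (by decide +kernel) (by simp [Fin.forall_fin_two, hq, hq'])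
  have e4 : g • um 8388640 = {q, q'} := by
    rw [show um 8388640 = {pt 23, pt 5} by decide +kernel, Finset.smul_finset_insert,
      Finset.smul_finset_singleton, show g • pt 23 = q from e3 0, show g • pt 5 = q' from e3 1]
  obtain ⟨e⟩ := equiv_St (x := ((um 340831, pt 0), um 8388640)) (y := ((d, p), {q, q'}))
    ⟨g, hg, Prod.ext (Prod.ext e1 e2) e4⟩ (K := MulAction.stabilizer M24 d ⊓
    MulAction.stabilizer M24 p ⊓ MulAction.stabilizer M24 ({q, q'} : Finset GolayPt))
    fun g => by simp only [Subgroup.mem_inf, MulAction.mem_stabilizer_iff, Subgroup.smul_def,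
      Prod.smul_mk, Prod.mk.injEq]
  obtain ⟨e'⟩ := equiv_perm_of_card inv0 (fun g hg => eq_one_of_fix_dod dod0_mem (by decide +kernel)
    (by decide +kernel) hg.1 (congrArg (fun z => z.1.1) (mem_St.1 hg).2)) (n := 5)
    (by decide +kernel) card0
  exact ⟨e.trans e'⟩

end Cfsg.Agent.S1602
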