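import Mathlib
import Cfsg.Statements.S1604
import Cfsg.Agent.Golay.Flags

set_option autoImplicit false
open scoped Pointwise
open Cfsg

namespace Cfsg.Agent.S1604

open Cfsg.Agent.Golay

/-- A hexad stabiliser in the two-point stabiliser has orbits of sizes 1, 16, 60 on the 77 hexads: the 16 hexads disjoint from it and the 60 meeting it in two points. -/
theorem result (p q : Cfsg.GolayPt) (hpq : p ≠ q) (o o' o'' : Finset Cfsg.GolayPt) (ho : o ∈ Cfsg.octads) (ho' : o' ∈ Cfsg.octads) (ho'' : o'' ∈ Cfsg.octads) (hp : p ∈ o ∧ p ∈ o' ∧ p ∈ o'') (hq : q ∈ o ∧ q ∈ o' ∧ q ∈ o'') (h : (o ∩ o').card = (o ∩ o'').card) : {x : Finset Cfsg.GolayPt | x ∈ Cfsg.octads ∧ p ∈ x ∧ q ∈ x ∧ (o ∩ x).card = 2}.ncard = 16 ∧ {x : Finset Cfsg.GolayPt | x ∈ Cfsg.octads ∧ p ∈ x ∧ q ∈ x ∧ (o ∩ x).card = 4}.ncard = 60 ∧ ∃ g : Equiv.Perm Cfsg.GolayPt, g ∈ Cfsg.M24 ∧ g p = p ∧ g q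 = q ∧ g • o = o ∧ g • o' = o'' := by
  have hc := classif_oct_pt2 ho hp.1 hq.1 hpq
  refine ⟨?_, ?_, ?_⟩
  · simpa only [Set.mem_ofPred_eq, and_assoc] using hc.count (2, 16) (by simp)
  · simpa only [Set.mem_ofPred_eq, and_assoc] using hc.count (4, 60) (by simp)
  · obtain ⟨g, hg, e, e'⟩ := hc.trans o' ⟨ho', hp.2.1, hq.2.1⟩ o'' ⟨ho'', hp.2.2, hq.2.2⟩ h
    simp only [Prod.smul_mk, Prod.mk.injEq] at e
    exact ⟨g, hg, e.1.2, e.2, e.1.1, e'⟩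

end Cfsg.Agent.S1604
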