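import Mathlib
import Cfsg.Statements.S1605
import Cfsg.Agent.Golay.Flags

set_option autoImplicit false
open scoped Pointwise
open Cfsg

namespace Cfsg.Agent.S1605

open Cfsg.Agent.Golay

/-- The two-point stabiliser acts on the 176 octads through the first point avoiding the second with rank 3 and subdegrees 1, 70, 105 (intersections 8, 2, 4). -/
theorem result (p q : Cfsg.GolayPt) (hpq : p ≠ q) : {x : Finset Cfsg.GolayPt | (x ∈ Cfsg.octads ∧ p ∈ x ∧ q ∉ x)}.ncard = 176 ∧ (∀ o o' : Finset Cfsg.GolayPt, (o ∈ Cfsg.octads ∧ p ∈ o ∧ q ∉ o) → (o' ∈ Cfsg.octads ∧ p ∈ o' ∧ q ∉ o') → ∃ g : Equiv.Perm Cfsg.GolayPt, g ∈ Cfsg.M24 ∧ g p = p ∧ g q = q ∧ g • o = o') ∧ ∀ o : Finset Cfsg.GolayPt, (o ∈ Cfsg.octads ∧ p ∈ o ∧ q ∉ o) → {x : Finset Cfsg.GolayPt | (x ∈ Cfsg.octads ∧ p ∈ x ∧ q ∉ x) ∧ (o ∩ x).card = 2}.ncard = 70 ∧ {x : Finset Cfsg.GolayPt | (x ∈ Cfsg.octads ∧ p ∈ x ∧ q ∉ x)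 ∧ (o ∩ x).card = 4}.ncard = 105 ∧ ∀ o' o'' : Finset Cfsg.GolayPt, (o' ∈ Cfsg.octads ∧ p ∈ o' ∧ q ∉ o') → (o'' ∈ Cfsg.octads ∧ p ∈ o'' ∧ q ∉ o'') → (o ∩ o').card = (o ∩ o'').card → ∃ g : Equiv.Perm Cfsg.GolayPt, g ∈ Cfsg.M24 ∧ g p = p ∧ g q = q ∧ g • o = o ∧ g • o' = o'' := by
  refine ⟨?_, fun o o' ho ho' => ?_, fun o ho => ?_⟩
  · have := nIJ_eq_tri (B := octads) (U := {p, q}) (l := lam 5 8 24) (fun I hI => by
      rw [← card_golayPt]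
      exact nIJ_eq_lam octads_steiner (by norm_num) (Or.inl
        ((Finset.card_le_card hI).trans (Finset.card_le_two.trans (by norm_num))))) {q} {p}
      (by simp) (by simp) (by simpa using hpq)
    simp only [Finset.card_singleton, nIJ, ← ncard_eq_card_filter, Finset.singleton_subset_iff,
      Finset.disjoint_singleton_right] at this
    exact_mod_cast this.trans (by decide : _ = (176 : ℤ))
  · obtain ⟨g, hg, e⟩ := oct_in_out_trans ho.1 ho'.1 ho.2.1 ho.2.2 ho'.2.1 ho'.2.2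
    simp only [Prod.smul_mk, Prod.mk.injEq] at e
    exact ⟨g, hg, e.1.2, e.2, e.1.1⟩
  · have hc := classif_oct_in_out ho.1 ho.2.1 ho.2.2
    refine ⟨hc.count (2, 70) (by simp), hc.count (4, 105) (by simp), fun o' o'' ho' ho'' h => ?_⟩
    obtain ⟨g, hg, e, e'⟩ := hc.trans o' ho' o'' ho'' h
    simp only [Prod.smul_mk, Prod.mk.injEq] at e
    exact ⟨g, hg, e.1.2, e.2, e.1.1, e'⟩

end Cfsg.Agent.S1605
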