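import Mathlib
import Cfsg.Statements.S1606
import Cfsg.Agent.Golay.Idx4

set_option autoImplicit false
open scoped Pointwise
open Cfsg

namespace Cfsg.Agent.S1606

open Cfsg.Agent.Golay

/-- The stabiliser of two points in the group of the length-24 code has no subgroups of index 56 or 210. -/
theorem result (p q : Cfsg.GolayPt) (hpq : p ≠ q) (H : Subgroup ↥(MulAction.stabilizer Cfsg.M24 p ⊓ MulAction.stabilizer Cfsg.M24 q)) : H.index ≠ 56 ∧ H.index ≠ 210 := by
  obtain ⟨g, hg, e⟩ := trans_pt2 (p' := none) (q' := some 0) hpq (by decide)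
  let f : ↥(MulAction.stabilizer M24 p ⊓ MulAction.stabilizer M24 q) →* P24 :=
    (MulAut.conj g).toMonoidHom.comp (M24.subtype.comp (Subgroup.subtype _))
  have hf : Function.Injective f :=
    (MulAut.conj g).injective.comp (Subtype.val_injective.comp Subtype.val_injective)
  have hK : H.map f ≤ Spor.M22 := by
    rintro _ ⟨k, -, rfl⟩
    rw [M22_eq, ← e]
    refine ⟨M24.mul_mem (M24.mul_mem hg k.1.2) (M24.inv_mem hg), ?_⟩
    show (g * k.1.1 * g⁻¹) • g • (p, q) = _
    rw [mul_smul, inv_smul_smul, mul_smul]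
    exact congrArg _ (Prod.ext k.2.1 k.2.2)
  have h1 := H.card_mul_index
  rw [card_eq_of_mem_iff (K := MulAction.stabilizer M24 p ⊓ MulAction.stabilizer M24 q) (y := (p, q))
    (fun _ => ⟨fun h => Prod.ext h.1 h.2, fun h => ⟨congrArg Prod.fst h, congrArg Prod.snd h⟩⟩), ← card_St_eq ⟨g, hg, e⟩, ← M22_eq, card_M22,
    ← Subgroup.card_map_of_injective hf] at h1
  refine ⟨fun h => no7920 hK (by rw [h] at h1; omega), fun h => ?_⟩
  exact absurd (sylow_eleven hK (m := 192) (by rw [h] at h1; omega) (by norm_num)) (by decide +kernel)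

end Cfsg.Agent.S1606
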