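import Mathlib
import Cfsg.Statements.S1608
import Cfsg.Agent.Golay.Flags

set_option autoImplicit false
open scoped Pointwise
open Cfsg

namespace Cfsg.Agent.S1608

open Cfsg.Agent.Golay

/-- The point stabiliser acts on the 506 octads avoiding the point with rank 4 and subdegrees 1, 15, 210, 280, the suborbits being given by intersection size with the fixed octad. -/
theorem result (x : Cfsg.GolayPt) (o : Finset Cfsg.GolayPt) (ho : o ∈ Cfsg.octads) (hx : x ∉ o) : {o' : Finset Cfsg.GolayPt | o' ∈ Cfsg.octads ∧ x ∉ o' ∧ (o ∩ o').card = 0}.ncard = 15 ∧ {o' : Finset Cfsg.GolayPt | o' ∈ Cfsg.octads ∧ x ∉ o' ∧ (o ∩ o').card = 4}.ncard = 210 ∧ {o' : Finset Cfsg.GolayPt | o' ∈ Cfsg.octads ∧ x ∉ o' ∧ (o ∩ o').card = 2}.ncard = 280 ∧ ∀ o' o'' : Finset Cfsg.GolayPt, o' ∈ Cfsg.octads → o'' ∈ Cfsg.octads → x ∉ o' → x ∉ o'' → (o ∩ o').card = (o ∩ o'').card → ∃ g : Equiv.Perm Cfsg.GolayPt, g ∈ Cfsg.M24 ∧ g x = x ∧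 g • o = o ∧ g • o' = o'' := by
  have hc := classif_oct_out ho hx
  refine ⟨?_, ?_, ?_, fun o' o'' ho' ho'' hx' hx'' h => ?_⟩
  · simpa only [Set.mem_ofPred_eq, and_assoc] using hc.count (0, 15) (by simp)
  · simpa only [Set.mem_ofPred_eq, and_assoc] using hc.count (4, 210) (by simp)
  · simpa only [Set.mem_ofPred_eq, and_assoc] using hc.count (2, 280) (by simp)
  · obtain ⟨g, hg, e, e'⟩ := hc.trans o' ⟨ho', hx'⟩ o'' ⟨ho'', hx''⟩ h
    simp only [Prod.smul_mk, Prod.mk.injEq] at e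
    exact ⟨g, hg, e.2, e.1, e'⟩

end Cfsg.Agent.S1608
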