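import Mathlib
import Cfsg.Statements.S1610
import Cfsg.Agent.Golay.Hexa

set_option autoImplicit false
open Cfsg

namespace Cfsg.Agent.S1610

open Cfsg.Agent.Golay

/-- The hexacode has 64 words, minimum weight 4, and weight distribution 0^1 4^45 6^18. -/
theorem result (F : Type*) [Field F] [Fintype F] [DecidableEq F] (hF : Fintype.card F = 4) (ω : F) (hω : ω ^ 2 + ω + 1 = 0) : Nat.card ↥(Cfsg.hexacode F ω) = 64 ∧ (∀ x ∈ Cfsg.hexacode F ω, x ≠ 0 → (Finset.univ.filter fun i => x i ≠ 0).card = 4 ∨ (Finset.univ.filter fun i => x i ≠ 0).card = 6) ∧ {x : Fin 6 → F | x ∈ Cfsg.hexacode F ω ∧ (Finset.univ.filter fun i => x i ≠ 0).card = 4}.ncard = 45 ∧ {x : Fin 6 → F | x ∈ Cfsg.hexacode F ω ∧ (Finset.univ.filter fun i => x i ≠ 0).card = 6}.ncard = 18 := by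
  refine ⟨?_, fun x hx h => ?_, hexa_weight hF hω 4, hexa_weight hF hω 6⟩
  · have := hexa_ncard (two_eq_zero_of_card hF) hω fun _ => True
    simp only [and_true, Set.ofPred_true, Set.ncard_univ, Nat.card_eq_fintype_card,
      Fintype.card_prod, hF] at this
    exact this
  · have h1 := hexa_weight hF hω (Finset.univ.filter fun i => x i ≠ 0).card
    by_contra hc
    rw [not_or] at hc
    rw [if_neg (fun e => h (funext fun i => by
      simpa using Finset.filter_eq_empty_iff.1 (Finset.card_eq_zero.1 e) (Finset.mem_univ i))),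
      if_neg hc.1, if_neg hc.2, Set.ncard_eq_zero] at h1
    exact h1.le ⟨hx, rfl⟩

end Cfsg.Agent.S1610
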