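import Mathlib
import Cfsg.Statements.S1611
import Cfsg.Agent.Golay.Hexa

set_option autoImplicit false
open Cfsg

namespace Cfsg.Agent.S1611

open Cfsg.Agent.Golay

/-- The monomial automorphism group of the hexacode has order 1080: its diagonal part is the scalars and its permutation parts form the alternating group of degree 6. -/
theorem result (F : Type*) [Field F] [Fintype F] [DecidableEq F] (hF : Fintype.card F = 4) (ω : F) (hω : ω ^ 2 + ω + 1 = 0) : Nat.card {f : Equiv.Perm (Fin 6) × (Fin 6 → Fˣ) // (∀ x ∈ Cfsg.hexacode F ω, Cfsg.monomialMap f.1 f.2 x ∈ Cfsg.hexacode F ω)} = 1080 ∧ (∀ c : Fin 6 → Fˣ, (∀ x ∈ Cfsg.hexacode F ω, Cfsg.monomialMap 1 c x ∈ Cfsg.hexacode F ω) → ∀ i j, c i = c j) ∧ {σ : Equiv.Perm (Fin 6) | ∃ c : Fin 6 → Fˣ, (∀ x ∈ Cfsg.hexacode F ω, Cfsg.monomialMap σ c x ∈ Cfsg.hexacode F ω)} = (alternatingGroup (Fin 6) : Set (Equiv.Perm (Fin 6))) := by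
  have h2 := two_eq_zero_of_card hF
  refine ⟨?_, fun c h i j => (hexa_diag h2 hω h i).trans (hexa_diag h2 hω h j).symm,
    congrArg SetLike.coe (hexa_perm h2 hω)⟩
  rw [card_mono, hexa_perm h2 hω, nat_card_alternatingGroup, Nat.card_fin,
    ← Nat.card_congr (Equiv.ofBijective (fun u : Fˣ => (⟨fun _ => u, fun x hx =>
      (hexacode F ω).smul_mem u hx⟩ : {c : Fin 6 → Fˣ // ∀ x ∈ hexacode F ω,
      monomialMap 1 c x ∈ hexacode F ω})) ⟨fun u v e => congrFun (congrArg Subtype.val e) 0,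
      fun c => ⟨c.1 3, Subtype.ext (funext fun i => (hexa_diag h2 hω c.2 i).symm)⟩⟩),
    Nat.card_units, Nat.card_eq_fintype_card, hF]
  rfl

end Cfsg.Agent.S1611
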