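import Cfsg.Statements.S1612
import Mathlib
import Cfsg.Agent.Fischer.Hyp

set_option autoImplicit false
open Cfsg

namespace Cfsg.Agent.S1612

open Fischer
open scoped Pointwise

/-- In a 3-transposition group (no solvable normal subgroup, perfect derived group), the normaliser of a commuting set of transpositions of maximum size contains a Sylow 2-subgroup and is doubly transitive on the set. -/
theorem result {G : Type*} [Group G] [Finite G] (hsol : ∀ N : Subgroup G, N.Normal → Group.IsSolvable ↥N → N = ⊥) (hperf : ⁅commutator G, commutator G⁆ = commutator G) {D : Set G} (hD : Cfsg.IsThreeTranspositionClass D) {E : Set G} (hE : E ⊆ D) (hc : ∀ a ∈ E, ∀ b ∈ E, Commute a b) (hmax : ∀ E' : Set G, E' ⊆ D → (∀ a ∈ E', ∀ b ∈ E', Commute a b) → E'.ncard ≤ E.ncard) : (∃ P : Sylow 2 G, (P : Subgroup G) ≤ Subgroup.normalizer E) ∧ ∀ a ∈ E, ∀ b ∈ E, ∀ c ∈ E, ∀ d ∈ E, a ≠ b → c ≠ d → ∃ g ∈ Subgroup.normalizer E, g * a * g⁻¹ = c ∧ g * b * g⁻¹ = d := by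
  have : Fact (Nat.Prime 2) := ⟨Nat.prime_two⟩
  have hG := class_group hD
  have key : ∀ T : Subgroup G, IsPGroup 2 T → E ⊆ T → ∀ x ∈ D, x ∈ T → x ∈ E := by
    intro T hT hET x hx hxT
    have h1 : E ⊆ {d : G | d ∈ D ∧ d ∈ T} := fun e he => ⟨hE he, hET he⟩
    rw [Set.eq_of_subset_of_ncard_le h1 (hmax _ (fun d hd => hd.1) fun a ha b hb =>
      S5345.commute_of_mem_twoGroup hD.1 hT ha.1 hb.1 ha.2 hb.2) (Set.toFinite _)]
    exact ⟨hx, hxT⟩
  have hA : IsPGroup 2 (Subgroup.closure E) :=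
    S5345.isPGroup_closure_of_commute (fun a ha => tt_sq hD.1 (hE ha)) hc
  constructor
  · obtain ⟨P, hP⟩ := hA.exists_le_sylow
    have hEP : E ⊆ (P : Subgroup G) := fun e he => hP (Subgroup.subset_closure he)
    refine ⟨P, fun g hg => Subgroup.mem_normalizer_fintype fun e he => ?_⟩
    exact key P P.isPGroup' hEP _ (hG.2.1 g e (hE he))
      (Subgroup.mul_mem _ (Subgroup.mul_mem _ hg (hEP he)) (Subgroup.inv_mem _ hg))
  · intro a ha b hb c hc' d hd hab hcd
    obtain ⟨g, hga, hgb⟩ := edge_trans hG (fischer_hyp hsol hperf hD).1 (hE ha) (hE hb) (hE hc')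
      (hE hd) hab hcd (hc a ha b hb) (hc c hc' d hd)
    let C : Subgroup G := Subgroup.centralizer ({c, d} : Set G)
    have h1 : Subgroup.closure E ≤ C := by
      rw [Subgroup.closure_le]
      intro e he
      rw [SetLike.mem_coe, Subgroup.mem_centralizer_iff]
      rintro x (rfl | rfl)
      exacts [hc _ hc' e he, hc _ hd e he]
    have h2 : MulAut.conj g • Subgroup.closure E ≤ C := by
      rw [Core.conj_smul_eq_map, MonoidHom.map_closure, Subgroup.closure_le]
      rintro _ ⟨e, he, rfl⟩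
      rw [SetLike.mem_coe, Subgroup.mem_centralizer_iff]
      rintro x (rfl | rfl)
      · rw [← hga]; exact (commute_conj_iff g _ _).2 (hc a ha e he)
      · rw [← hgb]; exact (commute_conj_iff g _ _).2 (hc b hb e he)
    obtain ⟨S, hS, hES⟩ := Core.exists_isSylowOf_ge hA h1
    obtain ⟨k, hk, hkS⟩ := hS.exists_conj_le (H2.isPGroup_conj_smul g hA) h2
    have hkc : ∀ x ∈ ({c, d} : Set G), k * x * k⁻¹ = x := fun x hx =>
      conj_eq_of_commute (Subgroup.mem_centralizer_iff.1 hk x hx)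
    refine ⟨k * g, Subgroup.mem_normalizer_fintype fun e he => ?_, ?_, ?_⟩
    · refine key S hS.isPGroup (fun e he => hES (Subgroup.subset_closure he)) _
        (hG.2.1 _ e (hE he)) (hkS ?_)
      rw [Core.mem_conj_smul_iff, Core.mem_conj_smul_iff]
      simpa [mul_assoc] using Subgroup.subset_closure he
    · rw [← hkc c (by simp), ← hga]; simp [mul_assoc]
    · rw [← hkc d (by simp), ← hgb]; simp [mul_assoc]

end Cfsg.Agent.S1612
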