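import Cfsg.Statements.S1615
import Mathlib
import Cfsg.Agent.Fischer.Petersen

set_option autoImplicit false
open Cfsg

namespace Cfsg.Agent.S1615

open Fischer

/-- If O(⟨D_x⟩) is not central in ⟨D_x⟩ for some transposition x, the 3-transposition group is the symmetric group of degree 5. -/
theorem result {G : Type*} [Group G] [Finite G] (hsol : ∀ N : Subgroup G, N.Normal → Group.IsSolvable ↥N → N = ⊥) (hperf : ⁅commutator G, commutator G⁆ = commutator G) {D : Set G} (hD : Cfsg.IsThreeTranspositionClass D) (x : G) (hx : x ∈ D) (h : ¬ Cfsg.oddCore ↥(Subgroup.closure {y : G | y ∈ D ∧ y ≠ x ∧ Commute x y}) ≤ Subgroup.center ↥(Subgroup.closure {y : G | y ∈ D ∧ y ≠ x ∧ Commute x y})) : Nonempty (G ≃* Equiv.Perm (Fin 5)) := by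
  obtain ⟨hp, -, -⟩ := fischer_hyp hsol hperf hD
  have hodd : ∀ y ∈ Cfsg.oddCore ↥(Subgroup.closure (nbr D x)), ∃ n, Odd n ∧ y ^ n = 1 := by
    intro y hy
    refine ⟨_, Nat.coprime_two_right.1 (Core.pPrimeCore_coprime (G := Subgroup.closure (nbr D x)) 2), ?_⟩
    have := pow_card_eq_one' (x := (⟨y, hy⟩ : Cfsg.pPrimeCore 2 ↥(Subgroup.closure (nbr D x))))
    exact congrArg Subtype.val this
  obtain ⟨a, ha, b, hb, hne, hW⟩ := exists_local_relW (class_group hD) hodd h
  obtain ⟨e, -⟩ := perm5_of_local (class_group hD) hp hx ha hb hne hW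
  exact ⟨e.symm⟩

end Cfsg.Agent.S1615
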