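import Mathlib
import Cfsg.Statements.S1617
import Cfsg.Agent.PTr.D

set_option autoImplicit false
open Cfsg

namespace Cfsg.Agent.S1617



/-- A generating conjugacy class of involutions on which the group (with trivial solvable radical) acts with rank 3 is a class of 3-transpositions. -/
theorem result {G : Type*} [Group G] [Finite G] (hsol : ∀ N : Subgroup G, N.Normal → Group.IsSolvable ↥N → N = ⊥) {D : Set G} (hinv : ∀ d ∈ D, orderOf d = 2) (hconj : ∃ d ∈ D, D = conjugatesOf d) (hgen : Subgroup.closure D = ⊤) (hrank : ∀ x ∈ D, ∃ y ∈ D, ∃ z ∈ D, {w : G | ∃ g : G, Commute g x ∧ g * y * g⁻¹ = w} ≠ {w : G | ∃ g : G, Commute g x ∧ g * x * g⁻¹ = w} ∧ {w : G | ∃ g : G, Commute g x ∧ g * z * g⁻¹ = w} ≠ {w : G | ∃ g : G, Commute g x ∧ g * x * g⁻¹ = w} ∧ {w : G | ∃ g : G, Commute g x ∧ g * y * g⁻¹ = w} ≠ {w : G | ∃ g : G, Commute g x ∧ g * z * g⁻¹ = w} ∧ D = {w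 : G | ∃ g : G, Commute g x ∧ g * x * g⁻¹ = w} ∪ {w : G | ∃ g : G, Commute g x ∧ g * y * g⁻¹ = w} ∪ {w : G | ∃ g : G, Commute g x ∧ g * z * g⁻¹ = w}) : Cfsg.IsThreeTranspositionClass D := by
  obtain ⟨x, hx, hD⟩ := hconj
  obtain ⟨y, -, z, -, -, -, -, h⟩ := hrank x hx
  refine ⟨⟨hinv, Cfsg.Agent.PTr.main hsol hinv (y := y) (z := z) hD hgen fun w hw => ?_⟩,
    ⟨x, hx, hD⟩, hgen⟩
  rw [h] at hw
  rcases hw with (⟨g, h1, h2⟩ | ⟨g, h1, h2⟩) | ⟨g, h1, h2⟩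
  · exact ⟨g, h1, Or.inl h2⟩
  · exact ⟨g, h1, Or.inr (Or.inl h2)⟩
  · exact ⟨g, h1, Or.inr (Or.inr h2)⟩

end Cfsg.Agent.S1617
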