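import Cfsg.Statements.S1618
import Cfsg.Agent.Block.ZStar
import Cfsg.Agent.Inv.Isolated
import Cfsg.Agent.BG.AmbCore
import Cfsg.Agent.S0205
-- import your own Cfsg.Agent.* helpers here

set_option autoImplicit false
open Cfsg

namespace Cfsg.Agent.S1618

open Subgroup BG BG.Amb in
theorem aux {G : Type*} [Group G] [Finite G] {p : ℕ} [hp : Fact p.Prime] (hodd : p ≠ 2) {t : G}
    (ht : t * t = 1) (hO : pCore p G = ⊥) (hgen : ∀ N : Subgroup G, N.Normal → t ∈ N → N = ⊤)
    (h : ∀ g : G, ∃ k : ℕ, (t * (g * t * g⁻¹)) ^ p ^ k = 1) : center G = ⊤ := by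
  refine hgen _ inferInstance ?_
  by_cases h1 : t = 1
  · exact h1 ▸ one_mem _
  have hz := Block.zstar (Inv.isolated_of_odd (orderOf_eq_prime (by rw [sq, ht]) h1) fun g => by
    obtain ⟨k, hk⟩ := h g
    exact ((hp.out.odd_of_ne_two hodd).pow).of_dvd_nat (orderOf_dvd_of_pow_eq_one hk))
  have hF : ⊤ ≤ 𝐍(fittingOf (pPrimeCore 2 G)) := le_norm_fittingOf_of le_normalizer_of_normal
  have hN := Core.normal_of_le_normalizer hF
  have key : ∀ g, t * g * t⁻¹ * g⁻¹ ∈ fittingOf (pPrimeCore 2 G) → g * t = t * g := fun g hg => by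
    obtain ⟨k, hk⟩ := h g
    rw [show t * (g * t * g⁻¹) = t * g * t⁻¹ * g⁻¹ by
      rw [inv_eq_of_mul_eq_one_right ht]; group] at hk
    have h2 := nil_le_piCoreOf (π := {p}) (fittingOf_nilpotent _) (zpowers_le.2 hg) (pi_zpowers.2
      (piNat_of_dvd (piNat_singleton_pow hp.out k) (orderOf_dvd_of_pow_eq_one hk)))
    have h3 := h2.trans ((Core.le_pCore (Core.normal_of_le_normalizer (le_norm_piCoreOf_of _ hF))
      (piCoreOf_isPGroup _)).trans hO.le) (mem_zpowers _)
    rw [mem_bot, mul_inv_eq_one, mul_inv_eq_iff_eq_mul] at h3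
    exact h3.symm
  have h2 := hgen 𝐂(fittingOf (pPrimeCore 2 G)) inferInstance fun x hx => key x (by
    rw [mul_assoc _ _ x⁻¹, mul_assoc t, ← mul_assoc x]
    have := mul_mem (hN.conj_mem x hx t) (inv_mem hx)
    rwa [mul_assoc, mul_assoc, ← mul_assoc x] at this)
  have h3 := cent_fittingOf_le (H := pPrimeCore 2 G)
    (S0205.result (Nat.coprime_two_right.1 (Core.pPrimeCore_coprime 2)))
  rw [h2, inf_top_eq] at h3
  exact mem_center_iff.2 fun g => key g (h3 (hz g))

/-- A group generated by a class of involutions whose pairwise products (of distinct members) have p-power order for a fixed odd prime p has nilpotent derived subgroup. -/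
theorem result {G : Type*} [Group G] [Finite G] (p : ℕ) (hp : p.Prime) (hodd : p ≠ 2) {D : Set G} (hinv : ∀ d ∈ D, orderOf d = 2) (hconj : ∃ d ∈ D, D = conjugatesOf d) (hgen : Subgroup.closure D = ⊤) (hprod : ∀ x ∈ D, ∀ y ∈ D, x ≠ y → ∃ k : ℕ, orderOf (x * y) = p ^ k) : Group.IsNilpotent ↥(commutator G) := by

  have := Fact.mk hp
  obtain ⟨d, hd, rfl⟩ := hconj
  have hs := QuotientGroup.mk'_surjective (pCore p G)
  have h1 := aux hodd (t := (d : G ⧸ pCore p G)) (by
    rw [← QuotientGroup.mk_mul, ← sq, ← hinv d hd, pow_orderOf_eq_one, QuotientGroup.mk_one])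
    (Core.pCore_quotient_pCore p) (fun N hN h => by
      rw [eq_top_iff, ← Subgroup.map_top_of_surjective _ hs, ← hgen, Subgroup.map_le_iff_le_comap,
        Subgroup.closure_le]
      intro x hx
      obtain ⟨g, rfl⟩ := isConj_iff.1 hx
      exact hN.conj_mem _ h g) (fun g => by
      obtain ⟨g, rfl⟩ := QuotientGroup.mk_surjective g
      by_cases e : d = g * d * g⁻¹
      · refine ⟨0, ?_⟩
        rw [pow_zero, pow_one, ← QuotientGroup.mk_inv, ← QuotientGroup.mk_mul,
          ← QuotientGroup.mk_mul, ← QuotientGroup.mk_mul, ← e, ← sq, ← hinv d hd,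
          pow_orderOf_eq_one, QuotientGroup.mk_one]
      · obtain ⟨k, hk⟩ := hprod d hd _ (isConj_iff.2 ⟨g, rfl⟩) e
        exact ⟨k, congrArg (QuotientGroup.mk' _) (hk ▸ pow_orderOf_eq_one _)⟩)
  refine Core.nilpotent_of_le ?_ (Core.pCore_isPGroup p).isNilpotent
  rw [← QuotientGroup.ker_mk' (pCore p G), ← Subgroup.map_eq_bot_iff, commutator,
    Subgroup.map_commutator, Subgroup.map_top_of_surjective _ hs, ← h1,
    Subgroup.commutator_eq_bot_iff_le_centralizer]
  exact fun x hx y _ => Subgroup.mem_center_iff.1 hx y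

end Cfsg.Agent.S1618
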