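import Cfsg.Statements.S1620
-- import your own Cfsg.Agent.* helpers here
import Cfsg.Agent.Comp.Ico.Iso

set_option autoImplicit false
open Quaternion
open Cfsg

namespace Cfsg.Agent.S1620

/-- The Hall–Janko group is simple and non-abelian. -/
theorem result : IsSimpleGroup Cfsg.Spor.J2 ∧ ∃ a b : Cfsg.Spor.J2, a * b ≠ b * a := by
  have := Comp.Ico.simpleJ
  refine ⟨this, ?_⟩
  by_contra h
  push Not at h
  exact Comp.not_comm_of_simple (by rw [Comp.Ico.cardJ.2.1]; norm_num) ⟨⟨h⟩⟩

end Cfsg.Agent.S1620
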