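import Mathlib
import Cfsg.Statements.S1624
import Cfsg.Agent.LeU.U33.J2

set_option autoImplicit false
open Quaternion
open Cfsg

namespace Cfsg.Agent.S1624


/-- The Hall–Janko group contains PSU(3, 3) with index 100 and acts on the 100 cosets with rank 3 and subdegrees 1, 36, 63. -/
theorem result : ∃ H : Subgroup Cfsg.Spor.J2, H.index = 100 ∧ (∃ (F : Type) (_ : Field F) (_ : Fintype F), Fintype.card F = 9 ∧ Nonempty (↥H ≃* Cfsg.PSU 3 F 3)) ∧ ∃ c₁ c₂ : Cfsg.Spor.J2 ⧸ H, (MulAction.orbit ↥H c₁).ncard = 36 ∧ (MulAction.orbit ↥H c₂).ncard = 63 := by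
  obtain ⟨q0, -, h0⟩ := Comp.exists_coset_orbit LeU.U33.stabJ.2 LeU.U33.HJ
    (LeU.U33.transJ 1 (by norm_num))
  obtain ⟨q1, -, h1⟩ := Comp.exists_coset_orbit LeU.U33.stabJ.2 LeU.U33.HJ
    (LeU.U33.transJ 37 (by norm_num))
  have e : LeU.U33.HJ.map Comp.Ico.phiJ = _ := Comp.Ico.repJ.map_genW (by decide +kernel)
  rw [e] at h0 h1
  obtain ⟨e1⟩ := LeU.U33.isoJ
  obtain ⟨e2⟩ := LeU.U33.exists_iso Comp.K9 Comp.card_K9
  exact ⟨LeU.U33.HJ, LeU.U33.stabJ.1, ⟨Comp.K9, inferInstance, inferInstance, Comp.card_K9,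
    ⟨e1.symm.trans e2⟩⟩, q0, q1, h0.trans Comp.J2.orb1.2, h1.trans Comp.J2.orb37.2⟩

end Cfsg.Agent.S1624
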