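import Mathlib
import Cfsg.Statements.S1633
import Cfsg.Agent.LeU.U35.Iso

set_option autoImplicit false
open Cfsg

namespace Cfsg.Agent.S1633


/-- The Higman–Sims group acts transitively on 352 vectors, a set closed under x ↦ −w − x, with vector stabiliser isomorphic to PSU(3, 5). -/
theorem result (v w : ↥Cfsg.leechLattice) (hv : Cfsg.sqNorm (v : Cfsg.GolayPt → ℤ) = 48) (hw : Cfsg.sqNorm (w : Cfsg.GolayPt → ℤ) = 48) (hvw : Cfsg.dotInt (v : Cfsg.GolayPt → ℤ) (w : Cfsg.GolayPt → ℤ) = -32) (F : Type) [Field F] [Fintype F] (hF : Fintype.card F = 25) : {x : ↥Cfsg.leechLattice | Cfsg.sqNorm (x : Cfsg.GolayPt → ℤ) = 32 ∧ Cfsg.dotInt (v : Cfsg.GolayPt → ℤ) (x : Cfsg.GolayPt → ℤ) = 16 ∧ Cfsg.dotInt (w : Cfsg.GolayPt → ℤ) (x : Cfsg.GolayPt → ℤ) = -24}.ncard = 352 ∧ (∀ x ∈ {x : ↥Cfsg.leechLattice | Cfsg.sqNorm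 (x : Cfsg.GolayPt → ℤ) = 32 ∧ Cfsg.dotInt (v : Cfsg.GolayPt → ℤ) (x : Cfsg.GolayPt → ℤ) = 16 ∧ Cfsg.dotInt (w : Cfsg.GolayPt → ℤ) (x : Cfsg.GolayPt → ℤ) = -24}, -w - x ∈ {x : ↥Cfsg.leechLattice | Cfsg.sqNorm (x : Cfsg.GolayPt → ℤ) = 32 ∧ Cfsg.dotInt (v : Cfsg.GolayPt → ℤ) (x : Cfsg.GolayPt → ℤ) = 16 ∧ Cfsg.dotInt (w : Cfsg.GolayPt → ℤ) (x : Cfsg.GolayPt → ℤ) = -24}) ∧ (∀ x ∈ {x : ↥Cfsg.leechLattice | Cfsg.sqNorm (x : Cfsg.GolayPt → ℤ) = 32 ∧ Cfsg.dotInt (v : Cfsg.GolayPt → ℤ) (x : Cfsg.GolayPt → ℤ) = 16 ∧ Cfsg.dotInt (w : Cfsg.GolayPt → ℤ) (x : Cfsg.GolayPt → ℤ) = -24}, ∀ x' ∈ {x : ↥Cfsg.leechLattice | Cfsg.sqNorm (x : Cfsg.GolayPt → ℤ) = 32 ∧ Cfsg.dotInt (v : Cfsg.GolayPt → ℤ) (x : Cfsg.GolayPt → ℤ) = 16 ∧ Cfsg.dotInt (w : Cfsg.GolayPt → ℤ) (x : Cfsg.GolayPt → ℤ) = -24}, ∃ g : ↥Cfsg.Co0, g • v = v ∧ g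 • w = w ∧ g • x = x') ∧ ∀ x ∈ {x : ↥Cfsg.leechLattice | Cfsg.sqNorm (x : Cfsg.GolayPt → ℤ) = 32 ∧ Cfsg.dotInt (v : Cfsg.GolayPt → ℤ) (x : Cfsg.GolayPt → ℤ) = 16 ∧ Cfsg.dotInt (w : Cfsg.GolayPt → ℤ) (x : Cfsg.GolayPt → ℤ) = -24}, Nonempty (↥(MulAction.stabilizer ↥Cfsg.Co0 v ⊓ MulAction.stabilizer ↥Cfsg.Co0 w ⊓ MulAction.stabilizer ↥Cfsg.Co0 x) ≃* Cfsg.PSU 3 F 5) := by
  have key : ∀ x : Cfsg.leechLattice, x ∈ {x : ↥Cfsg.leechLattice | Cfsg.sqNorm (x : Cfsg.GolayPt → ℤ) = 32 ∧ Cfsg.dotInt (v : Cfsg.GolayPt → ℤ) (x : Cfsg.GolayPt → ℤ) = 16 ∧ Cfsg.dotInt (w : Cfsg.GolayPt → ℤ) (x : Cfsg.GolayPt → ℤ) = -24} ↔ -x ∈ Leech.C2 w 24 v (-16) := by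
    intro x
    simp only [Leech.C2, Leech.C1, Set.mem_setOf_eq, AddSubgroup.coe_neg, Leech.sqNorm_neg,
      Leech.dot_neg_right]
    omega
  generalize {x : ↥Cfsg.leechLattice | Cfsg.sqNorm (x : Cfsg.GolayPt → ℤ) = 32 ∧ Cfsg.dotInt (v : Cfsg.GolayPt → ℤ) (x : Cfsg.GolayPt → ℤ) = 16 ∧ Cfsg.dotInt (w : Cfsg.GolayPt → ℤ) (x : Cfsg.GolayPt → ℤ) = -24} = S at key
  have hwv := (Leech.dot_comm _ _).trans hvw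
  refine ⟨?_, fun x hx => ?_, fun x hx x' hx' => ?_, fun x hx => ?_⟩
  · obtain ⟨g, rfl, rfl⟩ := Leech.exists_uw hw hv hwv
    rw [← Set.ncard_image_of_injective S neg_injective, ← (Leech.ncard_C2 g _ _ _ _).trans Leech.n352]
    congr 1
    ext y
    constructor
    · rintro ⟨x, hx, rfl⟩
      exact (key x).1 hx
    · intro hy
      exact ⟨-y, (key _).2 (by rwa [neg_neg]), neg_neg y⟩
  · rw [key] at hx ⊢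
    obtain ⟨⟨h1, h2⟩, h3⟩ := hx
    rw [AddSubgroup.coe_neg] at h1 h2 h3
    rw [Leech.sqNorm_neg] at h1
    rw [Leech.dot_neg_right] at h2 h3
    have e : -(-w - x) = w + x := by abel
    rw [e]
    refine ⟨⟨?_, ?_⟩, ?_⟩
    · rw [AddSubgroup.coe_add, Leech.sqNorm_add]; omega
    · rw [AddSubgroup.coe_add, Leech.dot_add_right, Leech.dot_self]; omega
    · rw [AddSubgroup.coe_add, Leech.dot_add_right]; omega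
  · obtain ⟨g, rfl, rfl⟩ := Leech.exists_uw hw hv hwv
    obtain ⟨k, h1, h2, h3⟩ := Leech.trans_C2 Leech.tr352 g ((key x).1 hx) ((key x').1 hx')
    exact ⟨k, h2, h1, neg_injective ((smul_neg k x).symm.trans h3)⟩
  · obtain ⟨g, rfl, rfl⟩ := Leech.exists_uw hw hv hwv
    obtain ⟨k, h1, h2, h3⟩ := Leech.ext_C2 Leech.tr352 g ((key x).1 hx)
    obtain ⟨e⟩ := LeU.U35.iso F hF
    refine ⟨((MulEquiv.subgroupCongr ?_).trans (Leech.stab3Equiv k _ _ _).symm).trans e⟩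
    rw [h1, h2, h3, Leech.stab_neg, inf_comm (MulAction.stabilizer Cfsg.Co0 (g • Leech.uu))]

end Cfsg.Agent.S1633
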