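import Mathlib
import Cfsg.Statements.S1635
import Cfsg.Agent.Golay.Codes

set_option autoImplicit false
open Cfsg

namespace Cfsg.Agent.S1635

open Cfsg.Agent.Golay

/-- Coset leaders of the length-24 code: a coset contains a unique word of weight ≤ 3, or else exactly six words of weight 4 and none lighter. -/
theorem result (w : Cfsg.GolayPt → ZMod 2) : ({v : Cfsg.GolayPt → ZMod 2 | hammingNorm v ≤ 4 ∧ w - v ∈ Cfsg.golayCode}.ncard = 1 ∧ ∃ v : Cfsg.GolayPt → ZMod 2, hammingNorm v ≤ 3 ∧ w - v ∈ Cfsg.golayCode) ∨ ({v : Cfsg.GolayPt → ZMod 2 | hammingNorm v ≤ 4 ∧ w - v ∈ Cfsg.golayCode}.ncard = 6 ∧ ∀ v : Cfsg.GolayPt → ZMod 2, w - v ∈ Cfsg.golayCode → hammingNorm v ≤ 4 → hammingNorm v = 4) := by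
  have h0 : ∀ v, w - v ∈ Cfsg.golayCode ↔ v - w ∈ Cfsg.golayCode := fun v => by
    rw [← neg_sub, neg_mem_iff]
  simp only [h0, and_comm (a := hammingNorm _ ≤ 4)]
  rcases coset_leaders card_golayPt natCard_golayCode golay_min w with ⟨u, h1, h2⟩ | ⟨h1, h2⟩
  · exact Or.inl ⟨by rw [h1, Set.ncard_singleton], u, h2, (h1.ge rfl).1⟩
  · exact Or.inr ⟨h1, fun v h3 h4 => h2 v ⟨h3, h4⟩⟩

end Cfsg.Agent.S1635
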