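import Mathlib
import Cfsg.Statements.S1636
import Cfsg.Agent.Golay.Codes2

set_option autoImplicit false
open Cfsg

namespace Cfsg.Agent.S1636

open Cfsg.Agent.Golay
theorem norm_res (w : GolayPt → ZMod 2) :
    hammingNorm (fun x => w (some x)) = (support₂ w ∩ um 8388607).card := by
  rw [show um 8388607 = Finset.univ.map Function.Embedding.some by decide +kernel,
    hammingNorm_eq_card, ← Finset.card_map Function.Embedding.some]
  congr 1
  ext (_ | a) <;> simp [mem_support₂]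

theorem ncard_res (P : (ZMod 23 → ZMod 2) → Prop) (Q : Finset GolayPt → Prop)
    (h : ∀ w : GolayPt → ZMod 2, P (fun x => w (some x)) ↔ Q (support₂ w)) :
    {u | u ∈ {u : ZMod 23 → ZMod 2 | ∃ w ∈ Cfsg.golayCode, ∀ x : ZMod 23, u x = w (some x)} ∧ P u}.ncard
      = {s | s ∈ CW ∧ Q s}.ncard := by
  rw [← Set.ncard_image_of_injOn (f := fun s (x : ZMod 23) => ind s (some x))]
  · congr 1
    ext u
    constructor
    · rintro ⟨⟨w, hw, e⟩, h1⟩
      obtain rfl : u = fun x => w (some x) := funext e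
      exact ⟨support₂ w, ⟨⟨w, hw, rfl⟩, (h w).1 h1⟩, by simp only [ind_support₂]⟩
    · rintro ⟨s, ⟨hs, h1⟩, rfl⟩
      exact ⟨⟨_, (mem_CW_iff s).1 hs, fun _ => rfl⟩, (h _).2 (by rwa [support₂_ind])⟩
  · intro s hs t ht e
    have h1 := card_of_mem_CW (CW_symmDiff hs.1 ht.1)
    have h2 : symmDiff s t ⊆ {none} := by
      rintro (_ | a) ha
      · simp
      · have := congrFun e a
        rw [Finset.mem_symmDiff] at ha
        rcases ha with ha | ha <;> simp [ind, ha.1, ha.2] at this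
    have h3 := Finset.card_le_card h2
    rw [Finset.card_singleton] at h3
    exact symmDiff_eq_bot.1 (Finset.card_eq_zero.1 (by omega))

theorem ncard_wt (n : ℕ) :
    {u | u ∈ {u : ZMod 23 → ZMod 2 | ∃ w ∈ Cfsg.golayCode, ∀ x : ZMod 23, u x = w (some x)} ∧
      hammingNorm u = n}.ncard
      = sumBig (fun k => isZ (Nat.xor (pop 24 (Nat.land (cw k) 8388607)) n)) 4096 := by
  rw [ncard_res _ (fun s => (s ∩ um 8388607).card = n) fun w => by rw [norm_res]]
  exact enum_CW.ncard_eq _ (fun m => Nat.xor (pop 24 (Nat.land m 8388607)) n) fun s _ => by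
    rw [xor_eq_zero_iff', ← pop_mk, mk_inter, mk_um (by norm_num)]

/-- The punctured length-23 code has weight distribution 0^1 7^253 8^506 11^1288 12^1288 15^506 16^253 23^1. -/
theorem result : {u : ZMod 23 → ZMod 2 | ∃ w ∈ Cfsg.golayCode, ∀ x : ZMod 23, u x = w (some x)}.ncard = 4096 ∧ {u : ZMod 23 → ZMod 2 | u ∈ {u : ZMod 23 → ZMod 2 | ∃ w ∈ Cfsg.golayCode, ∀ x : ZMod 23, u x = w (some x)} ∧ hammingNorm u = 7}.ncard = 253 ∧ {u : ZMod 23 → ZMod 2 | u ∈ {u : ZMod 23 → ZMod 2 | ∃ w ∈ Cfsg.golayCode, ∀ x : ZMod 23, u x = w (some x)} ∧ hammingNorm u = 8}.ncard = 506 ∧ {u : ZMod 23 → ZMod 2 | u ∈ {u : ZMod 23 → ZMod 2 | ∃ w ∈ Cfsg.golayCode, ∀ x : ZMod 23, u x = w (some x)} ∧ hammingNorm u = 11}.ncard = 1288 ∧ {u : ZMod 23 → ZMod 2 | u ∈ {u : ZMod 23 → ZMod 2 | ∃ w ∈ Cfsg.golayCode, ∀ x : ZMod 23, u x = w (some x)} ∧ hammingNorm u = 12}.ncard = 1288 ∧ {u : ZMod 23 → ZMod 2 | u ∈ {u : ZMod 23 → ZMod 2 | ∃ w ∈ Cfsg.golayCode,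 ∀ x : ZMod 23, u x = w (some x)} ∧ hammingNorm u = 15}.ncard = 506 ∧ {u : ZMod 23 → ZMod 2 | u ∈ {u : ZMod 23 → ZMod 2 | ∃ w ∈ Cfsg.golayCode, ∀ x : ZMod 23, u x = w (some x)} ∧ hammingNorm u = 16}.ncard = 253 ∧ ∀ u ∈ {u : ZMod 23 → ZMod 2 | ∃ w ∈ Cfsg.golayCode, ∀ x : ZMod 23, u x = w (some x)}, u ≠ 0 → 7 ≤ hammingNorm u := by
  refine ⟨?_, ?_, ?_, ?_, ?_, ?_, ?_, ?_⟩
  · have := ncard_res (fun _ => True) (fun _ => True) fun _ => Iff.rfl
    simp only [and_true, Set.ofPred_mem_eq] at this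
    rw [this, enum_CW.ncard_self]
  iterate 6 rw [ncard_wt]; decide +kernel
  rintro u ⟨w, hw, e⟩ h
  obtain rfl : u = fun x => w (some x) := funext e
  have h1 := golay_min w hw (by rintro rfl; exact h rfl)
  have h2 := Finset.card_sdiff_add_card_inter (support₂ w) (um 8388607)
  have h3 : (support₂ w \ um 8388607).card ≤ 1 := (Finset.card_le_card
    (Finset.sdiff_subset_sdiff (Finset.subset_univ _) subset_rfl)).trans (by decide +kernel)
  rw [hammingNorm_eq_card] at h1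
  rw [norm_res]
  omega

end Cfsg.Agent.S1636
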