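import Mathlib
import Cfsg.Statements.S1637
import Cfsg.Agent.Golay.Codes

set_option autoImplicit false
open Cfsg

namespace Cfsg.Agent.S1637

open Cfsg.Agent.Golay
theorem norm_opt (w : GolayPt → ZMod 2) :
    hammingNorm w = hammingNorm (fun x => w (some x)) + if w none = 0 then 0 else 1 := by
  simp only [hammingNorm, Finset.card_filter, Fintype.sum_option]
  rw [add_comm]
  split_ifs <;> simp_all

/-- The punctured length-23 code is a perfect 3-error-correcting code: each word of length 23 is within distance 3 of exactly one codeword. -/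
theorem result (u : ZMod 23 → ZMod 2) : ∃! c : ZMod 23 → ZMod 2, c ∈ {u : ZMod 23 → ZMod 2 | ∃ w ∈ Cfsg.golayCode, ∀ x : ZMod 23, u x = w (some x)} ∧ hammingDist u c ≤ 3 := by
  refine existsUnique_of_exists_of_unique ?_ ?_
  · obtain ⟨v, h1, h2⟩ := exists_leader card_golayPt natCard_golayCode golay_min
      (fun p => p.elim 0 u) none
    refine ⟨_, ⟨_, h1, fun _ => rfl⟩, ?_⟩
    rw [hammingDist_eq_hammingNorm]
    have h3 := norm_opt v
    rw [show (-u + fun x => (v - fun p : GolayPt => p.elim 0 u) (some x)) = fun x => v (some x) by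
      ext x
      simp only [Pi.add_apply, Pi.neg_apply, Pi.sub_apply, Option.elim]
      generalize u x = a, v (some x) = b
      revert a b; decide]
    rcases h2 with h2 | ⟨h2, h4⟩
    · omega
    · rw [if_neg ((mem_support₂ _ _).1 h4)] at h3
      omega
  · rintro c c' ⟨⟨w, hw, h1⟩, h2⟩ ⟨⟨w', hw', h3⟩, h4⟩
    have h5 := hammingDist_triangle_left c c' u
    obtain rfl : w = w' := by
      by_contra e
      have h6 := golay_min _ (golayCode.sub_mem hw' hw) (sub_ne_zero.2 (Ne.symm e))
      rw [norm_opt, show (fun x => (w' - w) (some x)) = -c + c' by ext x; simp [h1, h3, CharTwo.sub_eq_add, add_comm],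
        ← hammingDist_eq_hammingNorm] at h6
      split_ifs at h6 <;> omega
    exact funext fun x => (h1 x).trans (h3 x).symm

end Cfsg.Agent.S1637
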