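import Mathlib
import Cfsg.Statements.S1638
import Cfsg.Agent.Golay.Flags

set_option autoImplicit false
open scoped Pointwise
open Cfsg

namespace Cfsg.Agent.S1638

open Cfsg.Agent.Golay

/-- Fix two points p ≠ q and a pair s of two further points. Among the pairs avoiding p, q and disjoint from s, exactly 30 lie in an octad together with p, q and s and exactly 160 do not; and any two pairs other than s that meet s in equally many points and agree on that octad property are carried to one another by an element of the group of the length-24 code fixing p, q and s. -/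
theorem result (p q : Cfsg.GolayPt) (hpq : p ≠ q) (s : Finset Cfsg.GolayPt) (hs : (s.card = 2 ∧ p ∉ s ∧ q ∉ s)) : {t : Finset Cfsg.GolayPt | (t.card = 2 ∧ p ∉ t ∧ q ∉ t) ∧ Disjoint s t ∧ (∃ o ∈ Cfsg.octads, p ∈ o ∧ q ∈ o ∧ s ∪ t ⊆ o)}.ncard = 30 ∧ {t : Finset Cfsg.GolayPt | (t.card = 2 ∧ p ∉ t ∧ q ∉ t) ∧ Disjoint s t ∧ ¬ (∃ o ∈ Cfsg.octads, p ∈ o ∧ q ∈ o ∧ s ∪ t ⊆ o)}.ncard = 160 ∧ ∀ t t' : Finset Cfsg.GolayPt, (t.card = 2 ∧ p ∉ t ∧ q ∉ t) → (t'.card = 2 ∧ p ∉ t' ∧ q ∉ t') → t ≠ s → t' ≠ s → (s ∩ t).card = (s ∩ t').card → ((∃ o ∈ Cfsg.octads, p ∈ o ∧ q ∈ o ∧ s ∪ t ⊆ o) ↔ (∃ o ∈ Cfsg.octads, p ∈ o ∧ q ∈ o ∧ s ∪ t' ⊆ o)) → ∃ g : Equiv.Perm Cfsg.GolayPt, g ∈ Cfsg.M24 ∧ g p = p ∧ g q = q ∧ g • s = s ∧ g • t = t' := by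
  have hc := classif_pt2_duad hpq hs.1 hs.2.1 hs.2.2
  have hi : ∀ t : Finset GolayPt, (t.card = 2 ∧ p ∉ t ∧ q ∉ t) → ({p, q} ∪ s) ∩ t = s ∩ t := by
    intro t ht
    ext a
    simp only [Finset.mem_inter, Finset.mem_union, Finset.mem_insert, Finset.mem_singleton]
    refine and_congr_left fun ha => or_iff_right ?_
    rintro (rfl | rfl)
    exacts [ht.2.1 ha, ht.2.2 ha]
  have ho : ∀ t : Finset GolayPt, InOct ({p, q} ∪ s ∪ t) ↔
      ∃ o ∈ Cfsg.octads, p ∈ o ∧ q ∈ o ∧ s ∪ t ⊆ o := fun t => by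
    simp only [InOct, Finset.union_subset_iff, Finset.insert_subset_iff,
      Finset.singleton_subset_iff, and_assoc]
  have h3 : ∀ t : Finset GolayPt, (s ∩ t).card ≤ 2 := fun U =>
    hs.1 ▸ Finset.card_le_card Finset.inter_subset_left
  refine ⟨?_, ?_, fun t t' ht ht' _ _ h h' => ?_⟩
  · rw [← show _ = 30 from hc.count (10, 30) (by simp)]
    congr 1
    ext t
    refine and_congr_right fun ht => ?_
    have := h3 t
    rw [Finset.disjoint_iff_inter_eq_empty, ← Finset.card_eq_zero, pairInv, hi t ht, ← ho]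
    split_ifs with h <;> simp only [h, and_true, and_false, false_iff] <;> omega
  · rw [← show _ = 160 from hc.count (0, 160) (by simp)]
    congr 1
    ext t
    refine and_congr_right fun ht => ?_
    rw [Finset.disjoint_iff_inter_eq_empty, ← Finset.card_eq_zero, pairInv, hi t ht, ← ho]
    split_ifs with h <;>
      simp only [h, not_true, not_false_iff, and_true, and_false, false_iff] <;> omega
  · obtain ⟨g, hg, e, e'⟩ := hc.trans t ht t' ht' (by
      rw [← ho, ← ho] at h'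
      simp only [pairInv, hi t ht, hi t' ht', h, h'])
    simp only [Prod.smul_mk, Prod.mk.injEq] at e
    exact ⟨g, hg, e.1.1, e.1.2, e.2, e'⟩

end Cfsg.Agent.S1638
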