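import Mathlib
import Cfsg.Statements.S1639
import Cfsg.Agent.Golay.Flags

set_option autoImplicit false
open scoped Pointwise
open Cfsg

namespace Cfsg.Agent.S1639

open Cfsg.Agent.Golay

/-- The point stabiliser acts on the 1288 dodecads through the point with rank 4 and subdegrees 1, 165, 330, 792, distinguished by intersection 4, 8, 6 with the fixed dodecad. -/
theorem result (x : Cfsg.GolayPt) (d : Finset Cfsg.GolayPt) (hd : d ∈ Cfsg.dodecads) (hx : x ∈ d) : {d' : Finset Cfsg.GolayPt | d' ∈ Cfsg.dodecads ∧ x ∈ d' ∧ (d ∩ d').card = 4}.ncard = 165 ∧ {d' : Finset Cfsg.GolayPt | d' ∈ Cfsg.dodecads ∧ x ∈ d' ∧ (d ∩ d').card = 8}.ncard = 330 ∧ {d' : Finset Cfsg.GolayPt | d' ∈ Cfsg.dodecads ∧ x ∈ d' ∧ (d ∩ d').card = 6}.ncard = 792 ∧ ∀ d' d'' : Finset Cfsg.GolayPt, d' ∈ Cfsg.dodecads → d'' ∈ Cfsg.dodecads → x ∈ d' → x ∈ d'' → (d ∩ d').card = (d ∩ d'').card → ∃ g : Equiv.Perm Cfsg.GolayPt, g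 ∈ Cfsg.M24 ∧ g x = x ∧ g • d = d ∧ g • d' = d'' := by
  have hc := classif_dod_pt hd hx
  refine ⟨?_, ?_, ?_, fun o' o'' ho' ho'' hx' hx'' h => ?_⟩
  · simpa only [Set.mem_ofPred_eq, and_assoc] using hc.count (4, 165) (by simp)
  · simpa only [Set.mem_ofPred_eq, and_assoc] using hc.count (8, 330) (by simp)
  · simpa only [Set.mem_ofPred_eq, and_assoc] using hc.count (6, 792) (by simp)
  · obtain ⟨g, hg, e, e'⟩ := hc.trans o' ⟨ho', hx'⟩ o'' ⟨ho'', hx''⟩ h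
    simp only [Prod.smul_mk, Prod.mk.injEq] at e
    exact ⟨g, hg, e.2, e.1, e'⟩

end Cfsg.Agent.S1639
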