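import Mathlib
import Cfsg.Statements.S1643
import Cfsg.Agent.Golay.L23

set_option autoImplicit false
open scoped Pointwise
open Cfsg

namespace Cfsg.Agent.S1643

open Cfsg.Agent.Golay
open scoped Pointwise

/-- PSL(2, 23) = ⟨t ↦ t+1, t ↦ u t (u square), t ↦ −1/t⟩ is maximal of order 6072 in the group of the length-24 code, and its point stabiliser 23:11 (order 253) is maximal in the Mathieu group of degree 23. -/
theorem result : (Subgroup.closure ({Equiv.optionCongr (Equiv.addRight (1 : ZMod 23)), Cfsg.projInv} ∪ {g : Equiv.Perm Cfsg.GolayPt | ∃ u : (ZMod 23)ˣ, IsSquare u ∧ g = Equiv.optionCongr (Units.mulLeft u)}) ≤ Cfsg.M24 ∧ Nat.card ↥(Subgroup.closure ({Equiv.optionCongr (Equiv.addRight (1 : ZMod 23)), Cfsg.projInv} ∪ {g : Equiv.Perm Cfsg.GolayPt | ∃ u : (ZMod 23)ˣ, IsSquare u ∧ g = Equiv.optionCongr (Units.mulLeft u)})) = 6072 ∧ IsCoatom ((Subgroup.closure ({Equiv.optionCongr (Equiv.addRight (1 : ZMod 23)),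 Cfsg.projInv} ∪ {g : Equiv.Perm Cfsg.GolayPt | ∃ u : (ZMod 23)ˣ, IsSquare u ∧ g = Equiv.optionCongr (Units.mulLeft u)})).subgroupOf Cfsg.M24)) ∧ (Subgroup.closure ({Equiv.optionCongr (Equiv.addRight (1 : ZMod 23))} ∪ {g : Equiv.Perm Cfsg.GolayPt | ∃ u : (ZMod 23)ˣ, IsSquare u ∧ g = Equiv.optionCongr (Units.mulLeft u)}) ≤ Cfsg.M24 ⊓ MulAction.stabilizer (Equiv.Perm Cfsg.GolayPt) (none : Cfsg.GolayPt) ∧ Nat.card ↥(Subgroup.closure ({Equiv.optionCongr (Equiv.addRight (1 : ZMod 23))} ∪ {g : Equiv.Perm Cfsg.GolayPt | ∃ u : (ZMod 23)ˣ, IsSquare u ∧ g = Equiv.optionCongr (Units.mulLeft u)})) = 253 ∧ IsCoatom (((Subgroup.closure ({Equiv.optionCongr (Equiv.addRight (1 : ZMod 23))} ∪ {g : Equiv.Perm Cfsg.GolayPt | ∃ u : (ZMod 23)ˣ, IsSquare u ∧ g = Equiv.optionCongr (Units.mulLeft u)})).subgroupOf Cfsg.M24).subgroupOf (MulAction.stabilizer Cfsg.M24 (none : Cfsg.GolayPt)))) := by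
  have hα : alpha ∈ Cl cAB := Subgroup.subset_closure (by
    show pc alpha ∈ cAB; rw [pc_alpha]; exact List.mem_cons_self)
  have hAL : Cl cAB ≤ Cl cL := Subgroup.closure_mono fun g hg => List.mem_cons_of_mem _ hg
  have e1 : Subgroup.closure ({Equiv.optionCongr (Equiv.addRight (1 : ZMod 23)), Cfsg.projInv} ∪ {g : Equiv.Perm Cfsg.GolayPt | ∃ u : (ZMod 23)ˣ, IsSquare u ∧ g = Equiv.optionCongr (Units.mulLeft u)}) = Cl cL := by
    refine le_antisymm ((Subgroup.closure_le _).2 ?_) (Cl_le fun c hc => ?_)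
    · rintro _ ((rfl | rfl) | ⟨u, hu, rfl⟩)
      · exact hAL hα
      · exact Subgroup.subset_closure (by
          show pc projInv ∈ cL; rw [pc_projInv]; exact List.mem_cons_self)
      · exact hAL (mulSquare_mem_AB u hu)
    · rcases List.mem_cons.1 hc with rfl | hc
      · exact ⟨_, Subgroup.subset_closure (Or.inl (Or.inr rfl)), pc_projInv⟩
      · exact in_AB (Subgroup.subset_closure (Or.inl (Or.inl rfl)))
          (fun u hu => Subgroup.subset_closure (Or.inr ⟨u, hu, rfl⟩)) c hc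
  have e2 : Subgroup.closure ({Equiv.optionCongr (Equiv.addRight (1 : ZMod 23))} ∪ {g : Equiv.Perm Cfsg.GolayPt | ∃ u : (ZMod 23)ˣ, IsSquare u ∧ g = Equiv.optionCongr (Units.mulLeft u)}) = Cl cAB := by
    refine le_antisymm ((Subgroup.closure_le _).2 ?_) (Cl_le (in_AB
      (Subgroup.subset_closure (Or.inl rfl)) fun u hu => Subgroup.subset_closure (Or.inr ⟨u, hu, rfl⟩)))
    rintro _ (rfl | ⟨u, hu, rfl⟩)
    exacts [hα, mulSquare_mem_AB u hu]
  have h1 : Cl cL ≤ M24 := Cl_le (in_M24 (by decide +kernel))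
  have h2 : Cl cAB ≤ Spor.M23 := Cl_le (in_AB ⟨alpha_mem, rfl⟩ fun u hu => ⟨mulSquare_mem u hu, rfl⟩)
  rw [e1, e2]
  refine ⟨⟨h1, card_cL, isCoatom_of_over h1 (by rw [card_cL, card_M24]; norm_num)
    (fun H a b => over6072 b ((gen_Cl (by decide +kernel)).1.mono a)) M24.subtype_injective
    M24.range_subtype⟩, h2, card_AB, isCoatom_of_over h2 (by rw [card_AB, card_M23]; norm_num)
    (fun H a b => over253 b ((gen_Cl (by decide +kernel)).1.mono a))
    (f := M24.subtype.comp (MulAction.stabilizer M24 (none : GolayPt)).subtype)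
    (Subtype.val_injective.comp Subtype.val_injective) (le_antisymm ?_ fun g hg => ⟨⟨⟨g, hg.1⟩, hg.2⟩, rfl⟩)⟩
  rintro _ ⟨g, rfl⟩
  exact ⟨g.1.2, g.2⟩

end Cfsg.Agent.S1643
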