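import Cfsg.Statements.S1679
import Cfsg.Agent.Comp.G24.Iso
import Cfsg.Agent.Comp.Suz.Main

set_option autoImplicit false
open Cfsg

namespace Cfsg.Agent.S1679

/-- In the presented sporadic Suzuki group (generators a, …, g), the subgroup generated by the images of a, …, f is isomorphic to the adjoint Chevalley group of type G₂ over a field with four elements. -/
theorem result : ∃ (K : Type) (_ : Field K) (_ : Fintype K), Fintype.card K = 4 ∧ Nonempty ((((Subgroup.closure ({Cfsg.Spor.Suz.a, Cfsg.Spor.Suz.b, Cfsg.Spor.Suz.c, Cfsg.Spor.Suz.d, Cfsg.Spor.Suz.e, Cfsg.Spor.Suz.f} : Set (FreeGroup Cfsg.Spor.Suz.Gen))).map (PresentedGroup.mk (Cfsg.Spor.coxRelators Cfsg.Spor.Suz.edges ∪ {r | r ∈ Cfsg.Spor.Suz.extra})))) ≃* Cfsg.Lie.chevG2.group K) := by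
  rw [Comp.map_closure_eq Comp.Suz.presAll.2.2 [Spor.Suz.a, Spor.Suz.b, Spor.Suz.c, Spor.Suz.d, Spor.Suz.e, Spor.Suz.f] _ (by simp) (Comp.letters 6) (by decide +kernel)]
  have := Comp.G24.simple
  obtain ⟨e, -⟩ := Comp.G24.pres.equiv_of_simple Comp.G24.hR Comp.Suz.s
    (Comp.Suz.pres.sat.mono (by decide +kernel)) (x := 0) (by norm_num) fun h =>
      Comp.Suz.rep.ne (show Comp.neqB 7 1782 Comp.Suz.T (Comp.ivl 0 891) [0] [] = true by decide +kernel) (by simpa using h)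
  obtain ⟨e2⟩ := Comp.G24.iso Comp.card_K4
  exact ⟨Comp.K4, inferInstance, inferInstance, Comp.card_K4, ⟨e.symm.trans e2⟩⟩

end Cfsg.Agent.S1679
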