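import Cfsg.Statements.S1681
-- import your own Cfsg.Agent.* helpers here
import Cfsg.Agent.Comp.Suz.U43

set_option autoImplicit false
open Cfsg

namespace Cfsg.Agent.S1681

/-- In the presented sporadic Suzuki group (generators a, …, g), the subgroup generated by the images of a, b, c, d, f, g has index 22880. -/
theorem result : (((Subgroup.closure ({Cfsg.Spor.Suz.a, Cfsg.Spor.Suz.b, Cfsg.Spor.Suz.c, Cfsg.Spor.Suz.d, Cfsg.Spor.Suz.f, Cfsg.Spor.Suz.g} : Set (FreeGroup Cfsg.Spor.Suz.Gen))).map (PresentedGroup.mk (Cfsg.Spor.coxRelators Cfsg.Spor.Suz.edges ∪ {r | r ∈ Cfsg.Spor.Suz.extra})))).index = 22880 := by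
  rw [Comp.map_closure_eq Comp.Suz.presAll.2.2 [Spor.Suz.a, Spor.Suz.b, Spor.Suz.c, Spor.Suz.d, Spor.Suz.f, Spor.Suz.g] _ (by simp) [[0], [1], [2], [3], [5], [6]] (by decide +kernel)]
  exact Comp.index_eq_of_card Comp.Suz.card.2.1 Comp.Suz.u43 (by norm_num)

end Cfsg.Agent.S1681
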