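import Cfsg.Statements.S1684
import Mathlib
import Cfsg.Agent.Fischer.NS

set_option autoImplicit false
open Cfsg

namespace Cfsg.Agent.S1684

open Fischer

/-- In the presented Fischer group Fi₂₂, the subgroup generated by the images of a, c, d, e, f, g, h, i and (abcdeh)^5 is a non-split double cover of PSU(6, 2) (realised over a field with four elements). -/
theorem result : ∃ (K : Type) (_ : Field K) (_ : Fintype K), Fintype.card K = 4 ∧ Cfsg.IsNonsplitDoubleCover (((Subgroup.closure ({Cfsg.Spor.Fi22.a, Cfsg.Spor.Fi22.c, Cfsg.Spor.Fi22.d, Cfsg.Spor.Fi22.e, Cfsg.Spor.Fi22.f, Cfsg.Spor.Fi22.g, Cfsg.Spor.Fi22.h, Cfsg.Spor.Fi22.i, (Cfsg.Spor.Fi22.a * Cfsg.Spor.Fi22.b * Cfsg.Spor.Fi22.c * Cfsg.Spor.Fi22.d * Cfsg.Spor.Fi22.e * Cfsg.Spor.Fi22.h) ^ 5} : Set (FreeGroup Cfsg.Spor.Fi22.Gen))).map (PresentedGroup.mk (Cfsg.Spor.coxRelators Cfsg.Spor.Fi22.edges ∪ {r | r ∈ Cfsg.Spor.Fi22.extra}))))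 (Cfsg.PSU 6 K 2) := by
  haveI : Fact (Nat.Prime 2) := ⟨Nat.prime_two⟩
  letI := Fintype.ofFinite (GaloisField 2 2)
  have hF : Fintype.card (GaloisField 2 2) = 4 := by
    rw [← Nat.card_eq_fintype_card, GaloisField.card 2 2 (by norm_num)]; rfl
  refine ⟨GaloisField 2 2, inferInstance, inferInstance, hF, ?_⟩
  rw [Comp.map_closure_eq Comp.Fi22.presAll.2.2 [Spor.Fi22.a, Spor.Fi22.c, Spor.Fi22.d, Spor.Fi22.e,
    Spor.Fi22.f, Spor.Fi22.g, Spor.Fi22.h, Spor.Fi22.i, (Spor.Fi22.a * Spor.Fi22.b * Spor.Fi22.c *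
      Spor.Fi22.d * Spor.Fi22.e * Spor.Fi22.h) ^ 5] _ (by simp) Comp.Fi22.W0 (by decide +kernel)]
  have e : Comp.genW Comp.Fi22.s Comp.Fi22.W0 = Subgroup.centralizer {F22.x0} := by
    ext g; rw [Comp.Fi22.stab.2, F22.pm.cent, Subgroup.mem_centralizer_singleton_iff]; rfl
  rw [e]
  exact F22.nonsplit _ hF F22.pm.x_mem

end Cfsg.Agent.S1684
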