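import Cfsg.Statements.S1711
import Cfsg.Agent.Comp.J4.Rho

set_option autoImplicit false
open Cfsg

namespace Cfsg.Agent.S1711

/-- In the presented fourth Janko group (generators x, y, t), the subgroup generated by the images of x and y is isomorphic to the Mathieu group M₂₄. -/
theorem result : Nonempty ((((Subgroup.closure ({Cfsg.Spor.J4.x, Cfsg.Spor.J4.y} : Set (FreeGroup Cfsg.Spor.J4.Gen))).map (PresentedGroup.mk (Cfsg.Spor.coxRelators Cfsg.Spor.J4.edges ∪ {r | r ∈ Cfsg.Spor.J4.extra})))) ≃* Cfsg.M24) := by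
  open Cfsg.Agent.Comp Cfsg.Agent.Comp.J4 in
  rw [map_words [Spor.J4.x, Spor.J4.y] _ (by simp) [[0], [1]] (by decide +kernel) (by decide +kernel)]
  have h : genW s [[0], [1]] = io.range := by
    rw [range_io]
    refine le_antisymm (genW_le_gen (by decide)) (gen_le.2 fun a ha => ?_)
    have h0 : ev s [0] ∈ genW s [[0], [1]] := Subgroup.subset_closure ⟨_, by simp, rfl⟩
    have h1 : ev s [1] ∈ genW s [[0], [1]] := Subgroup.subset_closure ⟨_, by simp, rfl⟩
    have h2 := pres.sat [1, 2] (by decide)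
    simp only [ev_cons, ev_nil, mul_one] at h0 h1 h2
    interval_cases a
    exacts [h0, h1, eq_inv_of_mul_eq_one_right h2 ▸ inv_mem h1]
  rw [h]
  exact ⟨(MonoidHom.ofInjective io_inj).symm⟩

end Cfsg.Agent.S1711
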