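import Mathlib
import Cfsg.Statements.S1717
import Cfsg.Agent.PLocal.LX3

set_option autoImplicit false
open Cfsg

namespace Cfsg.Agent.S1717

open Subgroup Cfsg.Agent.LocalEven

/-- Let G be a finite group with an involution z whose centraliser C is isomorphic to the centraliser of a transvection of SL(5, 2). Then a Sylow 2-subgroup of C, viewed in G, is a Sylow 2-subgroup of G (its index in G is odd). -/
theorem result {G : Type*} [Group G] [Finite G] (s : Matrix.SpecialLinearGroup (Fin 5) (ZMod 2)) (hs : (s : Matrix (Fin 5) (Fin 5) (ZMod 2)) = Matrix.transvection 0 1 1) (z : G) (hz : orderOf z = 2) (e : (Subgroup.centralizer ({z} : Set G)) ≃* Subgroup.centralizer ({s} : Set (Matrix.SpecialLinearGroup (Fin 5) (ZMod 2)))) (T : Sylow 2 (Subgroup.centralizer ({z} : Set G))) : ¬ 2 ∣ ((T : Subgroup (Subgroup.centralizer ({z} : Set G))).map (Subgroup.subtype (Subgroup.centralizer ({z} : Set G)))).index := by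
  haveI : Fact (Nat.Prime 2) := ⟨Nat.prime_two⟩
  obtain ⟨k1, -⟩ := PLocal.sl_main (F := ZMod 2) (n := 3) (by simp) (by omega) rfl (by simp) hs rfl rfl
  have key : ∀ x : centralizer ({z} : Set G), x ≠ 1 → (∀ t ∈ T, x * t = t * x) → (e x).1 = s := fun x h1 h2 =>
    (k1.cent' (g := (e x).1) (by
      rintro _ ⟨y, hy, rfl⟩
      rw [← Core.map_pCore_equiv 2 e] at hy
      obtain ⟨y, hy, rfl⟩ := hy
      exact congrArg Subtype.val (show e x * e y = e y * e x by
        rw [← map_mul, h2 y (Core.pCore_le_sylow T hy), map_mul]))).resolve_left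
      fun h => h1 (e.injective (by rw [map_one]; exact Subtype.ext h))
  have hT := isSylowIn_map T
  have hzC : z ∈ centralizer ({z} : Set G) := mem_centralizer_singleton_iff.2 rfl
  have hzT := hT.mem_of_mem_normalizer hzC (k := 1) (by rw [pow_one, ← hz, pow_orderOf_eq_one])
    (centralizer_le_normalizer _ fun t ht => mem_centralizer_singleton_iff.1 (hT.le ht))
  have := (IsSylowIn.of_normalizer (H := ⊤) (hT.mono (le_inf le_top le_normalizer) fun g hg => ?_)).not_dvd
  · rwa [relIndex_top_right] at this
  have h1 := conj_mem_of_mem_normalizer hg.2 hzT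
  have z1 := ne_one_of_orderOf_eq hz
  have := (key ⟨_, hT.le h1⟩ (fun e => z1 (by simpa using congrArg Subtype.val e)) fun t ht => Subtype.ext (by
    have := mem_centralizer_singleton_iff.1 (hT.le (inv_conj_mem_of_mem_normalizer hg.2 (mem_map_of_mem _ ht)))
    change g⁻¹ * t * g * z = z * (g⁻¹ * t * g) at this
    change g * z * g⁻¹ * t = t * (g * z * g⁻¹)
    calc g * z * g⁻¹ * t = g * (z * (g⁻¹ * t * g)) * g⁻¹ := by group
      _ = _ := by rw [← this]; group)).trans
    (key ⟨z, hzC⟩ (fun e => z1 (congrArg Subtype.val e)) fun t _ =>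
      Subtype.ext (mem_centralizer_singleton_iff.1 t.2).symm).symm
  exact mem_centralizer_singleton_iff.2 (mul_inv_eq_iff_eq_mul.1 (congrArg Subtype.val (e.injective (Subtype.ext this))))

end Cfsg.Agent.S1717
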