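import Mathlib
import Cfsg.Statements.S1753

set_option autoImplicit false
universe u
open Cfsg

namespace Cfsg.Agent.S1753

theorem aux (K : ∀ (X : Type u) [Group X], Prop) (G : Type u) [Group G] [Finite G]
    (h : ∀ (X : Type u) [Group X] [Finite X], IsSimpleGroup X → ¬ IsMulCommutative X → Nat.card X < Nat.card G → K X) :
    Cfsg.IsKProperWith K G := fun H hH K' N _ h1 h2 =>
  h _ h1 h2 (((Nat.le_of_dvd Nat.card_pos (Subgroup.card_quotient_dvd_card N)).trans (Subgroup.card_le_card_group K')).trans_lt
    (lt_of_not_ge fun e => hH (Subgroup.eq_top_of_le_card H e)))

/-- Let K be any property of groups. (1) If G is a minimal counterexample relative to K — a finite non-abelian simple group not satisfying K such that every finite non-abelian simple group of smaller order satisfies K — then every proper subgroup of G is a K-group (all its non-abelian simple sections satisfy K), since such sections have smaller order than G. (2) Consequently (induction on the order), if every finite non-abelian simple group all of whose proper subgroups are K-groups satisfies K, then every finite non-abelian simple group satisfies K. -/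
theorem result (K : ∀ (X : Type u) [Group X], Prop) :
    (∀ (G : Type u) [Group G], Cfsg.IsMinCounterexampleWith K G → Cfsg.IsKProperWith K G) ∧
      ((∀ (X : Type u) [Group X] [Finite X], IsSimpleGroup X → ¬ IsMulCommutative X → Cfsg.IsKProperWith K X → K X) →
        ∀ (G : Type u) [Group G] [Finite G], IsSimpleGroup G → ¬ IsMulCommutative G → K G) := by
  refine ⟨fun G _ h => have := h.1; aux K G h.2.2.2.2, fun h G _ _ => ?_⟩
  induction hn : Nat.card G using Nat.strong_induction_on generalizing G with
  | _ n ih => exact fun h1 h2 => h G h1 h2 (aux K G fun X _ _ a1 a2 a3 => ih _ (hn ▸ a3) X _ ‹_› rfl a1 a2)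

end Cfsg.Agent.S1753
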