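import Mathlib
import Cfsg.Statements.S1754
import Cfsg.Agent.Comp2.PLayer

set_option autoImplicit false
open Cfsg

namespace Cfsg.Agent.S1754

open Cfsg.Agent.Comp2


/-- Let A be a standard subgroup of the finite group G (A quasisimple, C_G(A) tightly embedded of even order, A commuting elementwise with no other conjugate of itself, and N_G(A) = N_G(C_G(A))), and let t be an involution of G centralizing A. Then the centralizer of t lies in the normalizer of A; in particular A, viewed inside C_G(t), is a component of C_G(t). -/
theorem result {G : Type*} [Group G] [Finite G]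
    (A : Subgroup G) (hA : Cfsg.IsStandardSubgroup A) (t : G) (ht : orderOf t = 2) (htA : t ∈ Subgroup.centralizer (A : Set G)) :
    Subgroup.centralizer ({t} : Set G) ≤ Subgroup.normalizer (A : Set G) ∧
      Cfsg.IsComponent (A.subgroupOf (Subgroup.centralizer ({t} : Set G))) := by
  obtain ⟨hq, ⟨-, hT⟩, -, hN⟩ := hA
  have h1 : Subgroup.centralizer ({t} : Set G) ≤ Subgroup.normalizer (A : Set G) := by
    rw [hN]
    intro g hg
    by_contra hgn
    have hodd := hT g hgn
    have hgt : g * t * g⁻¹ = t := by
      have := (Subgroup.mem_centralizer_singleton_iff.mp hg)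
      rw [this]; group
    have hmem : t ∈ Subgroup.centralizer (A : Set G) ⊓
        (Subgroup.centralizer (A : Set G)).map (MulAut.conj g).toMonoidHom :=
      ⟨htA, t, htA, by simpa using hgt⟩
    have hd := Subgroup.orderOf_dvd_natCard _ hmem
    rw [ht] at hd
    exact (Nat.not_even_iff_odd.mpr hodd) (even_iff_two_dvd.mpr hd)
  have hle : A ≤ Subgroup.centralizer ({t} : Set G) := by
    intro a ha
    rw [Subgroup.mem_centralizer_singleton_iff]
    exact htA a ha
  refine ⟨h1, ?_, (quasisimple_subgroupOf_iff hle).mpr hq⟩
  haveI : (A.subgroupOf (Subgroup.centralizer ({t} : Set G))).Normal :=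
    (Subgroup.normal_subgroupOf_iff_le_normalizer hle).mpr h1
  exact Subgroup.Normal.isSubnormal inferInstance

end Cfsg.Agent.S1754
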