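import Mathlib
import Cfsg.Statements.S1755
import Cfsg.Agent.Inv.Symp
import Cfsg.Agent.Inv.TI2

set_option autoImplicit false
open Cfsg

namespace Cfsg.Agent.S1755

open Cfsg.Agent.LocalEven Subgroup

/-- Let G be a finite group and let z be an involution of G such that Q, the generalized Fitting subgroup of the centralizer C of z, is a 2-group of symplectic type (every characteristic abelian subgroup of Q is cyclic). Let B be a characteristic abelian subgroup of Q, viewed as a subgroup of G. Then for every g in G, the conjugate of B by g either equals B or meets B trivially. -/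
theorem result {G : Type*} [Group G] [Finite G] (z : G) (hz : orderOf z = 2) (hQ : Cfsg.IsOfSymplecticType ↥(Cfsg.generalizedFittingSubgroup ↥(Subgroup.centralizer ({z} : Set G))))
    (B : Subgroup ↥(Cfsg.generalizedFittingSubgroup ↥(Subgroup.centralizer ({z} : Set G)))) (hBc : B.Characteristic) (hBa : IsMulCommutative ↥B) (g : G) :
    ((B.map (Cfsg.generalizedFittingSubgroup ↥(Subgroup.centralizer ({z} : Set G))).subtype).map (Subgroup.centralizer ({z} : Set G)).subtype).map (MulAut.conj g).toMonoidHom =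
        (B.map (Cfsg.generalizedFittingSubgroup ↥(Subgroup.centralizer ({z} : Set G))).subtype).map (Subgroup.centralizer ({z} : Set G)).subtype ∨
      ((B.map (Cfsg.generalizedFittingSubgroup ↥(Subgroup.centralizer ({z} : Set G))).subtype).map (Subgroup.centralizer ({z} : Set G)).subtype).map (MulAut.conj g).toMonoidHom ⊓
        (B.map (Cfsg.generalizedFittingSubgroup ↥(Subgroup.centralizer ({z} : Set G))).subtype).map (Subgroup.centralizer ({z} : Set G)).subtype = ⊥ := by
  haveI : Fact (Nat.Prime 2) := ⟨Nat.prime_two⟩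
  refine or_iff_not_imp_right.2 fun h => ?_
  obtain ⟨u, ⟨h1, _, ⟨b, hb, rfl⟩, rfl⟩, hu⟩ := exists_mem_orderOf_eq_of_ne_bot
    ((((hQ.1.to_subgroup B).map _).map _).to_le inf_le_right) h
  have hz' : ∀ b ∈ B, (b : G) ≠ 1 → (b : G) * b = 1 → (b : G) = z := fun b hb h1 h2 =>
    congrArg (fun x => x.1.1) (Inv.symp_invol hQ hBc hBa hb (fun e => h1 (congrArg (fun x => x.1.1) e))
      (Subtype.ext (Subtype.ext h2)) (z := ⟨_, Inv.z_mem_genFit⟩) (mem_center_iff.2 fun x =>
        Subtype.ext (Subtype.ext (mem_centralizer_singleton_iff.1 x.1.2)))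
      (fun e => ne_one_of_orderOf_eq hz (congrArg (fun x => x.1.1) e))
      (Subtype.ext (Subtype.ext (show z * z = 1 by rw [← pow_two, ← hz, pow_orderOf_eq_one]))))
  obtain ⟨_, ⟨b', hb', rfl⟩, e⟩ := mem_cj.1 h1
  change (b' : G) = g⁻¹ * b * g at e
  have h2 : (b : G) ≠ 1 := ne_one_of_orderOf_eq hu
  have h3 : (b : G) * b = 1 := by rw [← pow_two, ← hu]; exact pow_orderOf_eq_one _
  have e1 := hz' b hb h2 h3
  have e2 := hz' b' hb' (by rw [e]; exact fun h => h2 (by
    rw [show (b : G) = g * (g⁻¹ * b * g) * g⁻¹ by group, h]; group)) (by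
    rw [e, show g⁻¹ * (b : G) * g * (g⁻¹ * b * g) = g⁻¹ * (b * b) * g by group, h3]; simp)
  rw [e1, e2, mul_assoc, eq_inv_mul_iff_mul_eq] at e
  exact cj_eq_self_iff.2 (le_normalizer_map_subtype _ (mem_centralizer_singleton_iff.2 e))

end Cfsg.Agent.S1755
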