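import Mathlib
import Cfsg.Statements.S1756
import Cfsg.Agent.PGrp.Special
-- import your own Cfsg.Agent.* helpers here

set_option autoImplicit false
open Cfsg
open scoped commutatorElement

namespace Cfsg.Agent.S1756

/-- Let Q be an extraspecial 2-subgroup of the finite group G (special with centre of order 2) and t an involution of G normalizing Q such that the centralizer of t in Q has index at most 2 in Q. Then t lies in the product of Q with the centralizer of Q. -/
theorem result {G : Type*} [Group G] [Finite G] (Q : Subgroup G)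
    (hQ : Cfsg.IsExtraspecial 2 ↥Q) (t : G) (ht : orderOf t = 2) (htN : t ∈ Subgroup.normalizer (Q : Set G))
    (hi : (Subgroup.centralizer ({t} : Set G) ⊓ Q).relIndex Q ≤ 2) :
    t ∈ Q ⊔ Subgroup.centralizer (Q : Set G) := by
  have : Fact (Nat.Prime 2) := ⟨Nat.prime_two⟩
  obtain ⟨k1, k2, k3, k4⟩ := PGrp.isExtraspecial_iff.mp hQ
  have ht2 : t * t = 1 := by rw [← sq, ← ht, pow_orderOf_eq_one]
  have hti : t⁻¹ = t := inv_eq_of_mul_eq_one_right ht2
  refine PGrp.mem_sup_centralizer_of_extraspecial hQ htN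
    (PGrp.normalizer_le_centralizer_of_card_eq_two k2
      (BG.Rank.normalizer_le_normalizer_center Q htN)) fun x hx => ?_
  set C := Subgroup.centralizer ({t} : Set G) ⊓ Q with hC
  have hmem : ∀ y, y ∈ C ↔ y * t = t * y ∧ y ∈ Q := fun y => by
    rw [hC, Subgroup.mem_inf, Subgroup.mem_centralizer_singleton_iff]
  by_cases hxC : x ∈ C
  · rw [commutatorElement_eq_one_iff_mul_comm.mpr ((hmem x).mp hxC).1.symm]
    exact Subgroup.one_mem _
  have hi2 : C.relIndex Q = 2 := by
    have h0 : C.relIndex Q ≠ 0 := Subgroup.index_ne_zero_of_finite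
    have h1 : C.relIndex Q ≠ 1 := fun h => hxC (Subgroup.relIndex_eq_one.mp h hx)
    omega
  have hQC : Q ≤ Subgroup.normalizer (C : Set G) :=
    PGrp.le_normalizer_of_relIndex_prime k1 inf_le_right hi2
  have hsup := PGrp.sup_zpowers_eq_of_relIndex_prime Nat.prime_two hi2 inf_le_right hx hxC
  have hwQ : ⁅t, x⁆ ∈ Q := Q.mul_mem (PGrp.conj_mem_of_mem_normalizer htN hx) (Q.inv_mem hx)
  have hwc : ⁅t, x⁆ ∈ Subgroup.centralizer (C : Set G) := by
    rw [Subgroup.mem_centralizer_iff]
    intro c hc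
    have h1 := ((hmem _).mp hc).1
    have h2 := ((hmem _).mp (PGrp.conj_mem_of_mem_normalizer' (hQC hx) hc)).1
    rw [commutatorElement_def, hti]
    calc c * (t * x * t * x⁻¹) = (c * t) * x * t * x⁻¹ := by group
      _ = t * x * (x⁻¹ * c * x * t) * x⁻¹ := by rw [h1]; group
      _ = t * x * t * x⁻¹ * c := by rw [h2]; group
  have hwC : ⁅t, x⁆ ∈ C := by
    by_contra hn
    have h1 : ⁅t, x⁆ * x ∈ C := by
      have := (Subgroup.mul_mem_iff_of_index_two (H := C.subgroupOf Q) hi2
        (a := ⟨_, hwQ⟩) (b := ⟨x, hx⟩)).mpr (by simp [Subgroup.mem_subgroupOf, hn, hxC])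
      exact this
    have h2 := ((hmem _).mp h1).1
    apply hxC
    refine (hmem _).mpr ⟨?_, hx⟩
    rw [commutatorElement_def, hti] at h2
    have h3 : t * (x * t) * t = t * (t * x) * t := by
      calc t * (x * t) * t = t * x * t * x⁻¹ * x * t := by group
        _ = t * (t * x * t * x⁻¹ * x) := h2
        _ = t * (t * x) * t := by group
    exact mul_left_cancel (mul_right_cancel h3)
  have hx2 : x * x ∈ C := by
    rw [← sq]; exact PGrp.pow_mem_of_relIndex_eq hQC hi2 hx
  have hwx : ⁅t, x⁆ * x = x * ⁅t, x⁆ := by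
    have h1 := ((hmem _).mp hwC).1
    have h2 := ((hmem _).mp hx2).1
    rw [commutatorElement_def, hti] at h1 ⊢
    have h3 : t * x * t * x⁻¹ * t = x * t * x⁻¹ := by
      rw [h1]
      calc t * (t * x * t * x⁻¹) = (t * t) * x * t * x⁻¹ := by group
        _ = x * t * x⁻¹ := by rw [ht2, one_mul]
    have h4 : x * t * x⁻¹ = x⁻¹ * t * x := by
      calc x * t * x⁻¹ = x⁻¹ * (x * x * t) * x⁻¹ := by group
        _ = x⁻¹ * t * x := by rw [h2]; group
    have h5 : t * (x * t * x⁻¹) = (x * t * x⁻¹) * t := by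
      calc t * (x * t * x⁻¹) = t * x * t * x⁻¹ * (t * t) := by rw [ht2]; group
        _ = (t * x * t * x⁻¹ * t) * t := by group
        _ = _ := by rw [h3]
    calc t * x * t * x⁻¹ * x = x * ((x⁻¹ * t * x) * t) := by group
      _ = x * (t * (x * t * x⁻¹)) := by rw [← h4, h5]
      _ = _ := by group
  rw [← hsup, PGrp.centralizer_sup_zpowers]
  exact ⟨hwc, Subgroup.mem_centralizer_singleton_iff.mpr hwx⟩

end Cfsg.Agent.S1756
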