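import Mathlib
import Cfsg.Statements.S1774
import Cfsg.Agent.Inv.Symp

set_option autoImplicit false
open Cfsg

namespace Cfsg.Agent.S1774

open Cfsg.Agent.LocalEven Subgroup Cfsg.Agent.Inv
theorem aux {G : Type*} [Group G] {L : Subgroup G} {z s x y : G} (hx' : x ∈ L) (hy' : y ∈ L)
    (hys : y * s * y⁻¹ = s * z) (hxz : x * z * x⁻¹ = z * s) (hyz : y * z * y⁻¹ = z) (hxs : x * s * x⁻¹ = s)
    (hzs : z * s = s * z) (hz2 : z * z = 1) (hs2 : s * s = 1) :
    ∀ u ∈ closure ({z, s} : Set G), ∀ v ∈ closure ({z, s} : Set G), u ≠ 1 → v ≠ 1 → u ≠ v →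
      ∃ k ∈ L, k * z * k⁻¹ = u ∧ k * s * k⁻¹ = v := fun u hu v hv u1 v1 huv => by
  have key : ∀ u ∈ closure ({z, s} : Set G), u = 1 ∨ u = z ∨ u = s ∨ u = z * s := fun u hu => by
    induction hu using closure_induction with
    | mem x hx => rcases hx with e | e <;> simp [show x = _ from e]
    | one => simp
    | mul a b _ _ ha hb =>
      have k1 : ∀ a, z * (z * a) = a := fun a => by rw [← mul_assoc, hz2, one_mul]
      have k2 : ∀ a, s * (z * a) = z * (s * a) := fun a => by rw [← mul_assoc, ← hzs, mul_assoc]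
      rcases ha with e' | e' | e' | e' <;> rcases hb with e | e | e | e <;>
        simp [e, e', mul_assoc, k1, k2, hz2, hs2, ← hzs]
    | inv a _ ha =>
      rcases ha with e | e | e | e <;>
        simp [e, inv_eq_of_mul_eq_one_right hz2, inv_eq_of_mul_eq_one_right hs2, hzs]
  have c2 : ∀ a b c : G, a * b * c * (a * b)⁻¹ = a * (b * c * b⁻¹) * a⁻¹ := fun a b c => by group
  have e1 : x * (z * s) * x⁻¹ = z := by rw [← conj_mul, hxz, hxs, mul_assoc, hs2, mul_one]
  have e2 : y * (z * s) * y⁻¹ = s := by rw [← conj_mul, hyz, hys, ← hzs, ← mul_assoc, hz2, one_mul]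
  rw [← hzs] at hys
  rcases key u hu with e' | e' | e' | e' <;> rcases key v hv with e | e | e | e <;>
    first | exact absurd e v1 | exact absurd e' u1 | exact absurd (e'.trans e.symm) huv | rw [e, e']
  · exact ⟨1, one_mem _, by simp, by simp⟩
  · exact ⟨y, hy', hyz, hys⟩
  · exact ⟨x * (y * x), mul_mem hx' (mul_mem hy' hx'), by rw [c2, c2, hxz, e2, hxs], by rw [c2, c2, hxs, hys, e1]⟩
  · exact ⟨y * x, mul_mem hy' hx', by rw [c2, hxz, e2], by rw [c2, hxs, hys]⟩
  · exact ⟨x * y, mul_mem hx' hy', by rw [c2, hyz, hxz], by rw [c2, hys, e1]⟩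
  · exact ⟨x, hx', hxz, hxs⟩

/-- Let G be a finite group and let z be an involution of G such that Q, the generalized Fitting subgroup of the centralizer C of z, is a 2-group of symplectic type (every characteristic abelian subgroup of Q is cyclic); suppose every element of Q has order dividing 4. Let g ∈ G with z' = g z g⁻¹ ≠ z and z' ∈ Q. Then z lies in the conjugate g Q g⁻¹, and the subgroup X generated by Q and g Q g⁻¹ induces every automorphism of the four-group generated by z and z': for any two distinct non-identity elements u, v of that four-group there is x ∈ X with x z x⁻¹ = u and x z' x⁻¹ = v. -/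
theorem result {G : Type*} [Group G] [Finite G] (z : G) (hz : orderOf z = 2) (hQ : Cfsg.IsOfSymplecticType ↥(Cfsg.generalizedFittingSubgroup ↥(Subgroup.centralizer ({z} : Set G))))
    (h4 : ∀ q ∈ (Cfsg.generalizedFittingSubgroup ↥(Subgroup.centralizer ({z} : Set G))).map (Subgroup.centralizer ({z} : Set G)).subtype, q ^ 4 = 1) (g : G) (hne : g * z * g⁻¹ ≠ z) (hin : g * z * g⁻¹ ∈ (Cfsg.generalizedFittingSubgroup ↥(Subgroup.centralizer ({z} : Set G))).map (Subgroup.centralizer ({z} : Set G)).subtype) :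
    z ∈ ((Cfsg.generalizedFittingSubgroup ↥(Subgroup.centralizer ({z} : Set G))).map (Subgroup.centralizer ({z} : Set G)).subtype).map (MulAut.conj g).toMonoidHom ∧
      ∀ u ∈ Subgroup.closure ({z, g * z * g⁻¹} : Set G), ∀ v ∈ Subgroup.closure ({z, g * z * g⁻¹} : Set G),
        u ≠ 1 → v ≠ 1 → u ≠ v →
          ∃ x ∈ (Cfsg.generalizedFittingSubgroup ↥(Subgroup.centralizer ({z} : Set G))).map (Subgroup.centralizer ({z} : Set G)).subtype ⊔ ((Cfsg.generalizedFittingSubgroup ↥(Subgroup.centralizer ({z} : Set G))).map (Subgroup.centralizer ({z} : Set G)).subtype).map (MulAut.conj g).toMonoidHom, x * z * x⁻¹ = u ∧ x * (g * z * g⁻¹) * x⁻¹ = v := by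
  have h := ws_of hz hQ rfl h4
  have h1 := h.symm hin hne
  have h' := h.cj g
  obtain ⟨y, hy, hys⟩ := h.exists_conj hin h'.ne h'.zsq hne
  obtain ⟨x, hx, hxz⟩ := h'.exists_conj h1 h.ne h.zsq hne.symm
  exact ⟨h1, aux (mem_sup_right hx) (mem_sup_left hy) hys hxz (commute_iff_conj.1 (h.central y hy).symm)
    (commute_iff_conj.1 (h'.central x hx).symm) (h.central _ hin).eq h.zsq h'.zsq⟩

end Cfsg.Agent.S1774
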