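import Mathlib
import Cfsg.Statements.S1775
import Cfsg.Agent.S0205
import Cfsg.Agent.Comp2.Balance2
import Cfsg.Agent.Comp2.PLayer
import Cfsg.Agent.Comp2.GenFitting
import Cfsg.Agent.Core.Basic
-- import your own Cfsg.Agent.* helpers here

set_option autoImplicit false
open Cfsg

namespace Cfsg.Agent.S1775

open Subgroup Cfsg.Agent.Comp2

theorem aux {X : Type*} [Group X] [Finite X] (hB : HasBProperty (X ⧸ oddCore X)) {x : X}
    (hx : orderOf x = 2) {K : Subgroup X} (hK : K ≤ centralizer ({x} : Set X))
    (h : IsPComponent 2 (K.subgroupOf (centralizer ({x} : Set X)))) :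
    IsComponent ((K.map (QuotientGroup.mk' (oddCore X))).subgroupOf
      (centralizer ({QuotientGroup.mk' (oddCore X) x} : Set (X ⧸ oddCore X)))) := by
  have hc : (Nat.card (QuotientGroup.mk' (oddCore X)).ker).Coprime 2 := by
    rw [QuotientGroup.ker_mk']; exact pPrimeCore_coprime 2
  have e := centralizer_singleton_map_of_coprime _ (QuotientGroup.mk'_surjective _) hc (x := x)
    (k := 1) hx
  have h1 := pComponent_map_of_coprime _ ((QuotientGroup.mk' (oddCore X)).subgroupMap_surjective _)
    (by
      rw [Comp2.ker_subgroupMap]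
      exact hc.coprime_dvd_left (card_comap_dvd_of_injective _ _ (subtype_injective _))) h
  rw [map_subgroupMap_subgroupOf _ hK, ← e] at h1
  have h2 : orderOf (QuotientGroup.mk' (oddCore X) x) = 2 := by
    refine ((Nat.dvd_prime Nat.prime_two).1 ((orderOf_map_dvd _ x).trans hx.dvd)).resolve_left fun h3 => ?_
    rw [orderOf_eq_one_iff, ← MonoidHom.mem_ker] at h3
    have h4 := hc.coprime_dvd_left (orderOf_dvd_natCard _ h3)
    rw [hx] at h4
    exact absurd h4 (by decide)
  have h3 := hB _ h2
  rw [show oddCore (X ⧸ oddCore X) = ⊥ from pPrimeCore_quotient_pPrimeCore 2, le_bot_iff,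
    map_eq_bot_iff_of_injective _ (subtype_injective _)] at h3
  exact (pComponent_component_iff h1).2 (commutator_eq_bot_mono h3 (pComponent_le_pLayer h1) le_rfl)

/-- Let G be a finite group whose generalized Fitting subgroup is a non-abelian simple group and in which every proper section (every quotient H/N of a proper subgroup H, or of G by a nontrivial normal subgroup) has the B-property. Let x, y be commuting involutions, let D be the intersection of the 2-layer of C_G(x) with C_G(y), and let J be a 2-component of D. Write Q for the quotient of C_G(y) by its largest normal odd-order subgroup. Then (i) the image of J in Q is a component of the centralizer in Q of the image of x; and (ii) for every J-invariant subgroup E of odd order of C_G(x) ∩ C_G(y), the commutator subgroup [J, E] lies in the largest normal odd-order subgroup of C_G(y). -/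
theorem result {G : Type*} [Group G] [Finite G]
    (hF : IsSimpleGroup ↥(Cfsg.generalizedFittingSubgroup G)) (hF' : ¬ IsMulCommutative ↥(Cfsg.generalizedFittingSubgroup G))
    (hsec : ∀ (H : Subgroup G) (N : Subgroup ↥H) [N.Normal], (H ≠ ⊤ ∨ N ≠ ⊥) → Cfsg.HasBProperty (↥H ⧸ N))
    (x y : G) (hx : orderOf x = 2) (hy : orderOf y = 2) (hxy : x * y = y * x)
    (J : Subgroup ↥((Cfsg.pLayer 2 ↥(Subgroup.centralizer ({x} : Set G))).map (Subgroup.centralizer ({x} : Set G)).subtype ⊓ Subgroup.centralizer ({y} : Set G)))
    (hJ : Cfsg.IsPComponent 2 J) :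
    Cfsg.IsComponent
        ((((J.map (Subgroup.subtype _)).subgroupOf (Subgroup.centralizer ({y} : Set G))).map (QuotientGroup.mk' (Cfsg.oddCore ↥(Subgroup.centralizer ({y} : Set G))))).subgroupOf
          (Subgroup.centralizer ({(QuotientGroup.mk' (Cfsg.oddCore ↥(Subgroup.centralizer ({y} : Set G))) ⟨x, Subgroup.mem_centralizer_singleton_iff.mpr hxy⟩ : ↥(Subgroup.centralizer ({y} : Set G)) ⧸ Cfsg.oddCore ↥(Subgroup.centralizer ({y} : Set G)))} : Set _))) ∧
      ∀ E : Subgroup G, E ≤ Subgroup.centralizer ({x} : Set G) ⊓ Subgroup.centralizer ({y} : Set G) → Odd (Nat.card ↥E) →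
        (∀ j ∈ J.map (Subgroup.subtype _), ∀ e ∈ E, j * e * j⁻¹ ∈ E) →
          ⁅J.map (Subgroup.subtype _), E⁆ ≤ (Cfsg.oddCore ↥(Subgroup.centralizer ({y} : Set G))).map (Subgroup.centralizer ({y} : Set G)).subtype := by
  open Subgroup Cfsg.Agent.Comp2 in
  have hxy' : x ∈ centralizer ({y} : Set G) := Subgroup.mem_centralizer_singleton_iff.mpr hxy
  have hne : centralizer ({y} : Set G) ≠ ⊤ := by
    intro h
    have hyc : ∀ g, g * y = y * g := fun g => mem_centralizer_singleton_iff.1 (h ▸ mem_top g)
    have hyF : y ∈ generalizedFittingSubgroup G := centralizer_genFitting_le fun g _ => hyc g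
    rcases hF.eq_bot_or_eq_top_of_normal (center (generalizedFittingSubgroup G)) inferInstance with
      h1 | h1
    · have : (⟨y, hyF⟩ : generalizedFittingSubgroup G) ∈ center _ :=
        mem_center_iff.2 fun g => Subtype.ext (hyc g)
      rw [h1, mem_bot] at this
      rw [show y = 1 from congrArg Subtype.val this, orderOf_one] at hy
      omega
    · exact hF' ⟨⟨fun a b => mem_center_iff.1 (h1 ▸ mem_top b) a⟩⟩
  have hJD := map_subtype_le J
  obtain ⟨J', hJ'⟩ : ∃ J' : Subgroup G, J' = J.map (Subgroup.subtype _) := ⟨_, rfl⟩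
  rw [← subgroupOf_map_subtype_self J, ← hJ'] at hJ
  rw [← hJ'] at hJD ⊢
  have hDM : (pLayer 2 ↥(centralizer ({x} : Set G))).map (centralizer ({x} : Set G)).subtype ⊓
      centralizer ({y} : Set G) ≤ centralizer ({x} : Set G) ⊓ centralizer ({y} : Set G) :=
    inf_le_inf_right _ (map_subtype_le _)
  rw [pComponent_subgroupOf_iff_in hJD hDM (Subgroup.Normal.isSubnormal
    (normal_subgroupOf_of_le_normalizer (Core.le_normalizer_inf
      (Core.le_normalizer_map_subtype (inf_le_left.trans le_normalizer) _)
      (inf_le_right.trans le_normalizer))))] at hJ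
  have hJM := hJD.trans hDM
  have hC : centralizer ({⟨x, hxy'⟩} : Set (centralizer ({y} : Set G))) =
      (centralizer ({x} : Set G) ⊓ centralizer ({y} : Set G)).subgroupOf _ := by
    ext g
    simp only [mem_centralizer_singleton_iff (k := g), mem_subgroupOf, mem_inf, g.2, and_true,
      mem_centralizer_singleton_iff (k := g.1), Subtype.ext_iff, coe_mul]
  have h1 := aux (hsec _ _ (Or.inl hne)) (x := ⟨x, hxy'⟩) (by rwa [orderOf_mk])
    (K := J'.subgroupOf _) (hC ▸ comap_mono hJM) (by
      rw [hC, ← pComponent_map_equiv (subgroupOfEquivOfLe inf_le_right)]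
      convert hJ using 1
      ext ⟨g, hg⟩
      exact ⟨fun ⟨a, ha, e⟩ => by rw [← e]; exact ha, fun h => ⟨⟨⟨g, hg.2⟩, hg⟩, h, rfl⟩⟩)
  refine ⟨h1, fun E hE hEo hn => ?_⟩
  have hs : Group.IsSolvable E := S0205.result hEo
  have hEy := hE.trans inf_le_right
  have hle : ∀ Y : Subgroup G, Y ≤ centralizer ({x} : Set G) ⊓ centralizer ({y} : Set G) →
      (Y.subgroupOf (centralizer ({y} : Set G))).map (QuotientGroup.mk' (oddCore _)) ≤
        centralizer ({QuotientGroup.mk' (oddCore _) (⟨x, hxy'⟩ : centralizer ({y} : Set G))} : Set _) := by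
    rintro Y hY _ ⟨g, hg, rfl⟩
    rw [mem_centralizer_singleton_iff, ← map_mul, ← map_mul]
    exact congrArg _ (Subtype.ext (mem_centralizer_singleton_iff.1 (hY hg).1))
  have h2 := component_in_commutator_eq_bot_of_isSolvable (hle _ hJM) h1 (hle _ hE)
    (by
      haveI : Group.IsSolvable (E.subgroupOf (centralizer ({y} : Set G))) :=
        Group.isSolvable_of_isSolvable_injective (f := (subgroupOfEquivOfLe hEy).toMonoidHom)
          (subgroupOfEquivOfLe hEy).injective
      exact Group.isSolvable_of_surjective (MonoidHom.subgroupMap_surjective _ _))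
    (Core.map_le_normalizer_map (A := J'.subgroupOf _) (K := E.subgroupOf _)
      (fun j hj => mem_normalizer_fintype fun e he => hn j hj e he) _)
  rw [← map_commutator, Subgroup.map_eq_bot_iff, QuotientGroup.ker_mk'] at h2
  have h3 := map_mono (f := (centralizer ({y} : Set G)).subtype) h2
  rwa [map_commutator, map_subgroupOf_eq_of_le hEy,
    map_subgroupOf_eq_of_le (hJM.trans inf_le_right)] at h3

end Cfsg.Agent.S1775
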