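import Mathlib
import Cfsg.Statements.S1780
import Cfsg.Agent.Inv.TI2
import Cfsg.Agent.FGS.Semi

set_option autoImplicit false
open Cfsg

namespace Cfsg.Agent.S1780

open Cfsg.Agent.FGS SemidirectProduct Subgroup

/-- Let A be a finite abelian 2-group and t an automorphism of A whose order is a power of 2. If every element of A fixed by t² is fixed by t, then t fixes every element of A. -/
theorem result {A : Type*} [CommGroup A] [Finite A]
    (hA : IsPGroup 2 A) (t : MulAut A) (ht : ∃ k : ℕ, orderOf t = 2 ^ k) (hC : ∀ a : A, t (t a) = a → t a = a) :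
    ∀ a : A, t a = a := by
  obtain ⟨k, hk⟩ := ht
  let φ := MonoidHom.id (MulAut A)
  have key : ∀ (s : MulAut A) (a : A), (inr s : A ⋊[φ] MulAut A) * inl a = inl a * inr s ↔ s a = a :=
    fun s a => by
      rw [← mul_inv_eq_iff_eq_mul, sd_conj]; exact inl_inj
  have := Inv.le_cent_of_sq (A := sdG φ) (t := inr t) (hA.of_equiv (sdEquivG φ))
    ⟨⟨by
      rintro ⟨_, a, rfl⟩ ⟨_, b, rfl⟩
      exact Subtype.ext (show (inl a * inl b : A ⋊[φ] MulAut A) = inl b * inl a by
        rw [← map_mul, ← map_mul, mul_comm])⟩⟩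
    (LocalEven.isPGroup_zpowers (k := k) (by rw [← map_pow, ← hk, pow_orderOf_eq_one, map_one]))
    (le_normalizer_of_normal (mem_top _)) (by
      rintro _ ⟨a, rfl⟩ h
      rw [← map_mul, key] at h
      exact (key t a).2 (hC a h))
  exact fun a => (key t a).1 (mem_centralizer_singleton_iff.1 (this ⟨a, rfl⟩)).symm

end Cfsg.Agent.S1780
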