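import Mathlib
import Cfsg.Statements.S1781
import Cfsg.Agent.Inv.TI2

set_option autoImplicit false
open Cfsg

namespace Cfsg.Agent.S1781

open Cfsg.Agent.LocalEven Subgroup

/-- Let A be an abelian 2-subgroup of the finite group G such that every conjugate of A equals A or meets A trivially, and let g ∈ G with g A g⁻¹ ≠ A. Then either the subgroup of those elements of A that normalize g A g⁻¹ is an elementary abelian 2-group, or A and g A g⁻¹ commute elementwise. -/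
theorem result {G : Type*} [Group G] [Finite G] (A : Subgroup G)
    (hA2 : IsPGroup 2 ↥A) (hAa : IsMulCommutative ↥A)
    (hti : ∀ h : G, A.map (MulAut.conj h).toMonoidHom = A ∨ A.map (MulAut.conj h).toMonoidHom ⊓ A = ⊥)
    (g : G) (hg : A.map (MulAut.conj g).toMonoidHom ≠ A) :
    Cfsg.IsElementaryAbelian 2 (A ⊓ Subgroup.normalizer ((A.map (MulAut.conj g).toMonoidHom : Subgroup G) : Set G)) ∨
      ⁅A, A.map (MulAut.conj g).toMonoidHom⁆ = ⊥ := by
  haveI : Fact (Nat.Prime 2) := ⟨Nat.prime_two⟩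
  have hcom : ∀ a ∈ A, ∀ b ∈ A, a * b = b * a := fun a ha b hb =>
    congrArg Subtype.val (hAa.is_comm.comm ⟨a, ha⟩ ⟨b, hb⟩)
  have hN : ∀ a ∈ A, a ≠ 1 → ∀ b, a * b = b * a → b ∈ normalizer (A : Set G) := fun a ha h1 b h =>
    cj_eq_self_iff.1 ((hti b).resolve_right fun e => h1 (mem_bot.1 (e.le
      ⟨mem_cj'.2 ⟨a, ha, by rw [← h, mul_inv_cancel_right]⟩, ha⟩)))
  have hAB : cj g A ⊓ A = ⊥ := (hti g).resolve_left hg
  refine or_iff_not_imp_left.2 fun h => ?_
  obtain ⟨t, ht, h2⟩ : ∃ t ∈ A ⊓ normalizer (cj g A : Set G), t ^ 2 ≠ 1 := by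
    by_contra h3
    push Not at h3
    exact h ⟨⟨⟨fun a b => Subtype.ext (hcom _ a.2.1 _ b.2.1)⟩⟩, h3⟩
  have h3 := Inv.le_cent_of_sq (isPGroup_cj g hA2) (isMulCommutative_cj g hAa)
    (hA2.to_le (zpowers_le.2 ht.1)) ht.2 fun b hb h4 => by
      have h5 := hN _ (mul_mem ht.1 ht.1) (by rwa [← pow_two]) b h4
      have : t * b * t⁻¹ * b⁻¹ ∈ cj g A ⊓ A :=
        mem_inf.2 ⟨(cj g A).mul_mem (conj_mem_of_mem_normalizer ht.2 hb) ((cj g A).inv_mem hb), by
          rw [show t * b * t⁻¹ * b⁻¹ = t * (b * t⁻¹ * b⁻¹) by group]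
          exact A.mul_mem ht.1 (conj_mem_of_mem_normalizer h5 (A.inv_mem ht.1))⟩
      rwa [hAB, mem_bot, mul_inv_eq_one, mul_inv_eq_iff_eq_mul] at this
  refine Inv.ti_commute hA2 (isPGroup_cj g hA2) (fun a _ => ?_) (card_cj g A).ge
    ((inf_comm _ _).trans hAB) fun b hb => hN t ht.1 (fun e => h2 (by rw [e, one_pow])) b
      (mem_centralizer_singleton_iff.1 (h3 hb)).symm
  have := hti (g⁻¹ * a * g)
  change cj _ A = A ∨ cj _ A ⊓ A = ⊥ at this
  rwa [← cj_inj (g := g), ← cj_eq_bot (g := g), cj_inf, cj_cj, show g * (g⁻¹ * a * g) = a * g by group,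
    cj_mul] at this

end Cfsg.Agent.S1781
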