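import Mathlib
import Cfsg.Statements.S1782
import Cfsg.Agent.Inv.TI2

set_option autoImplicit false
open Cfsg

namespace Cfsg.Agent.S1782

/-- Let S be a finite 2-group and Δ a set of subgroups of S closed under conjugation by S, all of the same order, each with nontrivial Frattini subgroup, and such that two distinct members of Δ meet trivially. Then any two distinct members of Δ commute elementwise. -/
theorem result {S : Type*} [Group S] [Finite S] (hS : IsPGroup 2 S)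
    (Δ : Set (Subgroup S)) (hinv : ∀ s : S, ∀ R ∈ Δ, R.map (MulAut.conj s).toMonoidHom ∈ Δ)
    (hΦ : ∀ R ∈ Δ, frattini ↥R ≠ ⊥) (hord : ∀ R ∈ Δ, ∀ T ∈ Δ, Nat.card ↥R = Nat.card ↥T)
    (hti : ∀ R ∈ Δ, ∀ T ∈ Δ, R = T ∨ R ⊓ T = ⊥) :
    ∀ R ∈ Δ, ∀ T ∈ Δ, R ≠ T → ⁅R, T⁆ = ⊥ := by
  haveI : Fact (Nat.Prime 2) := ⟨Nat.prime_two⟩
  refine Inv.family_commute _ ⊤ Δ rfl (hS.to_subgroup ⊤) (fun _ _ => le_top) (fun s _ => hinv s)
    (fun R hR => ?_) hord hti
  by_contra h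
  push Not at h
  refine hΦ R hR ((PGrp.frattini_eq_bot_iff (hS.to_subgroup R)).2 ⟨⟨⟨fun a b => Subtype.ext ?_⟩⟩,
    fun x => Subtype.ext (by rw [pow_two]; exact h _ x.2)⟩)
  have := inv_eq_of_mul_eq_one_right (h _ (a * b).2)
  rw [Subgroup.coe_mul, mul_inv_rev, inv_eq_of_mul_eq_one_right (h _ a.2),
    inv_eq_of_mul_eq_one_right (h _ b.2)] at this
  exact this.symm

end Cfsg.Agent.S1782
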