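import Mathlib
import Cfsg.Statements.S1783
import Cfsg.Agent.Inv.TI2
import Cfsg.Agent.Core.PHall
import Cfsg.Agent.Comp2.GenFitting
import Cfsg.Agent.LocalEven.Cores

set_option autoImplicit false
open Cfsg

namespace Cfsg.Agent.S1783

open Cfsg.Agent.LocalEven Subgroup
theorem aux {G : Type*} [Group G] [Finite G] {A S K : Subgroup G} (hS : IsPGroup 2 S)
    (hle : ∀ x ∈ K, cj x A ≤ S) (hK : S ≤ K) (hAa : IsMulCommutative A) (hsq : ∃ a ∈ A, a * a ≠ 1)
    (hti : ∀ h, cj h A = A ∨ cj h A ⊓ A = ⊥) {x y a b : G} (hx : x ∈ K) (hy : y ∈ K) (ha : a ∈ A)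
    (hb : b ∈ A) : Commute (x * a * x⁻¹) (y * b * y⁻¹) := by
  by_cases e : cj x A = cj y A
  · exact congrArg Subtype.val ((isMulCommutative_cj y hAa).is_comm.comm ⟨_, e ▸ conj_mem_cj ha⟩
      ⟨_, conj_mem_cj hb⟩)
  have := Cfsg.Agent.Inv.family_commute _ S {R | ∃ x ∈ K, cj x A = R} rfl hS
    (by rintro _ ⟨x, hx, rfl⟩; exact hle x hx)
    (by rintro s hs _ ⟨x, hx, rfl⟩; exact ⟨s * x, mul_mem (hK hs) hx, cj_mul ..⟩)
    (by
      rintro _ ⟨x, hx, rfl⟩
      obtain ⟨a, ha, h⟩ := hsq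
      refine ⟨_, conj_mem_cj ha, fun e => h ?_⟩
      rw [conj_mul] at e
      simpa using e)
    (by rintro _ ⟨x, -, rfl⟩ _ ⟨y, -, rfl⟩; rw [card_cj, card_cj])
    (by
      rintro _ ⟨x, -, rfl⟩ _ ⟨y, -, rfl⟩
      have := hti (y⁻¹ * x)
      rwa [← cj_inj (g := y), ← cj_eq_bot (g := y), cj_inf, cj_cj, mul_inv_cancel_left] at this)
    _ ⟨x, hx, rfl⟩ _ ⟨y, hy, rfl⟩ e
  exact commutatorElement_eq_one_iff_commute.1
    (mem_bot.1 (this.le (commutator_mem_commutator (conj_mem_cj ha) (conj_mem_cj hb))))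

/-- Let X be a finite group whose generalized Fitting subgroup equals its largest normal 2-subgroup Q, and let A be an abelian 2-subgroup of X such that every conjugate of A equals A or meets A trivially. Let B be the subgroup generated by the squares of the elements of A. Then B lies in Q, and if B is not an elementary abelian 2-group then the normal closure of B in X is commutative. -/
theorem result {X : Type*} [Group X] [Finite X]
    (hX : Cfsg.generalizedFittingSubgroup X = Cfsg.pCore 2 X) (A : Subgroup X) (hA2 : IsPGroup 2 ↥A) (hAa : IsMulCommutative ↥A)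
    (hti : ∀ h : X, A.map (MulAut.conj h).toMonoidHom = A ∨ A.map (MulAut.conj h).toMonoidHom ⊓ A = ⊥) :
    Subgroup.closure ((fun a : X => a ^ 2) '' (A : Set X)) ≤ Cfsg.pCore 2 X ∧
      (¬ Cfsg.IsElementaryAbelian 2 (Subgroup.closure ((fun a : X => a ^ 2) '' (A : Set X))) →
        IsMulCommutative ↥(Subgroup.normalClosure ((fun a : X => a ^ 2) '' (A : Set X)))) := by
  haveI : Fact (Nat.Prime 2) := ⟨Nat.prime_two⟩
  have hQ : IsPGroup 2 (pCore 2 X) := LocalEven.isPGroup_pCore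
  have hcom : ∀ a ∈ A, ∀ b ∈ A, Commute a b := fun a ha b hb =>
    congrArg Subtype.val (hAa.is_comm.comm ⟨a, ha⟩ ⟨b, hb⟩)
  set B := closure ((fun a : X => a ^ 2) '' (A : Set X)) with hB
  have hBA : B ≤ A := (closure_le _).2 (by rintro _ ⟨a, ha, rfl⟩; exact A.pow_mem ha 2)
  have h1 : B ≤ pCore 2 X := by
    refine (closure_le _).2 ?_
    rintro _ ⟨a, ha, rfl⟩
    by_cases hsq : ∃ a ∈ A, a * a ≠ 1
    swap
    · push Not at hsq
      change a ^ 2 ∈ pCore 2 X
      rw [pow_two, hsq a ha]; exact one_mem _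
    refine Core.mem_pCore_of_frattini ((Comp2.genFitting_eq_pCore_iff 2).1 hX) fun q hq => ?_
    have h := aux (S := A ⊔ pCore 2 X) (K := A ⊔ pCore 2 X) (hA2.to_sup_of_normal_right hQ)
      (fun x hx => cj_le_of_mem hx le_sup_left) le_rfl hAa hsq hti (one_mem _) (mem_sup_right hq) ha (inv_mem ha)
    rw [one_mul, inv_one, mul_one] at h
    have hm : a * (q * a⁻¹ * q⁻¹) ∈ pCore 2 X := by
      rw [show a * (q * a⁻¹ * q⁻¹) = a * q * a⁻¹ * q⁻¹ by group]
      exact mul_mem (Normal.conj_mem inferInstance _ hq _) (inv_mem hq)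
    refine ⟨⟨_, hm⟩ ^ 2, PGrp.pow_mem_frattini hQ _, ?_⟩
    change (a * (q * a⁻¹ * q⁻¹)) ^ 2 = _
    rw [h.mul_pow]; simp only [pow_two]; group
  refine ⟨h1, fun h2 => ?_⟩
  have hBa := isMulCommutative_of_le hAa hBA
  have h3 : ∃ b ∈ B, b * b ≠ 1 := by
    by_contra h
    push Not at h
    exact h2 ⟨hBa, fun b hb => by rw [pow_two, h b hb]⟩
  have h4 : ∀ h, cj h B = B ∨ cj h B ⊓ B = ⊥ := fun h => (hti h).imp (fun e => by
      have e' : h ∈ normalizer (A : Set X) := cj_eq_self_iff.1 e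
      refine eq_of_le_of_card_ge ?_ (card_cj h B).ge
      rw [hB, cj_closure]
      refine closure_mono ?_
      rintro _ ⟨_, ⟨a, ha, rfl⟩, rfl⟩
      exact ⟨_, conj_mem_of_mem_normalizer e' ha, conj_pow⟩)
    fun e => le_bot_iff.1 ((inf_le_inf (cj_mono h hBA) hBA).trans e.le)
  have h5 : ∀ u ∈ Group.conjugatesOfSet ((fun a : X => a ^ 2) '' (A : Set X)),
      ∀ v ∈ Group.conjugatesOfSet ((fun a : X => a ^ 2) '' (A : Set X)), u * v = v * u := by
    intro u hu v hv
    obtain ⟨a, ha, h⟩ := Group.mem_conjugatesOfSet_iff.1 hu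
    obtain ⟨b, hb, h'⟩ := Group.mem_conjugatesOfSet_iff.1 hv
    obtain ⟨x, rfl⟩ := isConj_iff.1 h
    obtain ⟨y, rfl⟩ := isConj_iff.1 h'
    exact aux (K := ⊤) hQ (fun x _ => (cj_mono x h1).trans (cj_eq_of_normal x _).le) le_top hBa h3 h4
      (mem_top x) (mem_top y) (subset_closure ha) (subset_closure hb)
  exact ⟨⟨fun a b => Subtype.ext (closure_induction₂ (p := fun x y _ _ => x * y = y * x)
    (fun x y hx hy => h5 x hx y hy) (by simp) (by simp)
    (fun x y z _ _ _ h h' => (Commute.mul_left h h' :)) (fun x y z _ _ _ h h' => (Commute.mul_right h h' :))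
    (fun x y _ _ h => (Commute.inv_left h :)) (fun x y _ _ h => (Commute.inv_right h :)) a.2 b.2)⟩⟩

end Cfsg.Agent.S1783
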