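import Mathlib
import Cfsg.Statements.S1784
import Cfsg.Agent.PLocal.LX2
import Cfsg.Agent.PGrp.Extra2

set_option autoImplicit false
open Cfsg

namespace Cfsg.Agent.S1784

open Cfsg.Agent.LocalEven Cfsg.Agent.Fischer Subgroup

/-- Let G be a finite group and let z be an involution of G such that Q, the generalized Fitting subgroup of the centralizer C of z, is a 2-group of symplectic type (every characteristic abelian subgroup of Q is cyclic); suppose Q is extraspecial, and view Q inside G. Let α be an involution of C that is not in Q, and let Q₀ be the subgroup of those q ∈ Q whose commutator with α lies in the subgroup generated by z. Then (a) the subgroup generated by the commutators α q α⁻¹ q⁻¹, q ∈ Q, equals the centre of Q₀; and (b) if Q₀ is not contained in the product of the centralizer of α in Q with the subgroup generated by z, then some element of Q conjugates α to α z. -/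
theorem result {G : Type*} [Group G] [Finite G] (z : G) (hz : orderOf z = 2) (hQ : Cfsg.IsOfSymplecticType ↥(Cfsg.generalizedFittingSubgroup ↥(Subgroup.centralizer ({z} : Set G)))) (hE : Cfsg.IsExtraspecial 2 ↥(Cfsg.generalizedFittingSubgroup ↥(Subgroup.centralizer ({z} : Set G))))
    (α : G) (hα : orderOf α = 2) (hαC : α ∈ Subgroup.centralizer ({z} : Set G)) (hαQ : α ∉ (Cfsg.generalizedFittingSubgroup ↥(Subgroup.centralizer ({z} : Set G))).map (Subgroup.centralizer ({z} : Set G)).subtype)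
    (Q₀ : Subgroup G) (hQ₀ : ∀ q : G, q ∈ Q₀ ↔ (q ∈ (Cfsg.generalizedFittingSubgroup ↥(Subgroup.centralizer ({z} : Set G))).map (Subgroup.centralizer ({z} : Set G)).subtype ∧ α * q * α⁻¹ * q⁻¹ ∈ Subgroup.zpowers z)) :
    Subgroup.closure ((fun q : G => α * q * α⁻¹ * q⁻¹) '' ((Cfsg.generalizedFittingSubgroup ↥(Subgroup.centralizer ({z} : Set G))).map (Subgroup.centralizer ({z} : Set G)).subtype : Set G)) = (Subgroup.center ↥Q₀).map Q₀.subtype ∧
      (¬ Q₀ ≤ ((Cfsg.generalizedFittingSubgroup ↥(Subgroup.centralizer ({z} : Set G))).map (Subgroup.centralizer ({z} : Set G)).subtype ⊓ Subgroup.centralizer ({α} : Set G)) ⊔ Subgroup.zpowers z →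
        ∃ q ∈ (Cfsg.generalizedFittingSubgroup ↥(Subgroup.centralizer ({z} : Set G))).map (Subgroup.centralizer ({z} : Set G)).subtype, q * α * q⁻¹ = α * z) := by
  set Q := (generalizedFittingSubgroup (centralizer ({z} : Set G))).map (centralizer ({z} : Set G)).subtype with hQd
  have h : LS Q z := (PLocal.ls_of_genFit hz hQd.symm (PGrp.isExtraspecial_of_equiv
    (equivMapOfInjective _ _ (subtype_injective _)) hE)).1
  have hαz : Commute α z := mem_centralizer_singleton_iff.1 hαC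
  have hN := h.mem_normalizer hαz
  have h2 : α * α = 1 := by rw [← pow_two, ← hα, pow_orderOf_eq_one]
  have hi : α⁻¹ = α := inv_eq_of_mul_eq_one_right h2
  have hQ₀' : ∀ q, q ∈ Q₀ ↔ q ∈ Q ∧ (α * q * α⁻¹ = q ∨ α * q * α⁻¹ = q * z) := fun q => by
    rw [hQ₀, mem_zpowers_two h.zsq, mul_inv_eq_one, mul_inv_eq_iff_eq_mul (c := z)]
    exact and_congr_right fun hq => by rw [(h.central q hq).eq]
  have hcj : ∀ a b, Commute (α * a * α⁻¹) b ↔ Commute a (α * b * α⁻¹) := fun a b => by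
    rw [PLocal.commute_cj_iff, hi]
  have hm : ∀ q ∈ Q, α * q * α⁻¹ ∈ Q := fun q hq => conj_mem_of_mem_normalizer hN hq
  set D := closure ((fun q : G => α * q * α⁻¹ * q⁻¹) '' (Q : Set G)) with hD
  have hg : ∀ q ∈ Q, α * q * α⁻¹ * q⁻¹ ∈ D := fun q hq => subset_closure ⟨q, hq, rfl⟩
  have hDQ : D ≤ Q := (closure_le _).2 (by rintro _ ⟨q, hq, rfl⟩; exact mul_mem (hm q hq) (inv_mem hq))
  have hzD : z ∈ D := by
    obtain ⟨q, hq, h3⟩ : ∃ q ∈ Q, ¬ (α * q * α⁻¹ = q ∨ α * q * α⁻¹ = q * z) := by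
      by_contra h3
      push Not at h3
      exact hαQ (h.mem_of_trivial hαz h3)
    obtain ⟨y, hy, e⟩ := h.exists_conj (hDQ (hg q hq)) (fun e => h3 (.inl (mul_inv_eq_one.1 e)))
      fun e => h3 (.inr (by rw [mul_inv_eq_iff_eq_mul.1 e, (h.central q hq).eq]))
    have := mul_mem (inv_mem (hg q hq)) (mul_mem (inv_mem (hg y hy)) (hg _ (mul_mem hy hq)))
    rwa [show (α * y * α⁻¹ * y⁻¹)⁻¹ * (α * (y * q) * α⁻¹ * (y * q)⁻¹) = y * (α * q * α⁻¹ * q⁻¹) * y⁻¹ by group,
      e, inv_mul_cancel_left] at this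
  refine ⟨le_antisymm ((closure_le _).2 ?_) ?_, fun h3 => ?_⟩
  · rintro _ ⟨q, hq, rfl⟩
    have hx := hDQ (hg q hq)
    refine ⟨⟨α * q * α⁻¹ * q⁻¹, (hQ₀ _).2 ⟨hx, ?_⟩⟩, mem_center_iff.2 fun v => Subtype.ext ?_, rfl⟩
    · have : α * (α * q * α⁻¹ * q⁻¹) * α⁻¹ = (α * q * α⁻¹ * q⁻¹)⁻¹ := by
        rw [hi, ← mul_assoc, ← mul_assoc, ← mul_assoc, h2]; simp [hi, mul_assoc]
      rw [this, ← mul_inv_rev]
      exact inv_mem ((mem_zpowers_two h.zsq).2 (h.sq _ hx))
    · obtain ⟨hv, e⟩ := (hQ₀' v).1 v.2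
      refine (Commute.symm ?_).eq.symm.symm
      change Commute (α * q * α⁻¹ * q⁻¹) v
      rw [h.commute_mul_iff (hm q hq) (inv_mem hq) hv, hcj, Commute.inv_left_iff]
      rcases e with e | e <;> rw [e]
      rw [Commute.symm_iff, h.commute_mul_z_iff hq, Commute.symm_iff]
  · rintro _ ⟨x, hx, rfl⟩
    by_contra h3
    obtain ⟨q, hq, h4, h5⟩ := h.dual hDQ hzD ((hQ₀' x).1 x.2).1 h3
    refine h5 (congrArg Subtype.val (mem_center_iff.1 hx ⟨q, (hQ₀' q).2 ⟨hq, ?_⟩⟩))
    refine h.eq_or_of_commute_iff (hm q hq) hq fun v hv => ?_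
    have := (h.commute_mul_iff (hm v hv) (inv_mem hv) hq).1 (h4 _ (hg v hv)).symm
    rw [hcj, Commute.symm_iff, this, Commute.inv_left_iff, Commute.symm_iff]
  · obtain ⟨q, hq, h4⟩ := SetLike.not_le_iff_exists.1 h3
    obtain ⟨hq, e | e⟩ := (hQ₀' q).1 hq
    · exact absurd (mem_sup_left (mem_inf.2 ⟨hq, mem_centralizer_singleton_iff.2
        (mul_inv_eq_iff_eq_mul.1 e).symm⟩)) h4
    · refine ⟨q, hq, ?_⟩
      have e1 : α * q = q * z * α := mul_inv_eq_iff_eq_mul.1 e
      rw [mul_inv_eq_iff_eq_mul, mul_assoc α, (h.central q hq).eq, ← mul_assoc, e1, mul_assoc (q * z),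
        hαz.eq, mul_assoc, h.zcancel]

end Cfsg.Agent.S1784
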