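import Mathlib
import Cfsg.Statements.S1851
import Cfsg.Agent.Comp2.CharP
import Cfsg.Agent.LocalEven.Trace
import Cfsg.Agent.LocalEven.CharP2
import Cfsg.Agent.BG.AmbCore
import Cfsg.Agent.Core.Coprime2

set_option autoImplicit false
open Cfsg

namespace Cfsg.Agent.S1851

open Cfsg.Agent.Comp2

open Subgroup Cfsg.Agent.BG Cfsg.Agent.LocalEven
open scoped commutatorElement

theorem res_of_perf {G : Type*} [Group G] [Finite G] {K : Subgroup G} (hK : ⁅K, K⁆ = K) :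
    pResOf 2 K = K := by
  refine le_antisymm (pResOf_le K) ?_
  haveI := Amb.normal_subgroupOf_of_le_norm (le_normalizer_pResOf (p := 2) K)
  have h1 : IsPGroup 2 (K ⧸ (pResOf 2 K).subgroupOf K) := fun x => by
    obtain ⟨x, rfl⟩ := QuotientGroup.mk_surjective x
    obtain ⟨k, hk⟩ := exists_pow_mem_pResOf (p := 2) x.2
    exact ⟨k, by rw [← QuotientGroup.mk_pow, QuotientGroup.eq_one_iff]; exact hk⟩
  haveI := h1.isNilpotent
  have h2 : ⁅K.subgroupOf K, K.subgroupOf K⁆ = K.subgroupOf K := by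
    apply map_injective K.subtype_injective
    rw [map_commutator, Amb.map_subtype_subgroupOf le_rfl, hK]
  have := le_of_perfect_of_isSolvable_quotient (N := (pResOf 2 K).subgroupOf K) h2 inferInstance
  intro x hx
  exact this (show (⟨x, hx⟩ : K) ∈ K.subgroupOf K from hx)

theorem odd_eq {G : Type*} [Group G] (K : Subgroup G) : oddGenerated K = pResOf 2 K := by
  rw [pResOf_eq]; unfold oddGenerated
  simp only [Nat.coprime_two_right]

theorem bottom {G : Type*} [Group G] [Finite G] {L R V : Subgroup G} (hL : ⁅L, L⁆ = L)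
    (hR : IsPGroup 2 R) (hVR : V ≤ R) (hLV : L ≤ 𝐍(V)) (hRV : R ≤ 𝐍(V)) (hRL : ⁅R, L⁆ ≤ R)
    (hc : ⁅R, L⁆ ≤ 𝐂(V)) (hne : ⁅V, L⁆ ≠ ⊥) : ∃ U, U ≤ V ⊓ 𝐂(R) ∧ ⁅U, L⁆ ≠ ⊥ := by
  obtain ⟨U, ⟨hUV, hLU, hRU, hU⟩, hmin⟩ := Set.Finite.exists_minimalFor id
    {U : Subgroup G | U ≤ V ∧ L ≤ 𝐍(U) ∧ R ≤ 𝐍(U) ∧ ⁅U, L⁆ ≠ ⊥} (Set.toFinite _)
    ⟨V, le_rfl, hLV, hRV, hne⟩
  have h1 : ⁅⁅U, R⁆, L⁆ = ⊥ := by
    by_contra h
    have hlt := Core.commutator_lt_of_isPGroup (hR.to_le (hUV.trans hVR)) hR hRU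
      (fun e => hU (by rw [e, commutator_bot_left]))
    exact hlt.not_ge (hmin ⟨hlt.le.trans hUV, Amb.le_norm_comm hLU (Amb.le_norm_of_comm_le_right
      ((commutator_comm L R).le.trans hRL)), Amb.le_norm_comm hRU le_normalizer, h⟩ hlt.le)
  have h2 : ⁅⁅R, L⁆, U⁆ = ⊥ := Amb.le_cent_iff_comm_eq_bot.1 (hc.trans (Amb.cent_anti hUV))
  have h3 := commutator_commutator_eq_bot_of_rotate h1 h2
  refine ⟨⁅U, L⁆, le_inf ((Amb.comm_le_left hLU).trans hUV) ?_, fun h =>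
    hU (commutator_eq_bot_of_perfect hL h)⟩
  rw [commutator_comm]
  exact Amb.le_cent_iff_comm_eq_bot.2 h3

theorem calL_facts {G : Type*} [Group G] [Finite G] (hQ : IsOfEvenCharacteristic G) (T : Sylow 2 G)
    {K : Subgroup G} (hK : K ∈ calL (T : Subgroup G)) :
    K ≠ ⊥ ∧ ⁅K, K⁆ = K ∧ H2.SN (K ⊔ T) K ∧ CharP 2 (K ⊔ T) := by
  obtain ⟨⟨h1, h2, h3, -⟩, -, h5⟩ := hK
  refine ⟨fun e => h1 (by rw [e]; exact bot_subgroupOf _), ?_, H2.SN.of_subgroupOf le_sup_left h3, ?_⟩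
  · have := congrArg (Subgroup.map (K ⊔ (T : Subgroup G)).subtype) h2
    rwa [map_commutator, Amb.map_subtype_subgroupOf le_sup_left] at this
  · have hn := le_normalizer_pCoreOf (p := 2) (K ⊔ (T : Subgroup G))
    have h6 : CharP 2 𝐍(pCoreOf 2 (K ⊔ (T : Subgroup G))) := charP_iff.2
      (hQ _ ⟨_, isPGroup_pCoreOf _, fun e => h5 (pCoreOf_eq_bot_iff.1 e), rfl⟩ ⟨T, le_sup_right.trans hn⟩)
    exact h6.of_le ((isSylowIn_of_sylow_le T (le_sup_right.trans hn)).pCoreOf_le.trans le_sup_right) hn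

/-- Let G be a non-abelian finite simple QTKE-group and T a Sylow 2-subgroup of G, and let L be a member of ℒ_f(G, T) (a member of ℒ(G, T) that lies in 𝒳 — L ≠ 1, L = O²(L), F*(L) = O₂(L) — and acts nontrivially on Ω₁(Z(O₂(L)))). Then (1) every member K of ℒ(G, T) containing L is again in ℒ_f(G, T) (a sharper form of (1) also compares the modules [Ω₁(Z(R)), L] and [Ω₁(Z(R')), K] for suitable 2-subgroups R, R'; that comparison is not included); and (2) if L is maximal under inclusion among the members of ℒ_f(G, T), then L is a maximal member of ℒ(G, T), hence a member of ℒ_f*(G, T). -/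
theorem result {G : Type*} [Group G] [Finite G] [IsSimpleGroup G]
    (hG : ¬ IsMulCommutative G) (hQ : Cfsg.IsQTKE G) (T : Sylow 2 G) (L : Subgroup G)
    (hL : L ∈ Cfsg.calLf (T : Subgroup G)) :
    (∀ K ∈ Cfsg.calL (T : Subgroup G), L ≤ K → K ∈ Cfsg.calLf (T : Subgroup G)) ∧
    ((∀ K ∈ Cfsg.calLf (T : Subgroup G), L ≤ K → K = L) → L ∈ Cfsg.calLfMax (T : Subgroup G)) := by
  have main : ∀ K ∈ Cfsg.calL (T : Subgroup G), L ≤ K → K ∈ Cfsg.calLf (T : Subgroup G) := by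
    intro K hK hLK
    obtain ⟨k1, k2, k3, k4⟩ := calL_facts hQ.2.2 T hK
    obtain ⟨-, l2, l3, -⟩ := calL_facts hQ.2.2 T hL.1
    refine ⟨hK, ⟨k1, by rw [odd_eq, res_of_perf k2], charP_iff_genFitting.1 (charP_of_sn k4 k3)⟩, ?_⟩
    have hRL : pCoreOf 2 (L ⊔ T) ≤ 𝐍(L) := by
      have := pCoreOf_le_normalizer_pResOf (p := 2) l3
      rwa [res_of_perf l2] at this
    have hSK : pCoreOf 2 (K ⊔ T) ≤ 𝐍(K) := by
      have := pCoreOf_le_normalizer_pResOf (p := 2) k3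
      rwa [res_of_perf k2] at this
    have hcomm : ∀ {X : Subgroup G}, pCoreOf 2 (X ⊔ T) ≤ 𝐍(X) →
        ⁅pCoreOf 2 (X ⊔ T), X⁆ ≤ pCoreOf 2 X := fun {X} h =>
      (le_inf (Amb.comm_le_left (le_sup_left.trans (le_normalizer_pCoreOf _)))
        (Amb.comm_le_right h)).trans (pCoreOf_inf_le le_sup_left)
    obtain ⟨U, hU, hUL⟩ := bottom (V := omegaOneCenter 2 (pCoreOf 2 L)) l2
      (isPGroup_pCoreOf (L ⊔ T)) ((omegaOneCenter_le _).trans (pCoreOf_le_of_sn l3))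
      ((le_normalizer_pCoreOf L).trans (normalizer_le_normalizer_omegaOneCenter _))
      ((hRL.trans (normalizer_le_normalizer_pCoreOf L)).trans (normalizer_le_normalizer_omegaOneCenter _))
      (Amb.comm_le_left (le_sup_left.trans (le_normalizer_pCoreOf _)))
      ((hcomm hRL).trans (le_centralizer_omegaOneCenter _)) hL.2.2
    have hSR : pCoreOf 2 (K ⊔ T) ≤ pCoreOf 2 (L ⊔ T) := pCoreOf_le_of_le (sup_le_sup_right hLK _)
      ((isSylowIn_of_sylow_le T le_sup_right).pCoreOf_le.trans le_sup_right)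
    have hUc : U ≤ 𝐂(pCoreOf 2 (K ⊔ T)) := (hU.trans inf_le_right).trans (Amb.cent_anti hSR)
    have hUK : U ≤ K := (((hU.trans inf_le_left).trans (omegaOneCenter_le _)).trans
      (pCoreOf_le L)).trans hLK
    have hUS : U ≤ pCoreOf 2 K :=
      (le_inf ((le_inf (hUK.trans le_sup_left) hUc).trans k4) hUK).trans (pCoreOf_inf_le le_sup_left)
    have hUV : U ≤ omegaOneCenter 2 (pCoreOf 2 K) := fun u hu => mem_omegaOneCenter.2
      ⟨hUS hu, Amb.cent_anti (pCoreOf_le_of_sn k3) (hUc hu), (mem_omegaOneCenter.1 (hU hu).1).2.2⟩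
    intro e
    exact hUL (commutator_eq_bot_mono e hUV hLK)
  exact ⟨main, fun h => ⟨⟨hL.1, fun K hK hle => h K (main K hK hle) hle⟩, hL.2⟩⟩

end Cfsg.Agent.S1851
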