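import Mathlib
import Cfsg.Statements.S1958
import Cfsg.Agent.Comp2.Balance2
import Cfsg.Agent.Core.PConstrained

set_option autoImplicit false
open Cfsg

namespace Cfsg.Agent.S1958

open Cfsg.Agent in
theorem aux {G : Type*} [Group G] [Finite G]
    (p : ℕ) [Fact p.Prime] (x y : G) (hx : orderOf x = p) (hxy : x * y = y * x)
    (hCy : Group.IsSolvable ↥(Subgroup.centralizer ({y} : Set G))) :
    Cfsg.centralizerPPrimeCore p x ⊓ Subgroup.centralizer {y} ≤ Cfsg.centralizerPPrimeCore p y := by
  have hxC : x ∈ Subgroup.centralizer ({y} : Set G) := Subgroup.mem_centralizer_singleton_iff.2 hxy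
  have hc := Core.isPConstrained_of_solvable p hCy
  have hle : Cfsg.centralizerPPrimeCore p x ⊓ Subgroup.centralizer {y} ≤
    Subgroup.centralizer ({y} : Set G) := inf_le_right
  have hR : IsPGroup p (Subgroup.zpowers (⟨x, hxC⟩ : Subgroup.centralizer ({y} : Set G))) := by
    refine IsPGroup.of_card (n := 1) ?_
    rw [Nat.card_zpowers, ← Subgroup.orderOf_coe, pow_one]; exact hx
  have key := Core.IsPConstrained.le_pPrimeCore hc hR
    (Y := (Cfsg.centralizerPPrimeCore p x ⊓ Subgroup.centralizer {y}).subgroupOf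
      (Subgroup.centralizer ({y} : Set G))) ?_ ?_ ?_
  · rw [← Subgroup.map_subtype_le_map_subtype, Subgroup.map_subgroupOf_eq_of_le hle] at key
    exact key
  · rw [Comp2.card_subgroupOf hle]
    exact Comp2.coprime_card_of_le inf_le_left (Comp2.centralizerPPrimeCore_coprime x)
  · intro a ha
    rw [Subgroup.mem_centralizer_iff]
    rintro _ ⟨k, rfl⟩
    have h1 := Comp2.centralizerPPrimeCore_le x (Subgroup.mem_subgroupOf.1 ha).1
    rw [Subgroup.mem_centralizer_singleton_iff] at h1
    have : Commute (⟨x, hxC⟩ : Subgroup.centralizer ({y} : Set G)) a := Subtype.ext h1.symm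
    exact (this.zpow_left k).eq
  · rintro g ⟨-, hg⟩
    have hg1 : (g : G) ∈ Subgroup.centralizer ({x} : Set G) := by
      rw [Subgroup.mem_centralizer_singleton_iff]
      exact (congrArg Subtype.val (hg _ (Subgroup.mem_zpowers _))).symm
    have hg2 := Comp2.centralizer_le_normalizer_centralizerPPrimeCore (p := p) x hg1
    rw [Subgroup.mem_normalizer_iff] at hg2 ⊢
    intro a
    simp only [SetLike.mem_coe, Subgroup.mem_subgroupOf, Subgroup.mem_inf, Subgroup.coe_mul,
      Subgroup.coe_inv] at hg2 ⊢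
    rw [hg2 a]
    simp only [a.2, and_true, (g * a * g⁻¹).2]
    exact ⟨fun h => ⟨h, (g * a * g⁻¹).2⟩, fun h => h.1⟩

/-- Let `G` be a finite group, `p` a prime, and `x, y` commuting elements of order `p` whose centralizers `C_G(x)` and `C_G(y)` are both solvable. Then `O_{p'}(C_G(x)) ∩ C_G(y) = O_{p'}(C_G(y)) ∩ C_G(x)` (balance). -/
theorem result {G : Type*} [Group G] [Finite G]
    (p : ℕ) [Fact p.Prime] (x y : G) (hx : orderOf x = p) (hy : orderOf y = p) (hxy : x * y = y * x)
    (hCx : Group.IsSolvable ↥(Subgroup.centralizer ({x} : Set G))) (hCy : Group.IsSolvable ↥(Subgroup.centralizer ({y} : Set G))) :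
    Cfsg.centralizerPPrimeCore p x ⊓ Subgroup.centralizer {y} = Cfsg.centralizerPPrimeCore p y ⊓ Subgroup.centralizer {x} := by
  apply le_antisymm
  · exact le_inf (aux p x y hx hxy hCy)
      (inf_le_left.trans (Comp2.centralizerPPrimeCore_le x))
  · exact le_inf (aux p y x hy hxy.symm hCx)
      (inf_le_left.trans (Comp2.centralizerPPrimeCore_le y))

end Cfsg.Agent.S1958
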