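import Cfsg.Statements.S1962
import Cfsg.Agent.Glaub.Control

set_option autoImplicit false
open Cfsg

namespace Cfsg.Agent.S1962

open Cfsg.Agent.LocalEven Cfsg.Agent.Glaub

/-- Local-to-global control of transfer through well-placed subgroups. Let p be a prime, G a finite group with Sylow p-subgroup S, and W a conjugacy functor for p on G. If W controls transfer in N_G(T) for every nonidentity subgroup T of S that is well placed in S with respect to W, then W controls transfer in G: S ∩ G' = S ∩ (N_G(W(S)))'. -/
theorem result {G : Type*} [Group G] [Finite G] {p : ℕ} [Fact p.Prime] (S : Sylow p G) (W : Subgroup G → Subgroup G) (hW : Cfsg.IsConjugacyFunctor p W) (hloc : ∀ T : Subgroup G, T ≠ ⊥ → Cfsg.IsWellPlaced p W (S : Subgroup G) T → Cfsg.ControlsTransferIn p W (Subgroup.normalizer ((T : Subgroup G) : Set G))) : Cfsg.ControlsTransferIn p W ⊤ := by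
  rw [controlsTF_iff hW (isSylowIn_top S)]
  refine tf_of_wp hW (isSylowIn_top S) fun U hne hU => ?_
  have hext := ((wp_iff hW S.isPGroup').1 hU).2.1
  unfold Extr at hext
  rw [top_inf_eq] at hext
  exact (controlsTF_iff hW hext).1 (hloc U hne hU)

end Cfsg.Agent.S1962
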