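import Cfsg.Statements.S1981
import Cfsg.Agent.Glaub.KInf

set_option autoImplicit false
open Cfsg

namespace Cfsg.Agent.S1981

open Cfsg.Agent.LocalEven Cfsg.Agent.Glaub

/-- Let P be a finite p-group generated by its abelian normal subgroups. Then both K-infinity subgroups of P equal P. -/
theorem result {P : Type*} [Group P] [Finite P] {p : ℕ} [Fact p.Prime] (hP : IsPGroup p P) (hgen : ⨆ A ∈ {A : Subgroup P | A.Normal ∧ IsMulCommutative ↥A}, A = ⊤) : Cfsg.kInfLower P = ⊤ ∧ Cfsg.kInfUpper P = ⊤ := by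
  have key : ∀ n, kO (⊤ : Subgroup P) n = ⊤ ∧ kE (⊤ : Subgroup P) n = ⊤ := fun n => by
    have : ∀ A ∈ {A : Subgroup P | A.Normal ∧ IsMulCommutative ↥A}, A ≤ kO ⊤ n ∧ A ≤ kE ⊤ n := by
      rintro A ⟨h1, h2⟩
      exact le_kO_kE le_top ((Subgroup.commutator_le_left A _).trans
        (le_inf le_rfl (Subgroup.le_centralizer A))) n
    exact ⟨eq_top_iff.2 (hgen.ge.trans (iSup₂_le fun A hA => (this A hA).1)),
      eq_top_iff.2 (hgen.ge.trans (iSup₂_le fun A hA => (this A hA).2))⟩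
  rw [kInfLower_eq, kInfUpper_eq]
  exact ⟨eq_top_iff.2 ((key 0).2.ge.trans (le_iSup (kE ⊤) 0)),
    eq_top_iff.2 (le_iInf fun n => (key n).1.ge)⟩

end Cfsg.Agent.S1981
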