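import Cfsg.Statements.S1985
import Cfsg.Agent.Glaub.Weak

set_option autoImplicit false
universe u
open Cfsg

namespace Cfsg.Agent.S1985

open Cfsg.Agent.LocalEven Cfsg.Agent.Glaub

/-- Let p be an odd prime and G a finite group. Then the lower K-infinity subgroup controls weak closure of elements in G: the lower K-infinity subgroup of every p-subgroup P of G contains Z(P), and for some (equivalently, every) Sylow p-subgroup S of G, with K the lower K-infinity subgroup of S, every element of S commuting with all of N_G(K) is weakly closed in S with respect to G (every G-conjugate of it lying in S equals it). -/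
theorem result {G : Type u} [Group G] [Finite G] {p : ℕ} [Fact p.Prime] (hp : p ≠ 2) : Cfsg.ControlsWeakClosureOfElementsIn p (Cfsg.inducedFunctor (G := G) Cfsg.kInfLower) ⊤ := by
  rw [show inducedFunctor kInfLower = kLo (G := G) from funext ind_kInfLower]
  obtain ⟨T, hT⟩ := exists_isSylowIn p (⊤ : Subgroup G)
  exact ⟨fun P _ => center_le_kLo P, T, hT.le, hT.pgrp, hT.not_dvd, fun x hx h hh hA =>
    wc_elements_kLo hp hT hx hh hA⟩

end Cfsg.Agent.S1985
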