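import Cfsg.Statements.S1986
import Cfsg.Agent.Glaub.Weak

set_option autoImplicit false
universe u
open Cfsg

namespace Cfsg.Agent.S1986

open Cfsg.Agent.LocalEven Cfsg.Agent.Glaub

/-- Let p be a prime, G a finite group with Sylow p-subgroup S, K the lower K-infinity subgroup of S, and Z the subgroup of p-th powers of elements of Z(S). Then every element of Z commuting with all of N_G(K) is weakly closed in S with respect to G, and every subgroup of Z that is normal in N_G(K) is weakly closed in S with respect to G. -/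
theorem result {G : Type u} [Group G] [Finite G] {p : ℕ} [Fact p.Prime] (S : Sylow p G) (Z : Subgroup G) (hZ : Z = Subgroup.closure ((fun z : G => z ^ p) '' (((S : Subgroup G) ⊓ Subgroup.centralizer (((S : Subgroup G) : Subgroup G) : Set G) : Subgroup G) : Set G))) : (∀ x ∈ Z ⊓ Subgroup.centralizer ((Subgroup.normalizer ((Cfsg.inducedFunctor Cfsg.kInfLower (S : Subgroup G) : Subgroup G) : Set G) : Subgroup G) : Set G), ∀ g : G, g * x * g⁻¹ ∈ (S : Subgroup G) → g * x * g⁻¹ = x) ∧ ∀ A : Subgroup G, A ≤ Z → Subgroup.normalizer ((Cfsg.inducedFunctor Cfsg.kInfLower (S : Subgroup G) : Subgroup G) : Set G) ≤ Subgroup.normalizer ((A : Subgroup G) : Set G) → Cfsg.IsWeaklyClosed A (S : Subgroup G) := by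
  rw [ind_kInfLower]
  have hW := conjFunctor_kLo (G := G) (p := p)
  have hWZ := fun (P : Subgroup G) (_ : IsPGroup p P) => center_le_kLo P
  have hloc' := fun H T (hT : IsSylowIn p T H) => loc_kLo (G := G) hT
  subst hZ
  refine ⟨fun x hx g hg => mem_cent_zpowers.1 (wc_mho hW hWZ hloc' (isSylowIn_top S)
    (Subgroup.zpowers_le.2 hx.1) (centralizer_le_normalizer' _) le_rfl
    (inf_le_right.trans (Subgroup.le_centralizer_iff.1 (Subgroup.zpowers_le.2 hx.2))) trivial
    (by rw [cj_zpowers]; exact Subgroup.zpowers_le.2 hg)),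
    fun A hA hN => ⟨(hA.trans (mho_le _)).trans inf_le_left, fun g hg => ?_⟩⟩
  exact cj_eq_of_mem_normalizer (wc_mho hW hWZ hloc' (isSylowIn_top S) hA le_rfl
    (centralizer_le_normalizer' _) (inf_le_right.trans hN) trivial hg)

end Cfsg.Agent.S1986
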