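import Cfsg.Statements.S1988
import Cfsg.Agent.Glaub.KMain
import Cfsg.Agent.S2006
import Cfsg.Agent.S2007

set_option autoImplicit false
universe u
open Cfsg

namespace Cfsg.Agent.S1988

open Cfsg.Agent.LocalEven Cfsg.Agent.Glaub

/-- Let p be an odd prime, G a finite group with Sylow p-subgroup S and K the lower K-infinity subgroup of S. If N_G(K) has a normal p-complement, or if N_G(K)/C_G(K) is a p-group (every element of N_G(K) of order prime to p centralizes K), then G has a normal p-complement. -/
theorem result {G : Type u} [Group G] [Finite G] {p : ℕ} [Fact p.Prime] (hp : p ≠ 2) (S : Sylow p G) (h : Cfsg.HasNormalPComplement p ↥(Subgroup.normalizer ((Cfsg.inducedFunctor Cfsg.kInfLower (S : Subgroup G) : Subgroup G) : Set G)) ∨ ∀ g ∈ Subgroup.normalizer ((Cfsg.inducedFunctor Cfsg.kInfLower (S : Subgroup G) : Subgroup G) : Set G), (orderOf g).Coprime p → g ∈ Subgroup.centralizer ((Cfsg.inducedFunctor Cfsg.kInfLower (S : Subgroup G) : Subgroup G) : Set G)) : Cfsg.HasNormalPComplement p G := by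
  have hN : HasNormalPComplement p 𝐍⟮inducedFunctor kInfLower (S : Subgroup G)⟯ := by
    refine h.elim id fun h => S2007.result S _ (Transfer.inducedFunctor_le _)
      (Subgroup.le_normalizer.trans (Transfer.le_normalizer_inducedFunctor charP_kInfLower S.2)) ?_ h
    rw [ind_kInfLower]
    exact cent_kLo_le S.2
  refine S2006.result kInfLower charP_kInfLower S hN fun K R _ hc T hn => ?_
  rw [ind_kInfLower] at hn
  obtain ⟨g, g1, g2, -, -, g5⟩ := kmain' (isSylowIn_top T) (Or.inl hn)
  obtain ⟨U, V, h1, h2, h3, h4⟩ := g5 hc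
  refine ⟨g, g1, g2, U, V, h1, h2, le_trans ?_ h3, h4⟩
  haveI := chief_normal h1
  have h5 : 2 ≤ p - 1 := by
    have := (Fact.out : p.Prime).two_le
    omega
  exact iter_anti (le_norm_of_normal _ U) h5

end Cfsg.Agent.S1988
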