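import Mathlib
import Cfsg.Statements.S1990
import Cfsg.Agent.Transfer.ThompsonSection
-- import your own Cfsg.Agent.* helpers here

set_option autoImplicit false
universe u
open Cfsg

namespace Cfsg.Agent.S1990

open Cfsg.Agent.Transfer

/-- Let p be an odd prime, G a finite group with Sylow p-subgroup S, and W an isomorphism-invariant p-group functor (W assigns to every group Q a subgroup W(Q), nontrivial whenever Q is a nontrivial finite p-group, and every isomorphism from a finite p-group Q onto a group R carries W(Q) onto W(R)). Suppose N_G(W(S)) has a normal p-complement, and W(T) controls strong fusion in every section G* = K/R of G all of whose sections are p-stable in the normalizer form, for every Sylow p-subgroup T of G*. Then G has a normal p-complement. -/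
theorem result {G : Type u} [Group G] [Finite G] {p : ℕ} [Fact p.Prime] (hp : p ≠ 2) (W : ∀ (Q : Type u) [Group Q], Subgroup Q) (hW : Cfsg.IsCharPFunctor.{u} p W) (S : Sylow p G) (hN : Cfsg.HasNormalPComplement p ↥(Subgroup.normalizer ((Cfsg.inducedFunctor (G := G) W (S : Subgroup G) : Subgroup G) : Set G))) (hctl : ∀ (K R : Subgroup G) [hR : (R.subgroupOf K).Normal], (∀ (K' R' : Subgroup (↥K ⧸ R.subgroupOf K)) [hR' : (R'.subgroupOf K').Normal], Cfsg.IsNormalizerPStable p (↥K' ⧸ R'.subgroupOf K')) → ∀ T : Sylow p (↥K ⧸ R.subgroupOf K), Cfsg.ControlsStrongFusion p (Cfsg.inducedFunctor (G := (↥K ⧸ R.subgroupOf K)) W (T : Subgroup (↥K ⧸ R.subgroupOf K)))) : Cfsg.HasNormalPComplement p G := by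
  refine thompson_reduction_section W hW S hN fun K R _ T h1 => ?_
  obtain ⟨Q, -, hQ⟩ := hctl K R (fun K' R' _ P hP g hg hq =>
    (((h1.noQuadPair hp).subgroup K').quotient (R'.subgroupOf K')).map_le_pCore hP hq
      ⟨⟨g, hg⟩, Subgroup.mem_zpowers g, rfl⟩) T
  refine (h1.normal_or_normalizer_eq
    (Subgroup.le_normalizer.trans (le_normalizer_inducedFunctor hW T.2))).resolve_right fun h4 => ?_
  rw [h4] at hQ
  have h5 : (Q : Subgroup (K ⧸ R.subgroupOf K)) ≤ T := by
    intro g hg
    obtain ⟨x, hx, h⟩ := (hQ _ subset_rfl).2 g (by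
      rintro _ ⟨a, ha, rfl⟩
      exact Q.1.mul_mem (Q.1.mul_mem hg ha) (Q.1.inv_mem hg))
    have h6 : x⁻¹ * g ∈ pCore p (K ⧸ R.subgroupOf K) := by
      refine h1.centralizer_le fun a ha => ?_
      have := h a (Core.pCore_le_sylow Q ha)
      calc a * (x⁻¹ * g) = x⁻¹ * (x * a * x⁻¹) * g := by group
        _ = x⁻¹ * g * a := by rw [← this]; group
    have := T.1.mul_mem hx (Core.pCore_le_sylow T h6)
    rwa [mul_inv_cancel_left] at this
  have h6 : Q = T := Sylow.ext (Q.is_maximal' T.2 h5).symm
  subst h6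
  refine h1.not_npc (hasNormalPComplement_of_control_self Q fun x hx g hg => ?_)
  obtain ⟨y, hy, h⟩ := (hQ {x} (Set.singleton_subset_iff.mpr hx)).2 g (by
    rintro _ ⟨a, rfl, rfl⟩
    exact hg)
  exact ⟨y, hy, (h x rfl).symm⟩

end Cfsg.Agent.S1990
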