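import Cfsg.Statements.S1998
import Cfsg.Agent.Glaub.Transfer5

set_option autoImplicit false
universe u
open Cfsg

namespace Cfsg.Agent.S1998

open Cfsg.Agent.LocalEven Cfsg.Agent.Glaub

/-- Let p be a prime, G a finite group with Sylow p-subgroup S, and 𝓦 a nonempty set of isomorphism-invariant p-group functors (W assigns to every group Q a subgroup W(Q), nontrivial whenever Q is a nontrivial finite p-group, and every isomorphism from a finite p-group Q onto a group R carries W(Q) onto W(R)). Suppose the induced conjugacy functors control transfer in every section of G other than G itself, but not in G. Let T be the subgroup generated by the S ∩ (N_G(W(S)))', W ∈ 𝓦, and M = N_G(T ∩ O_p(G)). Then: C_G(O_p(G)) ≤ O_p(G); M is a proper subgroup of G containing every proper subgroup of G that contains S (the unique maximal subgroup over S); [O_p(G), M] ≤ O_p(G) ∩ M' ≤ O_p(G) ∩ T; and every element u of S outside O_p(G)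 satisfies [X, u, …, u] ≰ Y with p − 1 entries u, for some chief factor X/Y of G with X ≤ O_p(G). -/
theorem result {G : Type u} [Group G] [Finite G] {p : ℕ} [Fact p.Prime] (S : Sylow p G) (𝓦 : Set (∀ (Q : Type u) [Group Q], Subgroup Q)) (h𝓦 : ∀ W ∈ 𝓦, Cfsg.IsCharPFunctor.{u} p W) (hne : 𝓦.Nonempty) (hsec : ∀ (K R : Subgroup G) [hR : (R.subgroupOf K).Normal], (K = ⊤ → R ≠ ⊥) → Cfsg.FamilyControlsTransferIn p ((fun W => Cfsg.inducedFunctor (G := (↥K ⧸ R.subgroupOf K)) W) '' 𝓦) ⊤) (hG : ¬ Cfsg.FamilyControlsTransferIn p ((fun W => Cfsg.inducedFunctor (G := G) W) '' 𝓦) ⊤) (T M : Subgroup G) (hT : T = (⨆ W ∈ 𝓦, (S : Subgroup G) ⊓ ⁅Subgroup.normalizer ((Cfsg.inducedFunctor (G := G) W (S : Subgroup G) : Subgroup G) : Set G), Subgroup.normalizer ((Cfsg.inducedFunctor (G := G) W (S : Subgroup G) : Subgroup G) : Set G)⁆)) (hM : M = Subgroup.normalizer ((T ⊓ Cfsg.pCore p G : Subgroup G) : Set G)) : Subgroup.centralizer ((Cfsg.pCore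 p G : Subgroup G) : Set G) ≤ Cfsg.pCore p G ∧ (M ≠ ⊤ ∧ ∀ H : Subgroup G, (S : Subgroup G) ≤ H → H ≠ ⊤ → H ≤ M) ∧ (⁅Cfsg.pCore p G, M⁆ ≤ Cfsg.pCore p G ⊓ ⁅M, M⁆ ∧ Cfsg.pCore p G ⊓ ⁅M, M⁆ ≤ Cfsg.pCore p G ⊓ T) ∧ ∀ u : G, u ∈ (S : Subgroup G) → u ∉ Cfsg.pCore p G → ∃ U V : Subgroup G, Cfsg.IsChiefFactor U V ∧ U ≤ Cfsg.pCore p G ∧ ¬ Cfsg.iterCommutator U (Subgroup.zpowers u) (p - 1) ≤ V := by
  have hsub := tfc_sub_of_sections hsec h𝓦
  have hquot := tfc_quot_of_sections hsec h𝓦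
  have hS := isSylowIn_top S
  rw [← TD_IF_top] at hT
  have hc : Subgroup.centralizer ((pCore p G : Subgroup G) : Set G) ≤ pCore p G := by
    by_contra h
    exact hG (tfc_step h𝓦 hsub hquot h)
  have hG' : ¬ TF (IF 𝓦 G) ⊤ S := fun h => hG (familyTF_iff.2 ⟨S, hS, h⟩)
  have hSQ : ¬ (S : Subgroup G) ≤ pCore p G := fun h => hG' (tf_of_le_pCore h𝓦 hne hS h)
  have h1 : ∀ H : Subgroup G, (S : Subgroup G) ≤ H → H ≠ ⊤ → ⁅pCore p G, H⁆ ≤ T := fun H a b =>
    hT ▸ (commutator_core_le hS a).trans (core_commutator_le_TD h𝓦 hsub hS H a b)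
  have h2 : ∀ H : Subgroup G, (S : Subgroup G) ≤ H → H ≠ ⊤ → H ≤ M := fun H a b =>
    hM ▸ le_norm_of_between (K := pCore p G) (le_inf (h1 H a b) (Subgroup.commutator_le_left _ _))
      le_rfl inf_le_right
  have hST : ⁅(S : Subgroup G), (S : Subgroup G)⁆ ≤ T := hT ▸ commutator_le_TD h𝓦 hne hS.pgrp
  have h3 : M ≠ ⊤ := fun e => hG' (tf_of_core h𝓦 hsub hquot hc hS (hT ▸
    core_commutator_le_of_normal hS hST h1 hSQ (Subgroup.normalizer_eq_top_iff.1 (hM ▸ e))))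
  have h4 : (S : Subgroup G) ≤ M :=
    Subgroup.le_normalizer.trans (h2 _ Subgroup.le_normalizer (norm_ne_top_of_not_le hS.pgrp hSQ))
  refine ⟨hc, ⟨h3, h2⟩, ⟨commutator_core_le hS h4,
    le_inf inf_le_left (hT ▸ core_commutator_le_TD h𝓦 hsub hS M h4 h3)⟩, fun u hu huQ => ?_⟩
  by_contra h
  push Not at h
  exact hG' (tf_of_good h𝓦 hne hsub hquot hc hS hu huQ h)

end Cfsg.Agent.S1998
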