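import Cfsg.Statements.S2004
import Cfsg.Agent.Glaub.ZJD

set_option autoImplicit false
open Cfsg

namespace Cfsg.Agent.S2004

open Cfsg.Agent.LocalEven Cfsg.Agent.Glaub

/-- Let p be an odd prime and G a finite group such that SL₂(p) is not involved in N_G(P) for any nonidentity p-subgroup P of G. Then every section of G is p-stable in the normalizer form: in each section, whenever an element of the normalizer of a p-subgroup Q acts quadratically on Q, its image in N(Q)/C(Q) lies in O_p(N(Q)/C(Q)). -/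
theorem result {G : Type*} [Group G] [Finite G] {p : ℕ} [Fact p.Prime] (hp : p ≠ 2) (h : ∀ P : Subgroup G, IsPGroup p ↥P → P ≠ ⊥ → ¬ Cfsg.Involves (Matrix.SpecialLinearGroup (Fin 2) (ZMod p)) ↥(Subgroup.normalizer ((P : Subgroup G) : Set G))) : ∀ (K R : Subgroup G) [hR : (R.subgroupOf K).Normal], Cfsg.IsNormalizerPStable p (↥K ⧸ R.subgroupOf K) := by
  intro K R _
  refine stable_of_not_qd hp fun e => ?_
  obtain ⟨L, f, hf⟩ := (isSectionOf_quot K R).trans e
  obtain ⟨T, hT⟩ := exists_isSylowIn p ((qV (ZMod p)).comap f)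
  have h1 : T.map f = qV (ZMod p) := by
    have := hT.map f
    rw [Subgroup.map_comap_eq_self_of_surjective hf] at this
    exact this.eq_of_isPGroup (isPGroup_of_elemAb ea_qV)
  refine h (T.map L.subtype) (hT.pgrp.map _) (fun e => ?_) (Transfer.involves_iff_isSectionOf.2 ?_)
  · rw [Subgroup.map_eq_bot_iff_of_injective _ L.subtype_injective] at e
    rw [e, Subgroup.map_bot] at h1
    have := card_qV (R := ZMod p)
    rw [← h1, Subgroup.card_bot, Nat.card_zmod] at this
    exact (Nat.one_lt_pow two_ne_zero (Fact.out : p.Prime).one_lt).ne this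
  · refine Transfer.IsSectionOf.of_surjective (X := 𝐍⟮T⟯) (PLocal.isSectionOf_of_injective
      ((L.subtype.comp 𝐍⟮T⟯.subtype).codRestrict _ fun x => map_mem_norm L.subtype x.2)
      fun x y e => Subtype.ext (Subtype.ext (congrArg (fun z : 𝐍⟮T.map L.subtype⟯ => z.1) e)))
      ((qlin _).comp (f.comp 𝐍⟮T⟯.subtype)) fun s => ?_
    obtain ⟨M, rfl⟩ := qlin_surjective s
    obtain ⟨g, rfl⟩ := hf M
    obtain ⟨n, hn, x, hx, rfl⟩ := hT.frattini (g := g) (le_norm_of_normal ⊤ _ trivial)
    refine ⟨⟨x, hx⟩, ?_⟩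
    rw [map_mul, map_mul, show qlin _ (f n) = 1 from hn, one_mul]
    rfl

end Cfsg.Agent.S2004
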