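import Mathlib
import Cfsg.Statements.S2009
import Cfsg.Agent.H2.FrobComplement

set_option autoImplicit false
open Cfsg

namespace Cfsg.Agent.S2009

open Subgroup

theorem exists_other {H : Type*} [Group H] {z : H} {E : Subgroup H} (hE : IsKleinFour E) (hzE : z ∈ E) :
    ∃ y ∈ E, y ≠ 1 ∧ y ≠ z := by
  by_contra! h
  refine IsKleinFour.not_isCyclic (G := E) ⟨⟨⟨z, hzE⟩, fun y => ?_⟩⟩
  by_cases e : y = 1
  · exact e ▸ one_mem (zpowers _)
  · exact (Subtype.ext (h y y.2 fun e' => e (Subtype.ext e')) : y = ⟨z, hzE⟩) ▸ mem_zpowers _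

/-- Let H be a finite group and z an involution such that every proper normal subgroup of H meets the centralizer of z trivially, and suppose z lies in a Klein four-subgroup E of H all three of whose involutions are conjugate to z in H. Then H is simple. -/
theorem result {H : Type*} [Group H] [Finite H] (z : H) (hz : orderOf z = 2) (hN : ∀ N : Subgroup H, N.Normal → N ≠ ⊤ → N ⊓ Subgroup.centralizer ({z} : Set H) = ⊥) (E : Subgroup H) (hE : IsKleinFour ↥E) (hzE : z ∈ E) (hc : ∀ e ∈ E, e ≠ 1 → IsConj z e) : IsSimpleGroup H := by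
  have h0 : z ≠ 1 := by rintro rfl; simp at hz
  have : Nontrivial H := ⟨⟨z, 1, h0⟩⟩
  refine ⟨fun N hn => (em (N = ⊤)).symm.imp_left fun h => ?_⟩
  have h1 : ∀ e ∈ E, e ≠ 1 → N ⊓ centralizer {e} = ⊥ := fun e he h1 => eq_bot_iff.mpr fun x hx => by
    obtain ⟨c, rfl⟩ := isConj_iff.mp (hc e he h1)
    have h2 := (hN N hn h).le (show c⁻¹ * x * c⁻¹⁻¹ ∈ N ⊓ centralizer {z} from ⟨hn.conj_mem _ hx.1 _,
      mem_centralizer_singleton_iff.mpr (by
        have := mem_centralizer_singleton_iff.mp hx.2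
        calc _ = c⁻¹ * (x * (c * z * c⁻¹)) * c := by group
          _ = _ := by rw [this]; group)⟩)
    exact mem_bot.mpr (conj_eq_one_iff.mp (mem_bot.mp h2))
  have h2 : ∀ e ∈ E, e * e = 1 := fun e he => congrArg Subtype.val (IsKleinFour.mul_self (⟨e, he⟩ : E))
  have h3 : ∀ e ∈ E, e ≠ 1 → ∀ k ∈ N, e * k * e⁻¹ = k⁻¹ := fun e he h4 =>
    (H2.inverts_of_involution (normalizer_eq_top N ▸ mem_top _) (h2 e he) (h1 e he h4)).1
  obtain ⟨y, hy, a1, a2⟩ := exists_other hE hzE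
  have a3 : y * z ≠ 1 := fun e => a2 (mul_right_cancel (e.trans (h2 z hzE).symm))
  refine eq_bot_iff.mpr fun x hx => (h1 _ (E.mul_mem hy hzE) a3).le ⟨hx, mem_centralizer_singleton_iff.mpr ?_⟩
  have a4 := h3 y hy a1 _ (N.inv_mem hx)
  rw [← h3 z hzE h0 x hx] at a4
  calc _ = (z * x * z⁻¹)⁻¹⁻¹⁻¹ * (y * z) := by rw [h3 z hzE h0 x hx]; simp
    _ = _ := by rw [inv_inv, ← a4]; group

end Cfsg.Agent.S2009
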