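import Mathlib
import Cfsg.Statements.S2008
import Cfsg.Agent.S2009

set_option autoImplicit false
open Cfsg

namespace Cfsg.Agent.S2008

/-- Let H be a finite group and z an involution such that every proper normal subgroup of H meets the centralizer of z trivially, and suppose z lies in a Klein four-subgroup E of H all three of whose involutions are conjugate to z in H. Then H has no non-trivial abelian normal subgroup. -/
theorem result {H : Type*} [Group H] [Finite H] (z : H) (hz : orderOf z = 2) (hN : ∀ N : Subgroup H, N.Normal → N ≠ ⊤ → N ⊓ Subgroup.centralizer ({z} : Set H) = ⊥) (E : Subgroup H) (hE : IsKleinFour ↥E) (hzE : z ∈ E) (hc : ∀ e ∈ E, e ≠ 1 → IsConj z e) (N : Subgroup H) [N.Normal] (hab : IsMulCommutative ↥N) : N = ⊥ := by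
  have := S2009.result z hz hN E hE hzE hc
  refine (Subgroup.Normal.eq_bot_or_eq_top ‹_›).resolve_right fun e => ?_
  obtain ⟨y, hy, a1, a2⟩ := S2009.exists_other hE hzE
  obtain ⟨c, rfl⟩ := isConj_iff.mp (hc y hy a1)
  exact a2 (mul_inv_eq_iff_eq_mul.mpr (congrArg Subtype.val
    (hab.1.1 ⟨c, e.ge (Subgroup.mem_top _)⟩ ⟨z, e.ge (Subgroup.mem_top _)⟩)))

end Cfsg.Agent.S2008
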