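import Cfsg.Statements.S2039
-- import your own Cfsg.Agent.* helpers here
import Cfsg.Agent.Schur.J1.P2
import Cfsg.Agent.Schur.Prod
import Cfsg.Agent.Comp.J1.Iso

set_option autoImplicit false
open Cfsg

namespace Cfsg.Agent.S2039

/-- The Schur multiplier of the Janko group J₁ (the group generated by two explicit 7 × 7 matrices over the integers modulo 11) is trivial; here the Schur multiplier is described through stem extensions, as in the definitions: surjective homomorphisms onto the group from a finite group, whose kernel is central in that finite group and contained in that finite group's commutator subgroup. -/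
theorem result : Cfsg.HasCyclicSchurMultiplier ↥Cfsg.Spor.J1 1 := by
  have := Cfsg.Agent.Schur.J1.card.1
  refine Cfsg.Agent.Schur.has_of_equiv (Cfsg.Agent.Schur.hasCyc (by norm_num) Cfsg.Agent.Schur.J1.card.2 [2, 3, 5, 7, 11, 19] 3 (by norm_num) (by norm_num) ?_ Cfsg.Agent.Schur.low_one) ⟨Cfsg.Agent.Comp.J1.iso⟩
  simp only [List.forall_mem_cons]
  exact ⟨Or.inr ⟨0, by norm_num, Cfsg.Agent.Schur.J1.P2.gen.of_nil _⟩,
    Or.inl (by norm_num),
    Or.inl (by norm_num),
    Or.inl (by norm_num),
    Or.inl (by norm_num),
    Or.inl (by norm_num), by simp⟩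

end Cfsg.Agent.S2039
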