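import Cfsg.Statements.S2040
-- import your own Cfsg.Agent.* helpers here
import Cfsg.Agent.Schur.J2.P2
import Cfsg.Agent.Schur.J2.P3
import Cfsg.Agent.Schur.J2.P5
import Cfsg.Agent.Schur.J2.Cov
import Cfsg.Agent.Schur.Prod
import Cfsg.Agent.Comp.Ico.Iso

set_option autoImplicit false
open Cfsg

namespace Cfsg.Agent.S2040

/-- The Schur multiplier of the Hall–Janko group J₂ (the icosian reflection group modulo its centre) is cyclic of order 2; here the Schur multiplier is described through stem extensions, as in the definitions: surjective homomorphisms onto the group from a finite group, whose kernel is central in that finite group and contained in that finite group's commutator subgroup. -/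
theorem result : Cfsg.HasCyclicSchurMultiplier Cfsg.Spor.J2 2 := by
  have := Cfsg.Agent.Schur.J2.card.1
  refine Cfsg.Agent.Schur.has_of_equiv (Cfsg.Agent.Schur.hasCyc (by norm_num) Cfsg.Agent.Schur.J2.card.2 [2, 3, 5, 7] 7 (by norm_num) (by norm_num) ?_ Cfsg.Agent.Schur.J2.low) ⟨Cfsg.Agent.Comp.Ico.iso⟩
  simp only [List.forall_mem_cons]
  exact ⟨Or.inr ⟨1, by norm_num, Cfsg.Agent.Schur.J2.P2.gen⟩,
    Or.inr ⟨0, by norm_num, Cfsg.Agent.Schur.J2.P3.gen.of_nil _⟩,
    Or.inr ⟨0, by norm_num, Cfsg.Agent.Schur.J2.P5.gen.of_nil _⟩,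
    Or.inl (by norm_num), by simp⟩

end Cfsg.Agent.S2040
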