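import Cfsg.Statements.S2041
-- import your own Cfsg.Agent.* helpers here
import Cfsg.Agent.Schur.J3.P2
import Cfsg.Agent.Schur.J3.P3
import Cfsg.Agent.Schur.J3.Cov
import Cfsg.Agent.Schur.Prod
import Cfsg.Agent.Schur.J3.Iso

set_option autoImplicit false
open Cfsg

namespace Cfsg.Agent.S2041

/-- For any field with 4 elements and any element ω of it with ω² + ω + 1 = 0: the Schur multiplier of the Janko group J₃ (the group generated by explicit 9 × 9 matrices over that field built from ω, taken modulo its centre) is cyclic of order 3; here the Schur multiplier is described through stem extensions, as in the definitions: surjective homomorphisms onto the group from a finite group, whose kernel is central in that finite group and contained in that finite group's commutator subgroup. -/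
theorem result {F : Type*} [Field F] [Fintype F] (hF : Fintype.card F = 4) (ω : F) (hω : ω ^ 2 + ω + 1 = 0) : Cfsg.HasCyclicSchurMultiplier (Cfsg.Spor.J3 F ω) 3 := by
  have := Cfsg.Agent.Schur.J3.card.1
  refine Cfsg.Agent.Schur.has_of_equiv (Cfsg.Agent.Schur.hasCyc (by norm_num) Cfsg.Agent.Schur.J3.card.2 [2, 3, 5, 17, 19] 7 (by norm_num) (by norm_num) ?_ Cfsg.Agent.Schur.J3.low) (Cfsg.Agent.Schur.J3.exists_iso F hF ω hω)
  simp only [List.forall_mem_cons]
  exact ⟨Or.inr ⟨0, by norm_num, Cfsg.Agent.Schur.J3.P2.gen.of_nil _⟩,
    Or.inr ⟨1, by norm_num, Cfsg.Agent.Schur.J3.P3.gen⟩,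
    Or.inl (by norm_num),
    Or.inl (by norm_num),
    Or.inl (by norm_num), by simp⟩

end Cfsg.Agent.S2041
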