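import Cfsg.Statements.S2093
-- import your own Cfsg.Agent.* helpers here
import Cfsg.Agent.Schur.S62.P2
import Cfsg.Agent.Schur.S62.P3
import Cfsg.Agent.Schur.S62.Cov
import Cfsg.Agent.SchurG.S62.Iso

set_option autoImplicit false
open Cfsg

namespace Cfsg.Agent.S2093

/-- Exceptional Schur multiplier: over the field with 2 elements, PSp₆ has Schur multiplier cyclic of order 2 (here the Schur multiplier is described through stem extensions, as in the definitions). -/
theorem result {F : Type*} [Field F] [Fintype F] (hF : Fintype.card F = 2) : Cfsg.HasCyclicSchurMultiplier (Cfsg.PSp 3 F) 2 := by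
  have := Cfsg.Agent.Schur.S62.card.1
  refine Cfsg.Agent.Schur.has_of_equiv (Cfsg.Agent.Schur.hasCyc (by norm_num) Cfsg.Agent.Schur.S62.card.2 [2, 3, 5, 7] 9 (by norm_num) (by norm_num) ?_ Cfsg.Agent.Schur.S62.low) (Cfsg.Agent.SchurG.S62.exists_iso F hF)
  simp only [List.forall_mem_cons]
  exact ⟨Or.inr ⟨1, by norm_num, Cfsg.Agent.Schur.S62.P2.gen⟩,
    Or.inr ⟨0, by norm_num, Cfsg.Agent.Schur.S62.P3.gen.of_nil _⟩,
    Or.inl (by norm_num),
    Or.inl (by norm_num), by simp⟩

end Cfsg.Agent.S2093
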