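import Cfsg.Statements.S2094
import Mathlib
import Cfsg.Agent.Mult.Om4

set_option autoImplicit false
open Cfsg

namespace Cfsg.Agent.S2094
open Cfsg.Agent.Mult Cfsg.Agent.H2.Schur Cfsg.Agent.Orth Cfsg.Agent.Mult.Om


/-- Schur multipliers of the odd-dimensional orthogonal groups: for m ≥ 3 and a field F of odd order q with (m, q) ≠ (3, 3), the Schur multiplier of PΩ_(2m+1)(F) (for the form x₀² + Σ xᵢyᵢ) is cyclic of order 2 = gcd(2, q − 1); here the Schur multiplier is described through stem extensions, as in the definitions. -/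
theorem result {F : Type*} [Field F] [Fintype F] {q : ℕ} (hF : Fintype.card F = q) (hq : Odd q) (m : ℕ) (hm : 3 ≤ m) (hexc : ¬ (m = 3 ∧ q = 3)) : Cfsg.HasCyclicSchurMultiplier (Cfsg.POmega F (Cfsg.quadFormOdd m F)) 2 := by
  subst hF
  have h2 := two_ne_zero_of_odd hq
  have H : Big (oddQ m F) := ⟨nd_oddQ m h2, by simp; omega, fun h => by
    have := card_le_three h
    have := Fintype.one_lt_card (α := F)
    obtain ⟨k, hk⟩ := hq
    simp at *; omega, fun _ h => by simp at h; omega⟩
  refine has_congr (has_two H h2 fun h => ?_) (pomegaEquiv _).symm (.refl _)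
  obtain ⟨k, hk⟩ := ((H.nd.negOne_mem_iff h2 (Pi.basisFun F _)).1 h).1
  simp at hk; omega

end Cfsg.Agent.S2094
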