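import Cfsg.Statements.S2095
-- import your own Cfsg.Agent.* helpers here
import Cfsg.Agent.Schur.O73.P2
import Cfsg.Agent.Schur.O73.P3
import Cfsg.Agent.Schur.O73.Cov
import Cfsg.Agent.SchurG.O73.Iso

set_option autoImplicit false
open Cfsg

namespace Cfsg.Agent.S2095

/-- Exceptional Schur multiplier: over the field with 3 elements, PΩ₇ (for the form x₀² + Σ xᵢyᵢ) has Schur multiplier cyclic of order 6 (the product of cyclic groups of orders 3 and 2; here the Schur multiplier is described through stem extensions, as in the definitions). -/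
theorem result {F : Type*} [Field F] [Fintype F] (hF : Fintype.card F = 3) : Cfsg.HasCyclicSchurMultiplier (Cfsg.POmega F (Cfsg.quadFormOdd 3 F)) 6 := by
  have := Cfsg.Agent.Schur.O73.card.1
  refine Cfsg.Agent.Schur.has_of_equiv (Cfsg.Agent.Schur.hasCyc (by norm_num) Cfsg.Agent.Schur.O73.card.2 [2, 3, 5, 7, 13] 9 (by norm_num) (by norm_num) ?_ Cfsg.Agent.Schur.O73.low) (Cfsg.Agent.SchurG.O73.exists_iso F hF)
  simp only [List.forall_mem_cons]
  exact ⟨Or.inr ⟨1, by norm_num, Cfsg.Agent.Schur.O73.P2.gen⟩,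
    Or.inr ⟨1, by norm_num, Cfsg.Agent.Schur.O73.P3.gen⟩,
    Or.inl (by norm_num),
    Or.inl (by norm_num),
    Or.inl (by norm_num), by simp⟩

end Cfsg.Agent.S2095
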