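import Cfsg.Statements.S2096
import Mathlib
import Cfsg.Agent.Mult.Om4

set_option autoImplicit false
open Cfsg

namespace Cfsg.Agent.S2096
open Cfsg.Agent.Mult Cfsg.Agent.H2.Schur Cfsg.Agent.Orth Cfsg.Agent.Mult.Om


/-- Schur multipliers of the even-dimensional orthogonal groups of plus type and odd rank: for odd l ≥ 5 and a field F with q elements, the Schur multiplier of PΩ⁺_2l(F) (for the form Σ xᵢyᵢ) is cyclic of order gcd(4, q^l − 1); here the Schur multiplier is described through stem extensions, as in the definitions. -/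
theorem result {F : Type*} [Field F] [Fintype F] {q : ℕ} (hF : Fintype.card F = q) (l : ℕ) (hl : 5 ≤ l) (hodd : Odd l) : Cfsg.HasCyclicSchurMultiplier (Cfsg.POmega F (Cfsg.quadFormPlus l F)) (Nat.gcd 4 (q ^ l - 1)) := by
  subst hF
  have H : Big (plusQ l F) := ⟨nd_plusQ l, by simp; omega, fun h => by simp; omega, fun _ h => by simp at h; omega⟩
  refine has_congr ?_ (pomegaEquiv (plusQ l F)).symm (.refl _)
  have h0 : 0 < Fintype.card F ^ l := pow_pos Fintype.card_pos _
  by_cases h2 : (2 : F) = 0
  · have := even_card h2 (l := l) (by omega)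
    rw [show Nat.gcd 4 _ = 1 from Nat.Coprime.pow_left 2 ((Nat.coprime_two_left).2 (Nat.odd_iff.2 (by omega)))]
    exact has_one H h2
  have k := H.nd.negOne_mem_iff h2 (Pi.basisFun F _)
  rw [det_gram_plusQ, isSquare_neg_one_pow_iff h2, finrank_plus] at k
  rcases pow_mod_four_of_odd (odd_card_of_two_ne_zero h2) l with e | e
  · rw [Nat.gcd_eq_left (by omega)]
    exact has_four H h2 (k.2 ⟨by simp, e⟩) (finrank_plus l) hodd
  · rw [Nat.gcd_rec, show (Fintype.card F ^ l - 1) % 4 = 2 by omega]
    exact has_two H h2 fun h => by have := (k.1 h).2; omega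

end Cfsg.Agent.S2096
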