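import Cfsg.Statements.S2097
import Mathlib
import Cfsg.Agent.Mult.Om4

set_option autoImplicit false
open Cfsg

namespace Cfsg.Agent.S2097
open Cfsg.Agent.Mult Cfsg.Agent.H2.Schur Cfsg.Agent.Orth Cfsg.Agent.Mult.Om


/-- Schur multipliers of the even-dimensional orthogonal groups of plus type and even rank: for even l ≥ 4 and a field F with q elements, (l, q) ≠ (4, 2), the Schur multiplier of PΩ⁺_2l(F) (for the form Σ xᵢyᵢ) is the product of two cyclic groups of order gcd(2, q^l − 1) (so trivial for q even and a four-group for q odd; here the Schur multiplier is described through stem extensions, as in the definitions). -/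
theorem result {F : Type*} [Field F] [Fintype F] {q : ℕ} (hF : Fintype.card F = q) (l : ℕ) (hl : 4 ≤ l) (heven : Even l) (hexc : ¬ (l = 4 ∧ q = 2)) : Cfsg.HasSchurMultiplier (Cfsg.POmega F (Cfsg.quadFormPlus l F)) (Multiplicative (ZMod (Nat.gcd 2 (q ^ l - 1)) × ZMod (Nat.gcd 2 (q ^ l - 1)))) := by
  subst hF
  have H : Big (plusQ l F) := ⟨nd_plusQ l, by simp; omega, fun h => by simp; omega, fun h h' => by
    have := card_le_two h
    have := Fintype.one_lt_card (α := F)
    simp at *; omega⟩
  refine has_congr ?_ (pomegaEquiv (plusQ l F)).symm (.refl _)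
  have h0 : 0 < Fintype.card F ^ l := pow_pos Fintype.card_pos _
  by_cases h2 : (2 : F) = 0
  · have := even_card h2 (l := l) (by omega)
    rw [show Nat.gcd 2 _ = 1 from (Nat.coprime_two_left).2 (Nat.odd_iff.2 (by omega))]
    exact has_congr (has_one H h2) (.refl _) (AddEquiv.toMultiplicative (AddEquiv.prodUnique).symm)
  have := pow_mod_four_of_odd (odd_card_of_two_ne_zero h2) l
  rw [Nat.gcd_eq_left (by omega)]
  refine has_klein H h2 ((H.nd.negOne_mem_iff h2 (Pi.basisFun F _)).2 ⟨by simp, ?_⟩) (finrank_plus l) heven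
  rw [det_gram_plusQ, heven.neg_one_pow]
  exact IsSquare.one

end Cfsg.Agent.S2097
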