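import Cfsg.Statements.S2098
-- import your own Cfsg.Agent.* helpers here
import Cfsg.Agent.Schur.O82.P2
import Cfsg.Agent.Schur.O82.P3
import Cfsg.Agent.Schur.O82.P5
import Cfsg.Agent.Schur.O82.Cov
import Cfsg.Agent.SchurG.O82.Iso

set_option autoImplicit false
open Cfsg

namespace Cfsg.Agent.S2098

/-- Exceptional Schur multiplier: over the field with 2 elements, PΩ⁺₈ (for the form Σ xᵢyᵢ) has Schur multiplier a four-group, the product of two cyclic groups of order 2 (here the Schur multiplier is described through stem extensions, as in the definitions). -/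
theorem result {F : Type*} [Field F] [Fintype F] (hF : Fintype.card F = 2) : Cfsg.HasSchurMultiplier (Cfsg.POmega F (Cfsg.quadFormPlus 4 F)) (Multiplicative (ZMod 2 × ZMod 2)) := by
  have := Cfsg.Agent.Schur.O82.card.1
  refine Cfsg.Agent.Schur.has_of_equiv (Cfsg.Agent.Schur.hasTwo Cfsg.Agent.Schur.O82.card.2 [2, 3, 5, 7] 12 (by norm_num) (by norm_num)
    Cfsg.Agent.Schur.O82.P2.gen ?_ Cfsg.Agent.Schur.O82.low (by norm_num)) (Cfsg.Agent.SchurG.O82.exists_iso F hF)
  simp only [List.forall_mem_cons]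
  exact ⟨Or.inr (Or.inl trivial),
    Or.inr (Or.inr Cfsg.Agent.Schur.O82.P3.gen),
    Or.inr (Or.inr Cfsg.Agent.Schur.O82.P5.gen),
    Or.inl (by norm_num), by simp⟩

end Cfsg.Agent.S2098
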