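import Cfsg.Statements.S2099
import Mathlib
import Cfsg.Agent.Mult.Om4

set_option autoImplicit false
open Cfsg

namespace Cfsg.Agent.S2099
open Cfsg.Agent.Mult Cfsg.Agent.H2.Schur Cfsg.Agent.Orth Cfsg.Agent.Mult.Om


/-- Schur multipliers of the even-dimensional orthogonal groups of minus type: for l ≥ 4 and a field F with q elements, the Schur multiplier of PΩ⁻_2l(F) (for the form Σ_{i<l−1} xᵢyᵢ + z₁² + a z₁z₂ + b z₂² with the binary part anisotropic) is cyclic of order gcd(4, q^l + 1); here the Schur multiplier is described through stem extensions, as in the definitions. -/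
theorem result {F : Type*} [Field F] [Fintype F] {q : ℕ} (hF : Fintype.card F = q) (l : ℕ) (hl : 4 ≤ l) (a b : F) (hab : ∀ z₁ z₂ : F, z₁ ^ 2 + a * z₁ * z₂ + b * z₂ ^ 2 = 0 → z₁ = 0 ∧ z₂ = 0) : Cfsg.HasCyclicSchurMultiplier (Cfsg.POmega F (Cfsg.quadFormMinus (l - 1) F a b)) (Nat.gcd 4 (q ^ l + 1)) := by
  subst hF
  obtain ⟨l, rfl⟩ : ∃ k, l = k + 1 := ⟨l - 1, by omega⟩
  have H : Big (minusQ l F a b) := ⟨nd_minusQ l (aniso_disc_ne_zero hab), by simp; omega, fun h => by simp; omega,
    fun _ _ => not_isPlus_minusQ l hab⟩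
  refine has_congr ?_ (pomegaEquiv (minusQ l F a b)).symm (.refl _)
  by_cases h2 : (2 : F) = 0
  · have := even_card h2 (l := l + 1) (by omega)
    rw [show Nat.gcd 4 _ = 1 from Nat.Coprime.pow_left 2 ((Nat.coprime_two_left).2 (Nat.odd_iff.2 (by omega)))]
    exact has_one H h2
  have k := H.nd.negOne_mem_iff h2 (Pi.basisFun F _)
  rw [det_gram_minusQ, isSquare_mul_iff (by simp) (aniso_disc_ne_zero hab), isSquare_neg_one_pow_iff h2] at k
  have k' := aniso_not_isSquare h2 hab
  rcases pow_mod_four_of_odd (odd_card_of_two_ne_zero h2) (l + 1) with e | e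
  · rw [Nat.gcd_rec, show (Fintype.card F ^ (l + 1) + 1) % 4 = 2 by omega]
    exact has_two H h2 fun h => k' ((k.1 h).2.1 e)
  · rw [Nat.gcd_eq_left (by omega)]
    refine has_four H h2 (k.2 ⟨⟨l + 1, by simp; omega⟩, iff_of_false (by omega) k'⟩) (l := l + 1) (by simp; omega)
      (Nat.not_even_iff_odd.1 fun h => ?_)
    have := (isSquare_neg_one_pow_iff h2 (l + 1)).1 (by rw [h.neg_one_pow]; exact IsSquare.one)
    omega

end Cfsg.Agent.S2099
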