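import Cfsg.Statements.S2102
-- import your own Cfsg.Agent.* helpers here
import Cfsg.Agent.Schur.G24.P2
import Cfsg.Agent.Schur.G24.P3
import Cfsg.Agent.Schur.G24.P5
import Cfsg.Agent.Schur.G24.Cov
import Cfsg.Agent.SchurG.G24.Iso

set_option autoImplicit false
open Cfsg

namespace Cfsg.Agent.S2102

/-- Exceptional Schur multiplier: over the field with 4 elements the Chevalley group of type G₂ has Schur multiplier cyclic of order 2 (here the Schur multiplier is described through stem extensions, as in the definitions). -/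
theorem result {F : Type*} [Field F] [Fintype F] (hF : Fintype.card F = 4) : Cfsg.HasCyclicSchurMultiplier ↥(Cfsg.Lie.chevG2.group F) 2 := by
  have := Cfsg.Agent.Schur.G24.card.1
  refine Cfsg.Agent.Schur.has_of_equiv (Cfsg.Agent.Schur.hasCyc (by norm_num) Cfsg.Agent.Schur.G24.card.2 [2, 3, 5, 7, 13] 12 (by norm_num) (by norm_num) ?_ Cfsg.Agent.Schur.G24.low) (Cfsg.Agent.SchurG.G24.exists_iso F hF)
  simp only [List.forall_mem_cons]
  exact ⟨Or.inr ⟨1, by norm_num, Cfsg.Agent.Schur.G24.P2.gen⟩,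
    Or.inr ⟨0, by norm_num, Cfsg.Agent.Schur.G24.P3.gen.of_nil _⟩,
    Or.inr ⟨0, by norm_num, Cfsg.Agent.Schur.G24.P5.gen.of_nil _⟩,
    Or.inl (by norm_num),
    Or.inl (by norm_num), by simp⟩

end Cfsg.Agent.S2102
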