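import Cfsg.Statements.S2103
import Mathlib
import Cfsg.Agent.Mult.Univ

set_option autoImplicit false
open Cfsg

namespace Cfsg.Agent.S2103
open Cfsg.Lie Cfsg.Agent.Chev Cfsg.Agent.Mult Cfsg.Agent.H2.Schur


/-- Schur multipliers of the Chevalley groups of type F₄: over a finite field with more than 2 elements the Schur multiplier of F₄(q) is trivial (here the Schur multiplier is described through stem extensions, as in the definitions); q = 2 is exceptional. -/
theorem result {F : Type*} [Field F] [Fintype F] (hF : 3 ≤ Fintype.card F) : Cfsg.HasCyclicSchurMultiplier ↥(Cfsg.Lie.chevF4.group F) 1 := by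
  letI := good2F4
  have := perfect_single (F := F) single_F4
  exact (la_F4 hF).has_one (ker_F4 _)

end Cfsg.Agent.S2103
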