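import Cfsg.Statements.S2106
import Mathlib
import Cfsg.Agent.Mult.Univ
import Cfsg.Agent.S1079

set_option autoImplicit false
open Cfsg

namespace Cfsg.Agent.S2106
open Cfsg.Lie Cfsg.Agent.Chev Cfsg.Agent.Mult Cfsg.Agent.H2.Schur


/-- Schur multipliers of the (adjoint, simple) Chevalley groups of type E₇: over a field with q elements the Schur multiplier is cyclic of order gcd(2, q − 1) (here the Schur multiplier is described through stem extensions, as in the definitions). -/
theorem result {F : Type*} [Field F] [Fintype F] {q : ℕ} (hF : Fintype.card F = q) : Cfsg.HasCyclicSchurMultiplier ↥(Cfsg.Lie.chevE7.group F) (Nat.gcd 2 (q - 1)) := by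
  letI := good2E7
  have := perfect_single (F := F) single_E7
  obtain ⟨_, h⟩ := (la_of_sld (F := F) sld_E7).card_mult
  exact has_of_card_mult_squarefree
    (Nat.prime_two.prime.squarefree.squarefree_of_dvd (Nat.gcd_dvd_left _ _))
    (h.trans (S1079.result hF (chevE7, 2) (by simp)))

end Cfsg.Agent.S2106
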