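import Cfsg.Statements.S2107
import Mathlib
import Cfsg.Agent.Mult.Univ

set_option autoImplicit false
open Cfsg

namespace Cfsg.Agent.S2107
open Cfsg.Lie Cfsg.Agent.Chev Cfsg.Agent.Mult Cfsg.Agent.H2.Schur


/-- Schur multipliers of the Chevalley groups of type E₈: over every finite field the Schur multiplier of E₈(q) is trivial (here the Schur multiplier is described through stem extensions, as in the definitions). -/
theorem result {F : Type*} [Field F] [Fintype F] : Cfsg.HasCyclicSchurMultiplier ↥(Cfsg.Lie.chevE8.group F) 1 := by
  letI := good2E8
  have := perfect_single (F := F) single_E8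
  exact (la_of_sld sld_E8).has_one (ker_E8 _)

end Cfsg.Agent.S2107
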