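import Cfsg.Statements.S2109
-- import your own Cfsg.Agent.* helpers here
import Cfsg.Agent.Comp.E6M.Main

set_option autoImplicit false
open Cfsg

namespace Cfsg.Agent.S2109

/-- Exceptional Schur multiplier: ²E₆(2), realised over the field with 4 elements, has Schur multiplier isomorphic to the product of cyclic groups of orders 3, 2 and 2 (order 12, not cyclic; here the Schur multiplier is described through stem extensions, as in the definitions). -/
theorem result {K : Type*} [Field K] [Fintype K] (hK : Fintype.card K = 4) : Cfsg.HasSchurMultiplier ↥(Cfsg.Lie.twistedE6 K 2) (Multiplicative (ZMod 3 × ZMod 2 × ZMod 2)) := by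
  exact Cfsg.Agent.Comp.E6M.has hK

end Cfsg.Agent.S2109
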