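import Cfsg.Statements.S2115
-- import your own Cfsg.Agent.* helpers here
import Cfsg.Agent.Schur.Tits.P2
import Cfsg.Agent.Schur.Tits.P3
import Cfsg.Agent.Schur.Tits.P5
import Cfsg.Agent.Comp.F42.Iso
import Cfsg.Agent.Schur.Prod

set_option autoImplicit false
open Cfsg

namespace Cfsg.Agent.S2115

/-- The Tits group, the commutator subgroup of ²F₄(2), has trivial Schur multiplier (here the Schur multiplier is described through stem extensions, as in the definitions). -/
theorem result : Cfsg.HasCyclicSchurMultiplier Cfsg.Lie.TitsGroup 1 := by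
  have := Cfsg.Agent.Schur.Tits.card.1
  refine Cfsg.Agent.Schur.has_of_equiv (Cfsg.Agent.Schur.hasCyc (by norm_num) Cfsg.Agent.Schur.Tits.card.2 [2, 3, 5, 13] 11 (by norm_num) (by norm_num) ?_ Cfsg.Agent.Schur.low_one) ⟨Cfsg.Agent.Comp.F42.isoT⟩
  simp only [List.forall_mem_cons]
  exact ⟨Or.inr ⟨0, by norm_num, Cfsg.Agent.Schur.Tits.P2.gen.of_nil _⟩,
    Or.inr ⟨0, by norm_num, Cfsg.Agent.Schur.Tits.P3.gen.of_nil _⟩,
    Or.inr ⟨0, by norm_num, Cfsg.Agent.Schur.Tits.P5.gen.of_nil _⟩,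
    Or.inl (by norm_num), by simp⟩

end Cfsg.Agent.S2115
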