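import Cfsg.Statements.S2121
import Mathlib
import Cfsg.Agent.Chev.AutC

set_option autoImplicit false
open Cfsg

namespace Cfsg.Agent.S2121
open Cfsg.Lie Cfsg.Agent.Chev

/-- Outer automorphisms of the Chevalley groups of type G₂: over a field with q = p^f (p prime) ≥ 3 elements, the outer automorphism group of G₂(q) has order f when p ≠ 3 and 2f when p = 3 (field automorphisms, and in characteristic 3 also the exceptional graph automorphism). -/
theorem result {F : Type*} [Field F] [Fintype F] (p f : ℕ) [Fact p.Prime] [CharP F p] (hF : Fintype.card F = p ^ f) (hq : 3 ≤ p ^ f) : Nat.card (Cfsg.Out ↥(Cfsg.Lie.chevG2.group F)) = (if p = 3 then 2 * f else f) := by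
  letI := good2G2
  rw [card_out good3G2, card_ker_G2, one_mul,
    (ringAut_cyclic F).2 p f Fact.out (Nat.card_eq_fintype_card.trans hF)]
  split_ifs with h
  · subst h
    obtain ⟨m, -, hm⟩ := exists_excG2 F (surjective_frobenius F 3)
    rw [card_range_piO good3G2 bond_G2 (by
      simpa [-MonoidHom.mem_range] using m.mem_range_piO hm) (by decide +kernel)]
    rfl
  · rw [card_range_one good3G2 bond_G2 Nat.prime_three isExc_G2 (ringChar.eq F p ▸ h), one_mul]

end Cfsg.Agent.S2121
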