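import Cfsg.Statements.S2122
import Mathlib
import Cfsg.Agent.Chev.AutC

set_option autoImplicit false
open Cfsg

namespace Cfsg.Agent.S2122
open Cfsg.Lie Cfsg.Agent.Chev

/-- Outer automorphisms of the Chevalley groups of type F₄: over a field with q = p^f (p prime) elements, the outer automorphism group of F₄(q) has order gcd(2, p) · f (field automorphisms, and in characteristic 2 also the exceptional graph automorphism). -/
theorem result {F : Type*} [Field F] [Fintype F] (p f : ℕ) [Fact p.Prime] [CharP F p] (hF : Fintype.card F = p ^ f) : Nat.card (Cfsg.Out ↥(Cfsg.Lie.chevF4.group F)) = Nat.gcd 2 p * f := by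
  letI := good2F4
  rw [card_out good3F4, card_ker_F4, one_mul,
    (ringAut_cyclic F).2 p f Fact.out (Nat.card_eq_fintype_card.trans hF)]
  by_cases h : p = 2
  · subst h
    obtain ⟨m, -, hm⟩ := exists_excF4 F (surjective_frobenius F 2)
    rw [card_range_piO good3F4 bond_F4 (by
      simpa [-MonoidHom.mem_range] using m.mem_range_piO hm) (by decide +kernel)]
    rfl
  · rw [card_range_one good3F4 bond_F4 Nat.prime_two isExc_F4 (ringChar.eq F p ▸ h),
      (Nat.coprime_primes Nat.prime_two Fact.out).mpr (Ne.symm h)]

end Cfsg.Agent.S2122
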