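import Cfsg.Statements.S2124
import Mathlib
import Cfsg.Agent.Chev.AutC

set_option autoImplicit false
open Cfsg

namespace Cfsg.Agent.S2124
open Cfsg.Lie Cfsg.Agent.Chev

/-- Outer automorphisms of the (adjoint, simple) Chevalley groups of type E₇: over a field with q = p^f (p prime) elements, the outer automorphism group of E₇(q) has order gcd(2, q − 1) · f (diagonal and field automorphisms). -/
theorem result {F : Type*} [Field F] [Fintype F] (p f : ℕ) [Fact p.Prime] [CharP F p] (hF : Fintype.card F = p ^ f) : Nat.card (Cfsg.Out ↥(Cfsg.Lie.chevE7.group F)) = Nat.gcd 2 (p ^ f - 1) * f := by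
  letI := good2E7
  rw [card_out good3E7, card_ker_E7,
    (ringAut_cyclic F).2 p f Fact.out (Nat.card_eq_fintype_card.trans hF),
    card_range_piO good3E7 bond_E7 
      (by simp [-MonoidHom.mem_range]) (by simp),
    Nat.card_units, Nat.card_eq_fintype_card, hF, List.length_singleton, one_mul]

end Cfsg.Agent.S2124
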