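import Cfsg.Statements.S2136
import Mathlib
import Cfsg.Agent.H3x.Co2
import Cfsg.Agent.SchurG.Co2.Iso
import Cfsg.Agent.SchurG.S62.Iso

set_option autoImplicit false
open Cfsg

namespace Cfsg.Agent.S2136


/-- The Conway group Co₂ (the stabiliser of a minimal vector of the rank-24 lattice) has an involution whose centraliser C has largest normal 2-subgroup extraspecial of order 2^9 with quotient C / O₂(C) isomorphic to the symplectic group Sp(6, 2) (shape 2^{1+8}Sp(6, 2)). -/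
theorem result : ∃ t : ↥Cfsg.Spor.Co2, orderOf t = 2 ∧ Cfsg.IsExtraspecial 2 (Cfsg.pCore 2 ↥(Subgroup.centralizer ({t} : Set ↥Cfsg.Spor.Co2))) ∧ Nat.card (Cfsg.pCore 2 ↥(Subgroup.centralizer ({t} : Set ↥Cfsg.Spor.Co2))) = 2 ^ 9 ∧ Nonempty (↥(Subgroup.centralizer ({t} : Set ↥Cfsg.Spor.Co2)) ⧸ Cfsg.pCore 2 ↥(Subgroup.centralizer ({t} : Set ↥Cfsg.Spor.Co2)) ≃* Matrix.symplecticGroup (Fin 3) (ZMod 2)) := by
  obtain ⟨e⟩ := SchurG.Co2.exists_iso
  obtain ⟨f⟩ := SchurG.S62.exists_iso (ZMod 2) (ZMod.card 2)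
  obtain ⟨t, h1, h2, h3, ⟨g⟩⟩ := H3x.Co2.main e
  refine ⟨t, h1, h2, h3, ⟨g.trans (f.trans (MulEquiv.ofBijective (QuotientGroup.mk' _)
    ((Nat.bijective_iff_surjective_and_card _).mpr ⟨QuotientGroup.mk'_surjective _, ?_⟩)).symm)⟩⟩
  rw [← Nat.card_congr f.toEquiv, SchurG.S62.card.2.1, Classical.SpMat.card_sp]
  simp [Finset.prod_range_succ]

end Cfsg.Agent.S2136
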