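import Mathlib
import Cfsg.Statements.S2140
import Cfsg.Agent.Classical.MinIdx

set_option autoImplicit false
set_option backward.isDefEq.respectTransparency false
open Cfsg

namespace Cfsg.Agent.S2140

open Cfsg.Agent.Classical Cfsg.Agent.Classical.LS Cfsg.Agent.Classical.SLBasic Matrix

theorem two_eq_zero {F : Type*} [Field F] [Fintype F] (h : 2 ∣ Fintype.card F) : (2 : F) = 0 := by
  have := (prime_dvd_char_iff_dvd_card (R := F) 2).2 h
  have h2 : ringChar F = 2 := by
    obtain ⟨n, hp, -⟩ := FiniteField.card F (ringChar F)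
    exact ((Nat.prime_dvd_prime_iff_eq Nat.prime_two hp).1 this).symm
  exact_mod_cast (ringChar.spec F 2).2 (h2 ▸ dvd_refl _)

theorem sl_index {F : Type*} [Field F] [Fintype F] (k : ℕ) (hk : 2 ≤ k)
    (hexc : ¬ (k = 3 ∧ Fintype.card F = 2)) (H : Subgroup (SpecialLinearGroup (Fin (k + 1)) F))
    (hH : H ≠ ⊤) : Fintype.card F * ∑ j ∈ Finset.range k, Fintype.card F ^ j < H.index := by
  classical
  by_cases hex : (k + 1, Fintype.card F) ≠ (3, 2) ∧ (k + 1, Fintype.card F) ≠ (3, 4) ∧
      (k + 1, Fintype.card F) ≠ (4, 2) ∧ (k + 1, Fintype.card F) ≠ (4, 3)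
  · exact (exists_rep_index (fun d ρ _ hn => by
      simpa using sl_bound (k + 1) (by omega) hex _ ρ hn) hH).1
  by_contra hlt
  have hc := card_SL (F := F) (k + 1) (by omega)
  have hm := H.card_mul_index
  have hd := H.index_dvd_card
  rw [Nat.card_eq_fintype_card (α := F)] at hc
  simp only [ne_eq, Prod.mk.injEq, not_and_or, not_not, not_or] at hex hexc
  rcases (by omega : (k = 2 ∧ Fintype.card F = 2) ∨ (k = 2 ∧ Fintype.card F = 4) ∨
    (k = 3 ∧ Fintype.card F = 3)) with ⟨rfl, hq⟩ | ⟨rfl, hq⟩ | ⟨rfl, hq⟩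
  · simp only [hq, Finset.sum_range_succ, Fin.prod_univ_succ] at hlt hc
    norm_num at hlt hc
    obtain ⟨h1, h2⟩ := sl_small hk hH (by rw [hq]; omega) (T := 21) (by rw [hq]; rfl)
    obtain ⟨x, f, h, hx, hf⟩ := exists_pair (F := F) (ι := Fin 3) (by simp)
    have h3 := h2 x f h hx hf
    rw [hq] at h1 h2 h3
    rw [Nat.card_eq_fintype_card (α := Matrix.SpecialLinearGroup _ F), hc] at hd hm
    have h4 : H.index = 4 := by
      generalize H.index = i at *
      have : 4 ≤ i := by omega
      interval_cases i <;> omega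
    rw [h4] at hm h2
    exact not_free_three (two_eq_zero (by rw [hq])) (H := H) (by
      rw [show Nat.card H = 42 by omega]; norm_num)
      fun u φ h hu hφ => fix_of_card (h2 u φ h hu hφ)
  · simp only [hq, Finset.sum_range_succ, Fin.prod_univ_succ] at hlt hc
    norm_num at hlt hc
    obtain ⟨h1, h2⟩ := sl_small hk hH (by rw [hq]; omega) (T := 315) (by rw [hq]; rfl)
    obtain ⟨x, f, h, hx, hf⟩ := exists_pair (F := F) (ι := Fin 3) (by simp)
    have h3 := h2 x f h hx hf
    rw [hq] at h1 h2 h3
    have hc' : Fintype.card (SpecialLinearGroup (Fin (2 + 1)) F) = 60480 := by omega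
    rw [Nat.card_eq_fintype_card (α := Matrix.SpecialLinearGroup _ F), hc'] at hd hm
    have h4 : H.index = 16 := by
      generalize H.index = i at *
      have : 16 ≤ i := by omega
      interval_cases i <;> omega
    rw [h4] at hm h2
    exact not_free_three (two_eq_zero (by rw [hq]; norm_num)) (H := H) (by
      rw [show Nat.card H = 3780 by omega]; norm_num)
      fun u φ h hu hφ => fix_of_card (h2 u φ h hu hφ)
  · simp only [hq, Finset.sum_range_succ, Fin.prod_univ_succ] at hlt hc
    norm_num at hlt hc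
    obtain ⟨h1, h2⟩ := sl_small hk hH (by rw [hq]; omega) (T := 1040) (by rw [hq]; rfl)
    obtain ⟨x, f, h, hx, hf⟩ := exists_pair (F := F) (ι := Fin 4) (by simp)
    have h3 := h2 x f h hx hf
    rw [hq] at h1 h2 h3
    have hc' : Fintype.card (SpecialLinearGroup (Fin (3 + 1)) F) = 12130560 := by omega
    rw [Nat.card_eq_fintype_card, hc'] at hd
    have h4 : H.index = 27 := by
      generalize H.index = i at *
      have : 27 ≤ i := by omega
      interval_cases i <;> omega
    rw [h4] at h2
    refine not_free_four (F := F) (Ω := _ ⧸ H) (fun h => ?_) (by rw [hq]; exact h4)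
      fun u φ h hu hφ => fix_of_card (h2 u φ h hu hφ)
    have h5 : ((Fintype.card F : ℕ) : F) = 0 := FiniteField.cast_card_eq_zero F
    rw [hq] at h5
    have : (1 : F) = 0 := by push_cast at h5; linear_combination h5 - h
    exact one_ne_zero this

/-- Minimal index of a proper subgroup of the linear groups: for n ≥ 3 and a field F with q elements, (n, q) ≠ (4, 2), every proper subgroup of PSL_n(F) has index at least (q^n − 1)/(q − 1), and some subgroup has exactly that index (the stabiliser of a point of the projective space). -/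
theorem result {F : Type*} [Field F] [Fintype F] {q : ℕ} (hF : Fintype.card F = q) (n : ℕ) (hn : 3 ≤ n) (hexc : ¬ (n = 4 ∧ q = 2)) : (∀ H : Subgroup (Matrix.ProjectiveSpecialLinearGroup (Fin n) F), H ≠ ⊤ → (q ^ n - 1) / (q - 1) ≤ H.index) ∧ (∃ H : Subgroup (Matrix.ProjectiveSpecialLinearGroup (Fin n) F), H.index = (q ^ n - 1) / (q - 1)) := by
  subst hF
  have hq : 2 ≤ Fintype.card F := Fintype.one_lt_card
  obtain ⟨k, rfl⟩ : ∃ k, n = k + 1 := ⟨n - 1, by omega⟩
  have e : (Fintype.card F ^ (k + 1) - 1) / (Fintype.card F - 1) =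
      ∑ j ∈ Finset.range (k + 1), Fintype.card F ^ j :=
    Nat.div_eq_of_eq_mul_right (by omega) (geom (by omega) _).symm
  rw [e]
  refine ⟨fun H hH => ?_, ?_⟩
  · have hs := QuotientGroup.mk'_surjective (Subgroup.center (SpecialLinearGroup (Fin (k + 1)) F))
    have := sl_index k (by omega) (by omega) (H.comap (QuotientGroup.mk' _)) fun h =>
      hH (Subgroup.comap_injective hs (h.trans (Subgroup.comap_top _).symm))
    rw [Subgroup.index_comap_of_surjective _ hs, Finset.mul_sum] at this
    rw [Finset.sum_range_succ']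
    simpa [pow_succ'] using this
  · refine ⟨MulAction.stabilizer _ (Projectivization.mk F (fun _ : Fin (k + 1) => (1 : F))
      fun h => by simpa using congrFun h 0), ?_⟩
    rw [MulAction.index_stabilizer_of_transitive,
      Projectivization.card_of_finrank F _ (n := k + 1) (by simp), Nat.card_eq_fintype_card]

end Cfsg.Agent.S2140
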