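import Cfsg.Statements.S2143
import Cfsg.Agent.MinI.OFin
-- import your own Cfsg.Agent.* helpers here

set_option autoImplicit false
open Cfsg

namespace Cfsg.Agent.S2143

open Cfsg.Agent.MinI




/-- Minimal index of a proper subgroup of the odd-dimensional orthogonal groups: for m ≥ 3 and a field F with q elements, q odd and q ≥ 5, every proper subgroup of PΩ_(2m+1)(F) (for the form x₀² + Σ xᵢyᵢ) has index at least (q^(2m) − 1)/(q − 1), and that index is attained. -/
theorem result {F : Type*} [Field F] [Fintype F] {q : ℕ} (hF : Fintype.card F = q) (hodd : Odd q) (h5 : 5 ≤ q) (m : ℕ) (hm : 3 ≤ m) : (∀ H : Subgroup (Cfsg.POmega F (Cfsg.quadFormOdd m F)), H ≠ ⊤ → (q ^ (2 * m) - 1) / (q - 1) ≤ H.index) ∧ (∃ H : Subgroup (Cfsg.POmega F (Cfsg.quadFormOdd m F)), H.index = (q ^ (2 * m) - 1) / (q - 1)) := by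
  have hq : Nat.card F = q := by rw [Nat.card_eq_fintype_card, hF]
  have h2 : (2 : F) ≠ 0 := Orth.two_ne_zero_of_odd (hF ▸ hodd)
  obtain ⟨k, rfl⟩ := Nat.exists_eq_add_of_le' hm
  obtain ⟨r, rfl⟩ := Nat.exists_eq_add_of_le' h5
  have hc : Fintype.card (Unit ⊕ (Fin (k + 3) ⊕ Fin (k + 3))) = 2 * k + 7 := by simp; ring
  have hp : 1 ≤ (r + 5) ^ (2 * (k + 3)) := Nat.one_le_pow _ _ (by omega)
  have := pomega_min_sing (Orth.nd_oddQ (k + 3) h2) (by omega) (s := (r + 5) ^ (2 * (k + 3)) - 1)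
    (by rw [Orth.nv_oddQ, hq]; omega) (by
      rw [hq, hc, show 2 * k + 7 - 3 = 2 * k + 4 from rfl, show r + 5 - 1 = r + 4 from rfl,
        show 2 * (k + 3) = 2 * k + 4 + 2 from rfl, pow_add _ _ 2]
      generalize (r + 5) ^ (2 * k + 4) = y
      refine (Nat.sub_le _ _).trans ?_
      nlinarith [Nat.zero_le (r * y)]) (fun n c _ h _ => by
      have h1 := (nv_odd_ge (k + 3) c).1
      rw [hq, hc, show 2 * k + 7 - 2 = 2 * k + 5 from rfl, show r + 5 - 1 = r + 4 from rfl] at h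
      rw [hq] at h1 ⊢
      have h3 : (r + 5) ^ (k + 3 + 1) ≤ (r + 5) ^ (2 * k + 5) := Nat.pow_le_pow_right (by omega) (by omega)
      rw [show 2 * (k + 3) = 2 * k + 5 + 1 from rfl, pow_succ] at h1 ⊢
      rw [pow_succ] at h3
      generalize (r + 5) ^ (2 * k + 5) = y at *
      generalize (r + 5) ^ (k + 3) = z at *
      refine (Nat.sub_le _ _).trans ?_
      show _ ≤ (r + 4) * n
      have h4 : 3 * y ≤ 2 * n + z := by nlinarith
      nlinarith [Nat.zero_le (r * y), Nat.mul_le_mul_left (r + 4) h4]) (by omega)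
  rwa [Orth.coe_oddQ, hq] at this

end Cfsg.Agent.S2143
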