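import Cfsg.Statements.S2144
import Cfsg.Agent.MinI.OFin
-- import your own Cfsg.Agent.* helpers here

set_option autoImplicit false
open Cfsg

namespace Cfsg.Agent.S2144

open Cfsg.Agent.MinI




/-- Minimal index of a proper subgroup of the odd-dimensional orthogonal groups over the field with 3 elements: for m ≥ 3, every proper subgroup of PΩ_(2m+1)(3) (for the form x₀² + Σ xᵢyᵢ) has index at least 3^m(3^m − 1)/2, and that index is attained. -/
theorem result {F : Type*} [Field F] [Fintype F] (hF : Fintype.card F = 3) (m : ℕ) (hm : 3 ≤ m) : (∀ H : Subgroup (Cfsg.POmega F (Cfsg.quadFormOdd m F)), H ≠ ⊤ → 3 ^ m * (3 ^ m - 1) / 2 ≤ H.index) ∧ (∃ H : Subgroup (Cfsg.POmega F (Cfsg.quadFormOdd m F)), H.index = 3 ^ m * (3 ^ m - 1) / 2) := by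
  have hq : Nat.card F = 3 := by rw [Nat.card_eq_fintype_card, hF]
  have h2 : (2 : F) ≠ 0 := Orth.two_ne_zero_of_odd (by rw [hF]; decide)
  obtain ⟨k, rfl⟩ := Nat.exists_eq_add_of_le' hm
  have hc : Fintype.card (Unit ⊕ (Fin (k + 3) ⊕ Fin (k + 3))) = 2 * k + 7 := by simp; ring
  obtain ⟨c, hc'⟩ := Orth.exists_not_isSquare h2
  have hc0 : c ≠ 0 := by rintro rfl; exact hc' ⟨0, by simp⟩
  have hp : 1 ≤ 3 ^ (k + 3) := Nat.one_le_pow _ _ (by omega)
  have hb : 3 ^ (k + 3) * (3 ^ (k + 3) - 1) / 2 * 2 + 3 ^ (k + 3) = 3 ^ (2 * (k + 3)) := by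
    rw [Nat.div_mul_cancel (Dvd.dvd.mul_left (Nat.sub_one_dvd_pow_sub_one 3 _) _), two_mul, pow_add _ (k + 3)]
    obtain ⟨y, hy⟩ := Nat.exists_eq_add_of_le' hp
    rw [hy]; simp; ring
  have hnd := Orth.nd_oddQ (k + 3) h2
  have e1 : 3 ^ (2 * (k + 3)) = 3 * 3 ^ (2 * k + 5) := by ring
  have e2 : 3 ^ (2 * (k + 3)) = 9 * 3 ^ (2 * k + 4) := by ring
  have := pomega_min hnd (by omega) (b := 3 ^ (k + 3) * (3 ^ (k + 3) - 1) / 2) (κ := 2) (c := c)
    (by omega) ((hnd.exists_Q_eq (by simp; omega) c).imp fun w hw =>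
      ⟨Orth.ne_zero_of_Q_ne_zero (hw ▸ hc0), hw⟩) (by
      have a1 := card_ne_zero_add (p := fun _ : F => True) trivial
      rw [Nat.card_congr (Equiv.subtypeUnivEquiv fun _ : F => trivial), hq] at a1
      refine Eq.trans ?_ (show Nat.card {x : F // x ≠ 0 ∧ True} = 2 by omega)
      refine Nat.card_congr (Equiv.subtypeEquivRight fun l => and_congr_right fun hl => ?_)
      have := FiniteField.pow_card_sub_one_eq_one l hl
      rw [hF] at this
      simp [this]) (by
      have := (nv_odd_ge (k + 3) c).2 hc'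
      rw [hq] at this
      rw [card_ne_eq _ hc0]; omega) (by
      rw [hq, hc, show 2 * k + 7 - 3 = 2 * k + 4 from rfl]; omega) (fun n h => by
      rw [Orth.nv_oddQ, hq] at h; omega) (fun n c _ h _ => by
      have h1 := (nv_odd_ge (k + 3) c).1
      rw [hq, hc, show 2 * k + 7 - 2 = 2 * k + 5 from rfl] at h
      rw [hq] at h1
      omega) (by omega)
  rwa [Orth.coe_oddQ] at this

end Cfsg.Agent.S2144
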