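import Cfsg.Statements.S2145
import Cfsg.Agent.MinI.OFin
-- import your own Cfsg.Agent.* helpers here

set_option autoImplicit false
open Cfsg

namespace Cfsg.Agent.S2145

open Cfsg.Agent.MinI




/-- Minimal index of a proper subgroup of the even-dimensional orthogonal groups of plus type: for m ≥ 4 and a field F with q ≥ 4 elements, every proper subgroup of PΩ⁺_2m(F) (for the form Σ xᵢyᵢ) has index at least (q^m − 1)(q^(m−1) + 1)/(q − 1), and that index is attained (the singular points). -/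
theorem result {F : Type*} [Field F] [Fintype F] {q : ℕ} (hF : Fintype.card F = q) (hq : 4 ≤ q) (m : ℕ) (hm : 4 ≤ m) : (∀ H : Subgroup (Cfsg.POmega F (Cfsg.quadFormPlus m F)), H ≠ ⊤ → (q ^ m - 1) * (q ^ (m - 1) + 1) / (q - 1) ≤ H.index) ∧ (∃ H : Subgroup (Cfsg.POmega F (Cfsg.quadFormPlus m F)), H.index = (q ^ m - 1) * (q ^ (m - 1) + 1) / (q - 1)) := by
  have hq' : Nat.card F = q := by rw [Nat.card_eq_fintype_card, hF]
  obtain ⟨k, rfl⟩ := Nat.exists_eq_add_of_le' hm
  obtain ⟨r, rfl⟩ := Nat.exists_eq_add_of_le' hq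
  have hc : Fintype.card (Fin (k + 4) ⊕ Fin (k + 4)) = 2 * k + 8 := by simp; ring
  have hp : 1 ≤ (r + 4) ^ (k + 4) := Nat.one_le_pow _ _ (by omega)
  have hz : (r + 4) ^ 3 ≤ (r + 4) ^ (k + 3) := Nat.pow_le_pow_right (by omega) (by omega)
  have hs : ((r + 4) ^ (k + 4) - 1) * ((r + 4) ^ (k + 3) + 1) + (r + 4) ^ (k + 3) + 1 =
      (r + 4) * ((r + 4) ^ (k + 3)) ^ 2 + (r + 4) * (r + 4) ^ (k + 3) := by
    zify [hp]; ring
  have := pomega_min_sing (Orth.nd_plusQ (F := F) (k + 4)) (by omega)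
    (s := ((r + 4) ^ (k + 4) - 1) * ((r + 4) ^ (k + 3) + 1))
    (by
      have := Orth.nv_plusQ (F := F) (k + 3)
      rw [hq'] at this
      zify [hp]; rw [this]; push_cast; ring) (by
      rw [hq', hc, show 2 * k + 8 - 3 = (k + 2) + (k + 3) by omega, show r + 4 - 1 = r + 3 from rfl,
        pow_add _ (k + 2)]
      have hy : (r + 4) ^ (k + 3) = (r + 4) * (r + 4) ^ (k + 2) := by ring
      have hy2 : r + 4 ≤ (r + 4) ^ (k + 2) := Nat.le_self_pow (by omega) _
      generalize (r + 4) ^ (k + 3) = z at *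
      generalize (r + 4) ^ (k + 2) = y at *
      generalize ((r + 4) ^ (k + 4) - 1) * (z + 1) = s at *
      have : (r + 4) * z ≤ y * z := Nat.mul_le_mul_right _ hy2
      have : z ^ 2 = (r + 4) * (y * z) := by rw [sq]; nth_rewrite 1 [hy]; ring
      nlinarith [Nat.zero_le (r * (y * z))]) (fun n c hc0 h _ => by
      have h1 := nv_plus_ne (k + 3) hc0
      rw [hq', hc, show 2 * k + 8 - 2 = (k + 3) * 2 by omega, show r + 4 - 1 = r + 3 from rfl,
        pow_mul] at h
      rw [hq', show 2 * (k + 3) + 1 = (k + 3) * 2 + 1 by omega, pow_succ _ ((k + 3) * 2), pow_mul,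
        show k + 3 + 1 = k + 4 from rfl] at h1
      rw [hq']
      generalize (r + 4) ^ (k + 3) = z at *
      generalize ((r + 4) ^ (k + 4) - 1) * (z + 1) = s at *
      show _ ≤ (r + 3) * n
      have h4 : 3 * z ^ 2 ≤ 2 * n + z := by nlinarith
      have h5 : 3 * (r + 4) ≤ z := by nlinarith [Nat.zero_le (r ^ 3), Nat.zero_le (r ^ 2)]
      nlinarith [Nat.zero_le (r * z ^ 2), Nat.mul_le_mul_left (r + 3) h4, Nat.mul_le_mul_left z h5])
    (by omega)
  rwa [Orth.coe_plusQ, hq'] at this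

end Cfsg.Agent.S2145
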