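import Cfsg.Statements.S2146
import Cfsg.Agent.MinI.OFin
-- import your own Cfsg.Agent.* helpers here

set_option autoImplicit false
open Cfsg

namespace Cfsg.Agent.S2146

open Cfsg.Agent.MinI




/-- Minimal index of a proper subgroup of the even-dimensional orthogonal groups of plus type over the field with 2 elements: for m ≥ 4, every proper subgroup of Ω⁺_2m(2) (for the form Σ xᵢyᵢ) has index at least 2^(m−1)(2^m − 1), and that index is attained. -/
theorem result {F : Type*} [Field F] [Fintype F] (hF : Fintype.card F = 2) (m : ℕ) (hm : 4 ≤ m) : (∀ H : Subgroup (Cfsg.POmega F (Cfsg.quadFormPlus m F)), H ≠ ⊤ → 2 ^ (m - 1) * (2 ^ m - 1) ≤ H.index) ∧ (∃ H : Subgroup (Cfsg.POmega F (Cfsg.quadFormPlus m F)), H.index = 2 ^ (m - 1) * (2 ^ m - 1)) := by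
  have hq : Nat.card F = 2 := by rw [Nat.card_eq_fintype_card, hF]
  have h2 := two_eq_zero_of_card_two hq
  obtain ⟨k, rfl⟩ := Nat.exists_eq_add_of_le' hm
  have hc : Fintype.card (Fin (k + 4) ⊕ Fin (k + 4)) = 2 * k + 8 := by simp; ring
  have hp : 1 ≤ 2 ^ (k + 4) := Nat.one_le_pow _ _ (by omega)
  have hb : 2 ^ (k + 3) * (2 ^ (k + 4) - 1) + 2 ^ (k + 3) = 2 ^ (2 * (k + 3) + 1) := by
    zify [hp]; ring
  have hnd := Orth.nd_plusQ (F := F) (k + 4)
  have e1 : 2 ^ (2 * (k + 3) + 1) = 2 * 2 ^ (2 * k + 6) := by ring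
  have e2 : 2 ^ (2 * (k + 3) + 1) = 4 * 2 ^ (2 * k + 5) := by ring
  have e3 : 2 ^ (k + 3 + 1) = 2 * 2 ^ (k + 3) := by ring
  have := pomega_min hnd (by omega) (b := 2 ^ (k + 3) * (2 ^ (k + 4) - 1)) (κ := 1) (c := 1)
    (by omega) ((hnd.exists_Q_eq (by simp; omega) 1).imp fun w hw =>
      ⟨Orth.ne_zero_of_Q_ne_zero (hw ▸ one_ne_zero), hw⟩) (by
      rw [Nat.card_eq_one_iff_exists]
      exact ⟨⟨1, by simp⟩, fun l => Subtype.ext (eq_one_of_card_two hq l.2.1)⟩) (by
      have := nv_plus_ne (F := F) (k + 3) one_ne_zero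
      rw [hq, show k + 3 + 1 = k + 4 from rfl] at this
      rw [card_ne_eq _ one_ne_zero]; omega) (by
      rw [hq, hc, show 2 * k + 8 - 3 = 2 * k + 5 from rfl]; omega) (fun n h => by
      have := Orth.nv_plusQ (F := F) (k + 3)
      rw [hq] at this h
      have h3 : Orth.nv (Orth.plusQ (k + 3 + 1) F) 0 + 2 ^ (k + 3) =
        2 ^ (2 * (k + 3) + 1) + 2 ^ (k + 3 + 1) := by zify; rw [this]; ring
      have : 1 ≤ 2 ^ (k + 3) := Nat.one_le_pow _ _ (by omega)
      change Orth.nv (Orth.plusQ (k + 3 + 1) F) 0 ≤ _ at h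
      omega) (fun n c hc0 _ h => by
      have h1 := nv_plus_ne (k + 3) hc0
      have h := h h2
      rw [hq, hc, show 2 * k + 8 - 2 = 2 * k + 6 from rfl] at h
      rw [hq] at h1
      change _ + Orth.nv (Orth.plusQ (k + 3 + 1) F) c ≤ _ at h
      omega) (fun h _ _ => by
      obtain rfl : k = 0 := by omega
      rw [hq]; norm_num)
  rwa [Orth.coe_plusQ] at this

end Cfsg.Agent.S2146
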