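import Cfsg.Statements.S2147
import Cfsg.Agent.MinI.OFin
-- import your own Cfsg.Agent.* helpers here

set_option autoImplicit false
open Cfsg

namespace Cfsg.Agent.S2147

open Cfsg.Agent.MinI




/-- Minimal index of a proper subgroup of the even-dimensional orthogonal groups of minus type: for m ≥ 4 and a field F with q elements, every proper subgroup of PΩ⁻_2m(F) (for the form Σ_{i<m−1} xᵢyᵢ + z₁² + a z₁z₂ + b z₂² with anisotropic binary part) has index at least (q^m + 1)(q^(m−1) − 1)/(q − 1), and that index is attained. -/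
theorem result {F : Type*} [Field F] [Fintype F] {q : ℕ} (hF : Fintype.card F = q) (m : ℕ) (hm : 4 ≤ m) (a b : F) (hab : ∀ z₁ z₂ : F, z₁ ^ 2 + a * z₁ * z₂ + b * z₂ ^ 2 = 0 → z₁ = 0 ∧ z₂ = 0) : (∀ H : Subgroup (Cfsg.POmega F (Cfsg.quadFormMinus (m - 1) F a b)), H ≠ ⊤ → (q ^ m + 1) * (q ^ (m - 1) - 1) / (q - 1) ≤ H.index) ∧ (∃ H : Subgroup (Cfsg.POmega F (Cfsg.quadFormMinus (m - 1) F a b)), H.index = (q ^ m + 1) * (q ^ (m - 1) - 1) / (q - 1)) := by
  have hq : Nat.card F = q := by rw [Nat.card_eq_fintype_card, hF]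
  have hq2 : 2 ≤ q := hq ▸ Finite.one_lt_card
  obtain ⟨k, rfl⟩ := Nat.exists_eq_add_of_le' hm
  obtain ⟨r, rfl⟩ := Nat.exists_eq_add_of_le' hq2
  have hc : Fintype.card ((Fin (k + 3) ⊕ Fin (k + 3)) ⊕ Fin 2) = 2 * k + 8 := by simp; ring
  have hp : 1 ≤ (r + 2) ^ (k + 3) := Nat.one_le_pow _ _ (by omega)
  have hz : (r + 2) ^ 3 ≤ (r + 2) ^ (k + 3) := Nat.pow_le_pow_right (by omega) (by omega)
  have hs : ((r + 2) ^ (k + 4) + 1) * ((r + 2) ^ (k + 3) - 1) + (r + 2) * (r + 2) ^ (k + 3) + 1 =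
      (r + 2) * ((r + 2) ^ (k + 3)) ^ 2 + (r + 2) ^ (k + 3) := by
    zify [hp]; ring
  have hab' : Orth.Aniso a b := hab
  have := pomega_min_sing (Orth.nd_minusQ (F := F) (k + 3) (Orth.aniso_disc_ne_zero hab)) (by omega)
    (s := ((r + 2) ^ (k + 4) + 1) * ((r + 2) ^ (k + 3) - 1))
    (by
      have := Orth.nv_minusQ (F := F) (k + 3) hab'
      rw [hq] at this
      zify [hp]; rw [this]; push_cast; ring) (by
      rw [hq, hc, show 2 * k + 8 - 3 = (k + 2) + (k + 3) by omega, show r + 2 - 1 = r + 1 from rfl,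
        pow_add _ (k + 2)]
      have hy : (r + 2) ^ (k + 3) = (r + 2) * (r + 2) ^ (k + 2) := by ring
      generalize (r + 2) ^ (k + 3) = z at *
      generalize (r + 2) ^ (k + 2) = y at *
      generalize ((r + 2) ^ (k + 4) + 1) * (z - 1) = s at *
      have : z ^ 2 = (r + 2) * (y * z) := by rw [sq]; nth_rewrite 1 [hy]; ring
      nlinarith [Nat.zero_le (r * (y * z)), Nat.zero_le (r * z)]) (fun n c hc0 h h' => by
      have h1 := nv_minus_ge (k + 3) hab' c
      rw [hq, hc, show 2 * k + 8 - 2 = (k + 3) * 2 by omega, show r + 2 - 1 = r + 1 from rfl,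
        pow_mul] at h h'
      rw [hq, show 2 * (k + 3) + 1 = (k + 3) * 2 + 1 by omega, pow_succ, pow_succ _ (k + 3),
        pow_mul] at h1
      have h2 : r = 0 → (2 : F) = 0 := fun e => two_eq_zero_of_card_two (by rw [hq, e])
      rw [hq]
      generalize (r + 2) ^ (k + 3) = z at *
      generalize ((r + 2) ^ (k + 4) + 1) * (z - 1) = s at *
      show _ ≤ (r + 1) * n
      rcases Nat.lt_or_ge r 2 with hr | hr
      · interval_cases r
        · have := h' (h2 rfl)
          omega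
        · omega
      obtain ⟨t, rfl⟩ := Nat.exists_eq_add_of_le' hr
      have h4 : 3 * z ^ 2 ≤ 2 * n + (t + 3) * z := by nlinarith
      have h5 : (t + 3) * (t + 3) ≤ z := by nlinarith [Nat.zero_le (t ^ 3), Nat.zero_le (t ^ 2)]
      nlinarith [Nat.zero_le (t * z ^ 2), Nat.mul_le_mul_left (t + 3) h4, Nat.mul_le_mul_left z h5,
        Nat.zero_le (t * z)])
    (fun _ h => absurd h (Orth.not_isPlus_minusQ _ hab'))
  rwa [Orth.coe_minusQ, hq] at this

end Cfsg.Agent.S2147
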