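import Cfsg.Statements.S2150
import Cfsg.Agent.MinI.U4c
-- import your own Cfsg.Agent.* helpers here

set_option autoImplicit false
open Cfsg

namespace Cfsg.Agent.S2150

open Cfsg.Agent.MinI




/-- Minimal index of a proper subgroup of the four-dimensional unitary groups: for a field F with q² elements, every proper subgroup of PSU₄(q) has index at least (q + 1)(q³ + 1), and that index is attained. -/
theorem result {F : Type*} [Field F] [Fintype F] (q : ℕ) (hF : Fintype.card F = q ^ 2) (hq : 2 ≤ q) : (∀ H : Subgroup (Cfsg.PSU 4 F q), H ≠ ⊤ → (q + 1) * (q ^ 3 + 1) ≤ H.index) ∧ (∃ H : Subgroup (Cfsg.PSU 4 F q), H.index = (q + 1) * (q ^ 3 + 1)) := by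
  have hF' := Cfsg.Agent.Herm.natCard_of_card hF
  have hB := Cfsg.Agent.Herm.hf_sB hF' 4
  refine Cfsg.Agent.MinI.psu_of_sug hF' (by omega) (fun H hH => ?_) (Cfsg.Agent.MinI.su_four_index hB hF' (by simp))
  by_contra! hlt
  refine Cfsg.Agent.MinI.su_four hB hF' (Ω := _ ⧸ H) (by simp) ?_ (Cfsg.Agent.MinI.exists_smul_ne hH)
  rw [← Subgroup.index_eq_card]
  nlinarith

end Cfsg.Agent.S2150
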