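import Cfsg.Statements.S2151
import Cfsg.Agent.MinI.UFin
-- import your own Cfsg.Agent.* helpers here

set_option autoImplicit false
open Cfsg

namespace Cfsg.Agent.S2151

open Cfsg.Agent.MinI




/-- Minimal index of a proper subgroup of the unitary groups of odd dimension n ≥ 5: for a field F with q² elements, every proper subgroup of PSU_n(q) has index at least (q^n + 1)(q^(n−1) − 1)/(q² − 1), and that index is attained. -/
theorem result {F : Type*} [Field F] [Fintype F] (q : ℕ) (hF : Fintype.card F = q ^ 2) (hq : 2 ≤ q) (n : ℕ) (hn : 5 ≤ n) (hodd : Odd n) : (∀ H : Subgroup (Cfsg.PSU n F q), H ≠ ⊤ → (q ^ n + 1) * (q ^ (n - 1) - 1) / (q ^ 2 - 1) ≤ H.index) ∧ (∃ H : Subgroup (Cfsg.PSU n F q), H.index = (q ^ n + 1) * (q ^ (n - 1) - 1) / (q ^ 2 - 1)) := by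
  obtain ⟨k, rfl⟩ := Nat.exists_eq_add_of_le' (show 2 ≤ n by omega)
  have hk : Odd k := by simpa [Nat.odd_add] using hodd
  have hp : 1 ≤ q ^ (k + 1) := Nat.one_le_pow _ _ (by omega)
  have hq' : (2 : ℤ) ≤ q := by exact_mod_cast hq
  refine psu_min_iso (Herm.natCard_of_card hF) hn (by
    rw [show k + 2 - 1 = k + 1 from rfl]
    push_cast [hp]
    rw [hodd.neg_pow]; ring) fun m o h h' => ?_
  rw [Nat.add_sub_cancel] at h h'
  rw [hk.neg_pow, mul_comm 2, pow_mul] at h
  rw [show k + 2 - 1 = k + 1 from rfl]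
  zify [hp, show 1 ≤ q ^ 2 by nlinarith] at h' ⊢
  rw [pow_succ _ k, pow_add _ k 2]
  have hr : (0 : ℤ) < q ^ k := by positivity
  generalize (q : ℤ) ^ k = r at *
  generalize (q : ℤ) = q at *
  refine le_of_mul_le_mul_left (a := 3 * q) ?_ (by positivity)
  have h1 := mul_le_mul_of_nonneg_left h' (show 0 ≤ (q ^ 2 - 1) * q by
    have : 0 ≤ q ^ 2 - 1 := by nlinarith
    positivity)
  have h2 : 0 ≤ (q ^ 2 - 4) * r ^ 2 := mul_nonneg (by nlinarith) (by positivity)
  have h3 : 0 ≤ (3 * q ^ 3 + q ^ 2 - 4) * r := mul_nonneg (by nlinarith) hr.le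
  nlinarith [congrArg (fun x => (q ^ 2 - 1) * x) h]

end Cfsg.Agent.S2151
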