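import Cfsg.Statements.S2153
import Cfsg.Agent.MinI.UFin
-- import your own Cfsg.Agent.* helpers here

set_option autoImplicit false
open Cfsg

namespace Cfsg.Agent.S2153

open Cfsg.Agent.MinI




/-- Minimal index of a proper subgroup of the unitary groups PSU_n(2) with n divisible by 6, realised over the field with 4 elements: every proper subgroup has index at least 2^(n−1)(2^n − 1)/3, and that index is attained. -/
theorem result {F : Type*} [Field F] [Fintype F] (hF : Fintype.card F = 4) (n : ℕ) (hn : 6 ∣ n) (hpos : 6 ≤ n) : (∀ H : Subgroup (Cfsg.PSU n F 2), H ≠ ⊤ → 2 ^ (n - 1) * (2 ^ n - 1) / 3 ≤ H.index) ∧ (∃ H : Subgroup (Cfsg.PSU n F 2), H.index = 2 ^ (n - 1) * (2 ^ n - 1) / 3) := by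
  have hF' : Nat.card F = 2 ^ 2 := Herm.natCard_of_card hF
  have hB := Herm.hf_sB hF' n
  obtain ⟨k, rfl⟩ := Nat.exists_eq_add_of_le' (show 2 ≤ n by omega)
  have heven : Even (k + 2) := even_iff_two_dvd.2 (Dvd.dvd.trans (by norm_num) hn)
  have hk : Even k := by simpa [Nat.even_add] using heven
  obtain ⟨w, hw⟩ := hB.exists_norm_eq (c := 1) (map_one _)
  have hp : 1 ≤ 2 ^ (k + 2) := Nat.one_le_two_pow
  have hb : (2 ^ (k + 2 - 1) * (2 ^ (k + 2) - 1) / 3 * 3 : ℕ) = (2 : ℤ) * 2 ^ k * (4 * 2 ^ k - 1) := by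
    rw [Nat.div_mul_cancel (Dvd.dvd.mul_left (by
      obtain ⟨j, hj⟩ := heven
      rw [hj, ← two_mul, pow_mul]; exact Nat.sub_one_dvd_pow_sub_one 4 j) _)]
    push_cast [hp]; ring
  have h0 := hB.nv_zero hF'
  have h1 := hB.nv_one hF'
  rw [← nz_zero] at h0
  rw [Module.finrank_fin_fun, heven.neg_pow, mul_comm 2, pow_mul, pow_add _ k 2] at h0 h1
  have hr : (0 : ℤ) < 2 ^ k := by positivity
  generalize 2 ^ (k + 2 - 1) * (2 ^ (k + 2) - 1) / 3 = b at *
  push_cast at h0 h1 hb
  refine psu_min hF' (by omega) (Herm.ne_zero_of_b (hw ▸ one_ne_zero)) (κ := 3) (by omega) ?_ ?_ ?_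
    fun m o h h' => ?_
  · rw [hw]
    refine Eq.trans ?_ (hB.toInv.card_norm hF' one_ne_zero (map_one _))
    exact Nat.card_congr (Equiv.subtypeEquivRight fun l => by
      rw [mul_one]; exact and_iff_right_of_imp fun h e => by simp [e] at h)
  · rw [hw, nz_ne hB one_ne_zero (map_one _)]
    zify; nlinarith
  · show 3 * b ≤ _
    zify; nlinarith
  · rw [Nat.add_sub_cancel] at h h'
    rw [hk.neg_pow, mul_comm 2, pow_mul] at h
    zify at h' ⊢
    push_cast at h
    nlinarith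

end Cfsg.Agent.S2153
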