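import Cfsg.Statements.S2154
import Cfsg.Agent.H23.BT1
import Cfsg.Agent.Chev.All2
-- import your own Cfsg.Agent.* helpers here

set_option autoImplicit false
open Cfsg

namespace Cfsg.Agent.S2154

/-- The Borel–Tits property of the finite Chevalley groups of types G₂, B₂, D₄, F₄, E₆, E₇, E₈ over a finite field of characteristic p: for every non-trivial p-subgroup U of the group G there are an element g of G and a proper set J of fundamental roots such that the normaliser of U in G lies in the conjugate by g of the standard parabolic subgroup P_J and U lies in the conjugate by g of its unipotent radical U_J. -/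
theorem result {F : Type*} [Field F] [Fintype F] (p : ℕ) [Fact p.Prime] [CharP F p] (D : Cfsg.Lie.ChevalleyDatum) (hD : D ∈ [Cfsg.Lie.chevG2, Cfsg.Lie.chevB2, Cfsg.Lie.chevD4, Cfsg.Lie.chevF4, Cfsg.Lie.chevE6, Cfsg.Lie.chevE7, Cfsg.Lie.chevE8]) (U : Subgroup (GL D.Idx F)) (hUG : U ≤ D.group F) (hU : IsPGroup p ↥U) (hne : U ≠ ⊥) : ∃ g ∈ D.group F, ∃ J : Set ℕ, (∃ i, i < D.rank ∧ i ∉ J) ∧ Subgroup.normalizer (U : Set (GL D.Idx F)) ⊓ D.group F ≤ (D.parabolicSubgroup F J).map (MulAut.conj g).toMonoidHom ∧ U ≤ (D.unipotentRadical F J).map (MulAut.conj g).toMonoidHom := by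

  obtain ⟨g⟩ := Chev.good2_of_mem hD
  rw [Chev.group_eq] at hUG ⊢
  obtain ⟨a, ha, J, h1, h2⟩ := H23.BT.borel_tits_p p Chev.gl_R3 hUG hU
  have hJ : Chev.JS D (Fin.val '' J) = J := by
    ext i; simp [Chev.JS, Fin.val_inj]
  refine ⟨a⁻¹, inv_mem ha, Fin.val '' J, ?_, fun b hb => ?_, fun y hy => ?_⟩
  · by_contra hc
    push Not at hc
    have : J = Set.univ := Set.eq_univ_of_forall fun i => by
      obtain ⟨j, hj, e⟩ := hc i i.2
      exact Fin.ext e ▸ hj
    subst this
    rw [H23.BT.UJ_univ] at h1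
    exact hne (eq_bot_iff.mpr fun y hy => by simpa using h1 y hy)
  · rw [Chev.parabolicSubgroup_eq, hJ]
    exact ⟨_, h2 b hb.2 fun y hy => (Subgroup.mem_normalizer_iff.mp hb.1 y).mp hy, by
      simp [mul_assoc]⟩
  · rw [Chev.unipotentRadical_eq, hJ]
    exact ⟨_, h1 y hy, by simp [mul_assoc]⟩

end Cfsg.Agent.S2154
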