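import Cfsg.Statements.S2156
import Mathlib
import Cfsg.Agent.Chev.AutC

set_option autoImplicit false
open Cfsg

namespace Cfsg.Agent.S2156
open Cfsg.Lie Cfsg.Agent.Chev

/-- Over a finite field, every automorphism of the Chevalley group of type G₂, B₂, D₄, F₄, E₆, E₇ or E₈ is the composite of a field automorphism, a graph automorphism, a diagonal automorphism and an inner automorphism: `θ y = x · d(g(f y)) · x⁻¹` for some group element `x`, diagonal `d`, graph `g` and field `f` (each possibly the identity; diagonal here includes conjugation by elements of the diagonal subgroup H). -/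
theorem result {F : Type*} [Field F] [Finite F] (D : Cfsg.Lie.ChevalleyDatum) (hD : D ∈ [Cfsg.Lie.chevG2, Cfsg.Lie.chevB2, Cfsg.Lie.chevD4, Cfsg.Lie.chevF4, Cfsg.Lie.chevE6, Cfsg.Lie.chevE7, Cfsg.Lie.chevE8]) (θ : ↥(D.group F) ≃* ↥(D.group F)) :
    ∃ (x : ↥(D.group F)) (d g f : ↥(D.group F) ≃* ↥(D.group F)),
      D.IsDiagonalAut d ∧ D.IsGraphAut g ∧ D.IsFieldAut f ∧ ∀ y : ↥(D.group F), θ y = x * d (g (f y)) * x⁻¹ := by
  obtain ⟨gd, hg⟩ := good3_of_mem hD
  obtain ⟨x, h⟩ := piH_spec θ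
  obtain ⟨c, γ, σ, e, h1, h2, h3⟩ := exists_decomp hg h
  refine ⟨x⁻¹, diagHom D F c, γ, fieldAutHom D F σ, isDiagonalAut_iff.mpr ⟨c, rfl⟩,
    ⟨_, fun i j _ => h1 i j, fun a i t => ⟨fun ha => ?_, fun ha => ?_⟩⟩,
    isFieldAut_iff.mpr ⟨σ, rfl⟩, fun y => ?_⟩
  · rw [(ch_val_iff (r := sim i)).mp ha, h2]; rfl
  · rw [(ch_val_iff (r := ng (sim i))).mp ha, h3]; rfl
  · rw [← show x * θ y * x⁻¹ = diagHom D F c (γ (fieldAutHom D F σ y)) from DFunLike.congr_fun e y]
    group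

end Cfsg.Agent.S2156
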