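import Cfsg.Statements.S2158
import Mathlib
import Cfsg.Agent.Chev.All2
import Cfsg.Agent.Chev.GrAut

set_option autoImplicit false
open Cfsg

namespace Cfsg.Agent.S2158
open Cfsg.Lie Cfsg.Agent.Chev

/-- In a Chevalley group of type G₂, B₂, D₄, F₄, E₆, E₇ or E₈ over any field, an element of the group whose matrix is the diagonal matrix `ĥ(χ)` of a character `χ` of the root lattice already lies in the diagonal subgroup H (the non-trivial inclusion of the statement that the group meets the group of all such diagonal matrices in H). -/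
theorem result {F : Type*} [Field F] (D : Cfsg.Lie.ChevalleyDatum) (hD : D ∈ [Cfsg.Lie.chevG2, Cfsg.Lie.chevB2, Cfsg.Lie.chevD4, Cfsg.Lie.chevF4, Cfsg.Lie.chevE6, Cfsg.Lie.chevE7, Cfsg.Lie.chevE8]) (χ : ℕ → Fˣ) (hχ : D.IsRootCharacter χ) (g : GL D.Idx F) (hg : g ∈ D.group F)
    (hgχ : (g : Matrix D.Idx D.Idx F) = D.charDiag F χ) : g ∈ D.diagonalSubgroup F := by
  obtain ⟨gd⟩ := good2_of_mem hD
  rw [(charDiag_eq hχ).1, ← Units.ext_iff] at hgχ
  subst hgχ
  rw [group_eq] at hg
  rw [diagonalSubgroup_eq, ← StSys.B_inf_VH]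
  refine ⟨StSys.mem_B_of_conj hg fun u hu => StSys.U_le_B _ ((diagGL _).mem_U hu), ?_⟩
  obtain ⟨a, ha, hm⟩ := StSys.exists_n0 (S := glSys D F)
  have h1 := StSys.mem_B_of_conj (mul_mem (mul_mem (StSys.N_le_grp _ ha) hg)
    (inv_mem (StSys.N_le_grp _ ha))) fun u hu => by
      have := hm.conj_mem (T' := {r | Pos r}) (fun r hr => by simpa [pos_w0_univ] using hr)
        ((diagGL fun i : Ix D => χ (D.simple i)).mem_V (hm.conj_mem' (T' := {r | ¬ Pos r})
          (fun r hr => by simpa [pos_w0_univ] using hr) hu))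
      refine StSys.U_le_B _ ?_
      have e : ∀ y : GL D.Idx F, a * y * a⁻¹ * u * (a * y * a⁻¹)⁻¹ = a * (y * (a⁻¹ * u * a) * y⁻¹) * a⁻¹ :=
        fun y => by group
      rw [e]
      exact this
  obtain ⟨u, hu, z, hz, e⟩ := StSys.mem_B.mp h1
  have : (dgU fun i : Ix D => χ (D.simple i)) = (a⁻¹ * u * a) * (a⁻¹ * z * a) := by
    generalize (dgU fun i : Ix D => χ (D.simple i)) = y at e ⊢
    calc y = a⁻¹ * (a * y * a⁻¹) * a := by group
      _ = _ := by rw [e]; group
  rw [this]
  exact mul_mem (Subgroup.mem_sup_left (hm.conj_mem' (fun r hr => by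
    simpa [pos_w0_univ] using hr) hu)) (Subgroup.mem_sup_right (StSys.conj_mem_H' ha hz))

end Cfsg.Agent.S2158
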