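import Cfsg.Statements.S2159
import Mathlib
import Cfsg.Agent.Chev.AutC

set_option autoImplicit false
open Cfsg

namespace Cfsg.Agent.S2159
open Cfsg.Lie Cfsg.Agent.Chev

/-- Structure of the outer automorphism group of the Chevalley group `G` of type G₂, B₂, D₄, F₄, E₆, E₇ or E₈ over a finite field. Let `D̄` be the image in `Out(G)` of the subgroup generated by the diagonal automorphisms and `F̄` the image of the subgroup generated by the field automorphisms. Then `D̄` is a normal abelian subgroup of `Out(G)`, `F̄` is cyclic, `D̄F̄` is a normal subgroup, and the quotient of `Out(G)` by `D̄F̄` is trivial, of order 2, or non-abelian of order 6 (so isomorphic to the symmetric group on three letters): its index is 1 or 2, or it is 6 with the commutator subgroup of `Out(G)` not inside `D̄F̄`. -/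
theorem result {F : Type*} [Field F] [Finite F] (D : Cfsg.Lie.ChevalleyDatum) (hD : D ∈ [Cfsg.Lie.chevG2, Cfsg.Lie.chevB2, Cfsg.Lie.chevD4, Cfsg.Lie.chevF4, Cfsg.Lie.chevE6, Cfsg.Lie.chevE7, Cfsg.Lie.chevE8])
    (Dbar Fbar : Subgroup (Cfsg.Out ↥(D.group F)))
    (hDbar : Dbar = (Subgroup.closure {φ : MulAut ↥(D.group F) | D.IsDiagonalAut φ}).map (QuotientGroup.mk' (Cfsg.Inn ↥(D.group F))))
    (hFbar : Fbar = (Subgroup.closure {φ : MulAut ↥(D.group F) | D.IsFieldAut φ}).map (QuotientGroup.mk' (Cfsg.Inn ↥(D.group F)))) :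
    Dbar.Normal ∧ IsMulCommutative ↥Dbar ∧ IsCyclic ↥Fbar ∧ (Dbar ⊔ Fbar).Normal ∧
      ((Dbar ⊔ Fbar).index = 1 ∨ (Dbar ⊔ Fbar).index = 2 ∨
        ((Dbar ⊔ Fbar).index = 6 ∧ ¬ commutator (Cfsg.Out ↥(D.group F)) ≤ Dbar ⊔ Fbar)) := by
  have key : ∀ [Good2 D], Good3 D → (Nat.card (piO D F).range = 1 ∨ Nat.card (piO D F).range = 2 ∨
      (Nat.card (piO D F).range = 6 ∧ ∃ a ∈ (piO D F).range, ∃ b ∈ (piO D F).range, a * b ≠ b * a)) →
      Dbar.Normal ∧ IsMulCommutative ↥Dbar ∧ IsCyclic ↥Fbar ∧ (Dbar ⊔ Fbar).Normal ∧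
      ((Dbar ⊔ Fbar).index = 1 ∨ (Dbar ⊔ Fbar).index = 2 ∨ ((Dbar ⊔ Fbar).index = 6 ∧
        ¬ commutator (Cfsg.Out ↥(D.group F)) ≤ Dbar ⊔ Fbar)) := by
    intro gd hg h
    have e1 : Dbar = (diagO D F).range := by
      rw [hDbar, diagO, MonoidHom.range_comp, ← (diagHom D F).range.closure_eq]
      congr 2
      exact Set.ext fun φ => isDiagonalAut_iff.trans (exists_congr fun _ => eq_comm)
    have e2 : Fbar = (fieldO D F).range := by
      rw [hFbar, fieldO, MonoidHom.range_comp, ← (fieldAutHom D F).range.closure_eq]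
      congr 2
      exact Set.ext fun φ => isFieldAut_iff.trans (exists_congr fun _ => eq_comm)
    haveI := (ringAut_cyclic F).1
    rw [e1, e2, ← ker_piO hg, Subgroup.index_ker]
    refine ⟨normal_diagO, inferInstance, isCyclic_of_surjective _
      (fieldO D F).rangeRestrict_surjective, inferInstance, h.imp_right (Or.imp_right (And.imp_right ?_))⟩
    rintro ⟨_, ⟨a, rfl⟩, _, ⟨b, rfl⟩, h⟩ h'
    have := h' (Subgroup.commutator_mem_commutator (Subgroup.mem_top a) (Subgroup.mem_top b))
    rw [MonoidHom.mem_ker, map_commutatorElement, commutatorElement_eq_one_iff_mul_comm] at this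
    exact h this
  simp only [List.mem_cons, List.not_mem_nil, or_false] at hD
  rcases hD with rfl | rfl | rfl | rfl | rfl | rfl | rfl
  · letI := good2G2; exact key good3G2 ((card_range_le good3G2 bond_G2).imp_right .inl)
  · letI := good2B2; exact key good3B2 ((card_range_le good3B2 bond_B2).imp_right .inl)
  · letI := good2D4
    obtain ⟨_, ha⟩ := exists_grD4a F
    obtain ⟨_, hb⟩ := exists_grD4b F
    obtain ⟨_, hc⟩ := exists_grD4c F
    obtain ⟨_, hd⟩ := exists_grD4d F
    obtain ⟨_, he⟩ := exists_grD4e F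
    exact key good3D4 (.inr (.inr ⟨card_range_piO good3D4 bond_D4 (by
      simpa [-MonoidHom.mem_range] using ⟨Mor.mem_range_piO _ ha.surj, Mor.mem_range_piO _ hb.surj,
        Mor.mem_range_piO _ hc.surj, Mor.mem_range_piO _ hd.surj, Mor.mem_range_piO _ he.surj⟩)
      (by decide +kernel), _, Mor.mem_range_piO _ hc.surj, _, Mor.mem_range_piO _ hd.surj,
      fun e => absurd (congrArg pl e) (by decide +kernel)⟩))
  · letI := good2F4; exact key good3F4 ((card_range_le good3F4 bond_F4).imp_right .inl)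
  · letI := good2E6; exact key good3E6 ((card_range_le good3E6 bond_E6).imp_right .inl)
  · letI := good2E7; exact key good3E7 (.inl (card_range_piO good3E7 bond_E7 
      (by simp [-MonoidHom.mem_range]) (by simp)))
  · letI := good2E8; exact key good3E8 (.inl (card_range_piO good3E8 bond_E8 
      (by simp [-MonoidHom.mem_range]) (by simp)))

end Cfsg.Agent.S2159
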