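import Cfsg.Statements.S2160
import Mathlib
import Cfsg.Agent.Chev.All2
import Cfsg.Agent.Chev.GrAut

set_option autoImplicit false
open Cfsg

namespace Cfsg.Agent.S2160
open Cfsg.Lie Cfsg.Agent.Chev

/-- In a Chevalley group of type G₂, B₂, D₄, F₄, E₆, E₇ or E₈ over a finite field, every field automorphism commutes with every graph automorphism. -/
theorem result {F : Type*} [Field F] [Finite F] (D : Cfsg.Lie.ChevalleyDatum) (hD : D ∈ [Cfsg.Lie.chevG2, Cfsg.Lie.chevB2, Cfsg.Lie.chevD4, Cfsg.Lie.chevF4, Cfsg.Lie.chevE6, Cfsg.Lie.chevE7, Cfsg.Lie.chevE8]) (f g : ↥(D.group F) ≃* ↥(D.group F))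
    (hf : D.IsFieldAut f) (hg : D.IsGraphAut g) (y : ↥(D.group F)) : f (g y) = g (f y) := by
  obtain ⟨gd⟩ := good2_of_mem hD
  obtain ⟨σ, rfl⟩ := isFieldAut_iff.mp hf
  obtain ⟨π, -, h⟩ := hg
  have h1 := fun i t => (ch_val_iff (r := sim (π i))).mp ((h ((chSys D F).x (sim i) t) i t).1 rfl)
  have h2 := fun i t => (ch_val_iff (r := ng (sim (π i)))).mp
    ((h ((chSys D F).x (ng (sim i)) t) i t).2 rfl)
  have := StSys.hom_ext_sim (f := (fieldAut D σ).toMonoidHom.comp g.toMonoidHom)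
    (f' := g.toMonoidHom.comp (fieldAut D σ).toMonoidHom) ch_grp
    (fun i t => by simp [h1, fieldAut_x]) (fun i t => by simp [h2, fieldAut_x])
  exact DFunLike.congr_fun this y

end Cfsg.Agent.S2160
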