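import Cfsg.Statements.S2161
import Mathlib
import Cfsg.Agent.Chev.All2
import Cfsg.Agent.Chev.GrAut

set_option autoImplicit false
open Cfsg

namespace Cfsg.Agent.S2161
open Cfsg.Lie Cfsg.Agent.Chev

theorem aux {F : Type*} [Field F] {D : ChevalleyDatum} [g : Good2 D]
    (hc : allN D.nroots (fun r => allN D.rank fun i => ieq (g.cert.co D r i) (g.cert.cv D r i)) = true)
    (hb : ∀ i j : Ix D, i ≠ j → D.cartan i (D.simple j) = - D.bonds i j)
    (π : Equiv.Perm (Fin D.rank)) (hπ : D.IsDiagramSymmetry π) (φ : ↥(D.group F) ≃* ↥(D.group F))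
    (h1 : ∀ i t, φ ((chSys D F).x (sim i) t) = (chSys D F).x (sim (π i)) t)
    (h2 : ∀ i t, φ ((chSys D F).x (ng (sim i)) t) = (chSys D F).x (ng (sim (π i))) t) (r : Rt D) :
    ∃ ε : F, ε * ε = 1 ∧ ∃ s : Rt D, (s : ℕ) = D.permRoot π r ∧
      ∀ t, φ ((chSys D F).x r t) = (chSys D F).x s (ε * t) := by
  simp only [allN_iff, ieq_iff] at hc
  have hca : ∀ k i : Ix D, ca (π k) (sim (π i)) = ca k (sim i) := fun k i => by
    by_cases e : k = i
    · simp [e]
    · exact (hb _ _ fun h => e (π.injective h)).trans (by rw [hπ k i e]; exact (hb k i e).symm)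
  suffices H : ∃ ε : F, ε * ε = 1 ∧ ∃ s : Rt D, (∀ i, cv s (π i) = cv r i) ∧
      ∀ t, φ ((chSys D F).x r t) = (chSys D F).x s (ε * t) by
    obtain ⟨ε, e1, s, e2, e3⟩ := H
    refine ⟨ε, e1, s, ?_, e3⟩
    rw [ChevalleyDatum.permRoot]
    cases e : (List.range D.nroots).find? fun s => (List.finRange D.rank).all fun i =>
      (D.coroot.getD s #[]).getD (π i).val 0 == (D.coroot.getD r #[]).getD i.val 0 with
    | none =>
      rw [List.find?_eq_none] at e
      refine absurd ?_ (e s (List.mem_range.mpr s.2))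
      simp only [List.all_eq_true, List.mem_finRange, beq_iff_eq, true_imp_iff]
      exact e2
    | some v =>
      have e4 := List.find?_some e
      lift v to Rt D using List.mem_range.mp (List.mem_of_find?_eq_some e)
      simp only [List.all_eq_true, List.mem_finRange, beq_iff_eq, true_imp_iff] at e4
      refine congrArg Fin.val (co_inj (funext fun i => ?_))
      obtain ⟨i, rfl⟩ := π.surjective i
      rw [co, co, hc _ s.2 _ (π i).2, hc _ v.2 _ (π i).2, ← cv_eq, ← cv_eq, e2]
      exact (e4 i).symm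
  induction r using ind_sim with
  | h0 i => exact ⟨1, by simp, sim (π i), fun j => by simp [Pi.single_apply], by simpa using h1 i⟩
  | h1 i r ih =>
    obtain ⟨ε, e1, s, e2, e3⟩ := ih
    have hn : φ ((chSys D F).n (sim i) 1) = (chSys D F).n (sim (π i)) 1 := by
      simp only [StSys.n, map_mul, h1, h2]
    refine ⟨eta (π i) s * ε * eta i r, ?_, rf (π i) s, fun j => ?_, fun t => ?_⟩
    · calc _ = ((eta (π i) s : F) * eta (π i) s) * (ε * ε) * ((eta i r : F) * eta i r) := by ring
        _ = 1 := by rw [etaF_sq, etaF_sq, e1]; simp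
    · have : pr s (sim (π i)) = pr r (sim i) := by
        rw [pr, pr, ← Equiv.sum_comp π]; simp only [e2, hca]
      simp [cv_rf, this, e2, Pi.single_apply]
    · have e4 := (chSys D F).n_sim_conj i one_ne_zero r (eta i r * t)
      rw [one_zpow, mul_one, ← mul_assoc, etaF_sq, one_mul] at e4
      rw [← e4, map_mul, map_mul, map_inv, hn, e3, StSys.n_sim_conj _ _ one_ne_zero]
      congr 1; simp [mul_assoc]

/-- For the Chevalley groups of types D₄ and E₆ (one root length) over any field: if `π` is a symmetry of the Dynkin diagram and `φ` is an automorphism sending `x_{p_i}(t)` to `x_{p_{π i}}(t)` and `x_{-p_i}(t)` to `x_{-p_{π i}}(t)` for every fundamental root `p_i`, then for every root `r` there is a sign `ε = ±1` with `φ(x_r(t)) = x_{π·r}(ε t)` for all `t`, where `π·r` is the root whose coefficients are those of `r` permuted by `π`. -/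
theorem result {F : Type*} [Field F] (D : Cfsg.Lie.ChevalleyDatum) (hD : D ∈ [Cfsg.Lie.chevD4, Cfsg.Lie.chevE6])
    (π : Equiv.Perm (Fin D.rank)) (hπ : D.IsDiagramSymmetry π) (φ : ↥(D.group F) ≃* ↥(D.group F))
    (hφ : ∀ (g : ↥(D.group F)) (i : Fin D.rank) (t : F),
      (((g : GL D.Idx F) : Matrix D.Idx D.Idx F) = D.x F (D.simple i) t →
        ((φ g : GL D.Idx F) : Matrix D.Idx D.Idx F) = D.x F (D.simple (π i)) t) ∧
      (((g : GL D.Idx F) : Matrix D.Idx D.Idx F) = D.x F (D.neg (D.simple i)) t →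
        ((φ g : GL D.Idx F) : Matrix D.Idx D.Idx F) = D.x F (D.neg (D.simple (π i))) t))
    (r : ℕ) (hr : r < D.nroots) :
    ∃ ε : F, (ε = 1 ∨ ε = -1) ∧ ∀ (g : ↥(D.group F)) (t : F),
      ((g : GL D.Idx F) : Matrix D.Idx D.Idx F) = D.x F r t →
        ((φ g : GL D.Idx F) : Matrix D.Idx D.Idx F) = D.x F (D.permRoot π r) (ε * t) := by
  have key : ∀ [gd : Good2 D], (allN D.nroots (fun r => allN D.rank fun i =>
      ieq (gd.cert.co D r i) (gd.cert.cv D r i)) = true) →
      (∀ i j : Ix D, i ≠ j → D.cartan i (D.simple j) = - D.bonds i j) →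
      ∃ ε : F, (ε = 1 ∨ ε = -1) ∧ ∀ (g : ↥(D.group F)) (t : F),
      ((g : GL D.Idx F) : Matrix D.Idx D.Idx F) = D.x F r t →
        ((φ g : GL D.Idx F) : Matrix D.Idx D.Idx F) = D.x F (D.permRoot π r) (ε * t) := by
    intro gd hc hb
    lift r to Rt D using hr
    obtain ⟨ε, e1, s, e2, e3⟩ := aux hc hb π hπ φ
      (fun i t => (ch_val_iff (r := sim (π i))).mp ((hφ _ i t).1 rfl))
      (fun i t => (ch_val_iff (r := ng (sim (π i)))).mp ((hφ _ i t).2 rfl)) r
    exact ⟨ε, mul_self_eq_one_iff.mp e1, fun a t h => by rw [ch_val_iff.mp h, e3, ← e2]; rfl⟩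
  simp only [List.mem_cons, List.not_mem_nil, or_false] at hD
  rcases hD with rfl | rfl
  · exact @key good2D4 (by decide +kernel) (by decide +kernel)
  · exact @key good2E6 (by decide +kernel) (by decide +kernel)

end Cfsg.Agent.S2161
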