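import Mathlib
import Cfsg.Statements.S2301
import Cfsg.Agent.GL2.Classes

set_option autoImplicit false
open Cfsg

namespace Cfsg.Agent.S2301

/-- Over a finite field with q elements of odd characteristic p, the elements of order p of SL₂ (the non-identity unipotent elements) fall into exactly two conjugacy classes, each of size (q² − 1)/2; two upper unitriangular matrices with non-zero off-diagonal entries b and b′ are conjugate exactly when bb′ is a square. -/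
theorem result {F : Type*} [Field F] [Fintype F] (p : ℕ) [Fact p.Prime] [CharP F p] (hp : p ≠ 2) :
    Nat.card {C : ConjClasses (Matrix.SpecialLinearGroup (Fin 2) F) // ∃ g : Matrix.SpecialLinearGroup (Fin 2) F, orderOf g = p ∧ ConjClasses.mk g = C} = 2 ∧
    (∀ g : Matrix.SpecialLinearGroup (Fin 2) F, orderOf g = p → Nat.card (ConjClasses.mk g).carrier = (Fintype.card F ^ 2 - 1) / 2) ∧
    ∀ g h : Matrix.SpecialLinearGroup (Fin 2) F, (g : Matrix (Fin 2) (Fin 2) F) 0 0 = 1 → (g : Matrix (Fin 2) (Fin 2) F) 1 1 = 1 → (g : Matrix (Fin 2) (Fin 2) F) 1 0 = 0 → (g : Matrix (Fin 2) (Fin 2) F) 0 1 ≠ 0 →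
      (h : Matrix (Fin 2) (Fin 2) F) 0 0 = 1 → (h : Matrix (Fin 2) (Fin 2) F) 1 1 = 1 → (h : Matrix (Fin 2) (Fin 2) F) 1 0 = 0 → (h : Matrix (Fin 2) (Fin 2) F) 0 1 ≠ 0 →
      (IsConj g h ↔ IsSquare ((g : Matrix (Fin 2) (Fin 2) F) 0 1 * (h : Matrix (Fin 2) (Fin 2) F) 0 1)) := by
  have h2 := Classical.SL2Basic.two_ne_zero_of_char (K := F) hp
  have key : ∀ g h : Matrix.SpecialLinearGroup (Fin 2) F, g.1 0 0 = 1 → g.1 1 1 = 1 → g.1 1 0 = 0 →
      g.1 0 1 ≠ 0 → h.1 0 0 = 1 → h.1 1 1 = 1 → h.1 1 0 = 0 → h.1 0 1 ≠ 0 →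
      (IsConj g h ↔ IsSquare (g.1 0 1 * h.1 0 1)) := fun g h a1 a2 a3 a4 a5 a6 a7 a8 =>
    GL2.isConj_unip a3 (a1.trans a2.symm) a4 a7 (a5.trans a1.symm) (a6.trans a1.symm) a8
  refine ⟨?_, fun g hg => ?_, key⟩
  · obtain ⟨n, hn⟩ := FiniteField.exists_nonsquare (F := F) (by rw [ringChar.eq F p]; exact hp)
    have hn0 : n ≠ 0 := by rintro rfl; exact hn IsSquare.zero
    obtain ⟨u, hu⟩ := GL2.exists_SL (M := !![(1 : F), 1; 0, 1]) (by simp)
    obtain ⟨v, hv⟩ := GL2.exists_SL (M := !![(1 : F), n; 0, 1]) (by simp)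
    refine Nat.card_eq_two_iff.2 ⟨⟨_, u, GL2.orderOf_SL_iff.2 (by simp [hu]), rfl⟩,
      ⟨_, v, GL2.orderOf_SL_iff.2 (by simp [hv, hn0]), rfl⟩, ?_, ?_⟩
    · rw [Ne, Subtype.mk.injEq, ConjClasses.mk_eq_mk_iff_isConj, key] <;> simp [hu, hv, hn, hn0]
    · rw [Set.eq_univ_iff_forall]
      rintro ⟨_, g, hg, rfl⟩
      obtain ⟨h1, h3⟩ := GL2.orderOf_SL_iff.1 hg
      obtain ⟨h, c, hc, hh, e⟩ := GL2.exists_unip h1 h3 (one_mul 1)
      simp only [Set.mem_insert_iff, Set.mem_singleton_iff, Subtype.mk.injEq,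
        ConjClasses.mk_eq_mk_iff_isConj.2 e, ConjClasses.mk_eq_mk_iff_isConj]
      rw [key, key] <;> simp [hu, hv, hh, hc, hn0]
      classical
      by_contra hh
      rw [not_or, ← quadraticChar_neg_one_iff_not_isSquare, ← quadraticChar_neg_one_iff_not_isSquare,
        map_mul, quadraticChar_neg_one_iff_not_isSquare.2 hn] at hh
      simp [hh.1] at hh
  · obtain ⟨h1, h3⟩ := GL2.orderOf_SL_iff.1 hg
    rw [GL2.card_class_par h1 ⟨1, h3, by simp⟩, GL2.nr_odd h2]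

end Cfsg.Agent.S2301
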