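import Mathlib
import Cfsg.Statements.S2302
import Cfsg.Agent.GL2.Classes

set_option autoImplicit false
open Cfsg

namespace Cfsg.Agent.S2302

/-- Over a finite field with q elements of characteristic 2, the involutions of SL₂ (the non-identity unipotent elements) form a single conjugacy class, of size q² − 1. -/
theorem result {F : Type*} [Field F] [Fintype F] [CharP F 2] (g h : Matrix.SpecialLinearGroup (Fin 2) F) (hg : orderOf g = 2) (hh : orderOf h = 2) :
    IsConj g h ∧ Nat.card (ConjClasses.mk g).carrier = Fintype.card F ^ 2 - 1 := by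
  obtain ⟨h1, h2⟩ := GL2.orderOf_SL_iff.1 hg
  obtain ⟨h3, h4⟩ := GL2.orderOf_SL_iff.1 hh
  have h5 : GL2.Par g.1 := ⟨1, h2, by simp⟩
  obtain ⟨P, hP⟩ := GL2.exists_conj h1 h3 (h2.trans h4.symm) (by simp)
  refine ⟨(GL2.isConj_SL_par hP h1 h5).2 (FiniteField.isSquare_of_char_two (ringChar.eq F 2) _), ?_⟩
  rw [GL2.card_class_par h1 h5, GL2.nr_even CharTwo.two_eq_zero, Nat.div_one]

end Cfsg.Agent.S2302
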