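import Mathlib
import Cfsg.Statements.S2310
import Cfsg.Agent.GL2.GLVal

set_option autoImplicit false
open Cfsg

namespace Cfsg.Agent.S2310

/-- Over a finite field F with q ≥ 3 elements, let u be the upper unitriangular matrix of GL₂ with off-diagonal entry 1. An irreducible complex character χ of GL₂ takes at u the value 1 if χ has degree 1 or q + 1, the value −1 if χ has degree q − 1, and the value 0 if χ has degree q. -/
theorem result {F : Type*} [Field F] [Fintype F] (hq : 3 ≤ Fintype.card F) (χ : Matrix.GeneralLinearGroup (Fin 2) F → ℂ) (hχ : Cfsg.IsIrrCharacter (Matrix.GeneralLinearGroup (Fin 2) F) χ)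
    (u : Matrix.GeneralLinearGroup (Fin 2) F) (hu : (u : Matrix (Fin 2) (Fin 2) F) = !![1, 1; 0, 1]) :
    (χ 1 = 1 → χ u = 1) ∧ (χ 1 = (Fintype.card F : ℂ) + 1 → χ u = 1) ∧
    (χ 1 = (Fintype.card F : ℂ) - 1 → χ u = -1) ∧ (χ 1 = (Fintype.card F : ℂ) → χ u = 0) := by
  obtain ⟨a, b, hab⟩ := GL2.exists_quad F
  have := Fact.mk hab
  refine ⟨fun h => ?_, fun h => ?_, fun h => ?_, fun h => ?_⟩
  · obtain ⟨α, rfl⟩ := GL2.GL_deg_one hχ h hq
    simp [GL2.Lin, hu]
  · obtain ⟨α, β, -, rfl⟩ := GL2.GL_deg_succ hχ h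
    rw [GL2.PS, GL2.R_unip] <;> simp [hu]
  · obtain ⟨θ, -, rfl⟩ := GL2.GL_deg_pred (a := a) (b := b) hχ h hq
    rw [GL2.Cu, GL2.C_unip] <;> simp [hu]
  · obtain ⟨α, rfl⟩ := GL2.GL_deg_q hχ h
    rw [GL2.St_unip] <;> simp [hu]

end Cfsg.Agent.S2310
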