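import Cfsg.Statements.S2313
import Cfsg.Agent.H23.SBC
-- import your own Cfsg.Agent.* helpers here

set_option autoImplicit false
open Cfsg

namespace Cfsg.Agent.S2313

/-- In a Chevalley group of type G₂, B₂, D₄, F₄, E₆, E₇ or E₈ over a finite field, the restriction of the Steinberg character to the subgroup B = UH is the permutation character of B on the cosets of the diagonal subgroup H: at b ∈ B its value is the number of cosets xH, x ∈ B, with bxH = xH. -/
theorem result {F : Type*} [Field F] [Fintype F] (D : Cfsg.Lie.ChevalleyDatum) (hD : D ∈ [Cfsg.Lie.chevG2, Cfsg.Lie.chevB2, Cfsg.Lie.chevD4, Cfsg.Lie.chevF4, Cfsg.Lie.chevE6, Cfsg.Lie.chevE7, Cfsg.Lie.chevE8]) (b : ↥((D.borelSubgroup F).subgroupOf (D.group F))) :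
    D.steinbergCharacter F ((((D.borelSubgroup F).subgroupOf (D.group F)).subtype) b) =
      Cfsg.fixedPointCharacter (((D.diagonalSubgroup F).subgroupOf (D.group F)).subgroupOf ((D.borelSubgroup F).subgroupOf (D.group F))) b := by

  obtain ⟨g⟩ := Chev.good2_of_mem hD
  obtain ⟨p, _, _⟩ := H23.exists_charP F
  have := H23.finite_group (D := D) (F := F)
  have := Fintype.ofFinite (D.group F)
  rw [H23.steinberg_eq p, ← H23.cc_subgroupOf (by
    rw [← H23.chSB_B p, ← H23.chSB_H p]; exact H23.SB.H_le_P _), Subgroup.subtype_apply,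
    H23.SB.St_H (by rw [H23.chSB_B p]; exact b.2), H23.chSB_B p, H23.chSB_H p]

end Cfsg.Agent.S2313
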