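import Mathlib
import Cfsg.Statements.S2316
import Cfsg.Agent.H23.ClsB
import Cfsg.Agent.S0245
-- import your own Cfsg.Agent.* helpers here

set_option autoImplicit false
open Cfsg

namespace Cfsg.Agent.S2316

/-- Steinberg's count of unipotent elements for the symplectic group: over a finite field with q elements of characteristic p, the number of elements of Sp_{2m} of p-power order is q^(2m²). -/
theorem result {F : Type*} [Field F] [Fintype F] (p : ℕ) [Fact p.Prime] [CharP F p] (m : ℕ) :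
    Nat.card {g : ↥(Matrix.symplecticGroup (Fin m) F) // ∃ k : ℕ, orderOf g = p ^ k} = Fintype.card F ^ (2 * m ^ 2) := by

  classical
  have hp : p.Prime := Fact.out
  rcases m with _ | k
  · simp only [Nat.pow_zero, ne_eq, OfNat.ofNat_ne_zero, not_false_eq_true, zero_pow, mul_zero]
    exact Nat.card_eq_one_iff_unique.mpr ⟨⟨fun a b => Subtype.ext (Subtype.ext (Subsingleton.elim _ _))⟩,
      ⟨⟨1, 0, by simp⟩⟩⟩
  have := Fintype.ofFinite (H23.cfA (2 * k + 1)).Wf
  obtain ⟨n, -, hn⟩ := FiniteField.card F p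
  rw [(H23.spEmb p k F).sb.card_PE, H23.SB.card_U, S0245.result hn, Nat.factorization_mul
    (pow_ne_zero _ (pow_ne_zero _ hp.ne_zero)) (Finset.prod_ne_zero_iff.mpr fun i _ =>
      Nat.sub_ne_zero_of_lt (Nat.one_lt_pow (by omega) (Nat.one_lt_pow n.ne_zero hp.one_lt))),
    Finsupp.add_apply, Nat.factorization_eq_zero_of_not_dvd (n := ∏ i ∈ _, _), ← pow_mul, ← pow_mul,
    hp.factorization_pow, hn, ← pow_mul]
  · simp only [Finsupp.single_eq_same, add_zero]; ring
  · rw [hp.prime.dvd_finset_prod_iff]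
    rintro ⟨i, -, h⟩
    have h1 : p ∣ (p ^ (n : ℕ)) ^ (2 * (i + 1)) := (dvd_pow_self p n.ne_zero).trans (dvd_pow_self _ (by omega))
    exact hp.one_lt.ne' (Nat.dvd_one.mp ((Nat.dvd_sub_iff_right (Nat.one_le_pow _ _
      (pow_pos hp.pos _)) h1).mp h))

end Cfsg.Agent.S2316
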