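import Mathlib
import Cfsg.Statements.S2317
import Cfsg.Agent.Conj.Jt

set_option autoImplicit false
open Cfsg

namespace Cfsg.Agent.S2317

open Matrix Conj

theorem key {F : Type*} [Field F] [Fintype F] (p : ℕ) [hp : Fact p.Prime] [CharP F p] {n : ℕ} (g : GL (Fin n) F) :
    (∃ k : ℕ, orderOf g = p ^ k) ↔ IsNilpotent (toLin' g.1 - 1) := by
  have h : ∀ k, g ^ p ^ k = 1 ↔ (toLin' g.1 - 1) ^ p ^ k = 0 := fun k => by
    rcases isEmpty_or_nonempty (Fin n) with h | h
    · exact iff_of_true (Subsingleton.elim _ _) (Subsingleton.elim _ _)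
    have : CharP (Module.End F (Fin n → F)) p := charP_of_injective_algebraMap (algebraMap F _).injective p
    rw [sub_pow_char_pow_of_commute _ _ (Commute.one_right _), one_pow, sub_eq_zero, ← toLin'_pow, ← Units.val_eq_one,
      Units.val_pow_eq_pow_val, Module.End.one_eq_id, ← toLin'_one, toLin'.injective.eq_iff]
  refine ⟨fun ⟨k, hk⟩ => ⟨_, (h k).mp (hk ▸ pow_orderOf_eq_one g)⟩, fun ⟨k, hk⟩ => ?_⟩
  obtain ⟨j, -, hj⟩ := (Nat.dvd_prime_pow hp.out).mp (orderOf_dvd_of_pow_eq_one ((h k).mpr
    (pow_eq_zero_of_le (Nat.lt_pow_self hp.out.one_lt).le hk)))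
  exact ⟨j, hj⟩

/-- Over a finite field of characteristic p, the conjugacy classes of GL_n consisting of elements of p-power order (the unipotent classes) are as many as the partitions of n. -/
theorem result {F : Type*} [Field F] [Fintype F] (p : ℕ) [Fact p.Prime] [CharP F p] (n : ℕ) :
    Nat.card {C : ConjClasses (Matrix.GeneralLinearGroup (Fin n) F) //
      ∃ g : Matrix.GeneralLinearGroup (Fin n) F, (∃ k : ℕ, orderOf g = p ^ k) ∧ ConjClasses.mk g = C} =
      Fintype.card (Nat.Partition n) := by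
  classical
  simp only [key, and_comm (a := IsNilpotent _)]
  rw [Orth.card_classes _ (fun g => jt (toLin' g.1 - 1)) ?_
    (Finset.univ.map ⟨Nat.Partition.parts (n := n), fun _ _ h => Nat.Partition.ext h⟩), Finset.card_map, Finset.card_univ]
  · intro s
    simp only [Finset.mem_map, Finset.mem_univ, true_and, Function.Embedding.coeFn_mk]
    constructor
    · rintro ⟨μ, rfl⟩
      exact exists_unipotent F (ι := Fin n) (s := μ.parts) (fun a ha => μ.parts_pos ha) (by simp [μ.parts_sum])
    · rintro ⟨g, hg, rfl⟩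
      exact ⟨⟨_, fun h => jt_pos hg _ h, by simpa using sum_jt hg⟩, rfl⟩
  · intro g h hg hh
    rw [← sim_iff_jt hg hh, sim_sub_one_iff, ← isConj_GL_iff_sim]

end Cfsg.Agent.S2317
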