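import Mathlib
import Cfsg.Statements.S2319
import Cfsg.Agent.H23.HkB
import Cfsg.Agent.Chev.All2
import Cfsg.Agent.Chev.PoinB2
import Cfsg.Agent.Chev.PoinG2
import Cfsg.Agent.Chev.PoinD4
import Cfsg.Agent.Chev.PoinF4
import Cfsg.Agent.Chev.PoinE6
import Cfsg.Agent.Chev.PoinE7
import Cfsg.Agent.Chev.PoinE8
-- import your own Cfsg.Agent.* helpers here

set_option autoImplicit false
open Cfsg

namespace Cfsg.Agent.S2319

/-- In a Chevalley group of type G₂, B₂, D₄, F₄, E₆, E₇ or E₈ over a finite field, the number of distinct irreducible constituents of the permutation character on the cosets of B = UH equals the number of conjugacy classes (equivalently, of irreducible characters) of the Weyl group, the Coxeter group of the type with nodes numbered as the fundamental roots. -/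
theorem result {F : Type*} [Field F] [Fintype F]
    (dw : Cfsg.Lie.ChevalleyDatum × (Σ n : ℕ, CoxeterMatrix (Fin n)))
    (hdw : dw ∈ [(Cfsg.Lie.chevG2, ⟨2, CoxeterMatrix.G₂⟩), (Cfsg.Lie.chevB2, ⟨2, CoxeterMatrix.B 2⟩), (Cfsg.Lie.chevD4, ⟨4, Cfsg.Lie.coxeterD4⟩), (Cfsg.Lie.chevF4, ⟨4, CoxeterMatrix.F₄⟩),
      (Cfsg.Lie.chevE6, ⟨6, CoxeterMatrix.E₆⟩), (Cfsg.Lie.chevE7, ⟨7, CoxeterMatrix.E₇⟩), (Cfsg.Lie.chevE8, ⟨8, CoxeterMatrix.E₈⟩)]) :
    Nat.card {χ : Cfsg.IrrCharacter ↥(dw.1.group F) //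
      ∃ φ : ↥(dw.1.group F) → ℂ, Cfsg.IsCharacter ↥(dw.1.group F) φ ∧
        Cfsg.fixedPointCharacter ((dw.1.borelSubgroup F).subgroupOf (dw.1.group F)) = (χ : ↥(dw.1.group F) → ℂ) + φ} =
      Nat.card (ConjClasses dw.2.2.Group) := by

  obtain ⟨D, n, M⟩ := dw
  obtain ⟨p, hp, hc⟩ := H23.exists_charP F
  have key : ∀ [Chev.Good2 D] (e : Chev.W D ≃* M.Group),
      Nat.card {χ : Cfsg.IrrCharacter ↥(D.group F) // ∃ φ : ↥(D.group F) → ℂ,
        Cfsg.IsCharacter ↥(D.group F) φ ∧ Cfsg.fixedPointCharacter ((D.borelSubgroup F).subgroupOf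
          (D.group F)) = (χ : ↥(D.group F) → ℂ) + φ} = Nat.card (ConjClasses M.Group) := fun e => by
    have := H23.finite_group (D := D) (F := F)
    have := Fintype.ofFinite (D.group F)
    rw [← H23.chSB_B p]
    refine ((H23.chSB D F p).br.card_constit (u := Nat.card F) (fun i => ?_)
      (Nat.cast_pos.mpr Nat.card_pos)).trans (Nat.card_eq_of_bijective (ConjClasses.map e.toMonoidHom)
        ⟨fun a b h => ?_, ConjClasses.map_surjective e.surjective⟩)
    · have h : Nat.card F = Nat.card ((Chev.chSys D F).XS {Chev.sim i}) :=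
        Nat.card_eq_of_bijective (fun t => ⟨_, H23.x_mem_single _ _ t⟩)
          ⟨fun a b h => (Chev.chSys D F).x_inj (congrArg Subtype.val h), fun a =>
            let ⟨t, h⟩ := (Chev.chSys D F).mem_XS_singleton.mp a.2; ⟨t, Subtype.ext h.symm⟩⟩
      exact (congrArg Rat.cast ((H23.chSB D F p).br_Q i)).trans (by rw [h]; rfl)
    · obtain ⟨a, rfl⟩ := ConjClasses.mk_surjective a
      obtain ⟨b, rfl⟩ := ConjClasses.mk_surjective b
      simpa using ConjClasses.mk_eq_mk_iff_isConj.mpr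
        (e.symm.toMonoidHom.map_isConj (ConjClasses.mk_eq_mk_iff_isConj.mp h))
  simp only [List.mem_cons, List.not_mem_nil, or_false, Prod.mk.injEq] at hdw
  rcases hdw with ⟨rfl, h⟩ | ⟨rfl, h⟩ | ⟨rfl, h⟩ | ⟨rfl, h⟩ | ⟨rfl, h⟩ | ⟨rfl, h⟩ | ⟨rfl, h⟩ <;> cases h
  exacts [@key Chev.good2G2 Chev.cox_G2.choose, @key Chev.good2B2 Chev.cox_B2.choose,
    @key Chev.good2D4 Chev.cox_D4.choose, @key Chev.good2F4 Chev.cox_F4.choose,
    @key Chev.good2E6 Chev.cox_E6.choose, @key Chev.good2E7 Chev.cox_E7.choose,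
    @key Chev.good2E8 Chev.cox_E8.choose]

end Cfsg.Agent.S2319
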