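import Mathlib
import Cfsg.Statements.S2322
import Cfsg.Agent.GL2.SLVal

set_option autoImplicit false
open Cfsg

namespace Cfsg.Agent.S2322

/-- Over a finite field F with q elements, q odd: every irreducible complex character of SL₂ of degree q − 1 or (q − 1)/2 vanishes at every diagonal matrix whose diagonal entry a has a² ≠ 1, and every irreducible complex character of degree q + 1 or (q + 1)/2 vanishes at every element with no eigenvector in F². -/
theorem result {F : Type*} [Field F] [Fintype F] (hodd : Odd (Fintype.card F)) (χ : Matrix.SpecialLinearGroup (Fin 2) F → ℂ) (hχ : Cfsg.IsIrrCharacter (Matrix.SpecialLinearGroup (Fin 2) F) χ) (g : Matrix.SpecialLinearGroup (Fin 2) F) :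
    ((χ 1 = (Fintype.card F : ℂ) - 1 ∨ χ 1 = (((Fintype.card F - 1) / 2 : ℕ) : ℂ)) →
      (g : Matrix (Fin 2) (Fin 2) F) 0 1 = 0 → (g : Matrix (Fin 2) (Fin 2) F) 1 0 = 0 → (g : Matrix (Fin 2) (Fin 2) F) 0 0 ^ 2 ≠ 1 → χ g = 0) ∧
    ((χ 1 = (Fintype.card F : ℂ) + 1 ∨ χ 1 = (((Fintype.card F + 1) / 2 : ℕ) : ℂ)) →
      (∀ (c : F) (v : Fin 2 → F), v ≠ 0 → (g : Matrix (Fin 2) (Fin 2) F).mulVec v ≠ c • v) → χ g = 0) := by
  obtain ⟨a, b, hab⟩ := GL2.exists_quad F
  have := Fact.mk hab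
  rw [GL2.cast_half_succ hodd, GL2.cast_half_pred hodd]
  refine ⟨fun h _ h1 h2 => ?_, fun h h1 => ?_⟩
  · have h4 : 4 ≤ Fintype.card F := by
      by_contra hh
      have h3 : Fintype.card F = 3 := by
        have := Fintype.one_lt_card (α := F); obtain ⟨k, hk⟩ := hodd; omega
      exact h2 (by simpa [h3] using (FiniteField.pow_card_sub_one_eq_one _
        (left_ne_zero_of_mul_eq_one (GL2.det_up_SL h1))))
    rcases h with h | h
    · obtain ⟨η, -, rfl⟩ := GL2.SL_deg_pred (a := a) (b := b) hχ h h4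
      exact GL2.C_diag _ h1 (GL2.diag_ne h1 h2)
    · obtain ⟨η, φ, -, -, h'⟩ := GL2.SL_deg_hpred (a := a) (b := b) hχ h h4
      rw [h'.val (Or.inr (GL2.diag_npar h1 h2)), GL2.Cus, GL2.C_diag _ h1 (GL2.diag_ne h1 h2), zero_div]
  · replace h1 := GL2.ell_iff.2 h1
    rcases h with h | h
    · obtain ⟨α, -, rfl⟩ := GL2.SL_deg_succ hχ h
      exact GL2.R_ell _ h1
    · rcases GL2.SL_deg_hsucc' (a := a) (b := b) hχ h with ⟨α, φ, -, -, h'⟩ | ⟨h3, η, h4, rfl⟩
      · rw [h'.val (Or.inr h1.npar), GL2.PSs, GL2.R_ell _ h1, zero_div]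
      · exact GL2.Cus_three h3 h4 h1

end Cfsg.Agent.S2322
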