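import Mathlib
import Cfsg.Statements.S2324
import Cfsg.Agent.GL2.SLVal

set_option autoImplicit false
open Cfsg

namespace Cfsg.Agent.S2324

/-- Over a finite field F with q elements, q odd and q ≥ 5, let u be the upper unitriangular matrix of SL₂ with off-diagonal entry 1 and let δ = (−1)^((q−1)/2). Every irreducible complex character χ of SL₂ of degree (q + 1)/2 satisfies (2χ(u) − 1)² = δq, and every irreducible complex character χ of degree (q − 1)/2 satisfies (2χ(u) + 1)² = δq; that is, χ(u) = (1 ± √(δq))/2 in the first case and χ(u) = (−1 ± √(δq))/2 in the second. Moreover two different irreducible characters of degree (q + 1)/2 take the two different values (their values at u add up to 1), and likewise for degree (q − 1)/2 (values adding up to −1). -/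
theorem result {F : Type*} [Field F] [Fintype F] (hodd : Odd (Fintype.card F)) (hq : 5 ≤ Fintype.card F)
    (u : Matrix.SpecialLinearGroup (Fin 2) F) (hu : (u : Matrix (Fin 2) (Fin 2) F) = !![1, 1; 0, 1]) :
    (∀ χ : Matrix.SpecialLinearGroup (Fin 2) F → ℂ, Cfsg.IsIrrCharacter (Matrix.SpecialLinearGroup (Fin 2) F) χ → χ 1 = (((Fintype.card F + 1) / 2 : ℕ) : ℂ) → (2 * χ u - 1) ^ 2 = (-1 : ℂ) ^ ((Fintype.card F - 1) / 2) * (Fintype.card F : ℂ)) ∧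
    (∀ χ : Matrix.SpecialLinearGroup (Fin 2) F → ℂ, Cfsg.IsIrrCharacter (Matrix.SpecialLinearGroup (Fin 2) F) χ → χ 1 = (((Fintype.card F - 1) / 2 : ℕ) : ℂ) → (2 * χ u + 1) ^ 2 = (-1 : ℂ) ^ ((Fintype.card F - 1) / 2) * (Fintype.card F : ℂ)) ∧
    (∀ χ₁ χ₂ : Matrix.SpecialLinearGroup (Fin 2) F → ℂ, Cfsg.IsIrrCharacter (Matrix.SpecialLinearGroup (Fin 2) F) χ₁ → Cfsg.IsIrrCharacter (Matrix.SpecialLinearGroup (Fin 2) F) χ₂ → χ₁ ≠ χ₂ →
      χ₁ 1 = (((Fintype.card F + 1) / 2 : ℕ) : ℂ) → χ₂ 1 = (((Fintype.card F + 1) / 2 : ℕ) : ℂ) → χ₁ u + χ₂ u = 1) ∧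
    (∀ χ₁ χ₂ : Matrix.SpecialLinearGroup (Fin 2) F → ℂ, Cfsg.IsIrrCharacter (Matrix.SpecialLinearGroup (Fin 2) F) χ₁ → Cfsg.IsIrrCharacter (Matrix.SpecialLinearGroup (Fin 2) F) χ₂ → χ₁ ≠ χ₂ →
      χ₁ 1 = (((Fintype.card F - 1) / 2 : ℕ) : ℂ) → χ₂ 1 = (((Fintype.card F - 1) / 2 : ℕ) : ℂ) → χ₁ u + χ₂ u = -1) := by
  obtain ⟨a, b, hab⟩ := GL2.exists_quad F
  have := Fact.mk hab
  have h2 := Classical.SL2Basic.two_ne_zero_of_odd hodd
  rw [GL2.cast_half_succ hodd, GL2.cast_half_pred hodd]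
  obtain ⟨α, -, -, hα⟩ := GL2.exists_hsucc h2 (by omega)
  obtain ⟨η, -, -, hη⟩ := GL2.exists_hpred (a := a) (b := b) h2 (by omega)
  have e1 : GL2.PSs α u = 1 := by rw [GL2.PSs, GL2.R_unip] <;> simp [hu]
  have e2 : GL2.Cus η u = -1 := by rw [GL2.Cus, GL2.C_unip] <;> simp [hu, GL2.xU_one]
  refine ⟨fun χ h h' => ?_, fun χ h h' => ?_, fun χ χ' h h' hne d d' => ?_, fun χ χ' h h' hne d d' => ?_⟩
  · obtain ⟨φ, h1⟩ := hα χ h h'
    rw [← h1.sq hu, ← e1, h1.2.2.2.1, Pi.add_apply]; ring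
  · obtain ⟨φ, h1⟩ := hη χ h h'
    rw [← h1.sq hu, ← sub_neg_eq_add, ← e2, h1.2.2.2.1, Pi.add_apply]; ring
  · obtain ⟨φ, h1⟩ := hα χ h d
    obtain ⟨φ', h3⟩ := hα χ' h' d'
    rw [← e1, h1.2.2.2.1, (h1.unique h3).resolve_left hne.symm, Pi.add_apply]
  · obtain ⟨φ, h1⟩ := hη χ h d
    obtain ⟨φ', h3⟩ := hη χ' h' d'
    rw [← e2, h1.2.2.2.1, (h1.unique h3).resolve_left hne.symm, Pi.add_apply]

end Cfsg.Agent.S2324
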