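import Mathlib
import Cfsg.Statements.S2329
import Cfsg.Agent.GL2.Classes

set_option autoImplicit false
open Cfsg

namespace Cfsg.Agent.S2329

/-- Over a finite field of characteristic p, any two elements of order p of GL₂ are conjugate: there is a single conjugacy class of non-identity unipotent elements. -/
theorem result {F : Type*} [Field F] [Fintype F] (p : ℕ) [Fact p.Prime] [CharP F p] (g h : Matrix.GeneralLinearGroup (Fin 2) F)
    (hg : orderOf g = p) (hh : orderOf h = p) : IsConj g h := by
  rw [orderOf_eq_prime_iff] at hg hh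
  obtain ⟨h1, h2, h3⟩ := GL2.unip_of_pow (congrArg Units.val hg.1) fun e => hg.2 (Units.ext e)
  obtain ⟨h4, h5, h6⟩ := GL2.unip_of_pow (congrArg Units.val hh.1) fun e => hh.2 (Units.ext e)
  exact GL2.isConj_GL h1 h4 (h2.trans h5.symm) (h3.trans h6.symm)

end Cfsg.Agent.S2329
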