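import Mathlib
import Cfsg.Statements.S2362
import Cfsg.Agent.Classical.BC

set_option autoImplicit false
set_option backward.isDefEq.respectTransparency false
open Cfsg

namespace Cfsg.Agent.S2362

/-- Let F be a finite field of odd order and n ≥ 3. The simple orthogonal group PΩ(2n+1, F) (type B_n) and the projective symplectic group PSp(2n, F) (type C_n), which have the same order, do not have the same set of element orders. -/
theorem result {F : Type*} [Field F] [Fintype F] (hodd : Odd (Fintype.card F)) (n : ℕ) (hn : 3 ≤ n) :
    Set.range (orderOf : Cfsg.POmega F (Cfsg.quadFormOdd n F) → ℕ) ≠ Set.range (orderOf : Cfsg.PSp n F → ℕ) := by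
  obtain ⟨k, h1, h2⟩ := Classical.BC.exists_order hodd hn
  intro h
  obtain ⟨g, hg⟩ := h.ge h1
  exact h2 g hg

end Cfsg.Agent.S2362
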