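import Mathlib
import Cfsg.Statements.S2363
import Cfsg.Agent.S0243
import Cfsg.Agent.S0280
import Cfsg.Agent.S0292
import Cfsg.Agent.S0293
import Cfsg.Agent.S0294
import Cfsg.Agent.S1059
import Cfsg.Agent.S1062
import Cfsg.Agent.S1063
import Cfsg.Agent.S1064
import Cfsg.Agent.S1065
import Cfsg.Agent.S1066
import Cfsg.Agent.S1067
import Cfsg.Agent.S1068
import Cfsg.Agent.S1069
import Cfsg.Agent.S1163
import Cfsg.Agent.Classical.SpMat
import Cfsg.Agent.Classical.GLBasic
-- import your own Cfsg.Agent.* helpers here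

set_option autoImplicit false
open Cfsg

namespace Cfsg.Agent.S2363

/-- `n = q ^ N * M / d` with `M ^ 3 < q ^ (5 N)` -/
def Good (p n : ℕ) : Prop := n ^ 3 < p ^ (8 * n.factorization p)

theorem key {p f N M d n : ℕ} (hp : p.Prime) (h : d * n = (p ^ f) ^ N * M) (hd : ¬ p ∣ d)
    (hM : ¬ p ∣ M) : n.factorization p = f * N ∧ n ≤ (p ^ f) ^ N * M := by
  have hd0 : d ≠ 0 := by rintro rfl; simp at hd
  have hM0 : M ≠ 0 := by rintro rfl; simp at hM
  have h0 : (p ^ f) ^ N ≠ 0 := by have := hp.pos; positivity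
  have hn : n ≠ 0 := by rintro rfl; exact mul_ne_zero h0 hM0 (h.symm.trans (mul_zero d))
  refine ⟨?_, h ▸ Nat.le_mul_of_pos_left _ (Nat.pos_of_ne_zero hd0)⟩
  have := congrArg (fun x => x.factorization p) h
  simp only [Nat.factorization_mul hd0 hn, Nat.factorization_mul h0 hM0] at this
  simpa [hp.factorization_self, Nat.factorization_eq_zero_of_not_dvd hd,
    Nat.factorization_eq_zero_of_not_dvd hM, mul_comm] using this

theorem good {p f N M d n k : ℕ} (hp : p.Prime) (h : d * n = (p ^ f) ^ N * M) (hd : ¬ p ∣ d)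
    (hM : ¬ p ∣ M) (hk : M < (p ^ f) ^ k) (hN : 3 * k ≤ 5 * N) : Good p n := by
  obtain ⟨h1, h2⟩ := key hp h hd hM
  have h0 : 0 < p ^ f := pow_pos hp.pos f
  rw [Good, h1, mul_left_comm, pow_mul]
  calc n ^ 3 ≤ ((p ^ f) ^ N * M) ^ 3 := by gcongr
    _ < ((p ^ f) ^ N * (p ^ f) ^ k) ^ 3 := by gcongr
    _ = (p ^ f) ^ (3 * N + 3 * k) := by ring
    _ ≤ _ := Nat.pow_le_pow_right h0 (by omega)

theorem Good.lt {p n : ℕ} (hp : p.Prime) (h : Good p n) : n < p ^ (3 * n.factorization p) := by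
  refine lt_of_pow_lt_pow_left₀ 3 (Nat.zero_le _) (h.trans_le ?_)
  rw [← pow_mul]
  exact Nat.pow_le_pow_right hp.pos (by omega)

section
variable {p q : ℕ} (hp : p.Prime) (hq : p ∣ q) (h1 : 1 < q)
include hp hq

theorem nd_add {i : ℕ} (hi : i ≠ 0) : ¬ p ∣ q ^ i + 1 := fun h =>
  hp.one_lt.ne' (Nat.dvd_one.1 ((Nat.dvd_add_right (dvd_pow hq hi)).1 h))

include h1

theorem nd_sub {i : ℕ} (hi : i ≠ 0) : ¬ p ∣ q ^ i - 1 := fun h =>
  hp.one_lt.ne' (Nat.dvd_one.1 ((Nat.dvd_add_right h).1 (by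
    rw [Nat.sub_add_cancel (Nat.one_le_pow _ _ (by omega))]; exact dvd_pow hq hi)))

theorem nd_sub' : ¬ p ∣ q - 1 := by simpa using nd_sub hp hq h1 one_ne_zero

theorem nd_prod (m : ℕ) : ¬ p ∣ ∏ i ∈ Finset.range m, (q ^ (2 * (i + 1)) - 1) :=
  hp.prime.not_dvd_finset_prod fun _ _ => nd_sub hp hq h1 (by omega)

omit hp hq

theorem sub_lt (i : ℕ) : q ^ i - 1 < q ^ i := Nat.sub_one_lt (by positivity)

theorem add_le {i : ℕ} : q ^ i + 1 ≤ q ^ (i + 1) := by
  have : 0 < q ^ i := by positivity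
  rw [pow_succ]; nlinarith

theorem prod_le (m : ℕ) : ∏ i ∈ Finset.range m, (q ^ (2 * (i + 1)) - 1) ≤ q ^ (m * (m + 1)) := by
  induction m with
  | zero => simp
  | succ m ih =>
    rw [Finset.prod_range_succ, show (m + 1) * (m + 1 + 1) = m * (m + 1) + 2 * (m + 1) by ring,
      pow_add]
    exact Nat.mul_le_mul ih (Nat.sub_le _ _)

theorem prod_lt (m : ℕ) : ∏ i ∈ Finset.range (m + 1), (q ^ (2 * (i + 1)) - 1) <
    q ^ ((m + 1) * (m + 2)) := by
  rw [Finset.prod_range_succ, show (m + 1) * (m + 2) = m * (m + 1) + 2 * (m + 1) by ring, pow_add]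
  exact Nat.mul_lt_mul_of_le_of_lt (prod_le h1 m) (sub_lt h1 _) (by positivity)

theorem prod_lin (m : ℕ) : ∏ i ∈ Finset.range (m + 1), (q ^ (i + 2) - 1) <
    q ^ ((m + 1) * (m + 4) / 2) := by
  induction m with
  | zero => simpa using sub_lt h1 2
  | succ m ih =>
    rw [Finset.prod_range_succ, show (m + 1 + 1) * (m + 1 + 4) = (m + 1) * (m + 4) + (m + 3) * 2 by
      ring, Nat.add_mul_div_right _ _ two_pos, pow_add q _ (m + 3)]
    exact Nat.mul_lt_mul'' ih (sub_lt h1 _)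

theorem prod_uni (m : ℕ) : ∏ i ∈ Finset.range (m + 2),
    (if Even (i + 1) then q ^ (i + 1 + 1) + 1 else q ^ (i + 1 + 1) - 1) <
      q ^ ((m + 2) * (m + 5) / 2) := by
  have h2 : ∀ i, (q ^ i - 1) * (q ^ (i + 1) + 1) < q ^ (2 * i + 1) := fun i => by
    obtain ⟨a, ha⟩ : ∃ a, q ^ i = a + 1 := ⟨q ^ i - 1, (Nat.sub_add_cancel (Nat.one_le_pow _ _ (by omega))).symm⟩
    rw [pow_succ, pow_succ, two_mul, pow_add, ha, Nat.add_sub_cancel]
    nlinarith
  have h3 : ∀ j, ∏ i ∈ Finset.range (2 * j + 2),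
      (if Even (i + 1) then q ^ (i + 1 + 1) + 1 else q ^ (i + 1 + 1) - 1) <
        q ^ ((j + 1) * (2 * j + 5)) := fun j => by
    induction j with
    | zero => simpa [Finset.prod_range_succ] using h2 2
    | succ j ih =>
      rw [show 2 * (j + 1) + 2 = 2 * j + 2 + 1 + 1 by ring, Finset.prod_range_succ,
        Finset.prod_range_succ, mul_assoc, if_neg (by simp [parity_simps]),
        if_pos (by simp [parity_simps]), show (j + 1 + 1) * (2 * (j + 1) + 5) =
          (j + 1) * (2 * j + 5) + (2 * (2 * j + 2 + 1 + 1) + 1) by ring, pow_add q (_ * _)]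
      exact Nat.mul_lt_mul'' ih (h2 _)
  rcases Nat.even_or_odd' m with ⟨j, rfl | rfl⟩
  · rw [show (2 * j + 2) * (2 * j + 5) = (j + 1) * (2 * j + 5) * 2 by ring,
      Nat.mul_div_cancel _ two_pos]
    exact h3 j
  · rw [show (2 * j + 1 + 2) * (2 * j + 1 + 5) = ((j + 1) * (2 * j + 5) + (2 * j + 2 + 1 + 1)) * 2 by
      ring, Nat.mul_div_cancel _ two_pos, pow_add, Finset.prod_range_succ _ (2 * j + 2),
      if_neg (by simp [parity_simps])]
    exact Nat.mul_lt_mul'' (h3 j) (sub_lt h1 _)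

end

theorem exists_pow {F : Type} [Field F] [Fintype F] {p : ℕ} [CharP F p] (hp : p.Prime) {q k : ℕ}
    (hk : k ≠ 0) (h : Fintype.card F = q ^ k) : ∃ f, q = p ^ f ∧ p ∣ p ^ f ∧ 1 < p ^ f := by
  obtain ⟨n, -, hn⟩ := FiniteField.card F p
  obtain ⟨f, -, rfl⟩ := (Nat.dvd_prime_pow hp).1 (hn ▸ h ▸ dvd_pow_self q hk : q ∣ p ^ (n : ℕ))
  have h1 : f ≠ 0 := by
    rintro rfl
    have := Fintype.one_lt_card (α := F)
    simp [h] at this
  exact ⟨f, rfl, dvd_pow_self p h1, Nat.one_lt_pow h1 hp.one_lt⟩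

theorem card_psl {F : Type} [Field F] [Fintype F] {q : ℕ} (hF : Fintype.card F = q) (m : ℕ) :
    Nat.gcd (m + 2) (q - 1) * Nat.card (Matrix.ProjectiveSpecialLinearGroup (Fin (m + 2)) F) =
      q ^ ((m + 2) * (m + 1) / 2) * ∏ i ∈ Finset.range (m + 1), (q ^ (i + 2) - 1) := by
  have h1 : 1 < q := hF ▸ Fintype.one_lt_card
  have h := S0243.result hF (m + 2) (by omega)
  rw [Classical.GLBasic.prod_pow_sub_pow, Fin.prod_univ_eq_prod_range (fun i => q ^ (m + 2 - i) - 1),
    ← Finset.prod_range_reflect, Finset.prod_congr rfl (g := fun i => q ^ (i + 1) - 1) fun i hi => by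
      rw [Finset.mem_range] at hi
      rw [show m + 2 - (m + 2 - 1 - i) = i + 1 by omega], Finset.prod_range_succ', mul_left_comm,
    ← mul_assoc (q ^ _), mul_comm _ (q ^ (0 + 1) - 1), zero_add, pow_one] at h
  exact Nat.eq_of_mul_eq_mul_left (by omega) h

/-- Let G be a finite simple group of Lie type in characteristic p and let p^k be the exact power of p dividing the order of G. Then the order of G is less than p^(3k); and unless G is isomorphic to PSL(2, F) for the field F with p^k elements, the cube of the order of G is less than p^(8k) (that is, the order is below p^(8k/3)). -/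
theorem result {G : Type*} [Group G] [Finite G] (p : ℕ) (hp : p.Prime) (hG : Cfsg.IsLieTypeChar p G) :
    Nat.card G < p ^ (3 * (Nat.card G).factorization p) ∧
      ((¬ ∃ (F : Type) (_ : Field F) (_ : Fintype F), Fintype.card F = p ^ (Nat.card G).factorization p ∧
          Nonempty (G ≃* Matrix.ProjectiveSpecialLinearGroup (Fin 2) F)) →
        Nat.card G ^ 3 < p ^ (8 * (Nat.card G).factorization p)) := by
  have hc : ∀ {H : Type} [Group H], Nonempty (G ≃* H) → Nat.card G = Nat.card H :=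
    fun ⟨e⟩ => Nat.card_congr e.toEquiv
  have hm := hp.prime
  suffices h : Good p (Nat.card G) ∨ ∃ (F : Type) (_ : Field F) (_ : Fintype F) (_ : CharP F p),
      Nonempty (G ≃* Matrix.ProjectiveSpecialLinearGroup (Fin 2) F) by
    rcases h with h | ⟨F, _, _, _, e⟩
    · exact ⟨h.lt hp, fun _ => h⟩
    obtain ⟨f, hf, h2, h1⟩ := exists_pow hp one_ne_zero (pow_one (Fintype.card F)).symm
    obtain ⟨h3, h4⟩ := key hp (card_psl hf 0) (fun h => nd_sub' hp h2 h1
      (h.trans (Nat.gcd_dvd_right _ _))) (by simpa using nd_sub hp h2 h1 two_ne_zero)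
    rw [← hc e] at h3 h4
    refine ⟨h4.trans_lt ?_, fun h => absurd ⟨F, _, _, by simpa [h3] using hf, e⟩ h⟩
    rw [h3, show 3 * (f * ((0 + 2) * (0 + 1) / 2)) = f * (1 + 2) by omega, pow_mul, pow_add]
    simpa using Nat.mul_lt_mul_of_le_of_lt le_rfl (sub_lt h1 2) (by omega : 0 < p ^ f)
  rcases hG with ⟨F, _, _, _, n, hn, -, e⟩ | ⟨F, _, _, _, m, hm, -, e⟩ |
    ⟨F, _, _, _, n, q, hF, hn, -, e⟩ | ⟨F, _, _, _, m, hm, ho, e⟩ | ⟨F, _, _, _, m, hm, e⟩ |
    ⟨F, _, _, _, m, a, b, hm, hab, e⟩ | ⟨F, _, _, _, h⟩ | ⟨F, _, _, _, q, hq, ⟨hF, e⟩ | ⟨hF, e⟩⟩ |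
    ⟨rfl, F, _, _, m, hm, hF, e⟩ | ⟨rfl, F, _, _, m, hm, hF, e⟩ | ⟨rfl, F, _, _, m, hm, hF, e⟩
  · rcases hn.eq_or_lt with rfl | hn
    · exact .inr ⟨F, _, ‹_›, ‹_›, e⟩
    obtain ⟨m, rfl⟩ : ∃ m, n = m + 1 + 2 := ⟨n - 3, by omega⟩
    obtain ⟨f, hf, h2, h1⟩ := exists_pow hp one_ne_zero (pow_one (Fintype.card F)).symm
    refine .inl (hc e ▸ good hp (card_psl hf _) (fun h => nd_sub' hp h2 h1
      (h.trans (Nat.gcd_dvd_right _ _))) (hm.not_dvd_finset_prod fun _ _ => nd_sub hp h2 h1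
        (by omega)) (prod_lin h1 _) ?_)
    obtain ⟨a, ha⟩ := Nat.even_mul_succ_self (m + 2)
    rw [show (m + 1 + 2) * (m + 1 + 1) = a * 2 by nlinarith, show (m + 1 + 1) * (m + 1 + 4) =
      (a + (m + 2)) * 2 by nlinarith, Nat.mul_div_cancel _ two_pos, Nat.mul_div_cancel _ two_pos]
    nlinarith
  · obtain ⟨f, hf, h2, h1⟩ := exists_pow hp one_ne_zero (pow_one (Fintype.card F)).symm
    obtain ⟨m, rfl⟩ : ∃ k, m = k + 1 := ⟨m - 1, by omega⟩
    have h := Classical.SpMat.card_sp (ι := Fin (m + 1)) (F := F)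
    rw [Subgroup.card_eq_card_quotient_mul_card_subgroup (Subgroup.center _),
      Classical.SpMat.card_center, Nat.card_eq_fintype_card (α := F), hf, mul_comm,
      Fintype.card_fin] at h
    exact .inl (hc e ▸ good hp h (fun h => nd_sub' hp h2 h1 (h.trans (Nat.gcd_dvd_right _ _)))
      (nd_prod hp h2 h1 _) (prod_lt h1 _) (by nlinarith))
  · obtain ⟨f, rfl, h2, h1⟩ := exists_pow hp two_ne_zero hF
    obtain ⟨m, rfl⟩ : ∃ m, n = m + 2 + 1 := ⟨n - 3, by omega⟩
    have h := S0280.result hF (m + 2 + 1) (by omega)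
    rw [Finset.prod_range_succ', mul_left_comm, ← mul_assoc (_ ^ _), if_pos Even.zero, zero_add,
      pow_one, mul_comm _ (p ^ f + 1)] at h
    refine .inl (hc e ▸ good hp (Nat.eq_of_mul_eq_mul_left (by omega) h) (fun h => nd_add hp h2
      one_ne_zero (by simpa using h.trans (Nat.gcd_dvd_right _ _)))
      (hm.not_dvd_finset_prod fun _ _ => ?_) (prod_uni h1 _) ?_)
    · split_ifs
      exacts [nd_add hp h2 (by omega), nd_sub hp h2 h1 (by omega)]
    obtain ⟨a, ha⟩ := Nat.even_mul_succ_self (m + 2)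
    rw [show (m + 2 + 1) * (m + 2 + 1 - 1) = a * 2 by simp; nlinarith, show (m + 2) * (m + 5) =
      (a + (m + 2)) * 2 by nlinarith, Nat.mul_div_cancel _ two_pos, Nat.mul_div_cancel _ two_pos]
    nlinarith
  · obtain ⟨f, hf, h2, h1⟩ := exists_pow hp one_ne_zero (pow_one (Fintype.card F)).symm
    obtain ⟨m, rfl⟩ : ∃ k, m = k + 1 := ⟨m - 1, by omega⟩
    rw [hf] at ho
    exact .inl (hc e ▸ good hp (S0292.result hf ho _ hm) (fun h => ho.not_two_dvd_nat
      ((Nat.prime_dvd_prime_iff_eq hp Nat.prime_two).1 h ▸ h2))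
      (nd_prod hp h2 h1 _) (prod_lt h1 _) (by nlinarith))
  · obtain ⟨f, hf, h2, h1⟩ := exists_pow hp one_ne_zero (pow_one (Fintype.card F)).symm
    obtain ⟨m, rfl⟩ : ∃ k, m = k + 1 := ⟨m - 1, by omega⟩
    refine .inl (hc e ▸ good hp (k := m + 1 + m * (m + 1)) ((S0293.result hf _ hm).trans
      (mul_assoc _ _ _)) (fun h => nd_sub hp h2 h1 m.succ_ne_zero (h.trans (Nat.gcd_dvd_right _ _)))
      (hp.prime.not_dvd_mul (nd_sub hp h2 h1 m.succ_ne_zero) (nd_prod hp h2 h1 _)) ?_ (by simp; nlinarith))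
    rw [pow_add _ (m + 1)]
    exact Nat.mul_lt_mul_of_lt_of_le (sub_lt h1 _) (prod_le h1 _) (by positivity)
  · obtain ⟨f, hf, h2, h1⟩ := exists_pow hp one_ne_zero (pow_one (Fintype.card F)).symm
    obtain ⟨m, rfl⟩ : ∃ k, m = k + 1 + 1 := ⟨m - 2, by omega⟩
    refine .inl (hc e ▸ good hp (k := m + 1 + 1 + 1 + (m + 1) * (m + 2))
      ((S0294.result hf _ hm a b hab).trans (mul_assoc _ _ _))
      (fun h => nd_add hp h2 (m + 1).succ_ne_zero (h.trans (Nat.gcd_dvd_right _ _)))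
      (hp.prime.not_dvd_mul (nd_add hp h2 (m + 1).succ_ne_zero) (nd_prod hp h2 h1 _)) ?_
      (by simp; nlinarith))
    rw [pow_add _ (m + 1 + 1 + 1)]
    exact Nat.mul_lt_mul_of_le_of_lt (add_le h1) (prod_lt h1 _) (by positivity)
  · obtain ⟨f, hf, h2, h1⟩ := exists_pow hp one_ne_zero (pow_one (Fintype.card F)).symm
    have s := fun i hi => nd_sub hp h2 h1 (i := i) hi
    have l := sub_lt h1
    rcases h with ⟨-, e⟩ | e | e | e | e
    · refine .inl (hc e ▸ good hp (d := 1) (k := 2 + 6) ((one_mul _).trans ((S1059.result hf).trans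
        (mul_assoc _ _ _))) hm.not_dvd_one (by simp [hp.dvd_mul, s]) ?_ (by norm_num))
      simp only [pow_add]
      gcongr <;> exact l _
    · refine .inl (hc e ▸ good hp (d := 1) (N := 24) (k := 2 + 6 + 8 + 12) ((one_mul _).trans
        ((S1062.result hf).trans (by simp only [mul_assoc]; rfl))) hm.not_dvd_one
        (by simp [hp.dvd_mul, s]) ?_ (by norm_num))
      simp only [pow_add, mul_assoc]
      gcongr <;> exact l _
    · refine .inl (hc e ▸ good hp (N := 36) (k := 2 + 5 + 6 + 8 + 9 + 12)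
        ((S1063.result hf).trans (by simp only [mul_assoc]; rfl))
        (fun h => nd_sub' hp h2 h1 (h.trans (Nat.gcd_dvd_right _ _)))
        (by simp [hp.dvd_mul, s]) ?_ (by norm_num))
      simp only [pow_add, mul_assoc]
      gcongr <;> exact l _
    · refine .inl (hc e ▸ good hp (N := 63) (k := 2 + 6 + 8 + 10 + 12 + 14 + 18)
        ((S1064.result hf).trans (by simp only [mul_assoc]; rfl))
        (fun h => nd_sub' hp h2 h1 (h.trans (Nat.gcd_dvd_right _ _)))
        (by simp [hp.dvd_mul, s]) ?_ (by norm_num))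
      simp only [pow_add, mul_assoc]
      gcongr <;> exact l _
    · refine .inl (hc e ▸ good hp (d := 1) (N := 120) (k := 2 + 8 + 12 + 14 + 18 + 20 + 24 + 30)
        ((one_mul _).trans ((S1065.result hf).trans (by simp only [mul_assoc]; rfl))) hm.not_dvd_one
        (by simp [hp.dvd_mul, s]) ?_ (by norm_num))
      simp only [pow_add, mul_assoc]
      gcongr <;> exact l _
  · obtain ⟨f, rfl, h2, h1⟩ := exists_pow hp two_ne_zero hF
    have s := fun i hi => nd_sub hp h2 h1 (i := i) hi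
    have s' := fun i hi => nd_add hp h2 (i := i) hi
    have l := sub_lt h1
    refine .inl (hc e ▸ good hp (N := 36) (k := 2 + 6 + 6 + 8 + 10 + 12)
      ((S1066.result hq hF).trans (by simp only [mul_assoc]; rfl))
      (fun h => s' 1 one_ne_zero (by simpa using h.trans (Nat.gcd_dvd_right _ _)))
      (by simp [hp.dvd_mul, s, s']) ?_ (by norm_num))
    simp only [pow_add, mul_assoc]
    refine Nat.mul_lt_mul_of_lt_of_le (l _) ?_ (by positivity)
    gcongr <;> first | exact (l _).le | exact add_le h1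
  · obtain ⟨f, rfl, h2, h1⟩ := exists_pow hp three_ne_zero hF
    have s := fun i hi => nd_sub hp h2 h1 (i := i) hi
    have l := sub_lt h1
    refine .inl (hc e ▸ good hp (d := 1) (N := 12) (k := 2 + 6 + 9)
      ((one_mul _).trans ((S1067.result hq hF).trans (by simp only [mul_assoc]; rfl))) hm.not_dvd_one
      (by simpa [hp.dvd_mul, s] using fun h => hm.not_dvd_one ((Nat.dvd_add_right (dvd_add
        (dvd_pow h2 (by norm_num)) (dvd_pow h2 (by norm_num)))).1 h)) ?_ (by norm_num))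
    simp only [pow_add, mul_assoc]
    refine Nat.mul_lt_mul_of_lt_of_le (l _) (Nat.mul_le_mul (l _).le ?_) (by positivity)
    generalize p ^ f = q at h1
    have h3 : q ^ 4 + 1 ≤ q ^ 8 := (add_le h1).trans (Nat.pow_le_pow_right (by omega) (by norm_num))
    rw [pow_succ q 8]
    nlinarith [Nat.mul_le_mul_left (q ^ 8) h1]
  · have h2 : 2 ∣ 2 ^ (2 * m + 1) := dvd_pow_self 2 (by omega)
    have h1 : 1 < 2 ^ (2 * m + 1) := Nat.one_lt_two_pow (by omega)
    refine .inl (hc e ▸ good hp (d := 1) (k := 3) ((one_mul _).trans ((S1163.result hm hF).1.trans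
      (mul_assoc _ _ _))) (by norm_num) (Nat.prime_two.prime.not_dvd_mul (nd_sub' hp h2 h1)
      (nd_add hp h2 two_ne_zero)) ?_ (by norm_num))
    obtain ⟨a, ha⟩ : ∃ a, 2 ^ (2 * m + 1) = a + 1 := ⟨_, (Nat.sub_add_cancel h1.le).symm⟩
    rw [ha, Nat.add_sub_cancel]
    nlinarith [sq_nonneg a]
  · have h2 : 2 ∣ 2 ^ (2 * m + 1) := dvd_pow_self 2 (by omega)
    have h1 : 1 < 2 ^ (2 * m + 1) := Nat.one_lt_two_pow (by omega)
    refine .inl (hc e ▸ good hp (d := 1) (N := 12) (k := 1 + 4 + 4 + 7) ((one_mul _).trans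
      ((S1068.result hF).trans (by simp only [mul_assoc]; rfl))) (by norm_num)
      (Nat.prime_two.prime.not_dvd_mul (nd_sub' hp h2 h1) (Nat.prime_two.prime.not_dvd_mul
        (nd_add hp h2 three_ne_zero) (Nat.prime_two.prime.not_dvd_mul
          (nd_sub hp h2 h1 four_ne_zero) (nd_add hp h2 (by norm_num))))) ?_ (by norm_num))
    generalize 2 ^ (2 * m + 1) = q at h1
    simp only [pow_add, mul_assoc, pow_one]
    refine Nat.mul_lt_mul_of_lt_of_le (by omega) ?_ (by positivity)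
    gcongr <;> first | exact Nat.sub_le _ _ | exact add_le h1
  · have h2 : 3 ∣ 3 ^ (2 * m + 1) := dvd_pow_self 3 (by omega)
    have h1 : 1 < 3 ^ (2 * m + 1) := Nat.one_lt_pow (by omega) (by norm_num)
    refine .inl (hc e ▸ good hp (d := 1) (k := 1 + 4) ((one_mul _).trans ((S1069.result hF).trans
      (mul_assoc _ _ _))) (by norm_num) (Nat.prime_three.prime.not_dvd_mul (nd_sub' hp h2 h1)
      (nd_add hp h2 three_ne_zero)) ?_ (by norm_num))
    generalize 3 ^ (2 * m + 1) = q at h1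
    rw [pow_add, pow_one]
    exact Nat.mul_lt_mul_of_lt_of_le (by omega) (add_le h1) (by positivity)

end Cfsg.Agent.S2363
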