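import Mathlib
import Cfsg.Statements.S2364
import Cfsg.Agent.Spc.Prj
-- import your own Cfsg.Agent.* helpers here

set_option autoImplicit false
open Cfsg

namespace Cfsg.Agent.S2364

open Cfsg.Agent.Spc Cfsg.Agent.Conj Cfsg.Agent.Spec Module

/-- Let F be a finite field of characteristic p, n ≥ 4, and let a, b be commuting elements of PSL(n, F) with a of order p. Then every prime divisor of the order of b divides the order of SL(n − 2, F). -/
theorem result {F : Type*} [Field F] [Fintype F] (p : ℕ) [Fact p.Prime] [CharP F p] (n : ℕ) (hn : 4 ≤ n)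
    (a b : Matrix.ProjectiveSpecialLinearGroup (Fin n) F) (ha : orderOf a = p) (hab : Commute a b) :
    (orderOf b).primeFactors ⊆ (Nat.card (Matrix.SpecialLinearGroup (Fin (n - 2)) F)).primeFactors := by
  intro r hr'
  have hr := Nat.prime_of_mem_primeFactors hr'
  haveI := Fact.mk hr
  have hp : p.Prime := Fact.out
  rw [Nat.mem_primeFactors]
  refine ⟨hr, (prime_dvd_card_iff hr).2 ?_, Nat.card_pos.ne'⟩
  by_cases hrp : r = p
  · subst hrp
    obtain ⟨u, -, u1, u2⟩ := exists_tv F r
    exact mem_spec_sl (V := (Fin 1 ⊕ Fin 1 → F) × (Fin (n - 4) → F)) (by simp; omega)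
      (f := u.prodMap (1 : End F _)) (by rw [det_prodMap', det_unip u1, det_one', mul_one])
      fun m => (prodMap_one_iff u2 m).1
  have r0 : (r : F) ≠ 0 := natCast_ne_zero_of_ne hr hrp
  by_cases h2 : 2 ≤ orderOf (Fintype.card F : ZMod r)
  · have h3 := (psl_char_prime p (by omega) hr hrp h2).1 (mul_mem_spec hab.symm (Nat.dvd_of_mem_primeFactors hr')
      (ha ▸ dvd_rfl) ((Nat.coprime_primes hr hp).2 hrp))
    obtain ⟨f, hf⟩ := exists_gl_prim r0 (by omega) (pow_orderOf_eq_one (Fintype.card F : ZMod r))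
    have := prodMap_one_iff (W := Fin (n - 2 - orderOf (Fintype.card F : ZMod r)) → F) hf
    refine mem_spec_sl (by simp; omega) (eq_one_of_coprime (by rw [← map_pow, (this _).2 dvd_rfl, map_one])
      hr.ne_zero ?_) fun m => (this m).1
    rw [Nat.card_eq_fintype_card]
    exact coprime_sub_one_of_two_le hr Fintype.card_pos h2
  · have := orderOf_zmod_pos (card_ne_zero_of_ne hr r0)
    have hd : r ∣ Fintype.card F - 1 := dvd_sub_one_of_orderOf Fintype.card_pos (by omega)
    obtain ⟨a, ha⟩ := exists_prim_of_dvd (F := F) (N := r) (by rw [Nat.card_eq_fintype_card]; exact hd)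
    have ha0 := ha.ne_zero hr.ne_zero
    refine mem_spec_sl (V := ((Fin 1 → F) × (Fin 1 → F)) × (Fin (n - 4) → F)) (by simp; omega)
      (f := ((a • (1 : End F (Fin 1 → F))).prodMap (a⁻¹ • (1 : End F (Fin 1 → F)))).prodMap (1 : End F _))
      (by rw [det_prodMap', det_prodMap', det_smul', det_smul', det_one', det_one']; simp [ha0]) fun m hm => ?_
    have := (prodMap_pow_eq_one.1 (prodMap_pow_eq_one.1 hm).1).1
    exact (ha.pow_eq_one_iff_dvd m).1 (smul_one_pow (this.trans (one_smul _ _).symm))

end Cfsg.Agent.S2364
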