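import Mathlib
import Cfsg.Statements.S2365
import Cfsg.Agent.Spc.Prj
-- import your own Cfsg.Agent.* helpers here

set_option autoImplicit false
open Cfsg

namespace Cfsg.Agent.S2365

open Cfsg.Agent.Spc Cfsg.Agent.Conj Cfsg.Agent.Spec Module

/-- Let q be a power of the prime p, F the field with q² elements, m ≥ 4, and let a, b be commuting elements of PSU(m, q) with a of order p. Then every prime divisor of the order of b divides the order of SU(m − 2, q). -/
theorem result {F : Type*} [Field F] [Fintype F] (p : ℕ) [Fact p.Prime] [CharP F p] (m q : ℕ) (hm : 4 ≤ m) (hF : Fintype.card F = q ^ 2)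
    (a b : Cfsg.PSU m F q) (ha : orderOf a = p) (hab : Commute a b) :
    (orderOf b).primeFactors ⊆ (Nat.card ↥(Cfsg.SU (m - 2) F q)).primeFactors := by
  intro r hr'
  have hF' := Herm.natCard_of_card hF
  have hr := Nat.prime_of_mem_primeFactors hr'
  haveI := Fact.mk hr
  have hp : p.Prime := Fact.out
  rw [Nat.mem_primeFactors]
  refine ⟨hr, (prime_dvd_card_iff hr).2 ?_, Nat.card_pos.ne'⟩
  by_cases hrp : r = p
  · subst hrp
    obtain ⟨u, u0, u1, u2⟩ := exists_tvU hF' r
    exact (u0.prodMap (isU_one hF' (V := Fin (m - 4) → F))).mem_spec_su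
      (by rw [det_prodMap', det_unip u1, det_one', mul_one]) (by simp; omega)
      fun m => (prodMap_one_iff u2 m).1
  have r0 : (r : F) ≠ 0 := natCast_ne_zero_of_ne hr hrp
  by_cases h2 : 2 ≤ orderOf (-q : ZMod r)
  · have h3 := (psu_char_prime hF' p (by omega) hr hrp h2).1 (mul_mem_spec hab.symm
      (Nat.dvd_of_mem_primeFactors hr') (ha ▸ dvd_rfl) ((Nat.coprime_primes hr hp).2 hrp))
    obtain ⟨f, f1, hf⟩ := exists_isU_prim hF' r0 (by omega) (pow_orderOf_eq_one (-q : ZMod r))
    have := prodMap_one_iff (W := Fin (m - 2 - orderOf (-q : ZMod r)) → F) hf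
    have hu := f1.prodMap (isU_one hF' (V := Fin (m - 2 - orderOf (-q : ZMod r)) → F))
    exact hu.mem_spec_su (eq_one_of_pows (by rw [← map_pow, (this _).2 dvd_rfl, map_one])
      (norm_pow hF' hu.det_norm) (coprime_succ_of_two_le hr h2)) (by simp; omega) fun m => (this m).1
  · have h0 : (-q : ZMod r) ≠ 0 := by
      have := card_ne_zero_of_ne hr r0
      rw [hF, Nat.cast_pow] at this
      exact neg_ne_zero.2 fun h => this (by simp [h])
    have := orderOf_zmod_pos h0
    have h1 : (-q : ZMod r) = 1 := orderOf_eq_one_iff.1 (by omega)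
    have hd : r ∣ q + 1 := by
      rw [← ZMod.natCast_eq_zero_iff, Nat.cast_add, Nat.cast_one]
      linear_combination -h1
    obtain ⟨a, ha⟩ := exists_prim_of_dvd (F := F) (N := r) (by
      rw [hF', ← one_pow 2, Nat.sq_sub_sq]; exact hd.mul_right _)
    have ha0 := ha.ne_zero hr.ne_zero
    have hn : Herm.frob hF' a * a = 1 := by
      rw [Herm.frob_apply, ← pow_succ, ha.pow_eq_one_iff_dvd]; exact hd
    have hn' : Herm.frob hF' a⁻¹ * a⁻¹ = 1 := by rw [map_inv₀, ← mul_inv, hn, inv_one]
    refine ((((isU_one hF' (V := Fin 1 → F)).smul hn).prodMap ((isU_one hF' (V := Fin 1 → F)).smul hn')).prodMap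
      (isU_one hF' (V := Fin (m - 4) → F))).mem_spec_su
      (by rw [det_prodMap', det_prodMap', det_smul', det_smul', det_one', det_one']; simp [ha0]) (by simp; omega)
      fun m hm => ?_
    have := (prodMap_pow_eq_one.1 (prodMap_pow_eq_one.1 hm).1).1
    exact (ha.pow_eq_one_iff_dvd m).1 (smul_one_pow (this.trans (one_smul _ _).symm))

end Cfsg.Agent.S2365
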