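import Mathlib
import Cfsg.Statements.S2367
-- import your own Cfsg.Agent.* helpers here

set_option autoImplicit false
open Cfsg

namespace Cfsg.Agent.S2367

set_option synthInstance.maxSize 2000

theorem aux (N a p : ℕ) (hp : p.Prime) (hodd : p ≠ 2) (h3 : N.factorization p = 3)
    (h : N ≠ 0 ∧ 2 ^ a ∣ N ∧ N ∣ Nat.factorial 71 ∧ ∀ p < 72, (∀ d < p, 2 ≤ d → ¬ d ∣ p) → 3 ≤ p →
      p ^ 3 ∣ N → ¬ p ^ 4 ∣ N → p ^ 3 < 2 ^ a) : p ^ 3 < 2 ^ N.factorization 2 := by
  obtain ⟨h0, h1, h2, h4⟩ := h
  have a1 : p ^ 3 ∣ N := (hp.pow_dvd_iff_le_factorization h0).2 h3.ge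
  have a2 : ¬ p ^ 4 ∣ N := fun h => by
    have := (hp.pow_dvd_iff_le_factorization h0).1 h
    omega
  have a3 : p ≤ 71 := hp.dvd_factorial.1 (((dvd_pow_self p (by norm_num)).trans a1).trans h2)
  have a4 := (Nat.prime_two.pow_dvd_iff_le_factorization h0).1 h1
  have := hp.two_le
  refine (h4 p (by omega) (fun d hd h2 h => ?_) (by omega) a1 a2).trans_le
    (Nat.pow_le_pow_right (by norm_num) a4)
  rcases (Nat.dvd_prime hp).1 h with e | e <;> omega

theorem two_pow_dvd (m : ℕ) : 2 ^ (3 * m) ∣ Nat.factorial (4 * m) := by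
  induction m with
  | zero => simp
  | succ m ih =>
    rw [show 4 * (m + 1) = 4 * m + 1 + 1 + 1 + 1 by ring]
    simp only [Nat.factorial_succ]
    obtain ⟨c, hc⟩ := ih
    exact ⟨(m + 1) * (4 * m + 3) * (2 * m + 1) * (4 * m + 1) * c, by rw [hc]; ring⟩

theorem cube_lt (p : ℕ) (h : 5 ≤ p) : p ^ 3 < 2 ^ (p + 2) := by
  induction p, h using Nat.le_induction with
  | base => norm_num
  | succ p h ih =>
    have : (p + 1) ^ 3 ≤ 2 * p ^ 3 := by nlinarith [Nat.mul_le_mul h h, Nat.mul_le_mul (Nat.mul_le_mul h h) h, Nat.mul_le_mul_right (p * p) h, Nat.mul_le_mul_right p h]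
    rw [show p + 1 + 2 = p + 2 + 1 by ring, pow_succ 2]
    omega

/-- Let G be an alternating group of degree at least 5 or a simple group with the order of one of the 26 sporadic groups, and let p be an odd prime such that p³ is the exact power of p dividing the order of G. Then p³ is less than the 2-part of the order of G. -/
theorem result {G : Type*} [Group G] [Finite G] (hG : Cfsg.IsAlternating G ∨ Cfsg.IsSporadic G)
    (p : ℕ) (hp : p.Prime) (hodd : p ≠ 2) (h3 : (Nat.card G).factorization p = 3) :
    p ^ 3 < 2 ^ (Nat.card G).factorization 2 := by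
  rcases hG with ⟨n, hn, ⟨e⟩⟩ | hG
  · haveI : Nontrivial (Fin n) := Fin.nontrivial_iff_two_le.2 (by omega)
    have h1 : 2 * Nat.card G = n.factorial := by
      rw [Nat.card_congr e.toEquiv, two_mul_nat_card_alternatingGroup, Nat.card_perm]; simp
    have h0 : Nat.card G ≠ 0 := Nat.card_pos.ne'
    have h2 : n.factorial.factorization p = 3 := by
      rw [← h1, Nat.factorization_mul (by norm_num) h0, Finsupp.add_apply, h3,
        Nat.prime_two.factorization, Finsupp.single_eq_of_ne hodd]
    have hf := Nat.factorial_ne_zero n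
    have hp5 : 5 ≤ p := by
      by_contra h
      have := hp.two_le
      have h4 : p ≠ 4 := by rintro rfl; exact absurd hp (by decide)
      obtain rfl : p = 3 := by omega
      by_cases h9 : 9 ≤ n
      · have := (hp.pow_dvd_iff_le_factorization hf).1
          ((by decide : 3 ^ 4 ∣ Nat.factorial 9).trans (Nat.factorial_dvd_factorial h9))
        omega
      · have := ((hp.pow_dvd_iff_le_factorization hf).2 h2.ge).trans
          (Nat.factorial_dvd_factorial (show n ≤ 8 by omega))
        exact absurd this (by decide)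
    have hn3 : 3 * p ≤ n := by
      by_contra h
      have hl : Nat.log p n < 2 := by
        rw [Nat.log_lt_iff_lt_pow hp.one_lt (by omega)]; nlinarith
      rw [Nat.factorization_factorial hp hl] at h2
      simp at h2
      have : n / p < 3 := (Nat.div_lt_iff_lt_mul hp.pos).2 (by omega)
      omega
    have h4 : 2 ^ (p + 2) * 2 ∣ Nat.card G * 2 := by
      rw [← pow_succ, mul_comm, h1]
      exact (pow_dvd_pow 2 (by omega)).trans
        ((two_pow_dvd (n / 4)).trans (Nat.factorial_dvd_factorial (Nat.mul_div_le n 4)))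
    exact (cube_lt p hp5).trans_le (Nat.pow_le_pow_right (by norm_num)
      ((Nat.prime_two.pow_dvd_iff_le_factorization h0).1 (Nat.dvd_of_mul_dvd_mul_right (by norm_num) h4)))
  · rcases hG with h | h | h | h | h | h | h | h | h | h | h | h | h | h | h | h | h | h | h | h | h |
      h | h | h | h | h <;> rw [h.2] at h3 ⊢
    exacts [aux _ 4 p hp hodd h3 (by decide +kernel), aux _ 6 p hp hodd h3 (by decide +kernel),
      aux _ 7 p hp hodd h3 (by decide +kernel), aux _ 7 p hp hodd h3 (by decide +kernel),
      aux _ 10 p hp hodd h3 (by decide +kernel), aux _ 3 p hp hodd h3 (by decide +kernel),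
      aux _ 7 p hp hodd h3 (by decide +kernel), aux _ 7 p hp hodd h3 (by decide +kernel),
      aux _ 21 p hp hodd h3 (by decide +kernel), aux _ 21 p hp hodd h3 (by decide +kernel),
      aux _ 18 p hp hodd h3 (by decide +kernel), aux _ 10 p hp hodd h3 (by decide +kernel),
      aux _ 17 p hp hodd h3 (by decide +kernel), aux _ 18 p hp hodd h3 (by decide +kernel),
      aux _ 21 p hp hodd h3 (by decide +kernel), aux _ 9 p hp hodd h3 (by decide +kernel),
      aux _ 7 p hp hodd h3 (by decide +kernel), aux _ 10 p hp hodd h3 (by decide +kernel),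
      aux _ 14 p hp hodd h3 (by decide +kernel), aux _ 13 p hp hodd h3 (by decide +kernel),
      aux _ 9 p hp hodd h3 (by decide +kernel), aux _ 14 p hp hodd h3 (by decide +kernel),
      aux _ 8 p hp hodd h3 (by decide +kernel), aux _ 15 p hp hodd h3 (by decide +kernel),
      aux _ 41 p hp hodd h3 (by decide +kernel), aux _ 46 p hp hodd h3 (by decide +kernel)]

end Cfsg.Agent.S2367
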