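import Mathlib
import Cfsg.Statements.S2368
import Cfsg.Agent.Spc.PGA
-- import your own Cfsg.Agent.* helpers here

set_option autoImplicit false
open Cfsg

namespace Cfsg.Agent.S2368

/-- Let F be a finite field of characteristic p and m ≥ 1. Every element of GL(m, F) of p-power order has order less than p·m, and GL(m, F) has an element of p-power order at least m; so the largest order of a p-element of GL(m, F) is the least power of p that is at least m. -/
theorem result {F : Type*} [Field F] [Fintype F] (p : ℕ) [Fact p.Prime] [CharP F p] (m : ℕ) (hm : 1 ≤ m) :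
    (∀ g : Matrix.GeneralLinearGroup (Fin m) F, (∃ j : ℕ, orderOf g = p ^ j) → orderOf g < p * m) ∧
      ∃ g : Matrix.GeneralLinearGroup (Fin m) F, (∃ j : ℕ, orderOf g = p ^ j) ∧ m ≤ orderOf g := by
  have hp : p.Prime := Fact.out
  have : Nonempty (Fin m) := ⟨⟨0, hm⟩⟩
  constructor
  · rintro g ⟨j, hj⟩
    have h1 : (g.val - 1) ^ p ^ j = 0 := by
      rw [sub_pow_char_pow_of_commute _ _ (Commute.one_right _), one_pow, ← hj, ← Units.val_pow_eq_pow_val,
        pow_orderOf_eq_one, Units.val_one, sub_self]
    have h2 : (g.val - 1) ^ m = 0 := by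
      have h3 : IsNilpotent (Matrix.toLin' (g.val - 1)) := ⟨p ^ j, by
        rw [← Matrix.toLin'_pow, h1, map_zero]⟩
      have h4 := h3.charpoly_eq_X_pow_finrank
      rw [Matrix.charpoly_toLin'] at h4
      have h5 := Matrix.aeval_self_charpoly (g.val - 1)
      rw [h4] at h5
      simpa using h5
    have h3 : g ^ p ^ Nat.clog p m = 1 := by
      apply Units.ext
      have := pow_eq_zero_of_le (Nat.le_pow_clog hp.one_lt m) h2
      rw [sub_pow_char_pow_of_commute _ _ (Commute.one_right _), one_pow, sub_eq_zero] at this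
      simpa using this
    refine (Nat.le_of_dvd (pow_pos hp.pos _) (orderOf_dvd_of_pow_eq_one h3)).trans_lt ?_
    rcases hm.eq_or_lt with rfl | hm
    · simpa using hp.one_lt
    · have h4 := Nat.pow_pred_clog_lt_self hp.one_lt hm
      have h5 := Nat.clog_pos hp.one_lt hm
      rw [show Nat.clog p m = (Nat.clog p m).pred + 1 from (Nat.succ_pred h5.ne').symm, pow_succ']
      exact Nat.mul_lt_mul_of_pos_left h4 hp.pos
  · obtain ⟨u, -, -, hu⟩ := Spec.exists_unip p F (k := m) hm
    have h1 : orderOf (LinearMap.toMatrix' u) = p ^ Nat.clog p m := by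
      rw [← Spc.orderOf_toLin', Matrix.toLin'_toMatrix']
      exact Spc.orderOf_eq_of_iff hu
    refine ⟨Units.ofPowEqOne (LinearMap.toMatrix' u) (p ^ Nat.clog p m)
      (by rw [← h1, pow_orderOf_eq_one]) (pow_pos hp.pos _).ne', ⟨Nat.clog p m, ?_⟩, ?_⟩
    · rw [← orderOf_units]; exact h1
    · rw [← orderOf_units]
      exact (Nat.le_pow_clog hp.one_lt m).trans h1.ge

end Cfsg.Agent.S2368
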