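import Cfsg.Statements.S2369
import Mathlib
import Cfsg.Agent.Chev.Ree2

set_option autoImplicit false
open Cfsg

namespace Cfsg.Agent.S2369
open Cfsg.Lie Cfsg.Agent.Chev

/-- Let q = 2^(2m+1) with m ≥ 1 and let a, b be commuting elements of the large Ree group ²F₄(q) with a an involution. Then every prime divisor of the order of b divides q(q⁴ − 1). -/
theorem result {K : Type*} [Field K] [Fintype K] (m : ℕ) (hm : 1 ≤ m) (hK : Fintype.card K = 2 ^ (2 * m + 1))
    (a b : ↥(Cfsg.Lie.twistedF4 K (2 ^ m))) (ha : orderOf a = 2) (hab : Commute a b) :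
    (orderOf b).primeFactors ⊆ (2 ^ (2 * m + 1) * ((2 ^ (2 * m + 1)) ^ 4 - 1)).primeFactors := by
  letI := good2F4
  obtain ⟨C⟩ := exists_CF4 hK
  have h := C.dvd_of_comm (C.isTw.le a.2) ((Subgroup.orderOf_coe a).trans ha) (C.isTw.le_grp b.2)
    (hab.map (Subgroup.subtype _))
  have h1 : 1 < (2 ^ (2 * m + 1)) ^ 4 := Nat.one_lt_pow (by simp) (Nat.one_lt_pow (by simp) one_lt_two)
  rw [hK, Subgroup.orderOf_coe, ← Nat.cast_pow, ← Nat.cast_pred (by omega), ← Nat.cast_mul,
    ← Nat.cast_pow, Int.natCast_dvd_natCast] at h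
  exact (Nat.primeFactors_mono h (pow_ne_zero _ (Nat.mul_ne_zero (by simp) (by omega)))).trans
    (Nat.primeFactors_pow _ (by simp)).le

end Cfsg.Agent.S2369
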