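import Cfsg.Statements.S2370
import Mathlib
import Cfsg.Agent.Chev.AutTw
import Cfsg.Agent.Chev.TwF4

set_option autoImplicit false
open Cfsg

namespace Cfsg.Agent.S2370
open Cfsg.Lie Cfsg.Agent.Chev

/-- Let q = 2^(2m+1) with m ≥ 1. Every element of 2-power order of the large Ree group ²F₄(q) has order at most 32. -/
theorem result {K : Type*} [Field K] [Fintype K] (m : ℕ) (hm : 1 ≤ m) (hK : Fintype.card K = 2 ^ (2 * m + 1))
    (x : ↥(Cfsg.Lie.twistedF4 K (2 ^ m))) (hx : ∃ j : ℕ, orderOf x = 2 ^ j) : orderOf x ≤ 32 := by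
  letI := good2F4
  obtain ⟨C⟩ := exists_CF4 hK
  haveI := C.char
  obtain ⟨j, hj⟩ := hx
  obtain ⟨a, ha⟩ := C.isTw.exists_conj_le_U 2 gl_R3 (P := Subgroup.zpowers x)
    (.of_card (by rw [Nat.card_zpowers, hj]))
  have h1 : {r : Rt chevF4 | Pos r} = Hc fun _ => 1 := Set.ext fun r =>
    ⟨lin_pos fun _ => one_pos, fun h => by
      by_contra h'
      have := lin_pos (c := fun _ => 1) (fun _ => one_pos) ((pos_ng r).mpr h')
      rw [co_ng, map_neg] at this
      exact absurd h (not_lt.mpr (neg_pos.mp this).le)⟩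
  have h2 := ha x (Subgroup.mem_zpowers x)
  rw [StSys.U, h1] at h2
  have h3 := (((glSys chevF4 K).θ_mem_UpG_one (uni_Hc _) h2).1.pow 32)
  have h4 : ∀ b : chevF4.Idx, |deg (fun _ => 1) b| ≤ 11 := by
    rintro (i | r)
    · simp
    · revert r; simp only [deg_inr, ph, lin_apply]; decide +kernel
  haveI : Nonempty chevF4.Idx := ⟨.inl ⟨0, good2F4.rank_pos⟩⟩
  have h5 : (a * x * a⁻¹) ^ 32 = 1 := Subtype.ext (Units.ext (by
    have : (((a * x * a⁻¹ : twistedF4 K (2 ^ m)) : GL chevF4.Idx K) - 1 :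
        Matrix chevF4.Idx chevF4.Idx K) ^ 2 ^ 5 = 0 := Matrix.ext fun b c => h3.eq_zero (by
      have := abs_le.mp (h4 b); have := abs_le.mp (h4 c); omega)
    rw [sub_pow_char_pow_of_commute _ _ (Commute.one_right _), one_pow, sub_eq_zero] at this
    exact this))
  rw [conj_pow, conj_eq_one_iff] at h5
  exact orderOf_le_of_pow_eq_one (by norm_num) h5

end Cfsg.Agent.S2370
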