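import Cfsg.Statements.S2372
import Mathlib
import Cfsg.Agent.Chev.ToriC

set_option autoImplicit false
open Cfsg

namespace Cfsg.Agent.S2372
open Cfsg.Lie Cfsg.Agent.Chev

/-- The group F₄(q) contains a cyclic subgroup of order q⁴ + 1 which is its own centralizer. -/
theorem result {F : Type*} [Field F] [Fintype F] (q : ℕ) (hF : Fintype.card F = q) :
    ∃ H : Subgroup ↥(Cfsg.Lie.chevF4.group F), IsCyclic ↥H ∧ Nat.card ↥H = q ^ 4 + 1 ∧
      Subgroup.centralizer (H : Set ↥(Cfsg.Lie.chevF4.group F)) = H := by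
  letI := good2F4
  obtain ⟨H, h1, h2, h3⟩ := exists_cyc_chev (D := chevF4) (ker_st_of_ker (ker_F4 _)) cyc_F4
    ([1, 2, 3, 1, 0, 2] : List (Fin 4)) cyw_F4 hF (hF ▸ Fintype.one_lt_card) (M := q ^ 4 + 1) (by
      change _ = (q : ℤ) ^ 4 + evp 4 _ _
      simp [evp_eq, Fin.sum_univ_succ])
  exact ⟨H, h1, by rwa [card_ker_F4, one_mul] at h2, h3⟩

end Cfsg.Agent.S2372
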