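import Cfsg.Statements.S2373
import Mathlib
import Cfsg.Agent.Chev.ToriC

set_option autoImplicit false
open Cfsg

namespace Cfsg.Agent.S2373
open Cfsg.Lie Cfsg.Agent.Chev

/-- The group E₆(q) (the simple Chevalley group of type E₆) contains a cyclic subgroup of order (q⁴ − q² + 1)(q² + q + 1)/gcd(3, q − 1) which is its own centralizer. -/
theorem result {F : Type*} [Field F] [Fintype F] (q : ℕ) (hF : Fintype.card F = q) :
    ∃ H : Subgroup ↥(Cfsg.Lie.chevE6.group F), IsCyclic ↥H ∧ Nat.card ↥H = (q ^ 4 - q ^ 2 + 1) * (q ^ 2 + q + 1) / Nat.gcd 3 (q - 1) ∧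
      Subgroup.centralizer (H : Set ↥(Cfsg.Lie.chevE6.group F)) = H := by
  letI := good2E6
  have hq : 2 ≤ q := hF ▸ Fintype.one_lt_card
  obtain ⟨H, h1, h2, h3⟩ := exists_cyc_chev (D := chevE6) (ker_st_E6 _) cyc_E6
    ([1, 4, 3, 2, 5, 0] : List (Fin 6)) cyw_E6 hF hq (M := (q ^ 4 - q ^ 2 + 1) * (q ^ 2 + q + 1)) (by
      change _ = (q : ℤ) ^ 6 + evp 6 _ _
      simp [evp_eq, Fin.sum_univ_succ, Nat.cast_sub (Nat.pow_le_pow_right (n := q) (by omega) (by omega : 2 ≤ 4))]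
      ring)
  rw [card_ker_E6, Nat.card_units, Nat.card_eq_fintype_card, hF] at h2
  exact ⟨H, h1, by rw [← h2, Nat.mul_div_cancel_left _ (Nat.gcd_pos_of_pos_left _ (by omega))], h3⟩

end Cfsg.Agent.S2373
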