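import Cfsg.Statements.S2375
import Mathlib
import Cfsg.Agent.Chev.ToriC

set_option autoImplicit false
open Cfsg

namespace Cfsg.Agent.S2375
open Cfsg.Lie Cfsg.Agent.Chev

/-- The group E₈(q) contains a cyclic subgroup of order q⁸ + q⁷ − q⁵ − q⁴ − q³ + q + 1 which is its own centralizer. -/
theorem result {F : Type*} [Field F] [Fintype F] (q : ℕ) (hF : Fintype.card F = q) :
    ∃ H : Subgroup ↥(Cfsg.Lie.chevE8.group F), IsCyclic ↥H ∧ Nat.card ↥H = q ^ 8 + q ^ 7 - q ^ 5 - q ^ 4 - q ^ 3 + q + 1 ∧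
      Subgroup.centralizer (H : Set ↥(Cfsg.Lie.chevE8.group F)) = H := by
  letI := good2E8
  have hq : 2 ≤ q := hF ▸ Fintype.one_lt_card
  have h4 : q ^ 5 + q ^ 4 + q ^ 3 ≤ q ^ 8 + q ^ 7 := by
    have h5 : q ^ 3 * (q ^ 2 + q + 1) ≤ q ^ 3 * (q ^ 2 * q * q * q + q ^ 4) :=
      Nat.mul_le_mul_left _ (by nlinarith [Nat.pow_le_pow_left hq 2, Nat.pow_le_pow_left hq 4])
    linarith
  obtain ⟨H, h1, h2, h3⟩ := exists_cyc_chev (D := chevE8) (ker_st_of_ker (ker_E8 _)) cyc_E8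
    ([7, 6, 4, 2, 3, 5, 0, 1] : List (Fin 8)) cyw_E8 hF hq
    (M := q ^ 8 + q ^ 7 - q ^ 5 - q ^ 4 - q ^ 3 + q + 1) (by
      change _ = (q : ℤ) ^ 8 + evp 8 _ _
      simp [evp_eq, Fin.sum_univ_succ, Nat.sub_sub, ← add_assoc, Nat.cast_sub h4]
      ring)
  exact ⟨H, h1, by rwa [card_ker_E8, one_mul] at h2, h3⟩

end Cfsg.Agent.S2375
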