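import Cfsg.Statements.S2376
import Mathlib
import Cfsg.Agent.Chev.ToriC

set_option autoImplicit false
open Cfsg

namespace Cfsg.Agent.S2376
open Cfsg.Lie Cfsg.Agent.Chev Cfsg.Agent.BN

/-- The group ³D₄(q) contains a cyclic subgroup of order (q³ − 1)(q + 1) which is its own centralizer. -/
theorem result {K : Type*} [Field K] [Fintype K] (q : ℕ) (hq : IsPrimePow q) (hK : Fintype.card K = q ^ 3) :
    ∃ H : Subgroup ↥(Cfsg.Lie.twistedD4 K q), IsCyclic ↥H ∧ Nat.card ↥H = (q ^ 3 - 1) * (q + 1) ∧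
      Subgroup.centralizer (H : Set ↥(Cfsg.Lie.twistedD4 K q)) = H := by
  letI := good2D4
  obtain ⟨m, j, h1, h2, h3, h4⟩ := exists_fix_D4 (algebraMap K (AlgebraicClosure K)) hq hK
  obtain ⟨a, ha⟩ := h4 (wp sW ([1] : List (Fin 4)))
  obtain ⟨c, h5, h6, h7, h8⟩ := exists_gen (D := chevD4) cyc_D4 (σ := symD4a)
    (w := wp sW ([1] : List (Fin 4))) (fun r => (wp_smul_val _ _).trans
      (Nat.eq_of_beq_eq_true ((allN_iff _ _).mp cyw_D4 r r.2))) hq.two_le h2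
    (M := (q ^ 3 - 1) * (q + 1)) (by
      change _ = (q : ℤ) ^ 4 + evp 4 _ _
      simp [evp_eq, Fin.sum_univ_succ, Nat.cast_sub (Nat.one_le_pow 3 q hq.pos)]
      ring)
  obtain ⟨H, h9, h10, h11⟩ := ha.exists_cyc h1 h6 h7 h8
  exact ⟨H, h9, by rwa [h3, Subgroup.card_bot, one_mul, h5] at h10, h11⟩

end Cfsg.Agent.S2376
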