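import Mathlib
import Cfsg.Statements.S2388
import Cfsg.Agent.Conj.Reg
-- import your own Cfsg.Agent.* helpers here

set_option autoImplicit false
open Cfsg

namespace Cfsg.Agent.S2388

/-- In `SL_n(q)`, `q` a power of the prime `p`, two elements of order prime to `p` with the same characteristic polynomial are conjugate in `SL_n(q)` (not merely in `GL_n`). -/
theorem result {F : Type*} [Field F] [Fintype F] (p : ℕ) [Fact p.Prime] [CharP F p] (n : ℕ)
    (g h : Matrix.SpecialLinearGroup (Fin n) F) (hg : (orderOf g).Coprime p) (hh : (orderOf h).Coprime p)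
    (hc : (g : Matrix (Fin n) (Fin n) F).charpoly = (h : Matrix (Fin n) (Fin n) F).charpoly) : IsConj g h := by
  open Cfsg.Agent.Conj in
  have h1 : ∀ g : Matrix.SpecialLinearGroup (Fin n) F, (g : Matrix (Fin n) (Fin n) F) ^ orderOf g = 1 := fun g => by
    rw [← Matrix.SpecialLinearGroup.coe_pow, pow_orderOf_eq_one, Matrix.SpecialLinearGroup.coe_one]
  rcases Nat.eq_zero_or_pos n with rfl | hn
  · rw [Subsingleton.elim g h]
  haveI : Nonempty (Fin n) := ⟨⟨0, hn⟩⟩
  have sg := Conj.squarefree_X_pow_sub_one (Conj.natCast_ne_zero_of_coprime (F := F) hg)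
  have sh := Conj.squarefree_X_pow_sub_one (Conj.natCast_ne_zero_of_coprime (F := F) hh)
  refine Conj.isConj_SL_of_sim (Conj.sim_of_charpoly sg sh (Conj.aeval_toLin'_pow_sub_one (h1 g))
    (Conj.aeval_toLin'_pow_sub_one (h1 h)) ?_) fun d _ =>
      Conj.exists_commute_det_ss sg (Conj.aeval_toLin'_pow_sub_one (h1 g)) d
  rw [Matrix.charpoly_toLin', Matrix.charpoly_toLin', hc]

end Cfsg.Agent.S2388
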