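import Mathlib
import Cfsg.Statements.S2391
-- import your own Cfsg.Agent.* helpers here

set_option autoImplicit false
open Cfsg

namespace Cfsg.Agent.S2391

open Matrix

variable {F : Type*} [Field F] {n : ℕ}

/-- the ascending fixed point series -/
def ser (U : Subgroup (SpecialLinearGroup (Fin n) F)) : ℕ → Submodule F (Fin n → F)
  | 0 => ⊥
  | i + 1 => ⨅ u : U, (ser U i).comap (mulVecLin (u.1 : Matrix (Fin n) (Fin n) F) - LinearMap.id)

theorem mem_ser (U : Subgroup (SpecialLinearGroup (Fin n) F)) (i : ℕ) (v : Fin n → F) :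
    v ∈ ser U (i + 1) ↔ ∀ u ∈ U, (u : Matrix (Fin n) (Fin n) F) *ᵥ v - v ∈ ser U i := by
  simp [ser, Submodule.mem_iInf]

theorem ser_norm (U : Subgroup (SpecialLinearGroup (Fin n) F)) (i : ℕ) :
    ∀ g ∈ Subgroup.normalizer (U : Set (SpecialLinearGroup (Fin n) F)), ∀ v ∈ ser U i,
      (g : Matrix (Fin n) (Fin n) F) *ᵥ v ∈ ser U i := by
  induction i with
  | zero => intro g _ v hv; simp only [ser, Submodule.mem_bot] at hv ⊢; simp [hv]
  | succ i ih =>
    intro g hg v hv
    rw [mem_ser] at hv ⊢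
    intro u hu
    have h1 : g⁻¹ * u * g ∈ U := by
      have := (Subgroup.mem_normalizer_iff.1 (inv_mem hg) u).1 hu
      simpa using this
    have h2 := ih g hg _ (hv _ h1)
    rw [mulVec_sub, mulVec_mulVec, ← Matrix.SpecialLinearGroup.coe_mul, ← mul_assoc, ← mul_assoc,
      mul_inv_cancel, one_mul, Matrix.SpecialLinearGroup.coe_mul, ← mulVec_mulVec] at h2
    exact h2

theorem ser_le (U : Subgroup (SpecialLinearGroup (Fin n) F)) (i : ℕ) : ser U i ≤ ser U (i + 1) :=
  fun v hv => (mem_ser U i v).2 fun u hu => sub_mem (ser_norm U i u (U.le_normalizer hu) v hv) hv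

theorem ser_lt [Fintype F] (p : ℕ) [Fact p.Prime] [CharP F p]
    (U : Subgroup (SpecialLinearGroup (Fin n) F)) (hU : IsPGroup p U) (i : ℕ) (h : ser U i ≠ ⊤) :
    ser U i < ser U (i + 1) := by
  let W := ser U i
  letI : MulAction U ((Fin n → F) ⧸ W) :=
    { smul := fun u => W.mapQ W (mulVecLin (u.1 : Matrix (Fin n) (Fin n) F))
        fun v hv => ser_norm U i u (U.le_normalizer u.2) v hv
      one_smul := fun x => by
        obtain ⟨v, rfl⟩ := W.mkQ_surjective x
        show W.mkQ (_ *ᵥ v) = _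
        simp
      mul_smul := fun a b x => by
        obtain ⟨v, rfl⟩ := W.mkQ_surjective x
        show W.mkQ ((a * b).1.1 *ᵥ v) = W.mkQ (a.1.1 *ᵥ (b.1.1 *ᵥ v))
        simp }
  have hfin : Finite ((Fin n → F) ⧸ W) := Finite.of_surjective _ W.mkQ_surjective
  have hd : p ∣ Nat.card ((Fin n → F) ⧸ W) := by
    have : Nontrivial ((Fin n → F) ⧸ W) := Submodule.Quotient.nontrivial_iff.2 h
    rw [Module.natCard_eq_pow_finrank (K := F), Nat.card_eq_fintype_card]
    obtain ⟨k, -, hk⟩ := FiniteField.card F p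
    exact (hk ▸ dvd_pow_self p k.ne_zero).trans (dvd_pow_self _ Module.finrank_pos.ne')
  obtain ⟨b, hb, hb0⟩ := hU.exists_fixed_point_of_prime_dvd_card_of_fixed_point _ hd (a := 0)
    fun u => map_zero (W.mapQ W _ _)
  obtain ⟨v, rfl⟩ := W.mkQ_surjective b
  refine lt_of_le_of_ne (ser_le U i) fun e => hb0 ((Submodule.Quotient.mk_eq_zero W).2 ?_).symm
  show v ∈ ser U i
  rw [e, mem_ser]
  intro u hu
  exact (Submodule.Quotient.eq W).1 (hb ⟨u, hu⟩)

/-- The Borel–Tits property of `SL_n(q)` in flag form: for a field `F` of characteristic `p` with finitely many elements and a non-trivial `p`-subgroup `U` of `SL_n(F)`, there is a flag `0 = V₀ < V₁ < ⋯ < V_{k+1} = F^n` with at least one proper non-zero member such that every element of the normaliser of `U` maps each `V_i` onto itself and every element of `U` acts trivially on each quotient `V_{i+1}/V_i` (so the normaliser lies in the parabolic subgroup of the flag and `U` in its unipotent radical). -/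
theorem result {F : Type*} [Field F] [Fintype F] (p : ℕ) [Fact p.Prime] [CharP F p] (n : ℕ)
    (U : Subgroup (Matrix.SpecialLinearGroup (Fin n) F)) (hU : IsPGroup p ↥U) (hne : U ≠ ⊥) :
    ∃ (k : ℕ) (V : Fin (k + 2) → Submodule F (Fin n → F)), 1 ≤ k ∧ StrictMono V ∧ V 0 = ⊥ ∧ V (Fin.last (k + 1)) = ⊤ ∧
      (∀ g ∈ Subgroup.normalizer (U : Set (Matrix.SpecialLinearGroup (Fin n) F)), ∀ i, (V i).map (Matrix.mulVecLin (g : Matrix (Fin n) (Fin n) F)) = V i) ∧
      (∀ u ∈ U, ∀ i : Fin (k + 1), ∀ v ∈ V i.succ, (u : Matrix (Fin n) (Fin n) F).mulVec v - v ∈ V (Fin.castSucc i)) := by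
  classical
  have hex : ∃ i, ser U i = ⊤ := by
    by_contra h
    push Not at h
    have hs : StrictMono (ser U) := strictMono_nat_of_lt_succ fun i => ser_lt p U hU i (h i)
    exact not_strictMono_of_wellFoundedGT (ser U) hs
  have h1 : ser U 1 ≠ ⊤ := by
    intro e
    apply hne
    rw [eq_bot_iff]
    intro u hu
    rw [Subgroup.mem_bot]
    apply Subtype.ext
    refine Matrix.toLin'.injective (LinearMap.ext fun v => ?_)
    have := (mem_ser U 0 v).1 (e ▸ Submodule.mem_top) u hu
    simpa [ser, sub_eq_zero] using this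
  have h0 : ser U 0 ≠ ⊤ := fun e => h1 (top_le_iff.1 (e ▸ ser_le U 0))
  obtain ⟨k, hk⟩ : ∃ k, Nat.find hex = k + 2 := by
    have := Nat.find_spec hex
    rcases hf : Nat.find hex with _ | _ | k
    · rw [hf] at this; exact absurd this h0
    · rw [hf] at this; exact absurd this h1
    · exact ⟨k, rfl⟩
  refine ⟨k + 1, fun i => ser U i, by omega, Fin.strictMono_iff_lt_succ.2 fun i => ?_, rfl, ?_, ?_, ?_⟩
  · exact ser_lt p U hU i (Nat.find_min hex (by have := i.2; omega))
  · have := Nat.find_spec hex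
    rwa [hk] at this
  · intro g hg i
    apply le_antisymm
    · rintro _ ⟨v, hv, rfl⟩
      exact ser_norm U i g hg v hv
    · intro v hv
      refine ⟨_, ser_norm U i g⁻¹ (inv_mem hg) v hv, ?_⟩
      rw [Matrix.mulVecLin_apply, Matrix.mulVec_mulVec, ← Matrix.SpecialLinearGroup.coe_mul]
      simp
  · intro u hu i v hv
    exact (mem_ser U i v).1 hv u hu

end Cfsg.Agent.S2391
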