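import Mathlib
import Cfsg.Statements.S2392
import Cfsg.Agent.Classical.LSK
import Cfsg.Agent.Classical.LSL2

set_option autoImplicit false
set_option backward.isDefEq.respectTransparency false
open scoped MatrixGroups
open Cfsg

namespace Cfsg.Agent.S2392

open Cfsg.Agent.Classical Cfsg.Agent.Classical.LS Cfsg.Agent.Classical.Transv Matrix

/-- A lower bound for representations in cross characteristic: for `n ≥ 3` and a field `F` with `q` elements, every homomorphism from `SL_n(F)` to `GL_d(K)`, `K` a field of characteristic different from that of `F`, whose kernel is central has `d ≥ q^(n-1) - 1`. -/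
theorem result {F : Type*} [Field F] [Fintype F] {q : ℕ} (hq : Fintype.card F = q) (n : ℕ) (hn : 3 ≤ n)
    {K : Type*} [Field K] (hK : ringChar K ≠ ringChar F) {d : ℕ}
    (ρ : Matrix.SpecialLinearGroup (Fin n) F →* GL (Fin d) K) (hker : ρ.ker ≤ Subgroup.center (Matrix.SpecialLinearGroup (Fin n) F)) :
    q ^ (n - 1) - 1 ≤ d := by
  classical
  subst hq
  obtain ⟨k, rfl⟩ : ∃ k, n = k + 1 := ⟨n - 1, by omega⟩
  have hk : 2 ≤ Fintype.card (Fin k) := by simp; omega
  let e : Fin k ⊕ Unit ≃ Fin (k + 1) := Fintype.equivOfCardEq (by simp)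
  have : Nontrivial (Fin k) := Fintype.one_lt_card_iff_nontrivial.1 hk
  obtain ⟨u₀, hu₀⟩ := exists_ne (0 : Fin k → F)
  have hpow : ∀ (u : Fin k → F) (m : ℕ), xq e u ^ m = xq e ((m : F) • u) := fun u m => by
    induction m with
    | zero => simp [x_zero (xq_add (F := F) e)]
    | succ m ih => rw [pow_succ, ih, ← xq_add]; simp [add_smul]
  obtain ⟨β, h1, h2, h3, h4⟩ := LSK.exists_wt ρ (x_comm (xq_add e)) (LSK.cast_ne_zero hK)
    (fun u => by rw [hpow]; simp [x_zero (xq_add (F := F) e)]) (i₀ := u₀) fun h => by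
      have hc := Subgroup.mem_center_iff.1 (hker h)
      obtain ⟨y, hy⟩ := exists_dot_eq_one (ε0_ne_zero e : (ε0 e : Fin (k + 1) → F) ≠ 0)
      obtain ⟨φ, h0, hφ⟩ := exists_dot_zero_one (x := y) (y := ex e u₀) fun h => by
        obtain ⟨c, hc⟩ := Submodule.mem_span_singleton.1 h
        have := ε0_dot_ex e u₀
        rw [← hc, dotProduct_smul, dotProduct_comm, hy] at this
        exact ex_ne_zero e hu₀ (by rw [← hc, show c = 0 by simpa using this, zero_smul])
      have := (commute_tv_iff h0 (ε0_dot_ex e u₀) (by rintro rfl; simp at hy)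
        (by rintro rfl; simp at hφ) (ex_ne_zero e hu₀) (ε0_ne_zero e)).1 (hc _)
      exact one_ne_zero (hφ.symm.trans this.1)
  have h5 : ∀ u v, β (u + v) = β u * β v := fun u v => (h2 _ _ _ (xq_add e u v).symm).symm
  have h6 : β 0 = 1 := h3 _ (x_zero (xq_add (F := F) e))
  let χ : (Fin k → F) → Multiplicative (Fin k → F) →* AlgebraicClosure K := fun a =>
    ⟨⟨fun u => β ((a ⬝ᵥ u.toAdd) • u₀), by simp [h6]⟩, fun u v => by simp [← h5, add_smul]⟩
  have hχ : Function.Injective χ := fun a b hab => by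
    by_contra hne
    obtain ⟨u, hu⟩ := exists_dot_eq_one (sub_ne_zero.2 hne)
    have e1 : β ((a ⬝ᵥ u) • u₀) = β ((b ⬝ᵥ u) • u₀) := DFunLike.congr_fun hab (Multiplicative.ofAdd u)
    have e2 : a ⬝ᵥ u = 1 + b ⬝ᵥ u := by rw [← hu, dotProduct_comm u, sub_dotProduct]; ring
    have e3 : β ((b ⬝ᵥ u) • u₀) ≠ 0 := fun h0 => by
      have := h5 ((b ⬝ᵥ u) • u₀) (-((b ⬝ᵥ u) • u₀))
      simp [h0, h6] at this
    rw [e2, add_smul, h5, one_smul] at e1
    exact h1 (mul_right_cancel₀ e3 (e1.trans (one_mul _).symm))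
  have li := linearIndependent_monoidHom (Multiplicative (Fin k → F)) (AlgebraicClosure K)
  have fin : Finite (Multiplicative (Fin k → F) →* AlgebraicClosure K) := li.finite
  have := Fintype.ofFinite (Multiplicative (Fin k → F) →* AlgebraicClosure K)
  obtain ⟨a, ha⟩ := (hχ.bijective_of_nat_card_le (by
    simpa using li.fintype_card_le_finrank)).2
    ⟨⟨fun u => β u.toAdd, h6⟩, fun u v => h5 _ _⟩
  have ha' : ∀ u, β u = β ((a ⬝ᵥ u) • u₀) := fun u =>
    (DFunLike.congr_fun ha (Multiplicative.ofAdd u)).symm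
  have ha0 : a ≠ 0 := by rintro rfl; exact h1 (by rw [ha']; simp [h6])
  have := h4 (J := {b : Fin k → F // b ≠ 0}) (fun b u => β ((b.1 ⬝ᵥ u) • u₀))
    (fun b c h => Subtype.ext (hχ (MonoidHom.ext fun u => congrFun h u.toAdd))) fun b => by
      obtain ⟨g, hg⟩ := exists_SL_vecMul hk ha0 b.2
      refine ⟨blk e g⁻¹, _, xq_mul_blk e g⁻¹, funext fun u => ?_⟩
      rw [Function.comp_apply, ha' (_ *ᵥ u), inv_inv, dotProduct_mulVec, hg]
  simpa using this

end Cfsg.Agent.S2392
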