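import Mathlib
import Cfsg.Statements.S2393
import Cfsg.Agent.Classical.LSK
import Cfsg.Agent.Classical.Weil

set_option autoImplicit false
set_option backward.isDefEq.respectTransparency false
open scoped MatrixGroups
open Cfsg

namespace Cfsg.Agent.S2393

open Cfsg.Agent.Classical Cfsg.Agent.Classical.LS Cfsg.Agent.Classical.SpWitt
  Cfsg.Agent.Classical.SpMat Module

theorem bound {F V : Type*} [Field F] [Fintype F] [AddCommGroup V] [Module F V]
    [FiniteDimensional F V] {B : LinearMap.BilinForm F V} (hB : B.Nondegenerate) (hA : B.IsAlt)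
    {U : Submodule F V} (hU : ∀ u ∈ U, ∀ v ∈ U, B u v = 0) (hn : 2 ≤ finrank F U) (h2 : (2 : F) ≠ 0)
    {K : Type*} [Field K] (hK : ringChar K ≠ ringChar F) {d : ℕ} (ρ : SG B →* GL (Fin d) K)
    (hker : ρ.ker ≤ Subgroup.center _) :
    Nat.card (powMonoidHom 2 : Fˣ →* Fˣ).range * Fintype.card F ^ (finrank F U - 1) ≤ d := by
  classical
  have : Finite V := Module.finite_of_finite F
  have : Finite (Dual F U) := Module.finite_of_finite F
  have : Nontrivial U := Module.nontrivial_of_finrank_pos (R := F) (by omega)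
  obtain ⟨e, he⟩ := exists_ne (0 : U)
  have H := siegS hB hA hU hn
  let x : U → SG B := fun u => sS hA U (e, u)
  have hx : ∀ u v, x (u + v) = x u * x v := fun u v => (H.add e u v).symm
  have hpow : ∀ (u : U) (m : ℕ), x u ^ m = x ((m : F) • u) := fun u m => by
    induction m with
    | zero => simp [x_zero hx]
    | succ m ih => rw [pow_succ, ih, ← hx]; simp [add_smul]
  obtain ⟨β, h1, h5, h3, h4⟩ := LSK.exists_wt ρ (x_comm hx) (LSK.cast_ne_zero hK)
    (fun u => by rw [hpow]; simp [x_zero hx]) (i₀ := (1 / 2 : F) • e) fun h => by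
      have := hker h
      change AutSp.eich hA e ((1 / 2 : F) • (e : V)) 0 ∈ _ at this
      rw [AutSp.eich_smul, zero_add, mul_one_div_cancel h2] at this
      exact SpSimple.tv_ne_center hB hA (by simpa using he) this
  have h5 : ∀ u v, β (u + v) = β u * β v := fun u v => (h5 _ _ _ (hx u v).symm).symm
  have h6 : β 0 = 1 := h3 _ (x_zero hx)
  have key : ∀ a b : F, (∀ c, β ((a * c) • e) = β ((b * c) • e)) → a = b := fun a b h => by
    by_contra hne
    have e1 := h ((a - b)⁻¹ * (1 / 2))
    have e3 : ∀ u, β u ≠ 0 := fun u h0 => by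
      have := h5 u (-u)
      simp [h0, h6] at this
    rw [show a * ((a - b)⁻¹ * (1 / 2)) = 1 / 2 + b * ((a - b)⁻¹ * (1 / 2)) by
      have := sub_ne_zero.2 hne
      field_simp; ring, add_smul, h5] at e1
    exact h1 (mul_right_cancel₀ (e3 _) (e1.trans (one_mul _).symm))
  have := Fintype.ofFinite ((powMonoidHom 2 : Fˣ →* Fˣ).range × {f : Dual F U // f e = 0})
  have := h4 (J := (powMonoidHom 2 : Fˣ →* Fˣ).range × {f : Dual F U // f e = 0})
    (fun j u => β ((j.1.1 : F) • (u + j.2.1 u • e))) ?_ ?_
  · rwa [← Nat.card_eq_fintype_card, Nat.card_prod, card_ann he] at this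
  · rintro ⟨s, f, hf⟩ ⟨s', f', hf'⟩ h
    have e1 : (s.1 : F) = s'.1 := key _ _ fun c => by
      simpa [hf, hf', smul_smul] using congrFun h (c • e)
    obtain rfl : s = s' := Subtype.ext (Units.ext e1)
    have e2 : f = f' := LinearMap.ext fun u => mul_left_cancel₀ s.1.ne_zero (key _ _ fun c => by
      have := congrFun h (c • u)
      simp only [smul_add, h5, map_smul, smul_smul, smul_eq_mul] at this
      have e3 : β (((s.1 : F) * c) • u) ≠ 0 := fun h0 => by
        have := h5 (((s.1 : F) * c) • u) (-(((s.1 : F) * c) • u))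
        simp [h0, h6] at this
      simpa [mul_assoc, mul_comm c] using mul_left_cancel₀ e3 this)
    subst e2; rfl
  · rintro ⟨⟨_, t, rfl⟩, f, hf⟩
    obtain ⟨g, hg⟩ := mem_ΓS hB hA hU ((t : F) • (LinearMap.id + f.smulRight e))
      ((injective_iff_map_eq_zero _).2 fun z hz => by
        have h1 : z + f z • e = 0 := (smul_eq_zero.1 hz).resolve_left t.ne_zero
        have h2 : f z = 0 := by simpa [hf] using congrArg f h1
        simpa [h2] using h1)
    refine ⟨g⁻¹, _, fun u => ?_, rfl⟩
    have := sS_conj hA g (hg e) (hg u)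
    have e1 : ((t : F) • (LinearMap.id + f.smulRight e) : U →ₗ[F] U) e = (t : F) • e := by simp [hf]
    rw [e1, H.smul] at this
    change _ = g⁻¹ * sS hA U (e, ((t : F) ^ 2) • (u + f u • e))
    rw [sq, mul_smul, eq_inv_mul_iff_mul_eq, ← mul_assoc]
    exact this

/-- A lower bound for representations in cross characteristic: for `n ≥ 2` and a field `F` with `q` elements, `q` odd, every homomorphism from the symplectic group `Sp_{2n}(F)` to `GL_d(K)`, `K` a field of characteristic different from that of `F`, whose kernel is central has `d ≥ q^(n-1)(q-1)/2`. -/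
theorem result {F : Type*} [Field F] [Fintype F] {q : ℕ} (hq : Fintype.card F = q) (hodd : Odd q) (n : ℕ) (hn : 2 ≤ n)
    {K : Type*} [Field K] (hK : ringChar K ≠ ringChar F) {d : ℕ}
    (ρ : ↥(Matrix.symplecticGroup (Fin n) F) →* GL (Fin d) K) (hker : ρ.ker ≤ Subgroup.center ↥(Matrix.symplecticGroup (Fin n) F)) :
    q ^ (n - 1) * (q - 1) / 2 ≤ d := by
  subst hq
  have h2 : (2 : F) ≠ 0 := by
    intro h
    have : ringChar F = 2 := CharP.ringChar_of_prime_eq_zero Nat.prime_two (by exact_mod_cast h)
    have := FiniteField.even_card_of_char_two this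
    rw [Nat.odd_iff] at hodd
    omega
  let φ : (Fin n → F) →ₗ[F] (Fin n ⊕ Fin n → F) :=
    { toFun := fun x => Sum.elim x 0
      map_add' := fun x y => by ext (i | i) <;> simp
      map_smul' := fun c x => by ext (i | i) <;> simp }
  have hφ : Function.Injective φ := fun x y h => funext fun i => congrFun h (Sum.inl i)
  have hd : finrank F (LinearMap.range φ) = n := by
    rw [LinearMap.finrank_range_of_inj hφ]; simp
  have h3 := bound sB_nondeg sB_alt (U := LinearMap.range φ) (by
    rintro _ ⟨x, rfl⟩ _ ⟨y, rfl⟩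
    simp [sB_eq_sum, φ]) (by omega) h2 hK (ρ.comp (spEquiv (Fin n) F).symm.toMonoidHom)
    fun g hg => (mem_center_congr (spEquiv (Fin n) F).symm).1 (hker hg)
  have h4 := (powMonoidHom 2 : Fˣ →* Fˣ).ker.card_mul_index
  rw [Subgroup.index_ker, Nat.card_units, Nat.card_eq_fintype_card (α := F)] at h4
  have h5 : Nat.card (powMonoidHom 2 : Fˣ →* Fˣ).ker ≤ 2 :=
    (Nat.card_le_card_of_injective (fun a => (⟨a.1, by
      have := congrArg Units.val (MonoidHom.mem_ker.1 a.2)
      simpa [sq] using this⟩ : {a : F // RingHom.id F a * a = 1}))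
      fun a b h => Subtype.ext (Units.ext (congrArg Subtype.val h))).trans (card_sq_le 1)
  rw [hd] at h3
  refine Nat.div_le_of_le_mul ?_
  rw [← h4]
  calc _ ≤ Fintype.card F ^ (n - 1) * (2 * Nat.card (powMonoidHom 2 : Fˣ →* Fˣ).range) := by gcongr
    _ ≤ _ := by rw [mul_left_comm, mul_comm (_ ^ _)]; gcongr

end Cfsg.Agent.S2393
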