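import Mathlib
import Cfsg.Statements.S2394
import Cfsg.Agent.Classical.SpMat
import Cfsg.Agent.Comp2.Zsig
import Cfsg.Agent.Classical.SLBasic

set_option autoImplicit false
set_option backward.isDefEq.respectTransparency false
open scoped MatrixGroups
open Cfsg

namespace Cfsg.Agent.S2394

open Cfsg.Agent.Classical

/-- The smallest degree of a faithful representation of the symplectic group `Sp_{2n}(q)` over its own field `F_q` is `2n`: every injective homomorphism from `Sp_{2n}(F)` to `GL_d(F)`, `F` the field with `q` elements, has `d ≥ 2n`. -/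
theorem result {F : Type*} [Field F] [Fintype F] (n : ℕ) {d : ℕ}
    (ρ : ↥(Matrix.symplecticGroup (Fin n) F) →* GL (Fin d) F) (hρ : Function.Injective ρ) : 2 * n ≤ d := by
  classical
  by_contra hlt
  have hd := Subgroup.card_dvd_of_injective ρ hρ
  have hq : 1 < Nat.card F := Finite.one_lt_card
  rcases Nat.lt_or_ge n 2 with hn | hn
  · obtain rfl : n = 1 := by omega
    refine SpMat.center_ne_top (ι := Fin 1) (F := F) ((Subgroup.eq_top_iff' _).2 fun g =>
      Subgroup.mem_center_iff.2 fun h => hρ ?_)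
    rw [map_mul, map_mul]
    ext i j
    obtain rfl : d = 1 := by have := i.2; omega
    simp [Matrix.mul_apply, mul_comm, Subsingleton.elim i 0, Subsingleton.elim j 0]
  rw [SpMat.card_sp, SLBasic.card_GL, Fintype.card_fin] at hd
  by_cases h6 : Nat.card F = 2 ∧ 2 * n = 6
  · obtain rfl : n = 3 := by omega
    rw [h6.1] at hd
    have : d < 6 := by omega
    interval_cases d <;> revert hd <;> decide
  obtain ⟨r, hr, h1, h2⟩ := Comp2.Zsig.zsigmondy (Nat.card F) (2 * n) hq (by omega) h6 (by omega)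
  have h3 : r ∣ ∏ i : Fin d, (Nat.card F ^ d - Nat.card F ^ (i : ℕ)) :=
    (h1.trans (Dvd.dvd.mul_left (by
      obtain ⟨m, rfl⟩ : ∃ m, n = m + 1 := ⟨n - 1, by omega⟩
      rw [Finset.prod_range_succ]; exact Dvd.intro_left _ rfl) _)).trans hd
  obtain ⟨i, -, hi⟩ := (hr.prime.dvd_finset_prod_iff _).1 h3
  have e : Nat.card F ^ d - Nat.card F ^ (i : ℕ) = Nat.card F ^ (i : ℕ) * (Nat.card F ^ (d - i) - 1) := by
    rw [Nat.mul_sub_one, ← pow_add, Nat.add_sub_cancel' i.2.le]
  rw [e, hr.dvd_mul] at hi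
  rcases hi with hi | hi
  · have h4 := (hr.dvd_of_dvd_pow hi).pow (n := 2 * n) (by omega)
    have h5 := Nat.dvd_sub h4 h1
    rw [Nat.sub_sub_self (Nat.one_le_pow _ _ (by omega))] at h5
    exact hr.one_lt.ne' (Nat.dvd_one.1 h5)
  · exact h2 _ (by have := i.2; omega) (by omega) hi

end Cfsg.Agent.S2394
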