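import Cfsg.Statements.S2398
import Mathlib
import Cfsg.Agent.Mult.Univ
import Cfsg.Agent.S2395

set_option autoImplicit false
open Cfsg

namespace Cfsg.Agent.S2398
open Cfsg.Lie Cfsg.Agent.Chev Cfsg.Agent.Mult Cfsg.Agent.H2.Schur


/-- Universality of the group Δ presented by Steinberg's generators with relators (R1), (R2), over a field with more than four elements (types G₂, B₂, D₄, F₄, E₆, E₇, E₈): for every central extension `π₁ : E → G₁` (surjective, central kernel) and every homomorphism `σ : Δ → G₁` there is exactly one homomorphism `τ : Δ → E` with `π₁ ∘ τ = σ`. In particular every central extension of Δ splits; together with the fact that Δ maps onto the Chevalley group with central kernel, this makes Δ the universal central extension of the Chevalley group. -/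
theorem result {K : Type*} [Field K] (hK5 : ∃ s : Finset K, 4 < s.card) (D : Cfsg.Lie.ChevalleyDatum) (hD : D ∈ [Cfsg.Lie.chevG2, Cfsg.Lie.chevB2, Cfsg.Lie.chevD4, Cfsg.Lie.chevF4, Cfsg.Lie.chevE6, Cfsg.Lie.chevE7, Cfsg.Lie.chevE8])
    {G₁ E : Type*} [Group G₁] [Group E] (π₁ : E →* G₁) (hπ : Function.Surjective π₁) (hc : π₁.ker ≤ Subgroup.center E)
    (σ : D.SteinbergCover K →* G₁) : ∃! τ : D.SteinbergCover K →* E, π₁.comp τ = σ := by
  obtain ⟨s, hs⟩ := hK5
  have : Group.IsPerfect (D.SteinbergCover K) := ⟨S2395.result D hD fun _ => by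
    classical
    obtain ⟨a, -, h⟩ := Finset.exists_mem_notMem_of_card_lt_card (s := ({0, 1} : Finset K))
      (t := s) (Finset.card_le_two.trans_lt (by omega))
    exact ⟨a, by simpa [not_or] using h⟩⟩
  obtain ⟨g, h⟩ : ∃ g : Good2 D, LA D K := by
    simp only [List.mem_cons, List.not_mem_nil, or_false] at hD
    rcases hD with rfl | rfl | rfl | rfl | rfl | rfl | rfl
    exacts [⟨good2G2, la_big (g := good2G2) hs chk_G2⟩,
      ⟨good2B2, la_big (g := good2B2) hs ⟨chk_B2.1, chk_B2.2.1⟩⟩,
      ⟨good2D4, la_big (g := good2D4) hs ⟨chk_D4.1, chk_D4.2.1⟩⟩,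
      ⟨good2F4, la_big (g := good2F4) hs ⟨chk_F4.1, chk_F4.2.1⟩⟩,
      ⟨good2E6, la_of_sld (g := good2E6) sld_E6⟩,
      ⟨good2E7, la_of_sld (g := good2E7) sld_E7⟩,
      ⟨good2E8, la_of_sld (g := good2E8) sld_E8⟩]
  exact h.lift ⟨hπ, hc⟩ σ

end Cfsg.Agent.S2398
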