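import Cfsg.Statements.S2399
import Mathlib
import Cfsg.Agent.Mult.Univ
import Cfsg.Agent.S2398

set_option autoImplicit false
open scoped MatrixGroups
open Cfsg

namespace Cfsg.Agent.S2399
open Cfsg.Lie Cfsg.Agent.Chev Cfsg.Agent.Mult Cfsg.Agent.H2.Schur


/-- Projective representations in the natural characteristic lift: for each of the types G₂, B₂, D₄, F₄, E₆, E₇, E₈ over any field `K` (for types B₂ and G₂ the field must have more than two elements — the cases where the Chevalley group is not simple are set aside), every homomorphism from the Chevalley group to `PGL_n(L) = GL_n(L)/Z`, `L` a field of the same characteristic as `K`, lifts uniquely to a homomorphism from the group Δ presented by (R1), (R2) to `GL_n(L)`, compatibly with the projection Δ → Chevalley group sending x̄_r(t) to x_r(t). -/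
theorem result {K : Type*} [Field K] (D : Cfsg.Lie.ChevalleyDatum) (hD : D ∈ [Cfsg.Lie.chevG2, Cfsg.Lie.chevB2, Cfsg.Lie.chevD4, Cfsg.Lie.chevF4, Cfsg.Lie.chevE6, Cfsg.Lie.chevE7, Cfsg.Lie.chevE8]) (hK : D ∈ [Cfsg.Lie.chevB2, Cfsg.Lie.chevG2] → ∃ x : K, x ≠ 0 ∧ x ≠ 1)
    (θ : D.SteinbergCover K →* ↥(D.group K))
    (hθ : ∀ (r : ℕ) (t : K), r < D.nroots → ((θ (D.scGen K r t) : GL D.Idx K) : Matrix D.Idx D.Idx K) = D.x K r t)
    {L : Type*} [Field L] (hL : ringChar L = ringChar K) {n : ℕ}
    (φ : ↥(D.group K) →* GL (Fin n) L ⧸ Subgroup.center (GL (Fin n) L)) :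
    ∃! ψ : D.SteinbergCover K →* GL (Fin n) L, (QuotientGroup.mk' (Subgroup.center (GL (Fin n) L))).comp ψ = φ.comp θ := by
  obtain ⟨p, hp⟩ := CharP.exists K
  rcases CharP.char_is_prime_or_zero K p with h | rfl
  swap
  · have := CharP.charP_to_charZero K
    have := Infinite.of_injective _ (Nat.cast_injective (R := K))
    obtain ⟨s, hs⟩ := Infinite.exists_subset_card_eq K 5
    exact S2398.result ⟨s, by omega⟩ D hD _ (QuotientGroup.mk'_surjective _) (by simp) _
  have := Fact.mk h
  have : CharP L p := ringChar.of_eq (hL.trans (ringChar.eq K p))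
  have : Group.IsPerfect (D.SteinbergCover K) := ⟨S2395.result D hD hK⟩
  obtain ⟨g⟩ := good2_of_mem hD
  obtain rfl : θ = (scSys D K).θG sc_grp := StSys.hom_ext sc_grp fun r t =>
    (ch_val_iff.1 (hθ r t r.2)).trans (StSys.θG_x _ _ _ _).symm
  obtain ⟨η, hη⟩ := exists_lift_univ cext_center (φ.comp ((scSys D K).θG sc_grp))
  have h1 := cext_comp (cext_of_stem stem_univ) (cext_θG (scSys D K) sc_grp)
  obtain ⟨m, hm, h2⟩ : ∃ m, p.Coprime m ∧ ∀ z ∈ Subgroup.center (GL (Fin n) L),
      Matrix.GeneralLinearGroup.det z = 1 → z ^ m = 1 := by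
    rcases eq_or_ne n 0 with rfl | hn
    · exact ⟨1, by simp, fun z _ _ => Subsingleton.elim _ _⟩
    obtain ⟨a, m, h3, rfl⟩ := Nat.exists_eq_pow_mul_and_not_dvd hn p h.ne_one
    refine ⟨m, (Nat.Prime.coprime_iff_not_dvd h).2 h3, fun z hz h4 => Units.ext ?_⟩
    obtain ⟨c, hc⟩ := Matrix.GeneralLinearGroup.mem_center_iff_val_mem_range_scalar.1 hz
    have h5 : (c ^ m) ^ p ^ a = 1 := by
      simpa [← hc, ← pow_mul, mul_comm m] using congrArg Units.val h4
    rw [Units.val_pow_eq_pow_val, ← hc, ← map_pow, ← sub_eq_zero.1 (pow_eq_zero_iff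
      (pow_ne_zero a h.ne_zero) |>.1 (by rw [sub_pow_char_pow, h5, one_pow, sub_self] :
        (1 - c ^ m) ^ p ^ a = 0)), map_one, Units.val_one]
  obtain ⟨ψ, hψ⟩ := (lft_of_coprime (chSys D K) (cext_quotient h1 (_ ⊓ η.ker) inf_le_left) p hm
    fun z hz => by
      induction z using QuotientGroup.induction_on with | H z => ?_
      have h3 : Matrix.GeneralLinearGroup.det (η z) = 1 :=
        Abelianization.commutator_subset_ker (Matrix.GeneralLinearGroup.det.comp η)
          (Group.IsPerfect.mem_commutator)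
      have h4 := DFunLike.congr_fun hη z
      rw [MonoidHom.comp_assoc, MonoidHom.comp_apply φ, show (((scSys D K).θG sc_grp).comp (univMap _)) z = 1 from hz,
        map_one] at h4
      rw [← QuotientGroup.mk_pow, QuotientGroup.eq_one_iff]
      exact ⟨pow_mem hz _, (map_pow η z m).trans (h2 _ ((QuotientGroup.eq_one_iff _).1 h4) h3)⟩).sc
  have h3 : (QuotientGroup.mk' _).comp ((QuotientGroup.lift _ η inf_le_right).comp ψ) =
      φ.comp ((scSys D K).θG sc_grp) := by
    refine Eq.trans (MonoidHom.ext fun x => ?_) (congrArg φ.comp hψ)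
    simp only [MonoidHom.comp_apply]
    induction ψ x using QuotientGroup.induction_on with | H z => exact DFunLike.congr_fun hη z
  exact ⟨_, h3, fun τ hτ => hom_eq_of_perfect cext_center.cent (hτ.trans h3.symm)⟩

end Cfsg.Agent.S2399
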