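import Mathlib
import Cfsg.Statements.S2401
import Cfsg.Agent.Pres.StA2
-- import your own Cfsg.Agent.* helpers here

set_option autoImplicit false
open Cfsg

namespace Cfsg.Agent.S2401

/-- The Steinberg presentation of `SL_n` over a finite field for `n ≥ 3`: the group generated by symbols `x_ij(t)` (`i ≠ j`, `t` in the field) subject to `x_ij(t) x_ij(u) = x_ij(t + u)` and, for `i ≠ l`, `x_ij(t) x_kl(u) x_ij(t)⁻¹ x_kl(u)⁻¹ = x_il(tu)` if `j = k` and `= 1` if `j ≠ k`, is isomorphic to `SL_n` by an isomorphism sending `x_ij(t)` to the elementary matrix `1 + t E_ij`. -/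
theorem result {K : Type*} [Field K] [Finite K] (n : ℕ) (hn : 3 ≤ n) :
    ∃ e : PresentedGroup
        ({g : FreeGroup ({ij : Fin n × Fin n // ij.1 ≠ ij.2} × K) | ∃ (a : {ij : Fin n × Fin n // ij.1 ≠ ij.2}) (t u : K),
            g = FreeGroup.of (a, t) * FreeGroup.of (a, u) * (FreeGroup.of (a, t + u))⁻¹} ∪
          {g | ∃ (a b : {ij : Fin n × Fin n // ij.1 ≠ ij.2}) (t u : K), a.1.1 ≠ b.1.2 ∧ a.1.2 ≠ b.1.1 ∧
            g = FreeGroup.of (a, t) * FreeGroup.of (b, u) * (FreeGroup.of (a, t))⁻¹ * (FreeGroup.of (b, u))⁻¹} ∪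
          {g | ∃ (a b : {ij : Fin n × Fin n // ij.1 ≠ ij.2}) (h : a.1.1 ≠ b.1.2) (t u : K), a.1.2 = b.1.1 ∧
            g = FreeGroup.of (a, t) * FreeGroup.of (b, u) * (FreeGroup.of (a, t))⁻¹ * (FreeGroup.of (b, u))⁻¹ *
              (FreeGroup.of (⟨(a.1.1, b.1.2), h⟩, t * u))⁻¹}) ≃* Matrix.SpecialLinearGroup (Fin n) K,
      ∀ (a : {ij : Fin n × Fin n // ij.1 ≠ ij.2}) (t : K), ((e (PresentedGroup.of (a, t)) : Matrix (Fin n) (Fin n) K)) = Matrix.transvection a.1.1 a.1.2 t := by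
  generalize hR : (_ ∪ _ : Set (FreeGroup ({ij : Fin n × Fin n // ij.1 ≠ ij.2} × K))) = R
  have m1 : ∀ {r}, r ∈ R → PresentedGroup.mk R r = 1 := fun h => PresentedGroup.one_of_mem h
  let S : Pres.StA (Fin n) K (PresentedGroup R) :=
    { x := fun i j t => if h : i ≠ j then PresentedGroup.of (⟨(i, j), h⟩, t) else 1
      add := fun {i j} h t u => by
        simp only [dif_pos h]
        have := m1 (hR.subset (Or.inl (Or.inl ⟨⟨(i, j), h⟩, t, u, rfl⟩)))
        rw [map_mul, map_inv, mul_inv_eq_one] at this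
        exact this.symm
      comm := fun {i j k l} h1 h2 h3 h4 t u => by
        simp only [dif_pos h1, dif_pos h2]
        have := m1 (hR.subset (Or.inl (Or.inr ⟨⟨(i, j), h1⟩, ⟨(k, l), h2⟩, t, u, h4, h3, rfl⟩)))
        rw [map_mul, map_mul, map_inv, map_inv, mul_inv_eq_one, mul_inv_eq_iff_eq_mul] at this
        exact this
      rel := fun {i j k} h1 h2 h3 t u => by
        simp only [dif_pos h1, dif_pos h2, dif_pos h3]
        have := m1 (hR.subset (Or.inr ⟨⟨(i, j), h1⟩, ⟨(j, k), h2⟩, h3, t, u, rfl, rfl⟩))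
        rw [map_mul, map_inv, mul_inv_eq_one] at this
        exact this }
  have h0 : ∀ r ∈ R, FreeGroup.lift (fun a : {ij : Fin n × Fin n // ij.1 ≠ ij.2} × K =>
      Pres.tr a.1.1.1 a.1.1.2 a.2) r = 1 := by
    rw [← hR]
    rintro _ ((⟨a, t, u, rfl⟩ | ⟨a, b, t, u, h1, h2, rfl⟩) | ⟨a, b, h, t, u, h1, rfl⟩)
    · simp only [map_mul, map_inv, FreeGroup.lift_apply_of, mul_inv_eq_one]
      exact ((Pres.slSt (Fin n) K).add a.2 t u).symm
    · simp only [map_mul, map_inv, FreeGroup.lift_apply_of, mul_inv_eq_iff_eq_mul, one_mul]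
      exact ((Pres.slSt (Fin n) K).comm a.2 b.2 h2 h1 t u).eq
    · simp only [map_mul, map_inv, FreeGroup.lift_apply_of, mul_inv_eq_one]
      have := (Pres.slSt (Fin n) K).rel a.2 (h1 ▸ b.2) h t u
      rw [← h1]
      exact this
  have h1 : ∀ i j t, i ≠ j → PresentedGroup.toGroup h0 (S.x i j t) = Pres.tr i j t := fun i j t h => by
    simp only [S, dif_pos h, PresentedGroup.toGroup.of]
  have h2 : S.grp = ⊤ := by
    rw [eq_top_iff, ← PresentedGroup.closure_range_of, Subgroup.closure_le]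
    rintro _ ⟨⟨a, t⟩, rfl⟩
    have := S.x_mem (T := fun _ _ => True) a.2 trivial t
    simp only [S, dif_pos a.2] at this
    exact this
  refine ⟨MulEquiv.ofBijective (PresentedGroup.toGroup h0) ⟨(injective_iff_map_eq_one _).mpr fun g hg =>
    S.inj (by simpa using hn) _ h1 (h2 ▸ Subgroup.mem_top g) hg,
    MonoidHom.range_eq_top.mp (Pres.slSt_top fun i j t h => ⟨_, h1 i j t h⟩)⟩, fun a t => ?_⟩
  change (PresentedGroup.toGroup h0 (PresentedGroup.of (a, t))).1 = _
  rw [PresentedGroup.toGroup.of, Pres.tr_eq a.2]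
  rfl

end Cfsg.Agent.S2401
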