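import Mathlib
import Cfsg.Statements.S2411
import Cfsg.Agent.Pres.TG2
-- import your own Cfsg.Agent.* helpers here

set_option autoImplicit false
open Cfsg

namespace Cfsg.Agent.S2411

/-- The projective symplectic group `PSp_{2m}(q)` with `m ≥ 2` (and `q > 2` if `m = 2`) is generated by two of its elements. -/
theorem result {F : Type*} [Field F] [Fintype F] (m : ℕ) (hm : 2 ≤ m) (hF : m = 2 → 2 < Fintype.card F) :
    ∃ a b : Cfsg.PSp m F, Subgroup.closure ({a, b} : Set (Cfsg.PSp m F)) = ⊤ := by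
  obtain ⟨n, rfl⟩ : ∃ k, m = k + 2 := ⟨m - 2, by omega⟩
  exact Pres.two_gen_quot (Pres.sp_two_gen fun e => hF (by omega)) Pres.sp_equiv

end Cfsg.Agent.S2411
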