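import Mathlib
import Cfsg.Statements.S2413
import Cfsg.Agent.Pres.RU9
import Cfsg.Agent.S2411
import Cfsg.Agent.S0301
-- import your own Cfsg.Agent.* helpers here

set_option autoImplicit false
open Cfsg

namespace Cfsg.Agent.S2413

/-- The simple orthogonal group `PΩ_{2m+1}(q)` (commutator subgroup of the orthogonal group of `x₀² + Σ x_i y_i` modulo its centre) with `m ≥ 2` and `q` odd is generated by two of its elements. -/
theorem result {F : Type*} [Field F] [Fintype F] (hodd : Odd (Fintype.card F)) (m : ℕ) (hm : 2 ≤ m) :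
    ∃ a b : Cfsg.POmega F (Cfsg.quadFormOdd m F), Subgroup.closure ({a, b} : Set (Cfsg.POmega F (Cfsg.quadFormOdd m F))) = ⊤ := by
  rcases hm.eq_or_lt with rfl | hm
  · obtain ⟨a, b, h⟩ := S2411.result (F := F) 2 le_rfl fun _ => by
      have := Fintype.one_lt_card (α := F); obtain ⟨k, hk⟩ := hodd; omega
    obtain ⟨e⟩ := S0301.result hodd
    refine ⟨e.symm a, e.symm b, ?_⟩
    rw [← Set.image_pair, ← MulEquiv.coe_toMonoidHom, ← MonoidHom.map_closure, h]
    exact Subgroup.map_top_of_surjective _ e.symm.surjective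
  have h2 := Orth.two_ne_zero_of_odd hodd
  refine Pres.RU.om_fin_two (Orth.nd_oddQ m h2) (by simp; omega) hm le_rfl Sum.inr ?_ ?_ (z := Pi.single (.inl ()) 1)
    (d := Pi.single (.inl ()) 1) ?_ ?_ ?_ ?_ ?_
  · rintro (a | a) <;> simp [Orth.oddQ_apply, Pi.single_apply]
  · rintro (a | a) (b | b) <;> simp [Orth.polar_oddQ, Pi.single_apply, eq_comm]
  · simp [Orth.oddQ_apply, Pi.single_apply]
  · simp [Orth.oddQ_apply, Pi.single_apply, h2]
  · simp [Orth.polar_oddQ, Pi.single_apply]
  · simp [Orth.polar_oddQ, Pi.single_apply]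
  · rintro (a | a | a)
    · exact .inr ⟨1, 0, by simp⟩
    · exact .inl ⟨a, a.2, .inl rfl⟩
    · exact .inl ⟨a, a.2, .inr rfl⟩

end Cfsg.Agent.S2413
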