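import Mathlib
import Cfsg.Statements.S2405
import Cfsg.Agent.Pres.CV1
import Cfsg.Agent.S2413
import Cfsg.Agent.S1083
import Cfsg.Agent.S0304
import Cfsg.Agent.S0269
-- import your own Cfsg.Agent.* helpers here

set_option autoImplicit false
open Cfsg

namespace Cfsg.Agent.S2405

/-- Each Chevalley group of type G₂, B₂, D₄, F₄, E₆, E₇ or E₈ over a finite field is generated by two of its elements (types B₂ and G₂ over the field with two elements, where the group is not simple, excepted). -/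
theorem result {F : Type*} [Field F] [Finite F] (D : Cfsg.Lie.ChevalleyDatum) (hD : D ∈ [Cfsg.Lie.chevG2, Cfsg.Lie.chevB2, Cfsg.Lie.chevD4, Cfsg.Lie.chevF4, Cfsg.Lie.chevE6, Cfsg.Lie.chevE7, Cfsg.Lie.chevE8])
    (hF : D ∈ [Cfsg.Lie.chevB2, Cfsg.Lie.chevG2] → ∃ x : F, x ≠ 0 ∧ x ≠ 1) :
    ∃ a b : ↥(D.group F), Subgroup.closure ({a, b} : Set ↥(D.group F)) = ⊤ := by
  have := Fintype.ofFinite F
  simp only [List.mem_cons, List.not_mem_nil, or_false] at hD hF
  rcases hD with rfl | rfl | rfl | rfl | rfl | rfl | rfl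
  · exact Chev.CV.two_G2
  · have h := hF (.inl rfl)
    obtain ⟨e⟩ := S1083.result h
    obtain ⟨a, b, h1⟩ : ∃ a b : Cfsg.POmega F (Cfsg.quadFormOdd 2 F),
        Subgroup.closure ({a, b} : Set (Cfsg.POmega F (Cfsg.quadFormOdd 2 F))) = ⊤ := by
      by_cases h2 : (2 : F) = 0
      · haveI : CharP F 2 := (CharP.charP_iff_prime_eq_zero Nat.prime_two).2 h2
        have h3 : 2 < Fintype.card F := by
          classical
          obtain ⟨x, h3, h4⟩ := h
          exact Fintype.two_lt_card_iff.2 ⟨x, 0, 1, h3, h4, zero_ne_one⟩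
        obtain ⟨e'⟩ := S0304.result (F := F) 2
        obtain ⟨e''⟩ := Pres.sp_equiv (I := Fin 2) (F := F)
        have h4 : Cfsg.Omega F (Cfsg.quadFormOdd 2 F) = ⊤ := by
          have := congrArg (Subgroup.map e'.symm.toMonoidHom) (S0269.result (F := F) 2 (.inr (.inl ⟨rfl, h3⟩)))
          rwa [commutator_def, Subgroup.map_commutator, Subgroup.map_top_of_surjective _ e'.symm.surjective] at this
        exact Pres.two_gen_quot (Pres.sp_two_gen (n := 0) fun _ => h3)
          ⟨(e''.trans e'.symm).trans (Subgroup.topEquiv.symm.trans (MulEquiv.subgroupCongr h4.symm))⟩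
      · exact S2413.result (Orth.odd_card_of_two_ne_zero h2) 2 le_rfl
    refine ⟨e.symm a, e.symm b, ?_⟩
    rw [← Set.image_pair, ← MulEquiv.coe_toMonoidHom, ← MonoidHom.map_closure, h1]
    exact Subgroup.map_top_of_surjective _ e.symm.surjective
  exacts [Chev.CV.two_D4, Chev.CV.two_F4, Chev.CV.two_E6, Chev.CV.two_E7, Chev.CV.two_E8]

end Cfsg.Agent.S2405
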