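import Mathlib
import Cfsg.Statements.S2406
import Cfsg.Agent.Pres.CV2
-- import your own Cfsg.Agent.* helpers here

set_option autoImplicit false
open Cfsg

namespace Cfsg.Agent.S2406

/-- The twisted group ²E₆(q) (realised inside E₆ over the field with `q²` elements) is generated by two of its elements. -/
theorem result {K : Type*} [Field K] [Fintype K] {q : ℕ} (hq : IsPrimePow q) (hK : Fintype.card K = q ^ 2) :
    ∃ a b : ↥(Cfsg.Lie.twistedE6 K q), Subgroup.closure ({a, b} : Set ↥(Cfsg.Lie.twistedE6 K q)) = ⊤ := by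
  obtain ⟨f, h⟩ := Cfsg.Agent.Chev.CV.two_2E6 hq hK
  exact Cfsg.Agent.Pres.two_gen_map h (MonoidHom.id _) Function.surjective_id

end Cfsg.Agent.S2406
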