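import Mathlib
import Cfsg.Statements.S2410
import Cfsg.Agent.RankOne.SzOvoid
import Cfsg.Agent.RankOne.SzSub
-- import your own Cfsg.Agent.* helpers here

set_option autoImplicit false
open Cfsg

namespace Cfsg.Agent.S2410

/-- The Suzuki group over the field with `2^(2m+1)` elements, `m ≥ 1` (realised as the stabiliser in `SL₄` of the Suzuki–Tits ovoid), is generated by two of its elements. -/
theorem result {F : Type*} [Field F] [Fintype F] {m : ℕ} (hm : 1 ≤ m) (hF : Fintype.card F = 2 ^ (2 * m + 1)) :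
    ∃ a b : ↥(Cfsg.Sz F m), Subgroup.closure ({a, b} : Set ↥(Cfsg.Sz F m)) = ⊤ := by
  let Z := RankOne.Sz.model hF hm
  obtain ⟨κ, hκ⟩ := IsCyclic.exists_generator (α := Fˣ)
  refine ⟨Z.M κ, Z.S 1 0 * Z.t, Z.top_of_D_le (x := 1) (y := 0) ?_ one_ne_zero (Subgroup.subset_closure (by simp))⟩
  intro g hg
  obtain ⟨l, rfl⟩ := (Z.mem_D g).mp hg
  obtain ⟨k, rfl⟩ := hκ l
  simp only [map_zpow]
  exact Subgroup.zpow_mem _ (Subgroup.subset_closure (by simp)) k

end Cfsg.Agent.S2410
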