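import Mathlib
import Cfsg.Statements.S2414
import Cfsg.Agent.Pres.RU9
-- import your own Cfsg.Agent.* helpers here

set_option autoImplicit false
open Cfsg

namespace Cfsg.Agent.S2414

/-- The simple orthogonal group `PΩ⁺_{2m}(q)` (commutator subgroup of the orthogonal group of `Σ x_i y_i` modulo its centre) with `m ≥ 4` is generated by two of its elements. -/
theorem result {F : Type*} [Field F] [Fintype F] (m : ℕ) (hm : 4 ≤ m) :
    ∃ a b : Cfsg.POmega F (Cfsg.quadFormPlus m F), Subgroup.closure ({a, b} : Set (Cfsg.POmega F (Cfsg.quadFormPlus m F))) = ⊤ := by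
  obtain ⟨r, rfl⟩ : ∃ r, m = r + 1 := ⟨m - 1, by omega⟩
  have hl : ∀ a : Fin (r + 1), a.1 < r → a ≠ Fin.last r := fun a h e => by simp [e] at h
  refine Pres.RU.om_fin_two (Orth.nd_plusQ (r + 1)) (by simp; omega) (r := r) (by omega) r.le_succ id ?_ ?_
    (z := Pi.single (.inl (Fin.last r)) 1 + Pi.single (.inr (Fin.last r)) 1)
    (d := Pi.single (.inl (Fin.last r)) 1) ?_ ?_ ?_ ?_ ?_
  · rintro (a | a) <;> simp [Orth.plusQ_apply, Pi.single_apply]
  · rintro (a | a) (b | b) <;> simp [Orth.polar_plusQ, Pi.single_apply, eq_comm]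
  · simp [Orth.plusQ_apply, Pi.single_apply]
  · simp [Orth.polar_plusQ, Orth.plusQ_apply, Pi.single_apply]
  · intro a h; simp [Orth.polar_plusQ, Pi.single_apply, hl a h, (hl a h).symm]
  · intro a h; simp [Orth.polar_plusQ, Pi.single_apply, hl a h, (hl a h).symm]
  · rintro (a | a) <;> rcases a.is_le.lt_or_eq with h | h
    · exact .inl ⟨a, h, .inl rfl⟩
    · exact .inr ⟨0, 1, by simp [show a = Fin.last r from Fin.ext h]⟩
    · exact .inl ⟨a, h, .inr rfl⟩
    · exact .inr ⟨1, -1, by simp [show a = Fin.last r from Fin.ext h]⟩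

end Cfsg.Agent.S2414
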