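import Mathlib
import Cfsg.Statements.S2415
import Cfsg.Agent.Pres.RU9
-- import your own Cfsg.Agent.* helpers here

set_option autoImplicit false
open Cfsg

namespace Cfsg.Agent.S2415

/-- The simple orthogonal group `PΩ⁻_{2m}(q)` with `m ≥ 4` (commutator subgroup, modulo its centre, of the orthogonal group of `Σ_{i<m−1} x_i y_i + z₁² + a z₁z₂ + b z₂²` with the binary part anisotropic) is generated by two of its elements. -/
theorem result {F : Type*} [Field F] [Fintype F] (m : ℕ) (hm : 4 ≤ m) (a b : F)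
    (hab : ∀ z₁ z₂ : F, z₁ ^ 2 + a * z₁ * z₂ + b * z₂ ^ 2 = 0 → z₁ = 0 ∧ z₂ = 0) :
    ∃ g h : Cfsg.POmega F (Cfsg.quadFormMinus (m - 1) F a b),
      Subgroup.closure ({g, h} : Set (Cfsg.POmega F (Cfsg.quadFormMinus (m - 1) F a b))) = ⊤ := by
  have h0 := Orth.aniso_disc_ne_zero hab
  obtain ⟨t, ht⟩ : ∃ t : F, 2 * t + a ≠ 0 := by
    by_contra h
    push Not at h
    exact h0 (by linear_combination (a + 2 * b) * h 0 - 2 * b * h 1)
  refine Pres.RU.om_fin_two (Orth.nd_minusQ (m - 1) h0) (by simp; omega) (r := m - 1) (by omega) le_rfl Sum.inl ?_ ?_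
    (z := Pi.single (.inr 0) 1) (d := Pi.single (.inr 0) t + Pi.single (.inr 1) 1) ?_ ?_ ?_ ?_ ?_
  · rintro (a | a) <;> simp [Orth.minusQ_apply, Pi.single_apply]
  · rintro (a | a) (b | b) <;> simp [Orth.polar_minusQ, Pi.single_apply, eq_comm]
  · simp [Orth.minusQ_apply, Pi.single_apply]
  · simpa [Orth.polar_minusQ, Pi.single_apply] using ht
  · simp [Orth.polar_minusQ, Pi.single_apply]
  · simp [Orth.polar_minusQ, Pi.single_apply]
  · rintro ((a | a) | a)
    · exact .inl ⟨a, a.2, .inl rfl⟩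
    · exact .inl ⟨a, a.2, .inr rfl⟩
    · fin_cases a
      · exact .inr ⟨1, 0, by simp⟩
      · exact .inr ⟨-t, 1, by simp [← Pi.single_smul', Pi.single_neg]⟩

end Cfsg.Agent.S2415
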