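import Mathlib
import Cfsg.Statements.S2416
import Cfsg.Agent.H23.RtOrb
-- import your own Cfsg.Agent.* helpers here

set_option autoImplicit false
open scoped MatrixGroups
open Cfsg

namespace Cfsg.Agent.S2416

/-- A Chevalley group of type G₂, B₂, D₄, F₄, E₆, E₇ or E₈ over a finite field lies in (indeed equals) the subgroup generated by its monomial subgroup `N` and a single fundamental root subgroup `X_p`, where `p` is a short fundamental root if there are two root lengths (any fundamental root otherwise), provided the characteristic is not 2 for types B₂, F₄ and not 3 for type G₂ (and the field has more than two elements for B₂, G₂). -/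
theorem result {K : Type*} [Field K] [Finite K] (D : Cfsg.Lie.ChevalleyDatum) (hD : D ∈ [Cfsg.Lie.chevG2, Cfsg.Lie.chevB2, Cfsg.Lie.chevD4, Cfsg.Lie.chevF4, Cfsg.Lie.chevE6, Cfsg.Lie.chevE7, Cfsg.Lie.chevE8])
    (hK : D ∈ [Cfsg.Lie.chevB2, Cfsg.Lie.chevG2] → ∃ x : K, x ≠ 0 ∧ x ≠ 1)
    (h2 : D ∈ [Cfsg.Lie.chevB2, Cfsg.Lie.chevF4] → ringChar K ≠ 2) (h3 : D = Cfsg.Lie.chevG2 → ringChar K ≠ 3)
    (i : ℕ) (hi : i < D.rank) (hshort : D.isLong (D.simple i) = false) :
    D.group K ≤ D.monomialSubgroup K ⊔ D.rootSubgroup K (D.simple i) := by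

  have hr : ∀ [Chev.Good2 D] t, (Chev.glSys D K).x (Chev.sim ⟨i, hi⟩) t ∈
      D.monomialSubgroup K ⊔ D.rootSubgroup K (D.simple i) :=
    fun t => Subgroup.mem_sup_right (H23.root_mem i hi t)
  have hN : ∀ [Chev.Good2 D], (Chev.glSys D K).N ≤
      D.monomialSubgroup K ⊔ D.rootSubgroup K (D.simple i) :=
    fun h => Subgroup.mem_sup_left (Chev.monomialSubgroup_eq.ge h)
  have k1 : ∀ [Chev.Good2 D], H23.Sep D (fun _ => false) →
      D.group K ≤ D.monomialSubgroup K ⊔ D.rootSubgroup K (D.simple i) := fun h =>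
    Chev.group_eq.le.trans ((Chev.glSys D K).XS_le.mpr fun v _ => h.x_mem hN hr rfl)
  have k2 : ∀ [Chev.Good2 D] (m : ℕ), m.Prime → ringChar K ≠ m → H23.Sep D D.isLong →
      H23.LongT D m → D.group K ≤ D.monomialSubgroup K ⊔ D.rootSubgroup K (D.simple i) :=
    fun m hm h h1 h2 => Chev.group_eq.le.trans (h1.grp_le_short h2 (H23.cast_ne_of_ringChar hm h)
      hN hr (by rw [Chev.sim_val]; exact hshort))
  simp only [List.mem_cons, List.not_mem_nil, or_false] at hD h2
  rcases hD with rfl | rfl | rfl | rfl | rfl | rfl | rfl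
  · exact @k2 Chev.good2G2 3 Nat.prime_three (h3 rfl) H23.sep_G2 H23.longT_G2
  · exact @k2 Chev.good2B2 2 Nat.prime_two (h2 (.inl rfl)) H23.sep_B2 H23.longT_B2
  · exact @k1 Chev.good2D4 H23.sep_D4
  · exact @k2 Chev.good2F4 2 Nat.prime_two (h2 (.inr rfl)) H23.sep_F4 H23.longT_F4
  · exact @k1 Chev.good2E6 H23.sep_E6
  · exact @k1 Chev.good2E7 H23.sep_E7
  · exact @k1 Chev.good2E8 H23.sep_E8

end Cfsg.Agent.S2416
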