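import Mathlib
import Cfsg.Statements.S2418
import Cfsg.Agent.H23.WCent
import Cfsg.Agent.Chev.PoinB2
import Cfsg.Agent.Chev.PoinG2
import Cfsg.Agent.Chev.PoinD4
import Cfsg.Agent.Chev.PoinF4
import Cfsg.Agent.Chev.PoinE6
import Cfsg.Agent.Chev.PoinE7
import Cfsg.Agent.Chev.PoinE8
-- import your own Cfsg.Agent.* helpers here

set_option autoImplicit false
open Cfsg

namespace Cfsg.Agent.S2418

/-- For the Coxeter groups of types B₂, G₂, D₄, F₄, E₇, E₈ the centre has order 2 (the element acting as −1 on the root system) and is generated by a power of the Coxeter element `s₁ s₂ ⋯ s_l`; the Coxeter group of type E₆ has trivial centre. -/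
theorem result (c : (Σ n : ℕ, CoxeterMatrix (Fin n)) × ℕ)
    (hc : c ∈ [(⟨2, CoxeterMatrix.B 2⟩, 2), (⟨2, CoxeterMatrix.G₂⟩, 2), (⟨4, Cfsg.Lie.coxeterD4⟩, 2), (⟨4, CoxeterMatrix.F₄⟩, 2),
      (⟨6, CoxeterMatrix.E₆⟩, 1), (⟨7, CoxeterMatrix.E₇⟩, 2), (⟨8, CoxeterMatrix.E₈⟩, 2)]) :
    Nat.card (Subgroup.center c.1.2.Group) = c.2 ∧
      Subgroup.center c.1.2.Group ≤ Subgroup.zpowers ((List.finRange c.1.1).map c.1.2.simple).prod := by

  simp only [List.mem_cons, List.not_mem_nil, or_false] at hc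
  rcases hc with rfl | rfl | rfl | rfl | rfl | rfl | rfl
  · exact H23.cox_center (g := Chev.goodB2) Chev.conn_B2.2 Chev.cox_B2 2 (by decide +kernel)
  · exact H23.cox_center (g := Chev.goodG2) Chev.conn_G2.2 Chev.cox_G2 3 (by decide +kernel)
  · exact H23.cox_center (g := Chev.goodD4) Chev.conn_D4.2 Chev.cox_D4 3 (by decide +kernel)
  · exact H23.cox_center (g := Chev.goodF4) Chev.conn_F4.2 Chev.cox_F4 6 (by decide +kernel)
  · exact H23.cox_center_one (g := Chev.goodE6) Chev.conn_E6.2 Chev.cox_E6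
      ([0, 3, 5, 1, 2, 4] : List (Fin 6)) 6 (by decide +kernel) _
  · exact H23.cox_center (g := Chev.goodE7) Chev.conn_E7.2 Chev.cox_E7 9 (by decide +kernel)
  · exact H23.cox_center (g := Chev.goodE8) Chev.conn_E8.2 Chev.cox_E8 15 (by decide +kernel)

end Cfsg.Agent.S2418
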