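import Mathlib
import Cfsg.Statements.S2419
import Cfsg.Agent.H23.WCent
import Cfsg.Agent.Chev.PoinB2
import Cfsg.Agent.Chev.PoinG2
import Cfsg.Agent.Chev.PoinD4
import Cfsg.Agent.Chev.PoinF4
import Cfsg.Agent.Chev.PoinE6
import Cfsg.Agent.Chev.PoinE7
import Cfsg.Agent.Chev.PoinE8
-- import your own Cfsg.Agent.* helpers here

set_option autoImplicit false
open Cfsg

namespace Cfsg.Agent.S2419

/-- The Coxeter groups of types B₂, G₂, E₆, E₇, E₈ are generated by the Coxeter element `s₁ s₂ ⋯ s_l` together with one suitable reflection (a conjugate of a simple reflection); for types D₄ and F₄ the Coxeter element together with two suitable reflections suffices. -/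
theorem result (c : (Σ n : ℕ, CoxeterMatrix (Fin n)) × ℕ)
    (hc : c ∈ [(⟨2, CoxeterMatrix.B 2⟩, 1), (⟨2, CoxeterMatrix.G₂⟩, 1), (⟨4, Cfsg.Lie.coxeterD4⟩, 2), (⟨4, CoxeterMatrix.F₄⟩, 2),
      (⟨6, CoxeterMatrix.E₆⟩, 1), (⟨7, CoxeterMatrix.E₇⟩, 1), (⟨8, CoxeterMatrix.E₈⟩, 1)]) :
    ∃ T : Finset c.1.2.Group, T.card = c.2 ∧ (∀ t ∈ T, ∃ (g : c.1.2.Group) (i : Fin c.1.1), t = g * c.1.2.simple i * g⁻¹) ∧
      Subgroup.closure (({((List.finRange c.1.1).map c.1.2.simple).prod} : Set c.1.2.Group) ∪ ↑T) = ⊤ := by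

  simp only [List.mem_cons, List.not_mem_nil, or_false] at hc
  rcases hc with rfl | rfl | rfl | rfl | rfl | rfl | rfl
  · exact H23.cox_gen_two _
  · exact H23.cox_gen_two _
  · exact H23.cox_gen (g := Chev.goodD4) Chev.cox_D4 [(0 : Fin 4), (2 : Fin 4)] (by decide +kernel)
      [(14, 18, 18), (16, 13, 14), (12, 16, 16)] (by decide +kernel)
  · exact H23.cox_gen (g := Chev.goodF4) Chev.cox_F4 [(0 : Fin 4), (2 : Fin 4)] (by decide +kernel)
      [(27, 33, 33), (24, 25, 25)] (by decide +kernel)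
  · exact H23.cox_gen (g := Chev.goodE6) Chev.cox_E6 [(0 : Fin 6)] (by decide +kernel)
      [(42, 56, 56), (47, 42, 42), (59, 47, 47), (27, 59, 56), (22, 27, 27), (46, 22, 22),
        (52, 59, 59), (39, 52, 52), (37, 39, 39), (36, 37, 37)] (by decide +kernel)
  · exact H23.cox_gen (g := Chev.goodE7) Chev.cox_E7 [(3 : Fin 7)] (by decide +kernel)
      [(66, 69, 69), (64, 66, 66), (63, 64, 64), (23, 63, 63), (51, 23, 23), (45, 51, 51),
        (70, 69, 66), (18, 70, 23), (27, 45, 18), (93, 27, 27), (56, 69, 69), (55, 66, 56),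
        (78, 45, 55), (73, 51, 56)] (by decide +kernel)
  · exact H23.cox_gen (g := Chev.goodE8) Chev.cox_E8 [(3 : Fin 8)] (by decide +kernel)
      [(126, 130, 130), (123, 126, 126), (121, 123, 123), (120, 121, 121), (66, 120, 120),
        (103, 66, 66), (96, 103, 103), (131, 130, 126), (59, 131, 66), (71, 96, 59), (162, 71, 71),
        (109, 130, 130), (108, 126, 109), (141, 96, 108), (135, 103, 109)] (by decide +kernel)

end Cfsg.Agent.S2419
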