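import Mathlib
import Cfsg.Statements.S2426
import Cfsg.Agent.Pres.SL2
-- import your own Cfsg.Agent.* helpers here

set_option autoImplicit false
open Cfsg

namespace Cfsg.Agent.S2426

open Cfsg.Agent.Root Cfsg.Agent.Pres in
open scoped MatrixGroups in
theorem aux {K : Type*} [Field K] [Finite K] (R : Set (FreeGroup (Bool × K)))
    (hR : R = {g : FreeGroup (Bool × K) | ∃ (b : Bool) (t u : K), g = FreeGroup.of (b, t) * FreeGroup.of (b, u) * (FreeGroup.of (b, t + u))⁻¹} ∪
          {g | ∃ (b : Bool) (t u : K), t ≠ 0 ∧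
            g = (FreeGroup.of (b, t) * FreeGroup.of (!b, -t⁻¹) * FreeGroup.of (b, t)) * FreeGroup.of (b, u) *
                  (FreeGroup.of (b, t) * FreeGroup.of (!b, -t⁻¹) * FreeGroup.of (b, t))⁻¹ * (FreeGroup.of (!b, -(t⁻¹ ^ 2 * u)))⁻¹}) :
    ∃ e : PresentedGroup R ≃* SL(2, K), (∀ t : K, e (PresentedGroup.of (true, t)) = mU t) ∧
      (∀ t : K, e (PresentedGroup.of (false, t)) = mL t) := by
  let f : Bool × K → SL(2, K) := fun p => if p.1 then mU p.2 else mL p.2
  have hf : ∀ r ∈ R, FreeGroup.lift f r = 1 := by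
    rw [hR]
    rintro r (⟨b, t, u, rfl⟩ | ⟨b, t, u, ht, rfl⟩)
    · cases b <;> simp [f, mU_add, mL_add]
    · simp only [map_mul, map_inv, FreeGroup.lift_apply_of, mul_inv_eq_one, mul_inv_eq_iff_eq_mul]
      cases b
      · simp only [f, Bool.not_false, if_true, Bool.false_eq_true, if_false]
        ext i j; fin_cases i <;> fin_cases j <;> simp [Matrix.mul_apply, Fin.sum_univ_two] <;> field_simp <;> first | ring1 | simp
      · simp only [f, Bool.not_true, if_true, Bool.false_eq_true, if_false]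
        ext i j; fin_cases i <;> fin_cases j <;> simp [Matrix.mul_apply, Fin.sum_univ_two] <;> field_simp <;> first | ring1 | simp
  let π : PresentedGroup R →* SL(2, K) := PresentedGroup.toGroup hf
  have hrel : ∀ r ∈ R, PresentedGroup.mk R r = 1 := fun r hr => PresentedGroup.one_of_mem hr
  have hadd : ∀ (b : Bool) (t u : K), (PresentedGroup.of (b, t + u) : PresentedGroup R) =
      PresentedGroup.of (b, t) * PresentedGroup.of (b, u) := fun b t u => by
    have := hrel _ (by rw [hR]; exact Or.inl ⟨b, t, u, rfl⟩)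
    simp only [map_mul, map_inv, mul_inv_eq_one] at this
    exact this.symm
  let S : St2 K (PresentedGroup R) :=
    { x := fun t => PresentedGroup.of (true, t)
      y := fun t => PresentedGroup.of (false, t)
      x_add := hadd true
      y_add := hadd false
      conj := fun t ht u => by
        have := hrel _ (by rw [hR]; exact Or.inr ⟨true, t, u, ht, rfl⟩)
        simp only [map_mul, map_inv, mul_inv_eq_one] at this
        rw [← sq]
        exact this }
  obtain ⟨φ, h1, h2⟩ := St2.exists_hom (S := S) fun t u ht hu => S.h_mul_of_finite ht hu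
  change ∀ t, _ = PresentedGroup.of (true, t) at h1
  change ∀ t, _ = PresentedGroup.of (false, t) at h2
  have p1 : ∀ t, π (PresentedGroup.of (true, t)) = mU t := fun t => by simp [π, f]
  have p2 : ∀ t, π (PresentedGroup.of (false, t)) = mL t := fun t => by simp [π, f]
  refine ⟨MonoidHom.toMulEquiv π φ ?_ ?_, p1, p2⟩
  · ext ⟨b, t⟩
    cases b <;> simp [p1, p2, h1, h2]
  · refine sl2_hom_ext (fun t => by simp [h1, p1]) ?_
    rw [mW_eq]; simp [h1, h2, p1, p2]

/-- The rank-one Steinberg presentation of `SL₂` over a finite field `K`: generators `x(t)`, `y(t)` (`t ∈ K`; the two opposite root subgroups) subject to additivity `x(t)x(u) = x(t+u)`, `y(t)y(u) = y(t+u)` and, with `w(t) = x(t) y(−t⁻¹) x(t)` and `w'(t) = y(t) x(−t⁻¹) y(t)` for `t ≠ 0`, the relations `w(t) x(u) w(t)⁻¹ = y(−t⁻² u)` and `w'(t) y(u) w'(t)⁻¹ = x(−t⁻² u)`, present `SL₂(K)`, with `x(t) ↦ (1 t; 0 1)` and `y(t) ↦ (1 0; t 1)`. -/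
theorem result {K : Type*} [Field K] [Finite K] :
    ∃ e : PresentedGroup
        ({g : FreeGroup (Bool × K) | ∃ (b : Bool) (t u : K), g = FreeGroup.of (b, t) * FreeGroup.of (b, u) * (FreeGroup.of (b, t + u))⁻¹} ∪
          {g | ∃ (b : Bool) (t u : K), t ≠ 0 ∧
            g = (FreeGroup.of (b, t) * FreeGroup.of (!b, -t⁻¹) * FreeGroup.of (b, t)) * FreeGroup.of (b, u) *
                  (FreeGroup.of (b, t) * FreeGroup.of (!b, -t⁻¹) * FreeGroup.of (b, t))⁻¹ * (FreeGroup.of (!b, -(t⁻¹ ^ 2 * u)))⁻¹})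
        ≃* Matrix.SpecialLinearGroup (Fin 2) K,
      (∀ t : K, ((e (PresentedGroup.of (true, t)) : Matrix (Fin 2) (Fin 2) K)) = !![1, t; 0, 1]) ∧
      (∀ t : K, ((e (PresentedGroup.of (false, t)) : Matrix (Fin 2) (Fin 2) K)) = !![1, 0; t, 1]) := by
  obtain ⟨e, h1, h2⟩ := aux (K := K) _ rfl
  exact ⟨e, fun t => by rw [h1]; rfl, fun t => by rw [h2]; rfl⟩

end Cfsg.Agent.S2426
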