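import Mathlib
import Cfsg.Statements.S2429
import Cfsg.Agent.GL2.Torus

set_option autoImplicit false
open Cfsg

namespace Cfsg.Agent.S2429

/-- Let F be a finite field with q elements, q odd. Then SL₂ over F contains a cyclic subgroup T′ of order q + 1 (a non-split torus) with the following properties: T′ is its own centraliser, and indeed the centraliser of each element of T′ other than 1 and −1 is exactly T′; every element of SL₂ having no eigenvector in F² is conjugate to an element of T′; the normaliser of T′ has order 2(q + 1) and exactly (q + 7)/2 conjugacy classes; and every element of that normaliser outside T′ has square −1. -/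
theorem result {F : Type*} [Field F] [Fintype F] (hodd : Odd (Fintype.card F)) :
    ∃ T' : Subgroup (Matrix.SpecialLinearGroup (Fin 2) F), IsCyclic T' ∧ Nat.card T' = Fintype.card F + 1 ∧
      Subgroup.centralizer ((T' : Set (Matrix.SpecialLinearGroup (Fin 2) F))) = T' ∧
      (∀ g : Matrix.SpecialLinearGroup (Fin 2) F, g ∈ T' → (g : Matrix (Fin 2) (Fin 2) F) ≠ 1 → (g : Matrix (Fin 2) (Fin 2) F) ≠ -1 → Subgroup.centralizer ({g} : Set (Matrix.SpecialLinearGroup (Fin 2) F)) = T') ∧
      (∀ g : Matrix.SpecialLinearGroup (Fin 2) F, (∀ (c : F) (v : Fin 2 → F), v ≠ 0 → (g : Matrix (Fin 2) (Fin 2) F).mulVec v ≠ c • v) → ∃ h : Matrix.SpecialLinearGroup (Fin 2) F, h * g * h⁻¹ ∈ T') ∧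
      Nat.card (Subgroup.normalizer (T' : Set (Matrix.SpecialLinearGroup (Fin 2) F))) = 2 * (Fintype.card F + 1) ∧
      Nat.card (ConjClasses (Subgroup.normalizer (T' : Set (Matrix.SpecialLinearGroup (Fin 2) F)))) = (Fintype.card F + 7) / 2 ∧
      ∀ g : Matrix.SpecialLinearGroup (Fin 2) F, g ∈ Subgroup.normalizer (T' : Set (Matrix.SpecialLinearGroup (Fin 2) F)) → g ∉ T' → ((g * g) : Matrix (Fin 2) (Fin 2) F) = -1 := by
  have h2 := Classical.SL2Basic.two_ne_zero_of_odd hodd
  obtain ⟨a, b, hab⟩ := GL2.exists_quad F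
  have := Fact.mk hab
  obtain ⟨u, hu⟩ := IsCyclic.exists_ofOrder_eq_natCard (α := (GL2.U1 a b)ˣ)
  have hi : Function.Injective (GL2.elS (a := a) (b := b)) := fun u v e =>
    Units.ext (Subtype.ext (GL2.el_injective (congrArg (·.1) e)))
  have h0 := GL2.ell_of_orderOf ((orderOf_injective _ hi u).trans (hu.trans GL2.card_U1'))
  generalize GL2.elS u = g at h0
  have h3 := GL2.cent_SL_ell h0
  refine ⟨_, GL2.isCyclic_Z h0.npar, h3, le_antisymm (Subgroup.centralizer_le (by simp [GL2.mem_Z]))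
    fun x hx y hy => GL2.Z_comm h0.nsc y hy x hx, fun x hx e1 e2 => GL2.Z_eq h0.nsc (fun e => ?_) hx,
    fun x hx => ?_, by rw [GL2.card_norm h2 h0.npar, h3], by rw [GL2.classes_norm h2 h0.npar, h3],
    fun x hx hx' => congrArg (·.1) (GL2.sq_of_inv h2 h0.nsc
      (((GL2.mem_norm_iff h2 h0.npar).1 hx).resolve_left hx'))⟩
  · rcases Classical.SL2Basic.mem_center_iff.1 (GL2.sc_iff_center.1 e) with rfl | rfl
    exacts [e1 rfl, e2 rfl]
  · obtain ⟨e, he⟩ := GL2.ell_iso (a := a) (b := b) (GL2.ell_iff.2 hx)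
    obtain ⟨e', he'⟩ := GL2.ell_iso (a := a) (b := b) h0
    have h4 := he (e.symm ⟨x, GL2.mem_Z.2 rfl⟩)
    rw [e.apply_symm_apply] at h4
    obtain ⟨c, hc⟩ := isConj_iff.1 (h4.symm.trans (he' _))
    exact ⟨c, hc ▸ (e' _).2⟩

end Cfsg.Agent.S2429
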