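import Mathlib
import Cfsg.Statements.S2434
import Cfsg.Agent.GL2.Torus

set_option autoImplicit false
open Cfsg

namespace Cfsg.Agent.S2434

set_option backward.isDefEq.respectTransparency false

theorem iso {F : Type*} [Field F] [Fintype F] (a b : F) [Fact (∀ r, r ^ 2 ≠ a + b * r)]
    (C : Subgroup (Matrix.SpecialLinearGroup (Fin 2) F)) (hC : IsCyclic C)
    (hcard : Nat.card C = Fintype.card F + 1) :
    ∃ e : (GL2.U1 a b)ˣ ≃* C, ∀ u, IsConj (GL2.elS u) (e u) := by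
  obtain ⟨g, hg⟩ := hC.exists_generator
  have h0 := GL2.ell_of_orderOf (g := g.1) ((Subgroup.orderOf_coe g).trans
    ((orderOf_eq_card_of_forall_mem_zpowers hg).trans hcard))
  have h1 : C = Subgroup.centralizer {g.1} :=
    Subgroup.eq_of_le_of_card_ge (fun x hx => Subgroup.mem_centralizer_singleton_iff.2
      (congrArg Subtype.val (mul_comm' (⟨x, hx⟩ : C) g))) (by rw [hcard, GL2.cent_SL_ell h0])
  obtain ⟨e, he⟩ := GL2.ell_iso (a := a) (b := b) h0
  exact ⟨e.trans (MulEquiv.subgroupCongr h1.symm), he⟩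

theorem im_iff {F : Type*} [Field F] [Fintype F] {a b : F} [Fact (∀ r, r ^ 2 ≠ a + b * r)]
    {u : (GL2.U1 a b)ˣ} {c : Matrix.SpecialLinearGroup (Fin 2) F} (h : IsConj (GL2.elS u) c) :
    c ∈ Subgroup.center _ ↔ u.1.1.im = 0 := by
  obtain ⟨x, rfl⟩ := isConj_iff.1 h
  rw [← GL2.sc_el, Subgroup.Normal.mem_comm_iff inferInstance, inv_mul_cancel_left, ← GL2.sc_iff_center]
  rfl

theorem val {F : Type*} [Field F] [Fintype F] [DecidableEq F] {a b : F} [Fact (∀ r, r ^ 2 ≠ a + b * r)]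
    (η : MulChar (GL2.U1 a b) ℂ) {u : (GL2.U1 a b)ˣ} {c : Matrix.SpecialLinearGroup (Fin 2) F}
    (h : IsConj (GL2.elS u) c) :
    GL2.Cus η c = if u.1.1.im = 0 then (Fintype.card F - 1) * η u else -(η u + (η u)⁻¹) := by
  obtain ⟨x, rfl⟩ := isConj_iff.1 h
  rw [GL2.Cus, ← (GL2.inv_C _).conj (M := GL2.el u.1.1) (P := Matrix.SpecialLinearGroup.toGL x)
    ((GL2.conj_eq (g := GL2.elS u) (h := x * GL2.elS u * x⁻¹)).1 (by rw [map_mul, map_mul, map_inv]))]
  split_ifs with e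
  · rw [GL2.eq_C e, GL2.el_C, GL2.C_sc, ← GL2.eq_C e, GL2.xU_coe]
  · rw [GL2.C_el _ e, GL2.xU_star, GL2.xU_coe, GL2.xU_coe, MulChar.inv_apply_eq_inv']

/-- Let F be a finite field with q elements, q odd, and C a cyclic subgroup of order q + 1 of SL₂ over F (a non-split torus; it contains the centre). For every homomorphism θ from C to the non-zero complex numbers with θ² ≠ 1 there is an irreducible complex character χ of degree q − 1 such that χ(c) = −θ(c) − θ(c)⁻¹ for every non-central c in C, χ(zg) = θ(z)χ(g) for central z in C, χ vanishes at diagonal elements with entry a, a² ≠ 1, and χ takes the value −1 at every upper unitriangular element other than 1. Conversely every irreducible character of degree q − 1 has, for some such θ, the values −θ(c) − θ(c)⁻¹ at the non-central elements c of C (for q ≥ 5 these are exactly the cuspidal characters of degree q − 1). -/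
theorem result {F : Type*} [Field F] [Fintype F] (hodd : Odd (Fintype.card F))
    (C : Subgroup (Matrix.SpecialLinearGroup (Fin 2) F)) (hC : IsCyclic C) (hcard : Nat.card C = Fintype.card F + 1) :
    (∀ θ : C →* ℂˣ, (∃ c : C, θ c ^ 2 ≠ 1) →
      ∃ χ : Matrix.SpecialLinearGroup (Fin 2) F → ℂ, Cfsg.IsIrrCharacter (Matrix.SpecialLinearGroup (Fin 2) F) χ ∧ χ 1 = (Fintype.card F : ℂ) - 1 ∧
        (∀ c : C, (c : Matrix.SpecialLinearGroup (Fin 2) F) ∉ Subgroup.center (Matrix.SpecialLinearGroup (Fin 2) F) → χ c = -((θ c).val + (θ c)⁻¹.val)) ∧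
        (∀ c : C, (c : Matrix.SpecialLinearGroup (Fin 2) F) ∈ Subgroup.center (Matrix.SpecialLinearGroup (Fin 2) F) → ∀ g : Matrix.SpecialLinearGroup (Fin 2) F, χ ((c : Matrix.SpecialLinearGroup (Fin 2) F) * g) = (θ c).val * χ g) ∧
        (∀ g : Matrix.SpecialLinearGroup (Fin 2) F, (g : Matrix (Fin 2) (Fin 2) F) 0 1 = 0 → (g : Matrix (Fin 2) (Fin 2) F) 1 0 = 0 → (g : Matrix (Fin 2) (Fin 2) F) 0 0 ^ 2 ≠ 1 → χ g = 0) ∧
        (∀ g : Matrix.SpecialLinearGroup (Fin 2) F, (g : Matrix (Fin 2) (Fin 2) F) 1 0 = 0 → (g : Matrix (Fin 2) (Fin 2) F) 0 0 = 1 → (g : Matrix (Fin 2) (Fin 2) F) 1 1 = 1 → (g : Matrix (Fin 2) (Fin 2) F) 0 1 ≠ 0 → χ g = -1)) ∧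
    (∀ χ : Matrix.SpecialLinearGroup (Fin 2) F → ℂ, Cfsg.IsIrrCharacter (Matrix.SpecialLinearGroup (Fin 2) F) χ → χ 1 = (Fintype.card F : ℂ) - 1 →
      ∃ θ : C →* ℂˣ, (∃ c : C, θ c ^ 2 ≠ 1) ∧
        ∀ c : C, (c : Matrix.SpecialLinearGroup (Fin 2) F) ∉ Subgroup.center (Matrix.SpecialLinearGroup (Fin 2) F) → χ c = -((θ c).val + (θ c)⁻¹.val)) := by
  classical
  have h2 := Classical.SL2Basic.two_ne_zero_of_odd hodd
  obtain ⟨a, b, hab⟩ := GL2.exists_quad F
  have := Fact.mk hab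
  obtain ⟨e, he⟩ := iso a b C hC hcard
  have key : ∀ η : MulChar (GL2.U1 a b) ℂ, η ^ 2 ≠ 1 → ∃ θ : C →* ℂˣ, (∃ c : C, θ c ^ 2 ≠ 1) ∧
      ∀ c : C, c.1 ∉ Subgroup.center _ → GL2.Cus η c = -((θ c).val + (θ c)⁻¹.val) := by
    intro η h
    obtain ⟨u, hu⟩ := MulChar.ne_one_iff.1 h
    refine ⟨η.toUnitHom.comp e.symm.toMonoidHom, ⟨e u, by simpa [Units.ext_iff, MulChar.pow_apply'] using hu⟩,
      fun c hc => ?_⟩
    obtain ⟨u, rfl⟩ := e.surjective c
    rw [val η (he u), if_neg (mt (im_iff (he u)).2 hc)]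
    simp
  refine ⟨fun θ ⟨c, hc⟩ => ?_, fun χ h h' => ?_⟩
  · obtain ⟨u, rfl⟩ := e.surjective c
    have h1 : MulChar.ofUnitHom (θ.comp e.toMonoidHom) ^ 2 ≠ 1 := MulChar.ne_one_iff.2 ⟨u, by
      rw [MulChar.pow_apply_coe, MulChar.ofUnitHom_coe]
      exact fun e' => hc (Units.ext e')⟩
    refine ⟨_, GL2.isIrr_Cus h1, GL2.Cus_one _, fun c hc => ?_, fun c hc g => ?_,
      fun g _ e1 e2 => GL2.C_diag _ e1 (GL2.diag_ne e1 e2), fun g e1 e2 e3 e4 => ?_⟩
    · obtain ⟨u, rfl⟩ := e.surjective c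
      rw [val _ (he u), if_neg (mt (im_iff (he u)).2 hc)]
      simp
    · obtain ⟨u, rfl⟩ := e.surjective c
      rw [GL2.isIrr_central (GL2.isIrr_Cus h1) hc, val _ (he u), if_pos ((im_iff (he u)).1 hc), GL2.Cus_one,
        mul_div_cancel_left₀ _ GL2.q_sub_ne_zero]
      simp
    · rw [GL2.Cus, GL2.C_unip _ e1 (e2.trans e3.symm) e4, e2, map_one, GL2.xU_one]
  · by_cases h4 : 4 ≤ Fintype.card F
    · obtain ⟨η, h1, rfl⟩ := GL2.SL_deg_pred (a := a) (b := b) h h' h4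
      exact key η h1
    have h3 : Fintype.card F = 3 := by
      have := Fintype.one_lt_card (α := F); obtain ⟨k, hk⟩ := hodd; omega
    rcases GL2.SL_deg_hsucc' (a := a) (b := b) h (by rw [h', h3]; norm_num) with
      ⟨α, φ, -, -, h1⟩ | ⟨-, η, h1, rfl⟩
    · obtain ⟨η, hη⟩ : ∃ η : MulChar (GL2.U1 a b) ℂ, η ^ 2 ≠ 1 := by
        by_contra hh
        push Not at hh
        have := GL2.card_sq_U (a := a) (b := b)
        rw [Nat.card_congr (Equiv.subtypeUnivEquiv hh), GL2.card_mc, GL2.card_U1', GL2.nr_odd h2] at this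
        omega
      obtain ⟨θ, h5, h6⟩ := key η hη
      refine ⟨θ, h5, fun c hc => ?_⟩
      have h7 : GL2.Ell c.1.1 := by
        obtain ⟨u, rfl⟩ := e.surjective c
        obtain ⟨x, hx⟩ := isConj_iff.1 (he u)
        intro y z hh
        rw [← hx, GL2.trace_conj, (x * GL2.elS u * x⁻¹).2] at hh
        exact GL2.ell_el (mt (im_iff (he u)).2 hc) y z ⟨hh.1, (GL2.elS u).2.trans hh.2⟩
      rw [← h6 c hc, GL2.Cus_three h3 hη h7, h1.val (Or.inr h7.npar), GL2.PSs, GL2.R_ell _ h7, zero_div]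
    · exact key η h1

end Cfsg.Agent.S2434
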