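import Mathlib
import Cfsg.Statements.S2435
import Cfsg.Agent.GL2.SLVal

set_option autoImplicit false
open Cfsg

namespace Cfsg.Agent.S2435

/-- Let F be a finite field with q elements, q odd and q ≥ 5, and χ an irreducible complex character of SL₂ over F. If χ has degree (q + 1)/2, then at a diagonal element with entry a, a² ≠ 1, χ takes the value 1 when a is a square in F and −1 otherwise. If χ has degree (q − 1)/2, then at an element g with no eigenvector in F² (so g has order dividing q + 1), χ takes the value −1 when g raised to the power (q + 1)/2 is the identity and the value 1 otherwise. -/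
theorem result {F : Type*} [Field F] [Fintype F] (hodd : Odd (Fintype.card F)) (hq : 5 ≤ Fintype.card F)
    (χ : Matrix.SpecialLinearGroup (Fin 2) F → ℂ) (hχ : Cfsg.IsIrrCharacter (Matrix.SpecialLinearGroup (Fin 2) F) χ) (g : Matrix.SpecialLinearGroup (Fin 2) F) :
    (χ 1 = (((Fintype.card F + 1) / 2 : ℕ) : ℂ) → (g : Matrix (Fin 2) (Fin 2) F) 0 1 = 0 → (g : Matrix (Fin 2) (Fin 2) F) 1 0 = 0 → (g : Matrix (Fin 2) (Fin 2) F) 0 0 ^ 2 ≠ 1 →
      (IsSquare ((g : Matrix (Fin 2) (Fin 2) F) 0 0) → χ g = 1) ∧ (¬ IsSquare ((g : Matrix (Fin 2) (Fin 2) F) 0 0) → χ g = -1)) ∧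
    (χ 1 = (((Fintype.card F - 1) / 2 : ℕ) : ℂ) → (∀ (c : F) (v : Fin 2 → F), v ≠ 0 → (g : Matrix (Fin 2) (Fin 2) F).mulVec v ≠ c • v) →
      (((g ^ ((Fintype.card F + 1) / 2)) : Matrix (Fin 2) (Fin 2) F) = 1 → χ g = -1) ∧ (((g ^ ((Fintype.card F + 1) / 2)) : Matrix (Fin 2) (Fin 2) F) ≠ 1 → χ g = 1)) := by
  obtain ⟨a, b, hab⟩ := GL2.exists_quad F
  have := Fact.mk hab
  rw [GL2.cast_half_succ hodd, GL2.cast_half_pred hodd]
  refine ⟨fun h _ h1 h2 => ?_, fun h h1 => ?_⟩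
  · obtain ⟨α, φ, e1, e2, h'⟩ := GL2.SL_deg_hsucc hχ h (by omega)
    have h3 := GL2.det_up_SL h1
    have h4 : α (g.1 1 1) = α (g.1 0 0) := by
      rw [eq_inv_of_mul_eq_one_right h3, ← MulChar.inv_apply', ← GL2.sq_eq_one_iff'.1 e1]
    rw [h'.val (Or.inr (GL2.diag_npar h1 h2)), GL2.PSs, GL2.R_diag _ h1 (GL2.diag_ne h1 h2), h4,
      GL2.quad_val e1 e2 hodd (left_ne_zero_of_mul_eq_one h3)]
    constructor <;> intro e <;> simp [e]
  · replace h1 := GL2.ell_iff.2 h1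
    obtain ⟨η, φ, e1, e2, h'⟩ := GL2.SL_deg_hpred (a := a) (b := b) hχ h (by omega)
    obtain ⟨z, h2, h3, h4⟩ := h1.exists_el (a := a) (b := b)
    obtain ⟨P, hP⟩ := GL2.exists_conj h1.nsc (GL2.ell_el h2).nsc (by simp [h3]) (by simp [← h4])
    have h5 : ∀ n : ℕ, g.1 ^ n = 1 ↔ z ^ n = 1 := fun n => by
      have h6 : P.1 * g.1 ^ n = GL2.el z ^ n * P.1 := (SemiconjBy.pow_right hP n).eq
      rw [← GL2.el_injective.eq_iff, GL2.el_one, show GL2.el (z ^ n) = _ from map_pow GL2.elHom z n]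
      change _ ↔ GL2.el z ^ n = 1
      rw [← P.mul_right_inj, h6, mul_one, ← P.mul_left_inj (b := GL2.el z ^ n), one_mul]
    rw [h'.val (Or.inr h1.npar), GL2.Cus, GL2.C_ell _ h2 h1 h3 h4, GL2.xU_star, ← GL2.sq_eq_one_iff'.1 e1,
      GL2.eta_val e1 e2 (m := (Fintype.card F + 1) / 2) (by obtain ⟨k, hk⟩ := hodd; omega)
        (h4.symm.trans g.2), Ne, h5]
    constructor <;> intro e <;> simp [e]

end Cfsg.Agent.S2435
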