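import Mathlib
import Cfsg.Statements.S2438
import Cfsg.Agent.GL2.SLVal

set_option autoImplicit false
open Cfsg

namespace Cfsg.Agent.S2438

open Finset in
theorem sum_U {F : Type*} [Field F] [Fintype F] [DecidableEq F] (f : GL2.M2 F → ℂ) (c : ℂ)
    (h : ∀ x ≠ 0, f !![1, x; 0, 1] = c) :
    (∑ g : Matrix.SpecialLinearGroup (Fin 2) F, if g.1 1 0 = 0 ∧ g.1 0 0 = 1 ∧ g.1 1 1 = 1 then f g.1 else 0) =
      f !![1, 0; 0, 1] + (Fintype.card F - 1) * c := by
  have h2 : ∀ x, f !![1, x; 0, 1] = c + if x = 0 then f !![1, 0; 0, 1] - c else 0 := fun x => by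
    split_ifs with e
    · simp [e]
    · simp [h x e]
  have h1 : ∑ x, f !![1, x; 0, 1] = ∑ g : Matrix.SpecialLinearGroup (Fin 2) F,
      if g.1 1 0 = 0 ∧ g.1 0 0 = 1 ∧ g.1 1 1 = 1 then f g.1 else 0 := by
    refine sum_of_injOn Classical.SL2Basic.upper Classical.SL2Basic.upper_injective.injOn (by simp)
      (fun g _ hg => if_neg fun e => hg ⟨g.1 0 1, by simp, ?_⟩) fun x _ => by
        simp [Classical.SL2Basic.upper, Classical.SL2Basic.mkSL]
    apply Classical.SL2Basic.sl2_ext <;> simp [Classical.SL2Basic.upper, e]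
  rw [← h1, sum_congr rfl fun x _ => h2 x, sum_add_distrib]
  simp; ring

open Finset in
theorem sum_half {F : Type*} [Field F] [Fintype F] [DecidableEq F]
    {X ψ φ : Matrix.SpecialLinearGroup (Fin 2) F → ℂ} (h : GL2.Half X ψ φ) :
    (∑ g : Matrix.SpecialLinearGroup (Fin 2) F, if g.1 1 0 = 0 ∧ g.1 0 0 = 1 ∧ g.1 1 1 = 1 then ψ g else 0) =
    (∑ g : Matrix.SpecialLinearGroup (Fin 2) F, if g.1 1 0 = 0 ∧ g.1 0 0 = 1 ∧ g.1 1 1 = 1 then X g else 0) / 2 := by
  obtain ⟨x, hx, -⟩ := h.exists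
  have h0 := Matrix.GeneralLinearGroup.det_ne_zero x
  obtain ⟨P, hP⟩ := GL2.exists_GL (M := !![x.1.det, 0; 0, 1]) (by simp [h0])
  have h1 : ∀ g, P.1 * g.1 = (Classical.SL2Basic.conjSL P g).1 * P.1 := fun g =>
    GL2.conj_eq.1 (Classical.SL2Basic.toGL_conjSL P g)
  rw [h.2.2.2.1, eq_div_iff two_ne_zero, mul_two]
  simp only [Pi.add_apply, ite_add_zero, sum_add_distrib, add_right_inj]
  refine Fintype.sum_equiv (Classical.SL2Basic.conjSL P).toEquiv _ _ fun g =>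
    if_congr ?_ (h.swap (h1 g) (by simpa [hP] using hx)).symm rfl
  have h2 := h1 g
  have e1 := congrFun (congrFun h2 0) 0
  have e2 := congrFun (congrFun h2 1) 0
  have e3 := congrFun (congrFun h2 1) 1
  simp [hP, Matrix.mul_apply, Fin.sum_univ_two, mul_comm x.1.det, h0] at e1 e2 e3
  simp [e1, e2, e3, h0]

/-- Let F be a finite field with q elements, q odd, q ≥ 5, U the upper unitriangular subgroup of SL₂ over F, and χ an irreducible complex character. The sum of the values of χ over U equals 2q, q, 0, q, 0 according as the degree of χ is q + 1, q, q − 1, (q + 1)/2, (q − 1)/2; so among these five degrees the sum vanishes exactly for the degrees q − 1 and (q − 1)/2, i.e. the irreducible characters of those two degrees are the ones whose restriction to U does not contain the trivial character (the cuspidal characters), while those of degree q + 1, q and (q + 1)/2 are not cuspidal. -/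
theorem result {F : Type*} [Field F] [Fintype F] [DecidableEq F] (hodd : Odd (Fintype.card F)) (hq : 5 ≤ Fintype.card F)
    (χ : Matrix.SpecialLinearGroup (Fin 2) F → ℂ) (hχ : Cfsg.IsIrrCharacter (Matrix.SpecialLinearGroup (Fin 2) F) χ) :
    (χ 1 = (Fintype.card F : ℂ) + 1 →
      (∑ g : Matrix.SpecialLinearGroup (Fin 2) F, if (g : Matrix (Fin 2) (Fin 2) F) 1 0 = 0 ∧ (g : Matrix (Fin 2) (Fin 2) F) 0 0 = 1 ∧ (g : Matrix (Fin 2) (Fin 2) F) 1 1 = 1 then χ g else 0) = 2 * (Fintype.card F : ℂ)) ∧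
    (χ 1 = (Fintype.card F : ℂ) →
      (∑ g : Matrix.SpecialLinearGroup (Fin 2) F, if (g : Matrix (Fin 2) (Fin 2) F) 1 0 = 0 ∧ (g : Matrix (Fin 2) (Fin 2) F) 0 0 = 1 ∧ (g : Matrix (Fin 2) (Fin 2) F) 1 1 = 1 then χ g else 0) = (Fintype.card F : ℂ)) ∧
    (χ 1 = (Fintype.card F : ℂ) - 1 →
      (∑ g : Matrix.SpecialLinearGroup (Fin 2) F, if (g : Matrix (Fin 2) (Fin 2) F) 1 0 = 0 ∧ (g : Matrix (Fin 2) (Fin 2) F) 0 0 = 1 ∧ (g : Matrix (Fin 2) (Fin 2) F) 1 1 = 1 then χ g else 0) = 0) ∧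
    (χ 1 = (((Fintype.card F + 1) / 2 : ℕ) : ℂ) →
      (∑ g : Matrix.SpecialLinearGroup (Fin 2) F, if (g : Matrix (Fin 2) (Fin 2) F) 1 0 = 0 ∧ (g : Matrix (Fin 2) (Fin 2) F) 0 0 = 1 ∧ (g : Matrix (Fin 2) (Fin 2) F) 1 1 = 1 then χ g else 0) = (Fintype.card F : ℂ)) ∧
    (χ 1 = (((Fintype.card F - 1) / 2 : ℕ) : ℂ) →
      (∑ g : Matrix.SpecialLinearGroup (Fin 2) F, if (g : Matrix (Fin 2) (Fin 2) F) 1 0 = 0 ∧ (g : Matrix (Fin 2) (Fin 2) F) 0 0 = 1 ∧ (g : Matrix (Fin 2) (Fin 2) F) 1 1 = 1 then χ g else 0) = 0) := by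
  obtain ⟨a, b, hab⟩ := GL2.exists_quad F
  have := Fact.mk hab
  rw [GL2.cast_half_succ hodd, GL2.cast_half_pred hodd]
  have e1 := fun α : MulChar F ℂ => sum_U (GL2.R fun x _ => α x) 1 fun x hx => by
    rw [GL2.R_unip] <;> simp [hx]
  have e2 := fun η : MulChar (GL2.U1 a b) ℂ => sum_U (GL2.C (GL2.xU η)) (-1) fun x hx => by
    rw [GL2.C_unip] <;> simp [hx, GL2.xU_one]
  refine ⟨fun h => ?_, fun h => ?_, fun h => ?_, fun h => ?_, fun h => ?_⟩
  · obtain ⟨α, -, rfl⟩ := GL2.SL_deg_succ hχ h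
    refine (e1 α).trans ?_
    simp [GL2.R_sc]; ring
  · obtain rfl := GL2.SL_deg_q hχ h
    refine (sum_U (fun M => GL2.R (fun x _ => (1 : MulChar F ℂ) x) M - 1) 0 fun x hx => ?_).trans ?_
    · rw [GL2.R_unip] <;> simp [hx]
    · simp [GL2.R_sc]
  · obtain ⟨η, -, rfl⟩ := GL2.SL_deg_pred (a := a) (b := b) hχ h (by omega)
    refine (e2 η).trans ?_
    simp [GL2.C_sc, GL2.xU_one]
  · obtain ⟨α, φ, -, -, h'⟩ := GL2.SL_deg_hsucc hχ h (by omega)
    rw [sum_half h', div_eq_iff two_ne_zero]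
    refine (e1 α).trans ?_
    simp [GL2.R_sc]; ring
  · obtain ⟨η, φ, -, -, h'⟩ := GL2.SL_deg_hpred (a := a) (b := b) hχ h (by omega)
    rw [sum_half h', div_eq_iff two_ne_zero]
    refine (e2 η).trans ?_
    simp [GL2.C_sc, GL2.xU_one]

end Cfsg.Agent.S2438
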