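import Mathlib
import Cfsg.Statements.S2439
import Cfsg.Agent.GL2.Torus
import Cfsg.Agent.Block.Omega
import Cfsg.Agent.Block.Loc

set_option autoImplicit false
open Cfsg

namespace Cfsg.Agent.S2439

open Cfsg.Agent.Block Cfsg.Agent.Char Cfsg.Agent.GL2

theorem chi_congr {G : Type*} [Group G] [Finite G] {p : ℕ} {M : Ideal AlgInt} (hM : IsPModular p M)
    {χ : G → ℂ} (hχ : IsCharacter G χ) {g : G} (hg : orderOf g = p) : MemLocalIdeal M (χ g - χ 1) := by
  obtain ⟨s, h1, h2, h3, -⟩ := isChar_eigen_nat hχ g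
  rw [h3, ← h2, show s.sum - s.card = (s.map (· - 1)).sum by simp [Multiset.sum_map_sub]]
  refine (locAddSubgroup hM).multiset_sum_mem _ fun x hx => ?_
  obtain ⟨z, hz, rfl⟩ := Multiset.mem_map.1 hx
  exact P_sub_one_of_pow_eq_one hM (k := 1) (by simpa [hg] using h1 z hz)

section
variable {F : Type*} [Field F] [Fintype F] {p : ℕ} [Fact p.Prime] [CharP F p] {M : Ideal AlgInt}

local notation "S" => Matrix.SpecialLinearGroup (Fin 2) F
local notation "q" => (Fintype.card F : ℂ)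

theorem Pq (hM : IsPModular p M) : MemLocalIdeal M q := (P_natCast_iff hM).2 (by
  obtain ⟨n, -, h⟩ := FiniteField.card F p
  exact h ▸ dvd_pow_self _ n.ne_zero)

theorem P2 (hp : p ≠ 2) (hM : IsPModular p M) : ¬ MemLocalIdeal M 2 := fun h =>
  hp ((Nat.prime_dvd_prime_iff_eq hM.1 Nat.prime_two).1 ((P_natCast_iff hM).1 (by exact_mod_cast h)))

theorem Pdeg (hM : IsPModular p M) {χ : S → ℂ} (hχ : IsIrrCharacter S χ) (h : χ 1 ≠ q) :
    MemLocalRing M (χ 1) ∧ ¬ MemLocalIdeal M (χ 1) := by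
  have h1 := S_of_isIntegral hM (isIrr_isIntegral hχ 1)
  refine ⟨h1, fun e => not_P_one hM ?_⟩
  have h2 := Pq (F := F) hM
  have h3 := P_mul_left hM (S_natCast hM 2) e
  rcases SL_deg hχ with (e' | e' | e' | e') | ⟨-, e' | e'⟩ <;> rw [e'] at e h3
  · exact e
  · simpa using P_sub hM h2 e
  · exact absurd e' h
  · simpa using P_sub hM e h2
  · convert P_sub hM h3 h2 using 1; push_cast; ring
  · convert P_sub hM h2 h3 using 1; push_cast; ring

omit [Fact p.Prime] [CharP F p] in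
theorem sgn {χ : S → ℂ} (hχ : IsIrrCharacter S χ) : ∃ ε : ℂ, (ε = 1 ∨ ε = -1) ∧ ∀ g, χ (-g) = ε * χ g := by
  have h1 := isIrr_central hχ neg_one_central
  simp only [neg_one_mul] at h1
  refine ⟨_, mul_self_eq_one_iff.1 (mul_right_cancel₀ (isIrr_one_ne_zero hχ) ?_), h1⟩
  rw [mul_assoc, ← h1, ← h1, neg_neg, one_mul]

omit [Fact p.Prime] [CharP F p] in
theorem idx (g : S) : ((Subgroup.centralizer ({g} : Set S)).index : ℂ) =
    q * (q + 1) * (q - 1) / Nat.card (Subgroup.centralizer ({g} : Set S)) := by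
  rw [← card_S, ← (Subgroup.centralizer ({g} : Set S)).index_mul_card, Nat.cast_mul,
    mul_div_cancel_right₀ _ card_ne_zero]

theorem cong_unip (hM : IsPModular p M) {χ : S → ℂ} (hχ : IsIrrCharacter S χ) (h : χ 1 ≠ q)
    {g : S} (hg : orderOf g = p) (n : ℕ) : MemLocalIdeal M (n * χ g / χ 1 - n) := by
  have := P_mul_left hM (S_natCast hM n) (P_div hM (chi_congr hM (isIrr_isChar hχ) hg) (Pdeg hM hχ h).1
    (Pdeg hM hχ h).2)
  convert this using 1
  have := isIrr_one_ne_zero hχ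
  field_simp

theorem same (hM : IsPModular p M) {χ ψ : S → ℂ} (hχ : IsIrrCharacter S χ) (hψ : IsIrrCharacter S ψ)
    (h1 : χ 1 ≠ q) (h2 : ψ 1 ≠ q) {ε : ℂ} (hε : ε = 1 ∨ ε = -1) (h3 : ∀ g, χ (-g) = ε * χ g)
    (h4 : ∀ g, ψ (-g) = ε * ψ g) : SameBlock M χ ψ := by
  intro g
  have e1 := isIrr_one_ne_zero hχ
  have e2 := isIrr_one_ne_zero hψ
  have key : ∀ n : ℕ, ((Subgroup.centralizer ({g} : Set S)).index : ℂ) = q * n →
      MemLocalIdeal M (centralChar χ g - centralChar ψ g) := fun n hn => by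
    have := fun (χ : S → ℂ) (hχ : IsIrrCharacter S χ) h1 => P_div hM (P_mul_right hM (P_mul_right hM
      (Pq (F := F) hM) (S_natCast hM n)) (S_of_isIntegral hM (isIrr_isIntegral hχ g))) (Pdeg hM hχ h1).1
      (Pdeg hM hχ h1).2
    simpa only [centralChar, hn] using P_sub hM (this χ hχ h1) (this ψ hψ h2)
  rcases cls_SL g with e | e | ⟨x, y, e⟩ | e
  · rcases Classical.SL2Basic.mem_center_iff.1 (sc_iff_center.1 e) with rfl | rfl
    · simp [centralChar_one e1, centralChar_one e2, P_zero hM]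
    · simp [centralChar, h3, h4, mul_div_assoc, e1, e2, P_zero hM]
  · obtain ⟨x, e3, e4⟩ := e.2
    rcases mul_self_eq_one_iff.1 (e4.symm.trans g.2) with rfl | rfl
    · have := orderOf_SL_iff.2 ⟨e.1, e3⟩
      simpa [centralChar] using P_sub hM (cong_unip hM hχ h1 this (Subgroup.centralizer ({g} : Set S)).index)
        (cong_unip hM hψ h2 this (Subgroup.centralizer ({g} : Set S)).index)
    · have : orderOf (-g) = p := orderOf_SL_iff.2 ⟨by simpa [Sc] using e.1, by simp [e3]⟩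
      have := P_mul_left hM (x := ε) (by
        rcases hε with rfl | rfl
        exacts [S_one hM, S_neg (S_one hM)]) (P_sub hM (cong_unip hM hχ h1 this
          (Subgroup.centralizer ({g} : Set S)).index) (cong_unip hM hψ h2 this
          (Subgroup.centralizer ({g} : Set S)).index))
      convert this using 1
      rw [h3, h4, centralChar, centralChar]
      rcases hε with rfl | rfl <;> ring
  · refine key (Fintype.card F + 1) ?_
    rw [idx, cent_SL_split e.1 e.2.1 e.2.2, Nat.cast_pred Fintype.card_pos,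
      mul_div_cancel_right₀ _ q_sub_ne_zero]
    simp
  · refine key (Fintype.card F - 1) ?_
    have := q_add_ne_zero (F := F)
    rw [idx, cent_SL_ell e, Nat.cast_pred Fintype.card_pos]
    push_cast; field_simp

theorem diff1 (hp : p ≠ 2) (hM : IsPModular p M) {χ ψ : S → ℂ} (hχ : IsIrrCharacter S χ)
    (hψ : IsIrrCharacter S ψ) (h1 : χ (-1) = χ 1) (h2 : ψ (-1) = -ψ 1) :
    ¬ SameBlock M χ ψ ∧ ¬ SameBlock M ψ χ := by
  have key : ¬ MemLocalIdeal M (centralChar χ (-1) - centralChar ψ (-1)) := by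
    have : Subgroup.centralizer ({-1} : Set S) = ⊤ :=
      Subgroup.centralizer_eq_top_iff_subset.2 (by simpa using neg_one_central)
    simp [centralChar, this, h1, h2, neg_div, isIrr_one_ne_zero hχ, isIrr_one_ne_zero hψ,
      one_add_one_eq_two, P2 hp hM]
  exact ⟨fun h => key (h _), fun h => key (P_sub_comm (h _))⟩

theorem diff2 (hp : p ≠ 2) (hM : IsPModular p M) {χ : S → ℂ} (hχ : IsIrrCharacter S χ) (h : χ 1 ≠ q) :
    ¬ SameBlock M χ Sts ∧ ¬ SameBlock M Sts χ := by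
  obtain ⟨u, hu⟩ := exists_SL (M := !![(1 : F), 1; 0, 1]) (by simp)
  have key : ¬ MemLocalIdeal M (centralChar χ u - centralChar Sts u) := fun e => by
    have h1 : Sts u = 0 := by
      rw [← St_res 1]; exact St_unip 1 (by simp [hu]) (by simp [hu]) (by simp [hu])
    rw [centralChar, centralChar, h1, mul_zero, zero_div, sub_zero,
      P_iff_of_sub hM (cong_unip hM hχ h (orderOf_SL_iff.2 (by simp [hu])) _), idx,
      cent_SL_par (by simp [hu]) ⟨1, by simp [hu], by simp⟩,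
      nr_odd (Classical.SL2Basic.two_ne_zero_of_char hp)] at e
    have := P_sub hM (P_mul_left hM (S_natCast hM (Fintype.card F)) (Pq (F := F) hM))
      (P_mul_left hM (S_natCast hM 2) e)
    refine not_P_one hM ?_
    convert this using 1
    have := q_ne_zero (F := F)
    push_cast; field_simp; ring
  exact ⟨fun h => key (h _), fun h => key (P_sub_comm (h _))⟩

omit [Fact p.Prime] [CharP F p] in
theorem Sts_neg : Sts (-1 : S) = Sts (1 : S) := by
  rw [Sts_one, Sts, Pi.sub_apply, PSs, R_sc' _ (by simp [Sc])]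
  simp [mc_one]

theorem defect (hM : IsPModular p M) {B : Set (IrrCharacter S)} (h1 : MemLocalRing M (blockCoeff B 1))
    (h2 : ¬ MemLocalIdeal M (blockCoeff B 1)) (P : Sylow p S) : IsDefectGroup p M B P := by
  have : (P : Subgroup S) ≤ Subgroup.centralizer {1} := fun x _ => by simp [mem_Z]
  exact ⟨1, ⟨h1, h2, fun χ _ => by rw [centralChar_one (isIrr_one_ne_zero χ.2)]; exact not_P_one hM⟩,
    P.subtype this, by rw [Sylow.coe_subtype, Subgroup.subgroupOf_map_subtype, inf_eq_left.2 this]⟩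

end

/-- Let F be a finite field with q elements of odd characteristic p, and M a maximal ideal of the algebraic integers containing p. Then SL₂ over F has exactly three p-blocks relative to M: the irreducible character of degree q (the Steinberg character) alone; the other irreducible characters taking the same value at −1 as at 1 (the principal block); and the irreducible characters χ with χ(−1) = −χ(1). Every Sylow p-subgroup is a defect group of each of the last two blocks. -/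
theorem result {F : Type*} [Field F] [Fintype F] (p : ℕ) [Fact p.Prime] [CharP F p] (hp : p ≠ 2)
    (M : Ideal Cfsg.AlgInt) (hM : Cfsg.IsPModular p M) :
    (∀ B : Set (Cfsg.IrrCharacter (Matrix.SpecialLinearGroup (Fin 2) F)), Cfsg.IsPBlock M B ↔
      (B = {χ : Cfsg.IrrCharacter (Matrix.SpecialLinearGroup (Fin 2) F) | (χ : Matrix.SpecialLinearGroup (Fin 2) F → ℂ) 1 = (Fintype.card F : ℂ)} ∨
       B = {χ : Cfsg.IrrCharacter (Matrix.SpecialLinearGroup (Fin 2) F) | (χ : Matrix.SpecialLinearGroup (Fin 2) F → ℂ) (-1) = (χ : Matrix.SpecialLinearGroup (Fin 2) F → ℂ) 1 ∧ (χ : Matrix.SpecialLinearGroup (Fin 2) F → ℂ) 1 ≠ (Fintype.card F : ℂ)} ∨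
       B = {χ : Cfsg.IrrCharacter (Matrix.SpecialLinearGroup (Fin 2) F) | (χ : Matrix.SpecialLinearGroup (Fin 2) F → ℂ) (-1) = -(χ : Matrix.SpecialLinearGroup (Fin 2) F → ℂ) 1})) ∧
    Nat.card {B : Set (Cfsg.IrrCharacter (Matrix.SpecialLinearGroup (Fin 2) F)) // Cfsg.IsPBlock M B} = 3 ∧
    ∀ P : Sylow p (Matrix.SpecialLinearGroup (Fin 2) F),
      Cfsg.IsDefectGroup p M {χ : Cfsg.IrrCharacter (Matrix.SpecialLinearGroup (Fin 2) F) | (χ : Matrix.SpecialLinearGroup (Fin 2) F → ℂ) (-1) = (χ : Matrix.SpecialLinearGroup (Fin 2) F → ℂ) 1 ∧ (χ : Matrix.SpecialLinearGroup (Fin 2) F → ℂ) 1 ≠ (Fintype.card F : ℂ)} (P : Subgroup (Matrix.SpecialLinearGroup (Fin 2) F)) ∧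
      Cfsg.IsDefectGroup p M {χ : Cfsg.IrrCharacter (Matrix.SpecialLinearGroup (Fin 2) F) | (χ : Matrix.SpecialLinearGroup (Fin 2) F → ℂ) (-1) = -(χ : Matrix.SpecialLinearGroup (Fin 2) F → ℂ) 1} (P : Subgroup (Matrix.SpecialLinearGroup (Fin 2) F)) := by
  classical
  have h2 := Classical.SL2Basic.two_ne_zero_of_char (K := F) hp
  have dich : ∀ χ : IrrCharacter (Matrix.SpecialLinearGroup (Fin 2) F), χ.1 (-1) = χ.1 1 ∨ χ.1 (-1) = -χ.1 1 :=
    fun χ => by
      obtain ⟨ε, rfl | rfl, h⟩ := sgn χ.2 <;> simp [h]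
  have excl : ∀ χ : IrrCharacter (Matrix.SpecialLinearGroup (Fin 2) F), χ.1 (-1) = χ.1 1 → χ.1 (-1) ≠ -χ.1 1 :=
    fun χ e e' => isIrr_one_ne_zero χ.2 (by linear_combination (e' - e) / 2)
  have neq : ∀ χ : IrrCharacter (Matrix.SpecialLinearGroup (Fin 2) F), χ.1 (-1) = -χ.1 1 →
      χ.1 1 ≠ Fintype.card F := fun χ e e' => excl χ (by rw [SL_deg_q χ.2 e', Sts_neg]) e
  have sm : ∀ χ ψ : IrrCharacter (Matrix.SpecialLinearGroup (Fin 2) F), χ.1 1 ≠ Fintype.card F →
      ψ.1 1 ≠ Fintype.card F → ∀ ε : ℂ, χ.1 (-1) = ε * χ.1 1 → ψ.1 (-1) = ε * ψ.1 1 → SameBlock M χ.1 ψ.1 := by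
    intro χ ψ e1 e2 ε e3 e4
    obtain ⟨ε1, e5, e6⟩ := sgn χ.2
    obtain ⟨ε2, -, e7⟩ := sgn ψ.2
    obtain rfl := mul_right_cancel₀ (isIrr_one_ne_zero χ.2) (e3.symm.trans (e6 1))
    obtain rfl := mul_right_cancel₀ (isIrr_one_ne_zero ψ.2) (e4.symm.trans (e7 1))
    exact same hM χ.2 ψ.2 e1 e2 e5 e6 e7
  set B1 : Set (IrrCharacter (Matrix.SpecialLinearGroup (Fin 2) F)) := {χ | χ.1 1 = Fintype.card F}
  set B2 : Set (IrrCharacter (Matrix.SpecialLinearGroup (Fin 2) F)) :=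
    {χ | χ.1 (-1) = χ.1 1 ∧ χ.1 1 ≠ Fintype.card F}
  set B3 : Set (IrrCharacter (Matrix.SpecialLinearGroup (Fin 2) F)) := {χ | χ.1 (-1) = -χ.1 1}
  have b1 : ∀ χ ∈ B1, blockOf M χ.1 = B1 := fun χ h => Set.ext fun ψ => by
    rw [SL_deg_q χ.2 h]
    refine ⟨fun e => by_contra fun e' => (diff2 hp hM ψ.2 e').2 e, fun e g => ?_⟩
    simp [SL_deg_q ψ.2 e, P_zero hM]
  have b2 : ∀ χ ∈ B2, blockOf M χ.1 = B2 := fun χ h => Set.ext fun ψ =>
    ⟨fun e => ⟨(dich ψ).resolve_right fun e' => (diff1 hp hM χ.2 ψ.2 h.1 e').1 e,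
      fun e' => (diff2 hp hM χ.2 h.2).1 (SL_deg_q ψ.2 e' ▸ e)⟩,
      fun e => sm χ ψ h.2 e.2 1 (by simp [h.1]) (by simp [e.1])⟩
  have b3 : ∀ χ ∈ B3, blockOf M χ.1 = B3 := fun χ h => Set.ext fun ψ =>
    ⟨fun e => (dich ψ).resolve_left fun e' => (diff1 hp hM ψ.2 χ.2 e' h).2 e,
      fun e => sm χ ψ (neq χ h) (neq ψ e) (-1) (by rw [neg_one_mul]; exact h)
        (by rw [neg_one_mul]; exact e)⟩
  have m1 : ⟨_, isIrr_Sts⟩ ∈ B1 := Sts_one
  have m2 : ⟨_, isIrr_one⟩ ∈ B2 := ⟨rfl, q_ne_one.symm⟩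
  obtain ⟨χ3, m3⟩ : ∃ χ, χ ∈ B3 := by
    by_contra hh
    exact Classical.SL2Basic.neg_one_ne_one h2 (eq_one_of_forall_irr fun χ h =>
      (dich ⟨χ, h⟩).resolve_right fun e => hh ⟨⟨χ, h⟩, e⟩)
  have main : ∀ B, IsPBlock M B ↔ B = B1 ∨ B = B2 ∨ B = B3 := fun B => by
    constructor
    · rintro ⟨χ, rfl⟩
      by_cases e : χ ∈ B1
      · exact Or.inl (b1 χ e)
      · exact Or.inr ((dich χ).imp (fun e' => b2 χ ⟨e', e⟩) (b3 χ))
    · rintro (rfl | rfl | rfl)
      exacts [⟨_, (b1 _ m1).symm⟩, ⟨_, (b2 _ m2).symm⟩, ⟨_, (b3 _ m3).symm⟩]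
  have s0 := sum_irr_one_sq (G := Matrix.SpecialLinearGroup (Fin 2) F)
  have s1 := sum_irr_one_mul_of_ne (Classical.SL2Basic.neg_one_ne_one h2)
  have s2 : ∑ χ : IrrCharacter (Matrix.SpecialLinearGroup (Fin 2) F),
      (if χ = ⟨_, isIrr_Sts⟩ then χ.1 1 ^ 2 else 0) = Fintype.card F ^ 2 := by simp [Sts_one]
  have c0 := card_ne_zero (G := Matrix.SpecialLinearGroup (Fin 2) F)
  have c3 : blockCoeff B3 1 = 2⁻¹ := by
    rw [blockCoeff_eq_sum, Finset.sum_filter, Finset.sum_congr rfl (g := fun χ =>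
      (χ.1 1 ^ 2 - χ.1 1 * χ.1 (-1)) / 2) fun χ _ => ?_, ← Finset.sum_div, Finset.sum_sub_distrib, s0, s1]
    · field_simp; ring
    · rw [isChar_conj_one (irr_isChar χ)]
      split_ifs with e
      · rw [show χ.1 (-1) = _ from e]; ring
      · rw [(dich χ).resolve_right e]; ring
  have c2 : blockCoeff B2 1 =
      2⁻¹ - Fintype.card F / ((Fintype.card F + 1 : ℕ) * (Fintype.card F - 1 : ℕ)) := by
    rw [blockCoeff_eq_sum, Finset.sum_filter, Finset.sum_congr rfl (g := fun χ =>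
      (χ.1 1 ^ 2 + χ.1 1 * χ.1 (-1)) / 2 - if χ = ⟨_, isIrr_Sts⟩ then χ.1 1 ^ 2 else 0) fun χ _ => ?_,
      Finset.sum_sub_distrib, ← Finset.sum_div, Finset.sum_add_distrib, s0, s1, s2, card_S,
      Nat.cast_pred Fintype.card_pos]
    · have := q_ne_zero (F := F)
      have := q_sub_ne_zero (F := F)
      have := q_add_ne_zero (F := F)
      push_cast; field_simp; ring
    · rw [isChar_conj_one (irr_isChar χ)]
      split_ifs with e e' e'
      · exact absurd (e' ▸ Sts_one) e.2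
      · rw [e.1]; ring
      · rw [e']; dsimp only; rw [Sts_neg]; ring
      · rw [(dich χ).resolve_left fun e'' => e ⟨e'', fun e3 => e' (Subtype.ext (SL_deg_q χ.2 e3))⟩]; ring
  have u1 := S_inv (S_natCast hM 2) (P2 hp hM)
  have u2 := not_P_inv hM (S_natCast hM 2) (P2 hp hM)
  have u3 : MemLocalIdeal M (2⁻¹ - blockCoeff B2 1) := by
    have hq := Pq (F := F) hM
    rw [c2, sub_sub_cancel]
    refine P_div hM hq (S_mul hM (S_natCast hM _) (S_natCast hM _)) (not_P_mul hM (S_natCast hM _)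
      (S_natCast hM _) (fun e => not_P_one hM ?_) fun e => not_P_one hM ?_)
    · simpa using P_sub hM e hq
    · simpa [Nat.cast_pred Fintype.card_pos] using P_sub hM hq e
  refine ⟨main, ?_, fun P => ⟨defect hM ((S_iff_of_sub hM u3).1 u1) (mt (P_iff_of_sub hM u3).2 u2) P,
    defect hM (c3 ▸ u1) (c3 ▸ u2) P⟩⟩
  rw [show {B // IsPBlock M B} = ({B | IsPBlock M B} : Set _) from rfl, Nat.card_coe_set_eq,
    Set.ncard_eq_three]
  refine ⟨B1, B2, B3, fun e => (e ▸ m1 : _ ∈ B2).2 m1, fun e => neq _ (e ▸ m1 : _ ∈ B3) m1,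
    fun e => excl _ m2.1 (e ▸ m2 : _ ∈ B3), Set.ext main⟩

end Cfsg.Agent.S2439
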