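import Mathlib
import Cfsg.Statements.S2442
import Cfsg.Agent.Spc.CuE
-- import your own Cfsg.Agent.* helpers here

set_option autoImplicit false
open scoped MatrixGroups
open Cfsg

namespace Cfsg.Agent.S2442

open Matrix Spc.Cu in
theorem two {F : Type*} [Field F] [Fintype F] [DecidableEq F] (h : Fintype.card F = 2) :
    ∃ χ : IrrCharacter (GL (Fin 2) F), ∀ m, 0 < m → m < 2 → uSum χ.1 m = 0 := by
  classical
  let f : GL (Fin 2) F →* Equiv.Perm (Fin 2 → F) := MonoidHom.toHomPerm
    { toFun := fun g => fun v => g.1 *ᵥ v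
      map_one' := funext fun v => one_mulVec v
      map_mul' := fun g h => funext fun v => (mulVec_mulVec v g.1 h.1).symm }
  let l : GL (Fin 2) F →* ℂˣ := (Units.map (Int.castRingHom ℂ : ℤ →* ℂ)).comp (Equiv.Perm.sign.comp f)
  refine ⟨⟨_, Char.isIrr_linear l⟩, fun m h0 h1 => ?_⟩
  obtain rfl : m = 1 := by omega
  have h01 : ∀ x : F, x = 0 ∨ x = 1 := fun x => by
    by_cases hx : x = 0
    · exact Or.inl hx
    · have := FiniteField.pow_card_sub_one_eq_one x hx
      rw [h, pow_one] at this; exact Or.inr this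
  have h2 : (1 : F) + 1 = 0 := by
    have := FiniteField.cast_card_eq_zero F
    rw [h] at this; rw [one_add_one_eq_two]; exact_mod_cast this
  have hv : (col (1 : Fin 2) (Pi.single 0 (1 : F))).1 = !![1, 1; 0, 1] := by
    show (1 + colN _ _ : Matrix _ _ F) = _
    ext i j; fin_cases i <;> fin_cases j <;> simp [colN]
  have hu : col (1 : Fin 2) (Pi.single 0 (1 : F)) ∈ Um F 2 1 := fun i j hij => by
    rw [hv]; fin_cases i <;> fin_cases j <;> simp at hij ⊢
  have hs : f (col (1 : Fin 2) (Pi.single 0 (1 : F))) = Equiv.swap ![0, 1] ![1, 1] := by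
    refine Equiv.ext fun v => ?_
    show (col (1 : Fin 2) (Pi.single 0 (1 : F))).1 *ᵥ v = _
    obtain ⟨x, y, rfl⟩ : ∃ x y, v = ![x, y] := ⟨v 0, v 1, by ext i; fin_cases i <;> rfl⟩
    have e : (!![1, 1; 0, 1] : Matrix _ _ F) *ᵥ ![x, y] = ![x + y, y] := by
      ext i; fin_cases i <;> simp [mulVec, dotProduct]
    rw [hv, Equiv.swap_apply_def, e]
    rcases h01 x with rfl | rfl <;> rcases h01 y with rfl | rfl <;> simp [h2]
  rw [uSum_eq]
  refine sum_hom_units_eq_zero ((Units.coeHom ℂ).comp (l.comp (Um F 2 1).subtype)) fun e => ?_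
  have := DFunLike.congr_fun e ⟨_, hu⟩
  simp only [l, MonoidHom.comp_apply, Subgroup.coe_subtype, hs] at this
  rw [Equiv.Perm.sign_swap (by simp)] at this
  norm_num at this

open Classical in
/-- Let F be a finite field with q elements and n ≥ 2. Call a complex character χ of GL_n over F cuspidal when, for every 0 < m < n, the sum of χ over the subgroup of matrices that agree with the identity outside the upper right m × (n − m) block vanishes (the restriction of χ to the unipotent radical of each maximal standard parabolic subgroup contains no principal constituent). Then GL_n has at least φ(qⁿ − 1)/n distinct cuspidal irreducible characters of degree (q − 1)(q² − 1)⋯(q^(n−1) − 1), φ being Euler's function (in particular at least one). -/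
theorem result {F : Type*} [Field F] [Fintype F] [DecidableEq F] (n : ℕ) (hn : 2 ≤ n) :
    Nat.totient (Fintype.card F ^ n - 1) / n ≤
      Nat.card {χ : Cfsg.IrrCharacter (GL (Fin n) F) //
        (χ : GL (Fin n) F → ℂ) 1 = ∏ i ∈ Finset.Ico 1 n, ((Fintype.card F : ℂ) ^ i - 1) ∧
        ∀ m : ℕ, 0 < m → m < n →
          (∑ g : GL (Fin n) F,
            if (∀ i j : Fin n, ¬ (i.val < m ∧ m ≤ j.val) → (g : Matrix (Fin n) (Fin n) F) i j = (1 : Matrix (Fin n) (Fin n) F) i j)
            then (χ : GL (Fin n) F → ℂ) g else 0) = 0} := by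
  have key : Nat.totient (Fintype.card F ^ n - 1) ≤ n * Nat.card {χ : IrrCharacter (GL (Fin n) F) //
      ∀ m, 0 < m → m < n → Spc.Cu.uSum χ.1 m = 0} := by
    by_cases h : Fintype.card F = 2 ∧ n = 2
    · obtain ⟨h, rfl⟩ := h
      obtain ⟨χ, hχ⟩ := two h
      haveI : Nonempty {χ : IrrCharacter (GL (Fin 2) F) //
        ∀ m, 0 < m → m < 2 → Spc.Cu.uSum χ.1 m = 0} := ⟨⟨χ, hχ⟩⟩
      have := Nat.card_pos (α := {χ : IrrCharacter (GL (Fin 2) F) //
        ∀ m, 0 < m → m < 2 → Spc.Cu.uSum χ.1 m = 0})
      rw [h, show Nat.totient (2 ^ 2 - 1) = 2 by decide]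
      omega
    · obtain ⟨p, hc⟩ := CharP.exists F
      haveI : Fact p.Prime := ⟨CharP.char_is_prime F p⟩
      haveI : NeZero n := ⟨by omega⟩
      haveI := Fintype.ofFinite (FiniteField.Extension F p n)
      exact Spc.Cu.main (Module.finBasisOfFinrankEq F (FiniteField.Extension F p n)
        (FiniteField.finrank_extension F p n)) hn h
  refine (Nat.div_le_of_le_mul key).trans (Nat.card_le_card_of_injective
    (fun χ => ⟨χ.1, Spc.Cu.degree (by omega) χ.1.2 χ.2, fun m h0 hm => ?_⟩)
    fun x y e => Subtype.ext (congrArg (fun z => z.1) e))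
  refine Eq.trans ?_ (χ.2 m h0 hm)
  refine Finset.sum_congr (by congr!) fun g _ => ?_
  exact if_congr Iff.rfl rfl rfl

end Cfsg.Agent.S2442
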