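import Mathlib
import Cfsg.Statements.S2531
-- import your own Cfsg.Agent.* helpers here

set_option autoImplicit false
open Cfsg

namespace Cfsg.Agent.S2531

open Projectivization Finset
open scoped LinearAlgebra.Projectivization Classical

theorem cnt {F V : Type*} [Field F] [Finite F] [AddCommGroup V] [Module F V] [Fintype (ℙ F V)]
    [Finite V] (W : Submodule F V) (hW : W ≠ ⊥) :
    ((univ.filter fun P : ℙ F V => P.submodule ≤ W).card : F) = 1 := by
  have e : Nat.card (ℙ F W) = (univ.filter fun P : ℙ F V => P.submodule ≤ W).card := by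
    rw [← Fintype.card_subtype, ← Nat.card_eq_fintype_card]
    refine Nat.card_congr (Equiv.ofBijective (fun P => ⟨map W.subtype W.injective_subtype P, ?_⟩)
      ⟨fun P Q e => map_injective _ W.injective_subtype (congrArg Subtype.val e), ?_⟩)
    · induction P using Projectivization.ind with
      | h v hv => rw [map_mk, submodule_mk, Submodule.span_singleton_le_iff_mem]; exact v.2
    · rintro ⟨P, hP⟩
      induction P using Projectivization.ind with
      | h v hv =>
        rw [submodule_mk, Submodule.span_singleton_le_iff_mem] at hP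
        exact ⟨mk F ⟨v, hP⟩ fun e => hv (congrArg Subtype.val e), rfl⟩
  have := Fintype.ofFinite F
  obtain ⟨d, hd⟩ := Nat.exists_eq_succ_of_ne_zero (mt Submodule.finrank_eq_zero.1 hW)
  rw [← e, card_of_finrank F W hd, sum_range_succ']
  simp [Nat.card_eq_fintype_card]

theorem key {Ω : Type*} [Fintype Ω] (A : Finset (Equiv.Perm Ω)) (X Y : Finset Ω)
    (h : ∀ c ∈ X, ∀ d ∈ Y, ∃! s, s ∈ A ∧ s c = d) :
    ∑ s ∈ A, (X.filter fun c => s c ∈ Y).card = X.card * Y.card := by
  simp only [card_filter]
  rw [sum_comm, ← smul_eq_mul, ← sum_const]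
  refine sum_congr rfl fun c hc => ?_
  rw [← card_filter]
  refine card_bij (fun s _ => s c) (fun s hs => (mem_filter.1 hs).2) (fun s hs t ht e => ?_)
    fun d hd => ?_
  · exact (h c hc _ (mem_filter.1 ht).2).unique ⟨(mem_filter.1 hs).1, e⟩ ⟨(mem_filter.1 ht).1, rfl⟩
  · obtain ⟨s, ⟨a, b⟩, -⟩ := h c hc d hd
    exact ⟨s, mem_filter.2 ⟨a, b ▸ hd⟩, b⟩

/-- Let `F` be a finite field and `n ≥ 3`. No set of permutations of the points of the projective space of `Fⁿ`, each induced by an invertible semilinear transformation of `Fⁿ` (so a subset of the full projective semilinear group), is sharply 2-transitive on the points: it is impossible that for all pairs of distinct points `(a, b)` and `(c, d)` exactly one member of the set sends `a` to `c` and `b` to `d`. -/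
theorem result {F : Type*} [Field F] [Finite F]
    (n : ℕ) (hn : 3 ≤ n) (S : Set (Equiv.Perm (Projectivization F (Fin n → F))))
    (hS : ∀ s ∈ S, ∃ (σ : F ≃+* F) (f : (Fin n → F) →ₛₗ[(σ : F →+* F)] (Fin n → F)) (hf : Function.Injective f),
      ∀ x, s x = Projectivization.map f hf x) :
    ¬ (∀ a b c d : Projectivization F (Fin n → F), a ≠ b → c ≠ d →
        ∃! s, s ∈ S ∧ s a = c ∧ s b = d) := by
  intro h
  have := Fintype.ofFinite F
  have := Fintype.ofFinite (ℙ F (Fin n → F))
  let i : Fin n := ⟨0, by omega⟩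
  let x : ℙ F (Fin n → F) := mk F (Pi.single i 1) (by simp)
  let H : Submodule F (Fin n → F) := LinearMap.ker (LinearMap.proj i)
  let A := univ.filter fun s => s ∈ S ∧ s x = x
  have k : ∀ c ≠ x, ∀ d ≠ x, ∃! s, s ∈ A ∧ s c = d := fun c hc d hd => by
    simpa only [A, mem_filter, mem_univ, true_and, and_assoc] using h x c x d hc.symm hd.symm
  have nz : ∀ g : (Fin n → F) →+ F, ∃ v ≠ 0, v i = 0 ∧ g v = 0 := fun g => by
    by_contra! hn
    have := Fintype.card_le_of_injective ((Pi.evalAddMonoidHom (fun _ => F) i).prod g)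
      ((injective_iff_map_eq_zero _).2 fun v hv => by_contra fun e =>
        hn v e (congrArg Prod.fst hv) (congrArg Prod.snd hv))
    rw [Fintype.card_prod, Fintype.card_fun, Fintype.card_fin, ← sq,
      pow_le_pow_iff_right₀ Fintype.one_lt_card] at this
    omega
  let X := univ.filter fun P : ℙ F (Fin n → F) => P.submodule ≤ H
  have hX : ∀ c ∈ X, c ≠ x := by
    rintro _ hc rfl
    simpa [X, x, H] using hc
  obtain ⟨v, v0, v1, -⟩ := nz 0
  have c1 : (X.card : F) = 1 := cnt H (Submodule.ne_bot_iff _ |>.2 ⟨v, v1, v0⟩)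
  have b : mk F v v0 ≠ x := hX _ (by simpa [X, H] using v1)
  have c2 := key A {mk F v v0} (univ.erase x) fun c hc d hd =>
    k c (mem_singleton.1 hc ▸ b) d (mem_erase.1 hd).1
  rw [sum_congr rfl (g := fun _ => 1) fun s hs => by
    rw [filter_singleton, if_pos (mem_erase.2 ⟨fun e => b (s.injective
      (e.trans (mem_filter.1 hs).2.2.symm)), mem_univ _⟩), card_singleton], sum_const, smul_eq_mul,
    mul_one, card_singleton, one_mul] at c2
  have c3 := cnt (⊤ : Submodule F (Fin n → F)) (Submodule.ne_bot_iff _ |>.2 ⟨v, trivial, v0⟩)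
  simp only [le_top, filter_true] at c3
  rw [← card_erase_add_one (mem_univ x), ← c2, Nat.cast_add, Nat.cast_one, add_eq_right] at c3
  have c4 := congrArg (Nat.cast (R := F)) (key A X X fun c hc d hd => k c (hX c hc) d (hX d hd))
  rw [Nat.cast_mul, c1, Nat.cast_sum, sum_congr rfl (g := fun _ => 1) fun s hs => ?_, sum_const,
    nsmul_eq_mul, c3] at c4
  · simp at c4
  obtain ⟨σ, f, hf, e⟩ := hS s (mem_filter.1 hs).2.1
  obtain ⟨w, w0, w1, w2⟩ := nz ((Pi.evalAddMonoidHom (fun _ => F) i).comp f.toAddMonoidHom)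
  rw [← cnt (H ⊓ H.comap f) (Submodule.ne_bot_iff _ |>.2 ⟨w, ⟨w1, w2⟩, w0⟩)]
  congr 2
  ext P
  induction P using Projectivization.ind with
  | h u hu => simp [X, e, map_mk]

end Cfsg.Agent.S2531
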