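import Mathlib
import Cfsg.Statements.S2532
import Cfsg.Agent.FGS.SymSyl

set_option autoImplicit false
open Cfsg

namespace Cfsg.Agent.S2532

open Equiv MulAction

/-- There is a function `f` of two natural-number arguments such that, whenever `m ≥ f(n, r)`, every subgroup of order `n` of the alternating group of degree `m` centralizes some subgroup of that alternating group isomorphic to the alternating group of degree `r`. -/
theorem result :
    ∃ f : ℕ → ℕ → ℕ, ∀ (m r : ℕ) (H : Subgroup ↥(alternatingGroup (Fin m))), f (Nat.card H) r ≤ m →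
      ∃ K : Subgroup ↥(alternatingGroup (Fin m)), Nonempty (↥K ≃* ↥(alternatingGroup (Fin r))) ∧
        K ≤ Subgroup.centralizer (H : Set ↥(alternatingGroup (Fin m))) := by
  classical
  refine ⟨fun n r => n * (2 ^ n * r), fun m r H hm => ?_⟩
  let Q := orbitRel.Quotient H (Fin m)
  haveI := Fintype.ofFinite Q
  haveI := Fintype.ofFinite (Subgroup H)
  have h1 : m ≤ Nat.card H * Nat.card Q := by
    rw [← Nat.card_prod]
    refine (Nat.card_fin m).ge.trans (Nat.card_le_card_of_surjective (fun x : H × Q => x.1 • x.2.out) fun y => ?_)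
    obtain ⟨h, hh⟩ : y ∈ orbit H (Quotient.mk'' y : Q).out := orbitRel_apply.mp ((orbitRel H (Fin m)).symm (Quotient.mk_out' y))
    exact ⟨(h, _), hh⟩
  have h2 : Fintype.card (Subgroup H) ≤ 2 ^ Nat.card H := by
    rw [← Nat.card_eq_fintype_card]
    exact (Nat.card_le_card_of_injective _ SetLike.coe_injective).trans (by
      haveI := Fintype.ofFinite H; simp)
  obtain ⟨S, hS⟩ := Fintype.exists_le_card_fiber_of_mul_le_card (fun q : Q => stabilizer H q.out) (n := r)
    ((Nat.mul_le_mul_right r h2).trans (Nat.card_eq_fintype_card (α := Q) ▸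
      Nat.le_of_mul_le_mul_left (hm.trans h1) Nat.card_pos))
  obtain ⟨q⟩ : Nonempty (Fin r ↪ {q : Q // stabilizer H q.out = S}) := Function.Embedding.nonempty_of_card_le (by
    rwa [Fintype.card_fin, Fintype.card_subtype])
  have h3 : ∀ i (a b : H), a • (q i).1.out = b • (q i).1.out ↔ (a : H ⧸ S) = b := fun i a b => by
    rw [QuotientGroup.eq, ← SetLike.ext_iff.mp (q i).2, mem_stabilizer_iff, mul_smul, inv_smul_eq_iff, eq_comm]
  let ι : Fin r × (H ⧸ S) ↪ Fin m := ⟨fun x => x.2.out • (q x.1).1.out, by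
    rintro ⟨i, a⟩ ⟨j, b⟩ e
    obtain rfl : i = j := q.injective (Subtype.ext (by
      rw [← (q i).1.out_eq', ← (q j).1.out_eq']
      exact Quotient.sound' (orbitRel_apply.mpr ⟨a.out⁻¹ * b.out, by
        simp only [mul_smul, inv_smul_eq_iff]; exact e.symm⟩)))
    exact Prod.ext rfl (a.out_eq'.symm.trans (((h3 i _ _).mp e).trans b.out_eq'))⟩
  have h4 : ∀ (h : H) i c, h • ι (i, c) = ι (i, h • c) := fun h i c =>
    (mul_smul _ _ _).symm.trans ((h3 i _ _).mpr (by
      rw [QuotientGroup.out_eq']; conv_rhs => rw [← c.out_eq']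
      rfl))
  let φ : alternatingGroup (Fin r) →* alternatingGroup (Fin m) := (((Perm.viaEmbeddingHom ι).comp
    (FGS.wrTop (Fin r) (H ⧸ S))).comp (Subgroup.subtype _)).codRestrict _ fun τ => (FGS.sign_viaEmbeddingHom ι _).trans
      ((Perm.sign_prodCongrLeft fun _ : H ⧸ S => τ.1).trans (Finset.prod_eq_one fun _ _ => τ.2))
  have hφ : Function.Injective φ := fun a b e => Subtype.ext (FGS.wrTop_injective (C := H ⧸ S)
    (Perm.viaEmbeddingHom_injective ι (congrArg Subtype.val e)))
  refine ⟨φ.range, ⟨(MonoidHom.ofInjective hφ).symm⟩, ?_⟩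
  rintro _ ⟨τ, rfl⟩ h hh
  refine Subtype.ext (Equiv.ext fun x => ?_)
  change (⟨h, hh⟩ : H) • Perm.viaEmbedding _ ι x = Perm.viaEmbedding _ ι ((⟨h, hh⟩ : H) • x)
  by_cases hx : x ∈ Set.range ι
  · obtain ⟨⟨i, c⟩, rfl⟩ := hx
    rw [h4, Perm.viaEmbedding_apply, Perm.viaEmbedding_apply]
    exact h4 _ _ _
  · rw [Perm.viaEmbedding_apply_of_notMem _ _ _ hx, Perm.viaEmbedding_apply_of_notMem]
    rintro ⟨⟨i, c⟩, e⟩
    exact hx ⟨_, (h4 _ i c).symm.trans (inv_smul_eq_iff.mpr e)⟩

end Cfsg.Agent.S2532
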