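import Mathlib
import Cfsg.Statements.S2533
-- import your own Cfsg.Agent.* helpers here

set_option autoImplicit false
open Cfsg

namespace Cfsg.Agent.S2533

open Matrix

/-- The generalized dihedral group on `K³`. -/
@[ext] structure H (K : Type) where
  /-- translation part -/
  v : Fin 3 → K
  /-- sign -/
  e : ℤˣ

variable {K : Type} [Field K] {m : ℕ}

instance : Group (H K) where
  mul a b := ⟨a.v + a.e • b.v, a.e * b.e⟩
  one := ⟨0, 1⟩
  inv a := ⟨-(a.e⁻¹ • a.v), a.e⁻¹⟩
  mul_assoc a b c := H.ext (by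
    change a.v + a.e • b.v + (a.e * b.e) • c.v = a.v + a.e • (b.v + b.e • c.v)
    rw [smul_add, mul_smul, add_assoc]) (mul_assoc _ _ _)
  one_mul a := H.ext (by change 0 + (1 : ℤˣ) • a.v = a.v; simp) (one_mul _)
  mul_one a := H.ext (by change a.v + a.e • 0 = a.v; simp) (mul_one _)
  inv_mul_cancel a := H.ext (neg_add_cancel _) (inv_mul_cancel _)

/-- The underlying product. -/
def eqv (K : Type) : H K ≃ (Fin 3 → K) × ℤˣ := ⟨fun a => (a.v, a.e), fun a => ⟨a.1, a.2⟩, fun _ => rfl, fun _ => rfl⟩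

/-- The band matrix. -/
def A (K : Type) [Field K] (m : ℕ) : (Fin 3 → K) →+ Matrix (Fin (m + 1)) (Fin m) K :=
  AddMonoidHom.mk' (fun v => of fun i j => ∑ k : Fin 3,
    if (i : ℕ) = j + k then v k else 0) fun v w => by
      ext i j
      simp only [of_apply, Matrix.add_apply, ← Finset.sum_add_distrib, Pi.add_apply]
      refine Finset.sum_congr rfl fun k _ => ?_
      split_ifs <;> simp

theorem A_single (k : Fin 3) (i : Fin (m + 1)) (j : Fin m) :
    A K m (Pi.single k (1 : K)) i j = if (i : ℕ) = j + k then 1 else 0 := by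
  change ∑ l : Fin 3, (if (i : ℕ) = j + l then (Pi.single k (1 : K) : Fin 3 → K) l else 0) = _
  rw [Finset.sum_eq_single k (fun l _ h => by simp [h]) (by simp)]
  simp

/-- The representation. -/
def M (m : ℕ) (a : H K) : Matrix (Fin m ⊕ Fin (m + 1)) (Fin m ⊕ Fin (m + 1)) K :=
  fromBlocks (a.e • 1) 0 (a.e • A K m a.v) 1

theorem M_mul (a b : H K) : M m (a * b) = M m a * M m b := by
  change fromBlocks ((a.e * b.e) • 1) 0 ((a.e * b.e) • A K m (a.v + a.e • b.v)) 1 = _
  rw [M, M, fromBlocks_multiply]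
  rcases Int.units_eq_one_or a.e with h | h <;> rcases Int.units_eq_one_or b.e with k | k <;>
    simp [h, k, add_comm]

theorem det_M (hm : Even m) (a : H K) : (M m a).det = 1 := by
  rw [M, det_fromBlocks_zero₁₂]
  rcases Int.units_eq_one_or a.e with h | h <;> simp [h, det_neg, hm.neg_one_pow]

theorem trace_M (hm : (m : K) = 0) (a : H K) : (M m a).trace = 1 := by
  rcases Int.units_eq_one_or a.e with h | h <;> simp [M, trace, h, hm]

theorem brick (h2 : (2 : K) ≠ 0) (g : Matrix (Fin m ⊕ Fin (m + 1)) (Fin m ⊕ Fin (m + 1)) K)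
    (h : ∀ a, g * M m a = M m a * g) : ∃ r, g = scalar _ r := by
  obtain ⟨a, b, c, d, rfl⟩ : ∃ a b c d, g = fromBlocks a b c d := ⟨_, _, _, _, (fromBlocks_toBlocks g).symm⟩
  have t := h ⟨0, -1⟩
  simp only [M, fromBlocks_multiply, fromBlocks_inj, map_zero, smul_zero, Matrix.mul_zero, add_zero,
    Matrix.mul_one, Matrix.zero_mul, zero_add, Matrix.one_mul, Units.neg_smul, one_smul,
    Matrix.mul_neg, Matrix.neg_mul] at t
  obtain rfl : b = 0 := by
    rw [← smul_eq_zero_iff_right h2, two_smul]; exact eq_neg_iff_add_eq_zero.1 t.2.1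
  obtain rfl : c = 0 := by
    rw [← smul_eq_zero_iff_right h2, two_smul]; exact neg_eq_iff_add_eq_zero.1 t.2.2.1
  have k : ∀ (k : Fin 3) i (j : Fin m), ∑ l, d i l * (if (l : ℕ) = j + k then 1 else 0) =
      ∑ l : Fin m, (if (i : ℕ) = l + k then 1 else 0) * a l j := fun k i j => by
    have t := h ⟨Pi.single k 1, 1⟩
    simp only [M, fromBlocks_multiply, fromBlocks_inj, one_smul, Matrix.zero_mul, zero_add,
      Matrix.mul_zero, add_zero] at t
    simpa only [mul_apply, A_single] using congrFun (congrFun t.2.2.1 i) j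
  have f1 : ∀ (l : Fin (m + 1)) (j : Fin m), (l : ℕ) = j ↔ l = j.castSucc := fun l j =>
    (Fin.ext_iff (b := j.castSucc)).symm
  have f2 : ∀ (l : Fin (m + 1)) (j : Fin m), (l : ℕ) = j + 1 ↔ l = j.succ := fun l j =>
    (Fin.ext_iff (b := j.succ)).symm
  have k1 : ∀ i j : Fin m, d i.castSucc j.castSucc = a i j := fun i j => by
    simpa [f1, Fin.val_inj] using k 0 i.castSucc j
  have k2 : ∀ j : Fin m, d (Fin.last m) j.castSucc = 0 := fun j => by
    simpa [f1, (Fin.is_lt _).ne'] using k 0 (Fin.last m) j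
  have k3 : ∀ i j : Fin m, d i.succ j.succ = a i j := fun i j => by
    simpa [f2, Fin.val_inj] using k 1 i.succ j
  have k4 : ∀ j : Fin m, d 0 j.succ = 0 := fun j => by
    simpa [f2] using k 1 0 j
  have T : ∀ t i j (hi : i + t < m + 1) (hj : j + t < m + 1),
      d ⟨i + t, hi⟩ ⟨j + t, hj⟩ = d ⟨i, by omega⟩ ⟨j, by omega⟩ := fun t i j hi hj => by
    induction t with
    | zero => rfl
    | succ t ih =>
      exact ((k3 ⟨i + t, by omega⟩ ⟨j + t, by omega⟩).trans (k1 _ _).symm).trans (ih _ _)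
  have e : d = scalar _ (d 0 0) := by
    ext ⟨i, hi⟩ ⟨j, hj⟩
    rw [scalar_apply, diagonal_apply]
    split_ifs with h
    · obtain rfl : i = j := congrArg Fin.val h
      simpa using T i 0 0 (by omega) (by omega)
    have h : i ≠ j := fun e => h (Fin.ext e)
    rcases h.lt_or_gt with h | h
    · obtain ⟨s, rfl⟩ := Nat.exists_eq_add_of_lt h
      have := T i 0 (s + 1) (by omega) (by omega)
      simp only [zero_add] at this
      refine Eq.trans ?_ (this.trans (k4 ⟨s, by omega⟩))
      congr 2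
      omega
    · have := T (m - i) i j (by omega) (by omega)
      rw [← this, ← k2 ⟨j + (m - i), by omega⟩]
      congr 1
      exact Fin.ext (by simp; omega)
  refine ⟨d 0 0, ?_⟩
  have e' : a = scalar _ (d 0 0) := by
    ext i j
    rw [← k1, e]
    simp [diagonal_apply]
  rw [e', e, scalar_apply, scalar_apply, scalar_apply, fromBlocks_diagonal]
  congr 1; funext i; cases i <;> simp

/-- For every odd prime `p` there is a finite group `H` of order `2p³` which, for infinitely many `n`, embeds in the projective special linear group `PSL(n, p)` as a subgroup with trivial centralizer. -/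
theorem result
    (p : ℕ) [Fact p.Prime] (hp : p ≠ 2) :
    ∃ (H : Type) (_ : Group H) (_ : Finite H), Nat.card H = 2 * p ^ 3 ∧
      ∀ N : ℕ, ∃ n, N ≤ n ∧ ∃ φ : H →* Matrix.ProjectiveSpecialLinearGroup (Fin n) (ZMod p),
        Function.Injective φ ∧ Subgroup.centralizer (φ.range : Set (Matrix.ProjectiveSpecialLinearGroup (Fin n) (ZMod p))) = ⊥ := by
  refine ⟨H (ZMod p), inferInstance, Finite.of_equiv _ (eqv _).symm, by
    rw [Nat.card_congr (eqv _)]; simp [mul_comm], fun N => ?_⟩
  obtain ⟨m, hm, h0, h2, hN⟩ : ∃ m : ℕ, Even m ∧ (m : ZMod p) = 0 ∧ 2 ≤ m ∧ N ≤ m :=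
    ⟨2 * (p * (N + 1)), even_two_mul _, by simp, by have := (Fact.out : p.Prime).pos; nlinarith,
      by have := (Fact.out : p.Prime).pos; nlinarith⟩
  let R := reindexAlgEquiv (ZMod p) (ZMod p) (finSumFinEquiv (m := m) (n := m + 1))
  have Rs : ∀ r, R (scalar _ r) = scalar _ r := R.commutes
  let ρ : H (ZMod p) →* Matrix.SpecialLinearGroup (Fin (m + (m + 1))) (ZMod p) :=
    MonoidHom.mk' (fun a => ⟨R (M m a), (det_reindexAlgEquiv _ _ _ _).trans (det_M hm a)⟩)
      fun a b => Subtype.ext (by change R _ = R _ * R _; rw [M_mul, map_mul])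
  refine ⟨_, by omega, (QuotientGroup.mk' _).comp ρ, (injective_iff_map_eq_one _).2 fun a ha => ?_,
    eq_bot_iff.2 fun g hg => ?_⟩
  · obtain ⟨r, -, e⟩ := Matrix.SpecialLinearGroup.mem_center_iff.1 ((QuotientGroup.eq_one_iff (ρ a)).1 ha)
    have e : scalar _ r = M m a := R.injective ((Rs r).trans e)
    have e1 := congrFun (congrFun e (Sum.inr 0)) (Sum.inr 0)
    have e2 := congrFun (congrFun e (Sum.inl ⟨0, by omega⟩)) (Sum.inl ⟨0, by omega⟩)
    have e3 := fun k : Fin 3 => congrFun (congrFun e (Sum.inr ⟨k, by omega⟩)) (Sum.inl ⟨0, by omega⟩)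
    have t : (2 : ZMod p) ≠ 0 := by
      exact_mod_cast mt ((ZMod.natCast_eq_zero_iff 2 p).trans
        (Nat.prime_dvd_prime_iff_eq Fact.out Nat.prime_two)).1 hp
    rcases Int.units_eq_one_or a.e with h | h
    · refine H.ext (funext fun k => ?_) h
      have := e3 k
      simp [M, h, A, Fin.val_inj] at this
      exact this.symm
    · simp [M, h] at e1 e2
      exact (t (by linear_combination e2 - e1)).elim
  obtain ⟨g, rfl⟩ := QuotientGroup.mk_surjective g
  obtain ⟨r, e⟩ := brick (m := m) (K := ZMod p) (by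
    exact_mod_cast mt ((ZMod.natCast_eq_zero_iff 2 p).trans
      (Nat.prime_dvd_prime_iff_eq Fact.out Nat.prime_two)).1 hp) (R.symm g.1) fun a => by
    obtain ⟨c, -, e⟩ := Matrix.SpecialLinearGroup.mem_center_iff.1 (QuotientGroup.eq (a := ρ a * g) (b := g * ρ a) |>.1 (hg _ ⟨a, rfl⟩))
    have e1 : (g * ρ a * g⁻¹).1 = c • (ρ a).1 := by
      have : g * ρ a * g⁻¹ = ρ a * g * ((ρ a * g)⁻¹ * (g * ρ a)) * g⁻¹ := by group
      rw [this, Matrix.SpecialLinearGroup.coe_mul, Matrix.SpecialLinearGroup.coe_mul, ← e, scalar_apply,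
        ← smul_eq_mul_diagonal, smul_mul_assoc, ← Matrix.SpecialLinearGroup.coe_mul, mul_inv_cancel_right]
    have e2 := congrArg trace e1
    rw [Matrix.SpecialLinearGroup.coe_mul, trace_mul_comm, ← Matrix.SpecialLinearGroup.coe_mul, ← mul_assoc,
      inv_mul_cancel, one_mul, trace_smul, show (ρ a).1.trace = 1 from
        (Equiv.sum_comp finSumFinEquiv.symm fun i => M m a i i).trans (trace_M h0 a), smul_eq_mul, mul_one] at e2
    rw [← e2, one_smul] at e1
    have e3 : g * ρ a * g⁻¹ = ρ a := Subtype.ext e1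
    rw [mul_inv_eq_iff_eq_mul] at e3
    exact R.injective (by
      rw [map_mul, map_mul, R.apply_symm_apply]
      exact congrArg Subtype.val e3)
  refine (QuotientGroup.eq_one_iff _).2 (Subgroup.mem_center_iff.2 fun k => Subtype.ext ?_)
  have : g.1 = scalar _ r := by rw [← Rs, ← e, R.apply_symm_apply]
  rw [Matrix.SpecialLinearGroup.coe_mul, Matrix.SpecialLinearGroup.coe_mul, this]
  exact (scalar_commute r (fun _ => Commute.all _ _) _).eq.symm

end Cfsg.Agent.S2533
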