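import Mathlib
import Cfsg.Statements.S2534
import Cfsg.Agent.HallSym.Fin

set_option autoImplicit false
open Cfsg

namespace Cfsg.Agent.S2534


/-- For `n ≥ 5` and a set of primes `π`, the alternating group of degree `n` satisfies the full Sylow analogue for `π` (its maximal `π`-subgroups are pairwise conjugate; for a finite group this says Hall `π`-subgroups exist, are all conjugate, and contain every `π`-subgroup up to conjugacy) if and only if either at most one prime of `π` divides its order or every prime dividing its order lies in `π`. -/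
theorem result (n : ℕ) (hn : 5 ≤ n) (π : Set ℕ) :
    Cfsg.IsDPiGroup π ↥(alternatingGroup (Fin n)) ↔
      ((∀ r s : ℕ, r.Prime → s.Prime → r ∈ π → s ∈ π → r ∣ Nat.card ↥(alternatingGroup (Fin n)) → s ∣ Nat.card ↥(alternatingGroup (Fin n)) → r = s) ∨
        ∀ r : ℕ, r.Prime → r ∣ Nat.card ↥(alternatingGroup (Fin n)) → r ∈ π) := by
  refine ⟨fun hD => by_contra fun c => HallSym.not_D_alt hn ?_ hD,
    fun h => h.elim HallSym.D_of_one HallSym.D_of_all⟩
  have k : ∀ r : ℕ, r.Prime → r ∣ Nat.card (alternatingGroup (Fin n)) → r ≤ n := fun r hr h => by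
    simpa using HallSym.le_of_dvd_perm hr (h.trans (Subgroup.card_subgroup_dvd_card _))
  push Not at c
  obtain ⟨⟨r, s, h1, h2, h3, h4, h5, h6, h7⟩, t, h8, h9, h10⟩ := c
  exact ⟨⟨r, s, h1, h2, h7, h3, h4, k r h1 h5, k s h2 h6⟩, t, h8, k t h8 h9, h10⟩

end Cfsg.Agent.S2534
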