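import Mathlib
import Cfsg.Statements.S2536
import Cfsg.Agent.HallSym.Fin

set_option autoImplicit false
open Cfsg

namespace Cfsg.Agent.S2536


/-- Let `π` be a set of primes and `n` a natural number such that at least two primes of `π` divide `n!` but not every prime dividing `n!` lies in `π`. Then the symmetric group of degree `n` has a Hall `π`-subgroup if and only if either `n` is prime and the primes of `π` dividing `n!` are exactly the primes smaller than `n` (a point stabilizer is then such a subgroup), or `n ∈ {7, 8}` and the primes of `π` dividing `n!` are exactly 2 and 3. -/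
theorem result (n : ℕ) (π : Set ℕ)
    (h2 : ∃ r s : ℕ, r.Prime ∧ s.Prime ∧ r ≠ s ∧ r ∈ π ∧ s ∈ π ∧ r ≤ n ∧ s ≤ n)
    (hns : ∃ r : ℕ, r.Prime ∧ r ≤ n ∧ r ∉ π) :
    Cfsg.IsEPiGroup π (Equiv.Perm (Fin n)) ↔
      ((n.Prime ∧ ∀ r : ℕ, r.Prime → r ≤ n → (r ∈ π ↔ r < n)) ∨
       ((n = 7 ∨ n = 8) ∧ ∀ r : ℕ, r.Prime → r ≤ n → (r ∈ π ↔ (r = 2 ∨ r = 3)))) := by
  constructor
  · rintro ⟨H, hH⟩
    obtain ⟨D, -, h, -⟩ := HallSym.hall_perm (by rw [Fintype.card_fin]; exact ⟨h2, hns⟩) hH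
    rw [Fintype.card_fin] at h
    exact h.imp (fun h => ⟨h.1, h.2.2⟩) fun h => ⟨h.1, h.2.2⟩
  · rintro (⟨h, h'⟩ | ⟨h, h'⟩)
    · obtain ⟨r, s, r1, s1, e, r2, s2, r3, s3⟩ := h2
      have := (h' r r1 r3).1 r2
      have := (h' s s1 s3).1 s2
      have := r1.two_le
      have := s1.two_le
      have := h.five_le_of_ne_two_of_ne_three (by omega) (by omega)
      exact HallSym.hall_St this (a := n - 1) (Or.inl ⟨h, by omega, h'⟩)
    · exact HallSym.hall_St (by omega) (Or.inr ⟨h, rfl, h'⟩)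

end Cfsg.Agent.S2536
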