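import Mathlib
import Cfsg.Statements.S2537
import Cfsg.Agent.Max.L2g

set_option autoImplicit false
open Cfsg

namespace Cfsg.Agent.S2537

open scoped Pointwise
open Cfsg.Agent.Max.L2 Cfsg.Agent.Classical.PSL2Basic Cfsg.Agent.Classical.P1Ident
  Cfsg.Agent.Classical.Congr Cfsg.Agent.Classical.P1
def pt23 (n : ℕ) : ℕ := 2 ^ n.factorization 2 * 3 ^ n.factorization 3

theorem prime_pt {n r : ℕ} (hr : r.Prime) (h : r ∣ pt23 n) : r = 2 ∨ r = 3 :=
  ((Nat.Prime.dvd_mul hr).1 h).imp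
    (fun h => (Nat.prime_dvd_prime_iff_eq hr Nat.prime_two).1 (hr.dvd_of_dvd_pow h))
    (fun h => (Nat.prime_dvd_prime_iff_eq hr Nat.prime_three).1 (hr.dvd_of_dvd_pow h))

theorem pt_spec {n : ℕ} (hn : n ≠ 0) : ∃ i, n = pt23 n * i ∧ ¬ 2 ∣ i ∧ ¬ 3 ∣ i := by
  obtain ⟨i, hi⟩ : pt23 n ∣ n := Nat.Coprime.mul_dvd_of_dvd_of_dvd
    (Nat.Coprime.pow _ _ (by norm_num)) (Nat.ordProj_dvd n 2) (Nat.ordProj_dvd n 3)
  refine ⟨i, hi, fun ⟨j, hj⟩ => Nat.pow_succ_factorization_not_dvd hn Nat.prime_two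
    ⟨3 ^ n.factorization 3 * j, ?_⟩, fun ⟨j, hj⟩ => Nat.pow_succ_factorization_not_dvd hn
      Nat.prime_three ⟨2 ^ n.factorization 2 * j, ?_⟩⟩ <;>
  · conv_lhs => rw [hi, hj, pt23]
    ring

theorem cop {a i : ℕ} (ha : ∀ r, r.Prime → r ∣ a → r = 2 ∨ r = 3) (h2 : ¬ 2 ∣ i) (h3 : ¬ 3 ∣ i) :
    a.Coprime i :=
  Nat.coprime_of_dvd fun r hr h h' => by rcases ha r hr h with rfl | rfl <;> contradiction

theorem pt_eq {n a i : ℕ} (hn : n ≠ 0) (h : n = a * i) (ha : ∀ r, r.Prime → r ∣ a → r = 2 ∨ r = 3)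
    (h2 : ¬ 2 ∣ i) (h3 : ¬ 3 ∣ i) : pt23 n = a := by
  obtain ⟨j, e, h4, h5⟩ := pt_spec hn
  refine Nat.dvd_antisymm ((cop (fun _ => prime_pt) h2 h3).dvd_of_dvd_mul_right ⟨j, ?_⟩)
    ((cop ha h4 h5).dvd_of_dvd_mul_right ⟨i, ?_⟩)
  · rw [← h, ← e]
  · rw [← h, ← e]

/-- Let `F` be a finite field with `q` elements of characteristic `p ≥ 5`, and `ε = 1` if `q ≡ 1 (mod 4)`, `ε = -1` otherwise. Then `PSL(2, F)` has a Hall `{2, 3}`-subgroup if and only if `3` divides `q − ε`, or the `{2,3}`-part of `q² − 1` is 24, or the `{2,3}`-part of `q² − 1` is 48 (the `{2,3}`-part of `m` being the largest divisor of `m` with no prime factor other than 2 and 3). -/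
theorem result {F : Type*} [Field F] [Fintype F] {p : ℕ} [Fact p.Prime] [CharP F p]
    (hp : 5 ≤ p) (q : ℕ) (hq : Fintype.card F = q) :
    (∃ H : Subgroup (Matrix.ProjectiveSpecialLinearGroup (Fin 2) F), Cfsg.IsPiHall ({2, 3} : Set ℕ) H) ↔
      (3 ∣ q - 1 ∧ q % 4 = 1) ∨ (3 ∣ q + 1 ∧ q % 4 = 3) ∨
        2 ^ (q ^ 2 - 1).factorization 2 * 3 ^ (q ^ 2 - 1).factorization 3 = 24 ∨
        2 ^ (q ^ 2 - 1).factorization 2 * 3 ^ (q ^ 2 - 1).factorization 3 = 48 := by
  rw [← Nat.card_eq_fintype_card] at hq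
  change _ ↔ _ ∨ _ ∨ pt23 _ = 24 ∨ pt23 _ = 48
  have hp' : p.Prime := Fact.out
  have h2 : (2 : F) ≠ 0 := Cfsg.Agent.Classical.SL2Basic.two_ne_zero_of_char (p := p) (by omega)
  haveI := NeZero.mk h2
  have hd : dd F = 2 := gcd_eq_two h2
  have q1 : 1 < q := hq ▸ Finite.one_lt_card
  have qr : ∀ r, r.Prime → r ∣ q → r = p := fun r hr h => by
    obtain ⟨n, -, e⟩ := FiniteField.card F p
    rw [← hq, Nat.card_eq_fintype_card, e] at h
    exact (Nat.prime_dvd_prime_iff_eq hr hp').1 (hr.dvd_of_dvd_pow h)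
  have q2 : ¬ 2 ∣ q := fun h => by have := qr 2 Nat.prime_two h; omega
  have q3 : ¬ 3 ∣ q := fun h => by have := qr 3 Nat.prime_three h; omega
  have hN : q ^ 2 - 1 = (q - 1) * (q + 1) := by
    rw [mul_comm, ← Nat.sq_sub_sq, one_pow]
  have hN0 : q ^ 2 - 1 ≠ 0 := by rw [hN]; exact mul_ne_zero (by omega) (by omega)
  have hL := card_LL (F := F)
  rw [hd, hq] at hL
  obtain ⟨j, hj, j2, j3⟩ := pt_spec hN0
  have hqN : pt23 (q * (q ^ 2 - 1)) = pt23 (q ^ 2 - 1) :=
    pt_eq (i := q * j) (mul_ne_zero (by omega) hN0) (by linear_combination q * hj)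
      (fun _ => prime_pt) (by rw [Nat.prime_two.dvd_mul]; tauto)
      (by rw [Nat.prime_three.dvd_mul]; tauto)
  have key : ∀ H : Subgroup (Matrix.ProjectiveSpecialLinearGroup (Fin 2) F),
      Cfsg.IsPiHall ({2, 3} : Set ℕ) H ↔ pt23 (q ^ 2 - 1) = 2 * Nat.card (H.map toP) := by
    intro H
    have h1 := index_mul_card_map H
    rw [Cfsg.IsPiHall, Nat.card_congr (eqvP H).toEquiv]
    constructor
    · rintro ⟨h3, h4⟩
      rw [← hqN]
      refine pt_eq (i := H.index) (mul_ne_zero (by omega) hN0) (by rw [← hL, ← h1]; ring)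
        (fun r hr h => ?_) (h4 2 Nat.prime_two (by simp)) (h4 3 Nat.prime_three (by simp))
      rcases (Nat.Prime.dvd_mul hr).1 h with h | h
      · exact Or.inl ((Nat.prime_dvd_prime_iff_eq hr Nat.prime_two).1 h)
      · exact h3 r hr h
    · intro h
      have h3 : H.index = q * j := by
        refine Nat.eq_of_mul_eq_mul_left (show 0 < 2 * Nat.card (H.map toP) from
          mul_pos two_pos Nat.card_pos) ?_
        rw [mul_assoc, h1, hL, ← h]
        conv_lhs => rw [hj]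
        ring
      refine ⟨fun r hr e => prime_pt hr (h ▸ e.mul_left 2), ?_⟩
      rintro r hr (rfl | rfl) <;> rw [h3, hr.dvd_mul] <;> tauto
  have key2 : ∀ X ≤ LL F, pt23 (q ^ 2 - 1) = 2 * Nat.card X →
      ∃ H : Subgroup (Matrix.ProjectiveSpecialLinearGroup (Fin 2) F),
        Cfsg.IsPiHall ({2, 3} : Set ℕ) H := fun X hX h =>
    ⟨X.comap toP, (key _).2 (by rwa [map_comap_toP hX])⟩
  have key3 : ∀ (T D : Subgroup (Matrix.ProjGenLinGroup (Fin 2) F)) (k k' : ℕ), Tor T D k →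
      q ^ 2 - 1 = k * k' → 3 ∣ k → ¬ 3 ∣ k' → k' % 4 = 2 →
      ∃ H : Subgroup (Matrix.ProjectiveSpecialLinearGroup (Fin 2) F),
        Cfsg.IsPiHall ({2, 3} : Set ℕ) H := by
    intro T D k k' hT e h3 h4 h5
    obtain ⟨a, ha, haL, ho⟩ := hT.genL
    obtain ⟨s, hs, hsL, hs'⟩ := hT.exL
    obtain ⟨m, rfl⟩ := hd ▸ hT.dd_dvd
    rw [hd, Nat.mul_div_cancel_left _ two_pos] at ho
    have m0 : m ≠ 0 := by have := hT.k_pos; omega
    obtain ⟨i, hi, i2, i3⟩ := pt_spec m0
    have h6 : orderOf (a ^ i) = pt23 m := by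
      have i0 : 0 < i := Nat.pos_of_ne_zero (by rintro rfl; simp at i2)
      rw [orderOf_pow_of_dvd i0.ne' (ho ▸ ⟨pt23 m, by rw [mul_comm]; exact hi⟩), ho]
      conv_lhs => rw [hi]
      exact Nat.mul_div_cancel _ i0
    have h7 : 3 ∣ pt23 m := by
      have : 3 ∣ pt23 m * i := by rw [← hi]; omega
      exact (Nat.prime_three.dvd_mul.1 this).resolve_right i3
    have h8 : DP (a ^ i) s (pt23 m) := DP.of h6 (hT.inv hs hs' (pow_mem ha i)) (hT.sq s hs hs')
      fun e => by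
        rw [← sq, ← orderOf_dvd_iff_pow_eq_one, h6] at e
        exact absurd (h7.trans e) (by norm_num)
    refine key2 (Subgroup.closure {a ^ i, s}) ?_ ?_
    · rw [Subgroup.closure_le]
      rintro _ (rfl | rfl)
      exacts [pow_mem haL i, hsL]
    · rw [h8.card]
      obtain ⟨l, rfl⟩ : 2 ∣ k' := by omega
      refine pt_eq (i := i * l) hN0 (by rw [e]; linear_combination 4 * l * hi) (fun r hr h => ?_)
        (by rw [Nat.prime_two.dvd_mul]; omega) (by rw [Nat.prime_three.dvd_mul]; omega)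
      rw [← mul_assoc] at h
      rcases (Nat.Prime.dvd_mul hr).1 h with h | h
      · exact Or.inl ((Nat.prime_dvd_prime_iff_eq hr Nat.prime_two).1
          (hr.dvd_of_dvd_pow (n := 2) h))
      · exact prime_pt hr h
  constructor
  · rintro ⟨H, hH⟩
    have h3 := (key H).1 hH
    have h4 : H.map toP ≤ LL F := by rintro _ ⟨g, -, rfl⟩; exact ⟨g, rfl⟩
    have h5 : ∀ (X : Subgroup (Matrix.ProjGenLinGroup (Fin 2) F)) (i : ℕ), H.map toP ≤ X →
        q * (q ^ 2 - 1) = 2 * Nat.card ↥(X ⊓ LL F) * i → ¬ 2 ∣ i ∧ ¬ 3 ∣ i := by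
      intro X i hX e
      obtain ⟨l, hl⟩ := Subgroup.card_dvd_of_le (le_inf hX h4)
      have : H.index = l * i := by
        refine Nat.eq_of_mul_eq_mul_left (show 0 < 2 * Nat.card (H.map toP) from
          mul_pos two_pos Nat.card_pos) ?_
        rw [mul_assoc, index_mul_card_map H, hL, e, hl]; ring
      exact ⟨fun h => hH.2 2 Nat.prime_two (by simp) (this ▸ h.mul_left l),
        fun h => hH.2 3 Nat.prime_three (by simp) (this ▸ h.mul_left l)⟩
    have h6 : ∀ r, r.Prime → r ∣ Nat.card (H.map toP) → r = 2 ∨ r = 3 := fun r hr h =>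
      prime_pt hr (h3 ▸ h.mul_left 2)
    rcases dickson2 (H.map toP) with ⟨x, h⟩ | ⟨T, D, k, hT, h⟩ | ⟨-, h | h | h⟩ | ⟨K, c, -, h⟩
    · have := (h5 _ (q + 1) h (by
        have := card_stab_inf x
        rw [hd] at this
        rw [this, hq, hN, mul_assoc])).1
      omega
    · have h7 := hT.DL.2
      rw [hd, Nat.mul_div_cancel' (hd ▸ hT.dd_dvd)] at h7
      rcases hT.k_eq with rfl | rfl
      · obtain ⟨l, hl⟩ : 2 ∣ q + 1 := by omega
        have := h5 _ (q * l) h (by rw [h7, hN, hq, hl]; ring)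
        rw [Nat.prime_two.dvd_mul, Nat.prime_three.dvd_mul] at this
        refine Or.inl ⟨?_, by omega⟩
        have h8 : q % 3 ≠ 2 := fun e => this.2 (Or.inr (by omega))
        omega
      · obtain ⟨l, hl⟩ : 2 ∣ q - 1 := by omega
        have := h5 _ (q * l) h (by rw [h7, hN, hq, hl]; ring)
        rw [Nat.prime_two.dvd_mul, Nat.prime_three.dvd_mul] at this
        refine Or.inr (Or.inl ⟨?_, by omega⟩)
        have h8 : q % 3 ≠ 1 := fun e => this.2 (Or.inr (by omega))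
        omega
    · rw [card_of_equiv h Cfsg.Agent.Classical.DicksonSL.card_A4] at h3; tauto
    · rw [card_of_equiv h Cfsg.Agent.Classical.DicksonSL.card_S4] at h3; tauto
    · have := h6 5 Nat.prime_five
        (by rw [card_of_equiv h Cfsg.Agent.Classical.DicksonSL.card_A5]; norm_num)
      omega
    · have h7 : p ∣ Nat.card (subPSL K) := by
        have h8 : p ∣ Nat.card K := by
          obtain ⟨n, -, e⟩ := @FiniteField.card K _ (Fintype.ofFinite K) p _
          rw [@Nat.card_eq_fintype_card _ (Fintype.ofFinite K), e]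
          exact dvd_pow_self _ n.ne_zero
        refine (hp'.dvd_mul.1 (card_subPSL K ▸ h8.mul_right _)).resolve_left fun h => ?_
        have := Nat.le_of_dvd dd_pos h
        have := dd_le (F := K)
        omega
      have := h6 p hp' (by
        rw [← card_conj _ c]
        rcases h with h | h <;> rw [h]
        exacts [h7.trans (Subgroup.card_dvd_of_le (subPSL_le_subPGL K)), h7])
      omega
  · rintro (h | h | h | h)
    · obtain ⟨T, D, hT⟩ := exists_tor_minus F
      exact key3 T D _ (q + 1) hT (hq ▸ hN) (hq ▸ h.1) (by omega) (by omega)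
    · obtain ⟨T, D, hT⟩ := exists_tor_plus F
      exact key3 T D _ (q - 1) hT (hq ▸ hN.trans (mul_comm _ _)) (hq ▸ h.1) (by omega) (by omega)
    · exact key2 _ A0_le_LL (by rw [h, card_A0])
    · refine key2 _ (S0_le_LL_iff.2 (isSquare_two_iff'.2 ?_)) (by rw [h, card_S0])
      rw [h] at hj
      have : q ^ 2 % 16 = 1 := by have := Nat.one_le_pow 2 q (by omega); omega
      rw [hq]
      have h8 : q % 8 < 8 := Nat.mod_lt _ (by norm_num)
      rw [← Nat.div_add_mod q 8] at this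
      generalize q / 8 = u at this
      ring_nf at this
      interval_cases q % 8 <;> omega

end Cfsg.Agent.S2537
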