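import Mathlib
import Cfsg.Statements.S2540
import Cfsg.Agent.Classical.SLBasic
import Cfsg.Agent.Classical.SpMat

set_option autoImplicit false
open Cfsg

namespace Cfsg.Agent.S2540

open Subgroup Matrix
open scoped commutatorElement

theorem le_center_or {S : Type*} [Group S] (hp : commutator S = ⊤) [IsSimpleGroup (S ⧸ center S)] (N : Subgroup S)
    [N.Normal] : N ≤ center S ∨ N = ⊤ := by
  rcases (Subgroup.Normal.map ‹N.Normal› (QuotientGroup.mk' (center S))
    (QuotientGroup.mk'_surjective _)).eq_bot_or_eq_top with h | h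
  · left; rwa [Subgroup.map_eq_bot_iff, QuotientGroup.ker_mk'] at h
  · right
    have h1 := congrArg (comap (QuotientGroup.mk' (center S))) h
    rw [comap_map_eq, QuotientGroup.ker_mk', comap_top] at h1
    rw [eq_top_iff, ← hp, _root_.commutator_def, commutator_le]
    intro a _ b _
    obtain ⟨x, hx, z, hz, rfl⟩ := mem_sup_of_normal_right.mp (h1 ▸ mem_top a)
    have : ⁅x * z, b⁆ = x * (b * x⁻¹ * b⁻¹) := by
      rw [commutatorElement_def, _root_.mul_inv_rev, mul_assoc x z b, ← mem_center_iff.mp hz b]; group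
    rw [this]
    exact N.mul_mem hx (Subgroup.Normal.conj_mem ‹_› _ (N.inv_mem hx) _)

theorem comm_of {S H : Type*} [Group S] [Group H] (hp : commutator S = ⊤) (φ : S →* H) (hinj : Function.Injective φ)
    {g : H} (h1 : ∀ s, ∃ z ∈ center S, φ z = φ s * g * (φ s)⁻¹ * g⁻¹) (s : S) : φ s * g = g * φ s := by
  choose z hz1 hz2 using h1
  have hm : ∀ a b, z (a * b) = z a * z b := fun a b => hinj (by
    have e := congrArg φ (mem_center_iff.mp (hz1 b) a)
    simp only [map_mul, hz2] at e
    rw [mem_center_iff.mp (hz1 b), map_mul, hz2, hz2, hz2, map_mul]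
    calc _ = φ a * (φ b * g * (φ b)⁻¹ * g⁻¹) * g * (φ a)⁻¹ * g⁻¹ := by group
      _ = _ := by rw [e]; group)
  have e : commutator S ≤ (MonoidHom.mk' z hm).ker := by
    rw [_root_.commutator_def, commutator_le]
    intro a _ b _
    rw [MonoidHom.mem_ker, map_commutatorElement, commutatorElement_eq_one_iff_mul_comm]
    exact mem_center_iff.mp (hz1 b) _
  have e1 : z s = 1 := e (hp ▸ mem_top s)
  have := hz2 s
  rw [e1, map_one, eq_comm, mul_inv_eq_one, mul_inv_eq_iff_eq_mul] at this
  exact this

/-- Let F be a finite field and n ≥ 1, excluding the case n = 2 with #F ≤ 3. A subgroup of GL_n(F) that is normalized by every element of SL_n(F) either consists of scalar matrices or contains SL_n(F). -/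
theorem result {F : Type*} [Field F] [Fintype F] (n : ℕ) (hn : 1 ≤ n) (hex : ¬ (n = 2 ∧ Fintype.card F ≤ 3)) (G : Subgroup (Matrix.GeneralLinearGroup (Fin n) F)) (hG : ∀ s : Matrix.SpecialLinearGroup (Fin n) F, ∀ g ∈ G, (Matrix.SpecialLinearGroup.toGL s) * g * (Matrix.SpecialLinearGroup.toGL s)⁻¹ ∈ G) : (∀ g ∈ G, ∃ c : F, (g : Matrix (Fin n) (Fin n) F) = c • (1 : Matrix (Fin n) (Fin n) F)) ∨ (Matrix.SpecialLinearGroup.toGL : Matrix.SpecialLinearGroup (Fin n) F →* _).range ≤ G := by
  classical
  rcases (show n = 1 ∨ 2 ≤ n by omega) with rfl | h2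
  · left
    intro g _
    exact ⟨g 0 0, by ext i j; fin_cases i; fin_cases j; simp⟩
  obtain ⟨hp, hs⟩ : commutator (SpecialLinearGroup (Fin n) F) = ⊤ ∧
      IsSimpleGroup (ProjectiveSpecialLinearGroup (Fin n) F) := by
    rcases h2.eq_or_lt with rfl | h3
    · have h4 : 4 ≤ Nat.card F := by rw [Nat.card_eq_fintype_card]; omega
      obtain ⟨a, ha, ha2⟩ := Classical.SpMat.exists_sq_ne_one h4
      exact ⟨Matrix.SL2.commutator_eq_top ha ha2, ProjectiveSpecialLinearGroup.rank_two_simple h4⟩
    · exact ⟨Classical.SLBasic.commutator_SL_eq_top (by rw [Fintype.card_fin]; omega),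
        Classical.SLBasic.isSimpleGroup_PSL (by rw [Fintype.card_fin]; omega)⟩
  set φ : SpecialLinearGroup (Fin n) F →* GL (Fin n) F := SpecialLinearGroup.toGL with hφ
  have hinj : Function.Injective φ := SpecialLinearGroup.toGL_injective
  haveI : (G.comap φ).Normal := ⟨fun a ha s => by simpa using hG s _ ha⟩
  rcases le_center_or hp (G.comap φ) with h | h
  · left
    intro g hg
    have h1 : ∀ s, ∃ z ∈ center (SpecialLinearGroup (Fin n) F), φ z = φ s * g * (φ s)⁻¹ * g⁻¹ := fun s => by
      obtain ⟨z, hz⟩ : φ s * g * (φ s)⁻¹ * g⁻¹ ∈ φ.range := by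
        rw [hφ, Classical.SLBasic.range_toGL_eq_ker, MonoidHom.mem_ker]
        simp only [map_mul, map_inv]
        rw [mul_comm _ (GeneralLinearGroup.det g)]
        simp
      exact ⟨z, h (by rw [mem_comap, hz]; exact G.mul_mem (hG s g hg) (G.inv_mem hg)), hz⟩
    have h3 := comm_of hp φ hinj h1
    obtain ⟨r, hr⟩ := mem_range_scalar_of_commute_single (M := g.1) fun i j hij => by
      have := congrArg Units.val (h3 (SpecialLinearGroup.transvection hij 1))
      change (1 + single i j 1) * g.1 = g.1 * (1 + single i j 1) at this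
      rw [add_mul, mul_add, one_mul, mul_one, add_right_inj] at this
      exact this
    exact ⟨r, by rw [← hr]; simp [smul_one_eq_diagonal]⟩
  · right
    rintro _ ⟨s, rfl⟩
    exact (h ▸ mem_top s : s ∈ G.comap φ)

end Cfsg.Agent.S2540
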