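import Mathlib
import Cfsg.Statements.S2541
import Cfsg.Agent.Classical.P1

set_option autoImplicit false
open Cfsg

namespace Cfsg.Agent.S2541

/-- Let F be a field with 9 elements. The symmetric group S_6 is not isomorphic to PGL_2(F) (although both have index-2 subgroups isomorphic to A_6). -/
theorem result {F : Type*} [Field F] [Fintype F] (hF : Fintype.card F = 9) : ¬ Nonempty (Equiv.Perm (Fin 6) ≃* Matrix.ProjGenLinGroup (Fin 2) F) := by
  rintro ⟨e⟩
  obtain ⟨ω, hω⟩ := IsCyclic.exists_ofOrder_eq_natCard (α := Fˣ)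
  rw [Nat.card_units, Nat.card_eq_fintype_card, hF] at hω
  obtain ⟨g, hg⟩ := e.surjective (Classical.P1.aff ω 0)
  have h1 : g ^ 60 = 1 := by
    rw [← orderOf_dvd_iff_pow_eq_one, ← Equiv.Perm.lcm_cycleType, Multiset.lcm_dvd]
    intro n hn
    have h1 := Equiv.Perm.two_le_of_mem_cycleType hn
    have h2 := (Equiv.Perm.le_card_support_of_mem_cycleType hn).trans (Finset.card_le_univ _)
    simp only [Fintype.card_fin] at h2
    interval_cases n <;> norm_num
  have h2 := congrArg e h1
  rw [map_pow, hg, map_one, Classical.P1.aff_zero_pow, Classical.P1.aff_eq_one_iff,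
    ← orderOf_dvd_iff_pow_eq_one, hω] at h2
  omega

end Cfsg.Agent.S2541
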