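import Mathlib
import Cfsg.Statements.S2542
import Cfsg.Agent.Max.L2e
import Cfsg.Agent.Perm.Burnside

set_option autoImplicit false
open Cfsg

namespace Cfsg.Agent.S2542

open scoped Pointwise
open Cfsg.Agent.Max.L2 Cfsg.Agent.Classical.PSL2Basic Cfsg.Agent.Classical.P1Ident
  Cfsg.Agent.Classical.Congr Cfsg.Agent.Classical.P1

/-- Let F be a field with 11 elements. PSL_2(F) has a subgroup H of index 11 isomorphic to the alternating group A_5, and the action of PSL_2(F) on the cosets of H is 2-transitive (of degree 11). -/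
theorem result {F : Type*} [Field F] [Fintype F] (hF : Fintype.card F = 11) : ∃ H : Subgroup (Matrix.ProjectiveSpecialLinearGroup (Fin 2) F), H.index = 11 ∧ Nonempty (H ≃* alternatingGroup (Fin 5)) ∧ MulAction.IsMultiplyPretransitive (Matrix.ProjectiveSpecialLinearGroup (Fin 2) F) ((Matrix.ProjectiveSpecialLinearGroup (Fin 2) F) ⧸ H) 2 := by
  rw [← Nat.card_eq_fintype_card] at hF
  have h2 : (2 : F) ≠ 0 := odd_card_iff.1 (by rw [hF]; decide)
  haveI := NeZero.mk h2
  obtain ⟨τ, hτ⟩ := (exists_tau_iff (F := F)).2 (by rw [hF]; norm_num)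
  obtain ⟨H, e⟩ := exists_sub_PSL.2 ⟨_, B0_le_LL hτ, B0_equiv hτ⟩
  have hi : H.index = 11 := by
    have h3 := H.card_mul_index
    rw [card_of_equiv e Cfsg.Agent.Classical.DicksonSL.card_A5, card_PSL_of_card hF] at h3
    norm_num at h3
    omega
  refine ⟨H, hi, e, ?_⟩
  haveI := Matrix.ProjectiveSpecialLinearGroup.rank_two_simple (F := F) (by omega)
  haveI : Fact (Nat.Prime 11) := ⟨by norm_num⟩
  haveI : FaithfulSMul (Matrix.ProjectiveSpecialLinearGroup (Fin 2) F)
      (Matrix.ProjectiveSpecialLinearGroup (Fin 2) F ⧸ H) := by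
    have h4 := Cfsg.Agent.Classical.SmallRecog.normalCore_eq_bot_of_simple H (by
      rintro rfl; simp at hi)
    rw [Subgroup.normalCore_eq_ker, MonoidHom.ker_eq_bot_iff] at h4
    exact ⟨fun {a b} h => h4 (Equiv.ext h)⟩
  exact (Cfsg.Agent.Perm.burnside_prime_degree (p := 11) hi).resolve_left
    (not_solvable_PSL (by omega))

end Cfsg.Agent.S2542
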