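import Mathlib
import Cfsg.Statements.S2543
import Cfsg.Agent.Max.L2e

set_option autoImplicit false
open scoped Pointwise
open Cfsg

namespace Cfsg.Agent.S2543

open scoped Pointwise
open Cfsg.Agent.Max.L2 Cfsg.Agent.Classical.PSL2Basic Cfsg.Agent.Classical.P1Ident
  Cfsg.Agent.Classical.Congr Cfsg.Agent.Classical.P1

/-- Let F be a field with 11 elements. PSL_2(F) has exactly 22 subgroups isomorphic to the alternating group A_5, and they form two conjugacy classes: there are two such subgroups that are not conjugate, and every such subgroup is conjugate to one of these two. -/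
theorem result {F : Type*} [Field F] [Fintype F] (hF : Fintype.card F = 11) : Nat.card {H : Subgroup (Matrix.ProjectiveSpecialLinearGroup (Fin 2) F) // Nonempty (H ≃* alternatingGroup (Fin 5))} = 22 ∧ ∃ H K : Subgroup (Matrix.ProjectiveSpecialLinearGroup (Fin 2) F), Nonempty (H ≃* alternatingGroup (Fin 5)) ∧ Nonempty (K ≃* alternatingGroup (Fin 5)) ∧ (∀ g : Matrix.ProjectiveSpecialLinearGroup (Fin 2) F, MulAut.conj g • H ≠ K) ∧ ∀ L : Subgroup (Matrix.ProjectiveSpecialLinearGroup (Fin 2) F), Nonempty (L ≃* alternatingGroup (Fin 5)) → ∃ g : Matrix.ProjectiveSpecialLinearGroup (Fin 2) F, MulAut.conj g • L = H ∨ MulAut.conj g • L = K := by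
  rw [← Nat.card_eq_fintype_card] at hF
  have h2 : (2 : F) ≠ 0 := odd_card_iff.1 (by rw [hF]; decide)
  haveI := NeZero.mk h2
  obtain ⟨τ, hτ⟩ := (exists_tau_iff (F := F)).2 (by rw [hF]; norm_num)
  have hN := conj_B0_iff (by rw [hF]; norm_num) (by omega) hτ
  have key : ∀ V : Subgroup (Matrix.ProjectiveSpecialLinearGroup (Fin 2) F),
      Nonempty (V ≃* alternatingGroup (Fin 5)) ↔
      ∃ g : Matrix.ProjGenLinGroup (Fin 2) F, MulAut.conj g • B0 τ hτ = V.map toP := fun V => by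
    constructor
    · rintro ⟨e⟩
      obtain ⟨g, hg⟩ := conj_A5 ⟨(eqvP V).symm.trans e⟩ hτ
      exact ⟨g⁻¹, by rw [← hg, conj_inv_conj]⟩
    · rintro ⟨g, hg⟩
      obtain ⟨e⟩ := B0_equiv hτ
      exact ⟨((eqvP V).trans ((Cfsg.Agent.Classical.Dickson.conjEquiv _ g).trans
        (MulEquiv.subgroupCongr hg)).symm).trans e⟩
  constructor
  · rw [card_family (B0_le_LL hτ) hN _ key]
    have h3 := (B0 τ hτ).card_mul_index
    rw [card_B0, card_PGL_two, hF] at h3
    omega
  · obtain ⟨V₁, V₂, h1, h3, h4, h5⟩ := two_classes h2 (B0_le_LL hτ) fun g hg =>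
      B0_le_LL hτ ((hN g).1 hg)
    refine ⟨V₁, V₂, (key _).2 ⟨1, by simp [h1]⟩, (key _).2 h3, h4, fun W hW => ?_⟩
    rcases h5 W ((key _).1 hW) with ⟨g, rfl⟩ | ⟨g, rfl⟩
    · exact ⟨g⁻¹, Or.inl (conj_inv_conj _ _)⟩
    · exact ⟨g⁻¹, Or.inr (conj_inv_conj _ _)⟩

end Cfsg.Agent.S2543
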