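import Mathlib
import Cfsg.Statements.S2550
import Cfsg.Agent.Spec.L3
import Cfsg.Agent.Spec.Sym
import Cfsg.Agent.S0256
import Cfsg.Agent.S0243

set_option autoImplicit false
open Cfsg

namespace Cfsg.Agent.S2550

/-- Let F be a field with 2 elements and K a field with 4 elements. PSL_4(F) and PSL_3(K) have the same order (20160) but are not isomorphic. -/
theorem result {F K : Type*} [Field F] [Fintype F] [Field K] [Fintype K] (hF : Fintype.card F = 2) (hK : Fintype.card K = 4) : Nat.card (Matrix.ProjectiveSpecialLinearGroup (Fin 4) F) = Nat.card (Matrix.ProjectiveSpecialLinearGroup (Fin 3) K) ∧ ¬ Nonempty (Matrix.ProjectiveSpecialLinearGroup (Fin 4) F ≃* Matrix.ProjectiveSpecialLinearGroup (Fin 3) K) := by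
  have h1 := S0243.result hF 4 (by norm_num)
  have h2 := S0243.result hK 3 (by norm_num)
  simp only [Fin.prod_univ_succ, Fin.prod_univ_zero] at h1 h2
  norm_num at h1 h2
  refine ⟨by omega, fun ⟨e⟩ => ?_⟩
  obtain ⟨f⟩ := S0256.result hF
  have hK' : Nat.card K = 4 := by rw [Nat.card_eq_fintype_card, hK]
  have : Fact (Nat.Prime 2) := ⟨Nat.prime_two⟩
  have : CharP K 2 := Classical.Congr.charP_of_card (k := 2) hK'
  obtain ⟨x, hx⟩ : 15 ∈ Spec.spec (alternatingGroup (Fin 8)) := by rw [Spec.spec_A8]; simp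
  have h3 := Spec.L3_upper 2 (e (f.symm x))
  rw [MulEquiv.orderOf_eq, MulEquiv.orderOf_eq, hK'] at h3
  rw [hx] at h3
  norm_num at h3

end Cfsg.Agent.S2550
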