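import Mathlib
import Cfsg.Statements.S2552

set_option autoImplicit false
open Cfsg

namespace Cfsg.Agent.S2552

/-- Let F be a finite field and n ≥ 1. For every k, the special linear group SL_n(F) acts transitively on the set of k-dimensional subspaces of F^n: any two subspaces of the same dimension are carried onto each other by some matrix of determinant 1. -/
theorem result {F : Type*} [Field F] [Fintype F] (n : ℕ) (hn : 1 ≤ n) (U₁ U₂ : Submodule F (Fin n → F)) (h : Module.finrank F U₁ = Module.finrank F U₂) : ∃ g : Matrix.SpecialLinearGroup (Fin n) F, U₁.map ((Matrix.SpecialLinearGroup.toLin' g : (Fin n → F) ≃ₗ[F] (Fin n → F)) : (Fin n → F) →ₗ[F] (Fin n → F)) = U₂ := by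
  by_cases h0 : U₂ = ⊥
  · subst h0
    rw [finrank_bot, Submodule.finrank_eq_zero] at h
    exact ⟨1, by rw [h, Submodule.map_bot]⟩
  obtain ⟨u, hu, hu0⟩ := Submodule.exists_mem_ne_zero_of_ne_bot h0
  obtain ⟨φ, hφ⟩ := Module.Projective.exists_dual_eq_one F hu0
  obtain ⟨e, he⟩ := Submodule.exists_linearEquiv_restrict_eq (LinearEquiv.ofFinrankEq U₁ U₂ h)
  let f := LinearMap.transvection φ ((((LinearEquiv.det e)⁻¹ : Fˣ) - 1 : F) • u) ∘ₗ (e : (Fin n → F) →ₗ[F] (Fin n → F))
  have hf : (LinearMap.toMatrix' f).det = 1 := by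
    rw [LinearMap.det_toMatrix', LinearMap.det_comp, LinearMap.transvection.det, map_smul, hφ, ← LinearEquiv.coe_det,
      smul_eq_mul, mul_one, add_sub_cancel, Units.inv_mul]
  refine ⟨⟨_, hf⟩, Submodule.eq_of_le_of_finrank_eq ?_ (by rw [LinearEquiv.finrank_map_eq, h])⟩
  rintro _ ⟨x, hx, rfl⟩
  change Matrix.toLin' (LinearMap.toMatrix' f) x ∈ U₂
  rw [Matrix.toLin'_toMatrix']
  change e x + φ (e x) • _ ∈ U₂
  exact U₂.add_mem (he ⟨x, hx⟩ ▸ Subtype.prop _) (U₂.smul_mem _ (U₂.smul_mem _ hu))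

end Cfsg.Agent.S2552
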