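import Mathlib
import Cfsg.Statements.S2561
import Cfsg.Agent.S2564
-- import your own Cfsg.Agent.* helpers here

set_option autoImplicit false
open Cfsg

namespace Cfsg.Agent.S2561

open QuadraticMap Module Orth S2564

theorem card_eq (m : ℕ) (P : ((Fin m ⊕ Fin m → ZMod 2) → ZMod 2) → Prop)
    (P' : (Fin m ⊕ Fin m → ZMod 2) → Prop) (h : ∀ w, P (shift (plusQ m _) w) ↔ P' w) :
    Nat.card {q : (Fin m ⊕ Fin m → ZMod 2) → ZMod 2 //
      (∀ u v, q (u + v) = q u + q v + polar (plusQ m _) u v) ∧ P q} = Nat.card {w // P' w} := by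
  symm
  refine Nat.card_eq_of_bijective (fun w => ⟨shift (plusQ m _) w.1, fun u v => by
    rw [q_add, polar_shift], (h _).2 w.2⟩) ⟨fun a b e => Subtype.ext ?_, fun q => ?_⟩
  · rw [← sub_eq_zero]
    refine nd_plusQ m _ fun y => ?_
    have := congrFun (congrArg Subtype.val e) y
    simp only [shift_apply] at this
    rw [polar_sub_left]; linear_combination this
  · obtain ⟨w, hw⟩ := exists_shift (nd_plusQ m) q.1 q.2.1
    have : q.1 = shift (plusQ m _) w := funext hw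
    exact ⟨⟨w, (h w).1 (this ▸ q.2.2)⟩, Subtype.ext this.symm⟩

/-- Fix the non-singular alternating form on the 2m-dimensional space over the field of two elements obtained by polarizing the plus-type form Σ xᵢyᵢ (m ≥ 1). The functions q on the space with q(u + v) = q(u) + q(v) + f(u, v) (the quadratic forms polarizing to f) number 2^(2m); each is equivalent under an invertible linear map either to the plus-type form or to the minus-type form Σ xᵢyᵢ + (z₁² + z₁z₂ + z₂²); and those of plus type number 2^(2m−1) + 2^(m−1), those of minus type 2^(2m−1) − 2^(m−1). -/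
theorem result (m : ℕ) (hm : 1 ≤ m) :
    Nat.card {q : (Fin m ⊕ Fin m → ZMod 2) → ZMod 2 // (∀ u v : (Fin m ⊕ Fin m → ZMod 2), q (u + v) = q u + q v + (Cfsg.quadFormPlus m (ZMod 2) (u + v) - Cfsg.quadFormPlus m (ZMod 2) u - Cfsg.quadFormPlus m (ZMod 2) v))} = 2 ^ (2 * m) ∧
    (∀ q : (Fin m ⊕ Fin m → ZMod 2) → ZMod 2, (∀ u v : (Fin m ⊕ Fin m → ZMod 2), q (u + v) = q u + q v + (Cfsg.quadFormPlus m (ZMod 2) (u + v) - Cfsg.quadFormPlus m (ZMod 2) u - Cfsg.quadFormPlus m (ZMod 2) v)) →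
      (∃ g : (Fin m ⊕ Fin m → ZMod 2) ≃ₗ[ZMod 2] (Fin m ⊕ Fin m → ZMod 2), ∀ v, q v = Cfsg.quadFormPlus m (ZMod 2) (g v)) ∨
      (∃ g : (Fin m ⊕ Fin m → ZMod 2) ≃ₗ[ZMod 2] ((Fin (m - 1) ⊕ Fin (m - 1)) ⊕ Fin 2 → ZMod 2), ∀ v, q v = Cfsg.quadFormMinus (m - 1) (ZMod 2) 1 1 (g v))) ∧
    Nat.card {q : (Fin m ⊕ Fin m → ZMod 2) → ZMod 2 // (∀ u v : (Fin m ⊕ Fin m → ZMod 2), q (u + v) = q u + q v + (Cfsg.quadFormPlus m (ZMod 2) (u + v) - Cfsg.quadFormPlus m (ZMod 2) u - Cfsg.quadFormPlus m (ZMod 2) v)) ∧ ∃ g : (Fin m ⊕ Fin m → ZMod 2) ≃ₗ[ZMod 2] (Fin m ⊕ Fin m → ZMod 2), ∀ v, q v = Cfsg.quadFormPlus m (ZMod 2) (g v)} = 2 ^ (2 * m - 1) + 2 ^ (m - 1) ∧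
    Nat.card {q : (Fin m ⊕ Fin m → ZMod 2) → ZMod 2 // (∀ u v : (Fin m ⊕ Fin m → ZMod 2), q (u + v) = q u + q v + (Cfsg.quadFormPlus m (ZMod 2) (u + v) - Cfsg.quadFormPlus m (ZMod 2) u - Cfsg.quadFormPlus m (ZMod 2) v)) ∧ ∃ g : (Fin m ⊕ Fin m → ZMod 2) ≃ₗ[ZMod 2] ((Fin (m - 1) ⊕ Fin (m - 1)) ⊕ Fin 2 → ZMod 2), ∀ v, q v = Cfsg.quadFormMinus (m - 1) (ZMod 2) 1 1 (g v)} = 2 ^ (2 * m - 1) - 2 ^ (m - 1) := by
  obtain ⟨k, rfl⟩ : ∃ k, m = k + 1 := ⟨m - 1, by omega⟩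
  have hn := finrank_plus (F := ZMod 2) (k + 1)
  have hQ := nd_plusQ (F := ZMod 2) (k + 1)
  have hp := isPlus_plusQ (F := ZMod 2) (k + 1)
  have h1 : ∀ w, (∃ g : (Fin (k + 1) ⊕ Fin (k + 1) → ZMod 2) ≃ₗ[ZMod 2] (Fin (k + 1) ⊕ Fin (k + 1) → ZMod 2),
      ∀ v, shift (plusQ (k + 1) _) w v = Cfsg.quadFormPlus (k + 1) (ZMod 2) (g v)) ↔
      plusQ (k + 1) _ w = 0 := fun w => by
    rw [← isPlus_shift hQ hn]
    constructor
    · rintro ⟨g, hg⟩
      exact isPlus_iff_of_iso ⟨g, fun v => (hg v).symm⟩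
    · intro h
      obtain ⟨e⟩ := (nd_shift hQ w).iso_plusQ (h.2 hp) hn
      exact ⟨e.symm.toLinearEquiv, fun v => (e.symm.map_app v).symm⟩
  have h2 : ∀ w, (∃ g : (Fin (k + 1) ⊕ Fin (k + 1) → ZMod 2) ≃ₗ[ZMod 2] ((Fin k ⊕ Fin k) ⊕ Fin 2 → ZMod 2),
      ∀ v, shift (plusQ (k + 1) _) w v = Cfsg.quadFormMinus k (ZMod 2) 1 1 (g v)) ↔
      plusQ (k + 1) _ w = 1 := fun w => by
    have : ∀ a : ZMod 2, a = 1 ↔ ¬ a = 0 := by decide
    rw [this, ← isPlus_shift hQ hn]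
    constructor
    · rintro ⟨g, hg⟩ h
      exact not_isPlus_minusQ k aniso11 ((h.2 hp).of_iso ⟨g, fun v => (hg v).symm⟩)
    · intro h
      obtain ⟨e⟩ := (nd_shift hQ w).iso_minusQ (fun h' => h (by simp [h', hp])) (m := k) hn aniso11
      exact ⟨e.symm.toLinearEquiv, fun v => (e.symm.map_app v).symm⟩
  have h3 := (nv_cases hQ hn).1 hp
  refine ⟨?_, fun q hq => ?_, ?_, ?_⟩
  · have := card_eq (k + 1) (fun _ => True) (fun _ => True) (fun _ => Iff.rfl)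
    simp only [and_true] at this
    refine this.trans ?_
    rw [Nat.card_congr (Equiv.subtypeUnivEquiv fun _ => trivial), Module.natCard_eq_pow_finrank (K := ZMod 2), hn,
      Nat.card_zmod]
  · obtain ⟨w, hw⟩ := exists_shift hQ q hq
    obtain rfl : q = shift (plusQ (k + 1) _) w := funext hw
    have : ∀ a : ZMod 2, a = 0 ∨ a = 1 := by decide
    exact (this _).imp (h1 w).2 (h2 w).2
  · exact (card_eq (k + 1) _ _ h1).trans h3.1
  · refine (card_eq (k + 1) _ _ h2).trans ?_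
    change nv _ 1 = 2 ^ (2 * k + 1) - 2 ^ k
    omega

end Cfsg.Agent.S2561
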