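import Mathlib
import Cfsg.Statements.S2565
import Cfsg.Agent.Orth.SymO2
-- import your own Cfsg.Agent.* helpers here

set_option autoImplicit false
open Cfsg

namespace Cfsg.Agent.S2565

/-- The commutator subgroup of the full orthogonal group of the plus-type form Σ xᵢyᵢ in dimension 6 over the field of two elements (the group Ω⁺₆(2), of index 2) is isomorphic to the alternating group of degree 8. -/
theorem result :
    (Cfsg.Omega (ZMod 2) (Cfsg.quadFormPlus 3 (ZMod 2))).index = 2 ∧
    Nonempty (↥(Cfsg.Omega (ZMod 2) (Cfsg.quadFormPlus 3 (ZMod 2))) ≃* alternatingGroup (Fin 8)) := by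
  refine ⟨(Orth.index_Omega (Q := Orth.plusQ 3 (ZMod 2))).trans ((Orth.nd_plusQ 3).index_commutator_even
    (Orth.good_of_five_le (by simp)) rfl (by simp)), ?_⟩
  obtain ⟨e⟩ := Orth.plus6_equiv (F := ZMod 2) (by simp)
  exact ⟨(Orth.omegaEquiv (Orth.plusQ 3 (ZMod 2))).trans ((Orth.commutatorEquiv e).trans
    (MulEquiv.subgroupCongr (alternatingGroup.commutator_perm_eq (by simp))))⟩

end Cfsg.Agent.S2565
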