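import Mathlib
import Cfsg.Statements.S2567
import Cfsg.Agent.Classical.SLBasic
-- import your own Cfsg.Agent.* helpers here

set_option autoImplicit false
open Cfsg

namespace Cfsg.Agent.S2567

theorem lift {G : Type*} [Group G] (Z : Subgroup G) [Z.Normal] [Finite Z] (hZ : Z ≤ Subgroup.center G)
    {r : ℕ} (hc : (Nat.card Z).Coprime r) (x : G ⧸ Z) (hx : orderOf x = r) :
    ∃! g : G, (QuotientGroup.mk g : G ⧸ Z) = x ∧ orderOf g = r := by
  obtain ⟨g, rfl⟩ := QuotientGroup.mk_surjective x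
  have hb := (powCoprime (G := Z) hc).bijective
  have h1 : g ^ r ∈ Z := by
    rw [← QuotientGroup.eq_one_iff, QuotientGroup.mk_pow, ← hx, pow_orderOf_eq_one]
  obtain ⟨z, hz⟩ := hb.2 ⟨g ^ r, h1⟩⁻¹
  have hz' : (z : G) ^ r = (g ^ r)⁻¹ := congrArg Subtype.val hz
  have hcomm : ∀ z : Z, Commute g z := fun z => Subgroup.mem_center_iff.1 (hZ z.2) g
  have hmk : (QuotientGroup.mk (g * z) : G ⧸ Z) = QuotientGroup.mk g := by
    rw [QuotientGroup.mk_mul, (QuotientGroup.eq_one_iff _).2 z.2, mul_one]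
  refine ⟨g * z, ⟨hmk, ?_⟩, ?_⟩
  · apply Nat.dvd_antisymm
    · rw [orderOf_dvd_iff_pow_eq_one, (hcomm z).mul_pow, hz', mul_inv_cancel]
    · rw [← hx, ← hmk]
      exact orderOf_map_dvd (QuotientGroup.mk' Z) _
  · rintro g' ⟨h2, h3⟩
    have h4 : g⁻¹ * g' ∈ Z := QuotientGroup.eq.1 h2.symm
    have h5 : g' = g * (⟨_, h4⟩ : Z) := by simp
    rw [h5]
    congr 2
    apply hb.1
    rw [hz]
    apply Subtype.ext
    change (g⁻¹ * g') ^ r = (g ^ r)⁻¹
    have h6 := pow_orderOf_eq_one g'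
    rw [h3, h5, (hcomm _).mul_pow] at h6
    exact eq_inv_of_mul_eq_one_right h6

/-- Lifting elements of prime order from PGL to GL: let F be a finite field with q elements, r a prime not dividing q − 1, and x an element of order r in GL_n(F) modulo its centre (the scalar matrices). Then x has exactly one preimage in GL_n(F) of order r. -/
theorem result {F : Type*} [Field F] [Fintype F] {q n r : ℕ} (hF : Fintype.card F = q) (hr : r.Prime) (hdiv : ¬ r ∣ q - 1) (x : GL (Fin n) F ⧸ Subgroup.center (GL (Fin n) F)) (hx : orderOf x = r) : ∃! g : GL (Fin n) F, (QuotientGroup.mk g : GL (Fin n) F ⧸ Subgroup.center (GL (Fin n) F)) = x ∧ orderOf g = r := by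
  rcases n with _ | n
  · rw [Subsingleton.elim x 1, orderOf_one] at hx
    exact absurd hx hr.one_lt.ne
  refine lift _ le_rfl ?_ x hx
  rw [Classical.SLBasic.card_center_GL, Nat.card_units, Nat.card_eq_fintype_card, hF]
  exact ((Nat.Prime.coprime_iff_not_dvd hr).2 hdiv).symm

end Cfsg.Agent.S2567
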