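import Mathlib
import Cfsg.Statements.S2569
import Cfsg.Agent.Conj.Reg
-- import your own Cfsg.Agent.* helpers here

set_option autoImplicit false
open Cfsg

namespace Cfsg.Agent.S2569

/-- In GL_n over a finite field of characteristic p, the conjugacy class of a semisimple element (an element of order prime to p) under the special linear group is its whole GL-conjugacy class: for every such x and every invertible g there is h of determinant one with h x h⁻¹ = g x g⁻¹. -/
theorem result {F : Type*} [Field F] [Fintype F] {p : ℕ} [Fact p.Prime] [CharP F p] {n : ℕ} (x g : GL (Fin n) F) (hx : (orderOf x).Coprime p) : ∃ h : GL (Fin n) F, (h : Matrix (Fin n) (Fin n) F).det = 1 ∧ h * x * h⁻¹ = g * x * g⁻¹ := by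
  rcases n with _ | n
  · exact ⟨1, by simp, Subsingleton.elim _ _⟩
  have h1 : x.1 ^ orderOf x = 1 := by
    rw [← Units.val_pow_eq_pow_val, pow_orderOf_eq_one, Units.val_one]
  have h2 := Conj.natCast_ne_zero_of_coprime (F := F) hx
  exact Conj.exists_det_one_conj x g fun d _ => Conj.exists_commute_det_ss
    (Conj.squarefree_X_pow_sub_one h2) (Conj.aeval_toLin'_pow_sub_one h1) d

end Cfsg.Agent.S2569
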