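import Mathlib
import Cfsg.Statements.S2571
import Cfsg.Agent.Conj.Reg
-- import your own Cfsg.Agent.* helpers here

set_option autoImplicit false
open Cfsg

namespace Cfsg.Agent.S2571

/-- Centraliser of a regular unipotent element in GL_n(q): if u is an invertible n × n matrix over the field with q elements, n ≥ 1, with (u − 1)^n = 0 and rank(u − 1) = n − 1 (a single unipotent Jordan block), then its centraliser in GL_n(q) has order (q − 1) q^(n−1). -/
theorem result {F : Type*} [Field F] [Fintype F] {q n : ℕ} (hF : Fintype.card F = q) (hn : 1 ≤ n) (u : GL (Fin n) F) (hnil : ((u : Matrix (Fin n) (Fin n) F) - 1) ^ n = 0) (hreg : ((u : Matrix (Fin n) (Fin n) F) - 1).rank = n - 1) : Nat.card ↥(Subgroup.centralizer ({u} : Set (GL (Fin n) F))) = (q - 1) * q ^ (n - 1) := by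
  obtain ⟨e⟩ := Conj.centralizer_equiv u
  have h1 : IsNilpotent (Matrix.toLin' u.1 - 1) :=
    ⟨n, by rw [← Conj.toLin'_sub_one, ← Conj.toLin'_pow', hnil, map_zero]⟩
  rw [Conj.rank_eq_finrank, Conj.toLin'_sub_one] at hreg
  obtain ⟨e2⟩ := (Conj.sim_cyc_of_regular h1 (n := n) (by simp) hreg).cent_equiv
  obtain ⟨e3⟩ := Conj.cent_cyc ((Polynomial.X : Polynomial F) ^ n)
  rw [Conj.cent_sub_one] at e2
  rw [Nat.card_congr (e.trans (e2.trans e3)).toEquiv, Conj.card_units_xpow (by omega),
    Nat.card_eq_fintype_card, hF]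

end Cfsg.Agent.S2571
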