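import Mathlib
import Cfsg.Statements.S2572
import Cfsg.Agent.Conj.Lay
-- import your own Cfsg.Agent.* helpers here

set_option autoImplicit false
open Cfsg

namespace Cfsg.Agent.S2572

/-- Centraliser of a transvection in GL_n(q), n ≥ 2: if t − 1 has rank one and square zero, the centraliser of t in GL_n(q) has order q^(2n−3) (q − 1) |GL_(n−2)(q)| (a group of order q^(2n−3) extended by GL_1(q) × GL_(n−2)(q)). -/
theorem result {F : Type*} [Field F] [Fintype F] {q n : ℕ} (hF : Fintype.card F = q) (hn : 2 ≤ n) (t : GL (Fin n) F) (ht : Cfsg.IsTransvection (t : Matrix (Fin n) (Fin n) F)) : Nat.card ↥(Subgroup.centralizer ({t} : Set (GL (Fin n) F))) = q ^ (2 * n - 3) * (q - 1) * ∏ i : Fin (n - 2), (q ^ (n - 2) - q ^ (i : ℕ)) := by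
  obtain ⟨n, rfl⟩ : ∃ m, n = m + 2 := ⟨n - 2, by omega⟩
  let d : Option (Fin n) → ℕ := fun k => k.elim 2 fun _ => 1
  have hd : ∀ k, d k ≤ 2 := fun k => by rcases k with _ | k <;> simp [d]
  have hd' : ∀ k, 0 < d k := fun k => by rcases k with _ | k <;> simp [d]
  have hs : ∑ k, d k = n + 2 := by simp [d, add_comm]
  have h1 : Conj.Sim (Matrix.toLin' t.1 - 1) (Conj.nil F d) := by
    apply Conj.sim_of_sq_zero
    · rw [← Conj.toLin'_sub_one, ← Conj.toLin'_mul', ht.2, map_zero]
    · rw [← sq, Conj.nil_pow_eq_zero_iff]; exact hd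
    · rw [Conj.finrank_nil, hs]; simp
    · have := Conj.finrank_range_nil (F := F) hd'
      rw [← Conj.toLin'_sub_one, ← Conj.rank_eq_finrank, ht.1]
      rw [hs] at this
      simp at this
      omega
  have h0 : (Finset.univ.filter fun k => d k = 0).card = 0 := by
    rw [Finset.filter_false_of_mem fun k _ => (hd' k).ne']; rfl
  have h2 : (Finset.univ.filter fun k => d k = 1).card = n := by
    rw [Finset.card_filter, Fintype.sum_option]; simp [d]
  have h3 : (Finset.univ.filter fun k => d k = 2).card = 1 := by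
    rw [Finset.card_filter, Fintype.sum_option]; simp [d]
  obtain ⟨e⟩ := Conj.centralizer_equiv t
  rw [Nat.card_congr e.toEquiv, ← Conj.cent_sub_one,
    Conj.card_cent_nilpotent ((h1.pow 2).zero_iff.2 ((Conj.nil_pow_eq_zero_iff d _).2 hd)),
    Conj.finrank_ker_Psi_of_sim h1 hd, Fin.prod_univ_two,

    Conj.card_units_End ((Conj.finrank_Lay_of_sim h1 ((0 : Fin 2) : ℕ)).trans h2),
    Conj.card_units_End ((Conj.finrank_Lay_of_sim h1 ((1 : Fin 2) : ℕ)).trans h3), Nat.card_eq_fintype_card, hF]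
  simp only [Finset.sum_range_succ, Finset.sum_range_zero, h0, h2, h3]
  simp
  rw [show 2 * (n + 2) - 3 = 2 * n + 1 by omega, mul_assoc, mul_comm (q - 1)]
  rfl

end Cfsg.Agent.S2572
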