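import Mathlib
import Cfsg.Statements.S2574
import Cfsg.Agent.Conj.Reg
import Cfsg.Agent.Classical.SpMat
-- import your own Cfsg.Agent.* helpers here

set_option autoImplicit false
open Cfsg

namespace Cfsg.Agent.S2574

/-- A regular unipotent element of the symplectic group has totally isotropic small invariant subspaces: over a finite field, if u ∈ Sp_2m(F) satisfies (u − 1)^(2m) = 0 and rank(u − 1) = 2m − 1, and W is a u-invariant subspace with 2 dim W ≤ 2m, then the alternating form vanishes identically on W. -/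
theorem result {F : Type*} [Field F] [Finite F] {m : ℕ} (u : Matrix.symplecticGroup (Fin m) F) (hnil : ((u : Matrix (Fin m ⊕ Fin m) (Fin m ⊕ Fin m) F) - 1) ^ (2 * m) = 0) (hreg : ((u : Matrix (Fin m ⊕ Fin m) (Fin m ⊕ Fin m) F) - 1).rank = 2 * m - 1) (W : Submodule F (Fin m ⊕ Fin m → F)) (hW : ∀ v ∈ W, (u : Matrix (Fin m ⊕ Fin m) (Fin m ⊕ Fin m) F).mulVec v ∈ W) (hdim : 2 * Module.finrank F W ≤ 2 * m) : ∀ v ∈ W, ∀ w ∈ W, Cfsg.sympForm m F v w = 0 := by
  have h1 : IsNilpotent (Matrix.toLin' (u.1 - 1)) :=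
    ⟨2 * m, by rw [← Conj.toLin'_pow', hnil, map_zero]⟩
  let B := Classical.SpMat.sB (Fin m) F
  have hsurj : ∀ w ∈ W, ∃ w' ∈ W, u.1.mulVec w' = w := by
    let L : W →ₗ[F] W := (Matrix.toLin' u.1).restrict hW
    have hL : Function.Injective L := by
      intro a b hab
      have : u.1.mulVec a.1 = u.1.mulVec b.1 := congrArg Subtype.val hab
      have h2 := congrArg (u⁻¹).1.mulVec this
      rw [Matrix.mulVec_mulVec, Matrix.mulVec_mulVec, Classical.SpMat.coe_inv_mul,
        Matrix.one_mulVec, Matrix.one_mulVec] at h2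
      exact Subtype.ext h2
    intro w hw
    obtain ⟨w', hw'⟩ := LinearMap.surjective_of_injective hL ⟨w, hw⟩
    exact ⟨w'.1, w'.2, congrArg Subtype.val hw'⟩
  have hle : W ≤ B.orthogonal W := by
    apply Conj.le_of_regular h1
    · rw [← Conj.rank_eq_finrank, hreg, Classical.SpMat.finrank_eq]; simp
    · intro v hv
      rw [Matrix.toLin'_apply, Matrix.sub_mulVec, Matrix.one_mulVec]
      exact W.sub_mem (hW v hv) hv
    · intro v hv
      rw [Matrix.toLin'_apply, Matrix.sub_mulVec, Matrix.one_mulVec]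
      refine Submodule.sub_mem _ ?_ hv
      intro w hw
      obtain ⟨w', hw', rfl⟩ := hsurj w hw
      exact (Classical.SpMat.sB_mulVec u w' v).trans (hv w' hw')
    · rw [LinearMap.BilinForm.finrank_orthogonal Classical.SpMat.sB_nondeg,
        Classical.SpMat.finrank_eq]
      simp
      omega
  intro v hv w hw
  rw [Classical.SpMat.sympForm_eq]
  exact hle hw v hv

end Cfsg.Agent.S2574
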