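import Mathlib
import Cfsg.Statements.S2575
import Cfsg.Agent.Conj.Reg
-- import your own Cfsg.Agent.* helpers here

set_option autoImplicit false
open Cfsg

namespace Cfsg.Agent.S2575

theorem two_dvd_iff {N n : ℕ} (hN : N ≠ 0) (hn : n ≠ 0) :
    2 ∣ N / N.gcd n ↔ padicValNat 2 n < padicValNat 2 N := by
  have hg : N.gcd n ≠ 0 := Nat.gcd_ne_zero_left hN
  have h0 : N / N.gcd n ≠ 0 := (Nat.div_pos (Nat.gcd_le_left _ (Nat.pos_of_ne_zero hN))
    (Nat.pos_of_ne_zero hg)).ne'
  rw [← Nat.factorization_def _ Nat.prime_two, ← Nat.factorization_def _ Nat.prime_two,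
    Nat.prime_two.dvd_iff_one_le_factorization h0, Nat.factorization_div (Nat.gcd_dvd_left _ _),
    Nat.factorization_gcd hN hn]
  simp only [Finsupp.coe_tsub, Pi.sub_apply, Finsupp.inf_apply]
  omega

theorem two_ne_zero' {F : Type*} [Field F] [Fintype F] (hq : Odd (Fintype.card F)) : ringChar F ≠ 2 := by
  intro h
  have := FiniteField.even_card_iff_char_two.1 h
  rw [Nat.odd_iff] at hq
  omega

/-- Which diagonal involutions of PGL_n(q) lie in PSL_n(q), q odd: for the diagonal matrix t with i entries −1 and n − i entries 1, some non-zero scalar multiple of t has determinant one if and only if i is even or the 2-part of q − 1 exceeds the 2-part of n (that is, −1 is an n-th power in the field exactly in the latter case). -/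
theorem result {F : Type*} [Field F] [Fintype F] {q : ℕ} (hF : Fintype.card F = q) (hq : Odd q) {n : ℕ} (hn : 1 ≤ n) (i : ℕ) (hi : i ≤ n) : (∃ c : F, c ≠ 0 ∧ (c • Matrix.diagonal (fun j : Fin n => if (j : ℕ) < i then (-1 : F) else 1)).det = 1) ↔ (Even i ∨ padicValNat 2 n < padicValNat 2 (q - 1)) := by
  subst hF
  have hdet : (Matrix.diagonal (fun j : Fin n => if (j : ℕ) < i then (-1 : F) else 1)).det =
      (-1) ^ i := by
    rw [Matrix.det_diagonal, Finset.prod_ite, Finset.prod_const_one, mul_one, Finset.prod_const,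
      Fin.card_filter_val_lt, min_eq_right hi]
  have h2 := two_ne_zero' hq
  have hN : Fintype.card F - 1 ≠ 0 := by
    have := Fintype.one_lt_card (α := F)
    omega
  simp only [Matrix.det_smul, hdet, Fintype.card_fin]
  rcases Nat.even_or_odd i with he | ho
  · simp only [he, true_or, iff_true, he.neg_one_pow]
    exact ⟨1, one_ne_zero, by simp⟩
  · simp only [Nat.not_even_iff_odd.2 ho, false_or, ho.neg_one_pow]
    rw [← two_dvd_iff hN (by omega)]
    have h3 := Conj.exists_pow_eq_iff (-1 : Fˣ) n
    have h4 : orderOf (-1 : Fˣ) = 2 := by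
      rw [← orderOf_units, Units.val_neg, Units.val_one, orderOf_neg_one, if_neg h2]
    rw [← orderOf_dvd_iff_pow_eq_one, h4, Nat.card_units, Nat.card_eq_fintype_card] at h3
    rw [← h3]
    constructor
    · rintro ⟨c, hc, h⟩
      refine ⟨Units.mk0 c hc, Units.ext ?_⟩
      simp only [Units.val_pow_eq_pow_val, Units.val_mk0, Units.val_neg, Units.val_one]
      linear_combination -h
    · rintro ⟨c, hc⟩
      refine ⟨c, c.ne_zero, ?_⟩
      have := congrArg Units.val hc
      simp only [Units.val_pow_eq_pow_val, Units.val_neg, Units.val_one] at this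
      rw [this]; ring

end Cfsg.Agent.S2575
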