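import Mathlib
import Cfsg.Statements.S2576
import Cfsg.Agent.Conj.Reg
import Cfsg.Agent.S2575
-- import your own Cfsg.Agent.* helpers here

set_option autoImplicit false
open Cfsg

namespace Cfsg.Agent.S2576

/-- Which involutions of PGL_2m(q) coming from a scalar of the quadratic extension field lie in PSL_2m(q), q odd: let μ generate the Sylow 2-subgroup of the multiplicative group of the field with q elements (μ has order the 2-part of q − 1) and let t be the block-diagonal matrix with m diagonal blocks [[0, 1], [μ, 0]] (so t² is the scalar μ and t is an involution modulo scalars). Then some non-zero scalar multiple of t has determinant one if and only if q ≡ 3 (mod 4) or the 2-part of q − 1 is less than the 2-part of 2m. -/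
theorem result {F : Type*} [Field F] [Fintype F] {q : ℕ} (hF : Fintype.card F = q) (hq : Odd q) {m : ℕ} (hm : 1 ≤ m) (μ : F) (hμ : orderOf μ = 2 ^ padicValNat 2 (q - 1)) : (∃ c : F, c ≠ 0 ∧ (c • Matrix.blockDiagonal (fun _ : Fin m => !![(0 : F), 1; μ, 0])).det = 1) ↔ (q % 4 = 3 ∨ padicValNat 2 (q - 1) < padicValNat 2 (2 * m)) := by
  subst hF
  have h2 := S2575.two_ne_zero' hq
  have hN : Fintype.card F - 1 ≠ 0 := by
    have := Fintype.one_lt_card (α := F)
    omega
  have hμ0 : μ ≠ 0 := by
    rintro rfl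
    rw [orderOf_zero] at hμ
    exact absurd hμ (by positivity)
  have hdet : (Matrix.blockDiagonal (fun _ : Fin m => !![(0 : F), 1; μ, 0])).det = (-μ) ^ m := by
    rw [Matrix.det_blockDiagonal]
    simp
  simp only [Matrix.det_smul, hdet, Fintype.card_prod, Fintype.card_fin]
  let ν : Fˣ := Units.mk0 (-μ) (neg_ne_zero.2 hμ0)
  have h3 := Conj.exists_pow_eq_iff (ν ^ m)⁻¹ (2 * m)
  rw [inv_pow, inv_eq_one, ← pow_mul, ← orderOf_dvd_iff_pow_eq_one, Nat.card_units,
    Nat.card_eq_fintype_card, ← orderOf_units] at h3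
  have h4 : (∃ c : F, c ≠ 0 ∧ c ^ (2 * m) * (-μ) ^ m = 1) ↔ ∃ c : Fˣ, c ^ (2 * m) = (ν ^ m)⁻¹ := by
    constructor
    · rintro ⟨c, hc, h⟩
      exact ⟨Units.mk0 c hc, eq_inv_of_mul_eq_one_left (Units.ext (by simpa [ν] using h))⟩
    · rintro ⟨c, hc⟩
      refine ⟨c, c.ne_zero, ?_⟩
      have := congrArg Units.val (mul_eq_one_iff_eq_inv.2 hc)
      simpa [ν] using this
  rw [h4, h3]
  change orderOf (-μ) ∣ _ ↔ _
  set N := Fintype.card F - 1 with hNdef
  haveI : Fact (Nat.Prime 2) := ⟨Nat.prime_two⟩
  have hq1 : Fintype.card F = N + 1 := by omega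
  have ha1 : 1 ≤ padicValNat 2 N := one_le_padicValNat_of_dvd hN (by
    rw [Nat.odd_iff] at hq; omega)
  have h4iff : 2 ≤ padicValNat 2 N ↔ 4 ∣ N := (padicValNat_dvd_iff_le hN (p := 2) (n := 2)).symm
  by_cases h43 : Fintype.card F % 4 = 3
  · have : padicValNat 2 N = 1 := by
      have : ¬ 2 ≤ padicValNat 2 N := by rw [h4iff]; omega
      omega
    rw [this, pow_one] at hμ
    have h5 : μ = -1 := by
      have h6 := pow_orderOf_eq_one μ
      rw [hμ, sq, mul_self_eq_one_iff] at h6
      rcases h6 with h | h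
      · rw [h, orderOf_one] at hμ; omega
      · exact h
    simp [h5, h43]
  · have ha2 : 2 ≤ padicValNat 2 N := by
      rw [h4iff]
      rw [Nat.odd_iff] at hq
      omega
    have h5 : orderOf (-μ) = 2 ^ padicValNat 2 N := by
      obtain ⟨a, ha⟩ : ∃ a, padicValNat 2 N = a + 1 + 1 := ⟨padicValNat 2 N - 2, by omega⟩
      rw [ha] at hμ ⊢
      have he : Even (2 ^ (a + 1)) := by simp [Nat.even_pow]
      have he' : Even (2 ^ (a + 1 + 1)) := by simp [Nat.even_pow]
      apply orderOf_eq_prime_pow
      · rw [he.neg_pow]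
        intro h
        have := Nat.le_of_dvd (by positivity) (hμ ▸ orderOf_dvd_of_pow_eq_one h)
        exact absurd this (not_le.2 (Nat.pow_lt_pow_right one_lt_two (by omega)))
      · rw [he'.neg_pow, ← hμ, pow_orderOf_eq_one]
    have hg : N.gcd (2 * m) ≠ 0 := Nat.gcd_ne_zero_left hN
    have h0 : N / N.gcd (2 * m) ≠ 0 := (Nat.div_pos (Nat.gcd_le_left _ (Nat.pos_of_ne_zero hN))
      (Nat.pos_of_ne_zero hg)).ne'
    rw [h5, padicValNat_dvd_iff_le (mul_ne_zero (by omega) h0), padicValNat.mul (by omega) h0]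
    have h7 : padicValNat 2 (N / N.gcd (2 * m)) =
        padicValNat 2 N - min (padicValNat 2 N) (padicValNat 2 (2 * m)) := by
      rw [← Nat.factorization_def _ Nat.prime_two, ← Nat.factorization_def _ Nat.prime_two,
        ← Nat.factorization_def _ Nat.prime_two, Nat.factorization_div (Nat.gcd_dvd_left _ _),
        Nat.factorization_gcd hN (by omega)]
      rfl
    have h8 : padicValNat 2 (2 * m) = padicValNat 2 m + 1 := by
      rw [padicValNat.mul (by omega) (by omega), padicValNat_self, add_comm]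
    rw [h7, h8]
    simp only [h43, false_or]
    omega

end Cfsg.Agent.S2576
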