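import Mathlib
import Cfsg.Statements.S2578
import Cfsg.Agent.Conj.Jt
import Cfsg.Agent.Classical.SLBasic
-- import your own Cfsg.Agent.* helpers here

set_option autoImplicit false
open Cfsg

namespace Cfsg.Agent.S2578

/-- Regular unipotent classes of SL_n(q): for n ≥ 2 over the field with q elements, the matrices u of determinant one with (u − 1)^n = 0 and rank(u − 1) = n − 1 form a single GL_n(q)-class which splits into exactly gcd(n, q − 1) conjugacy classes of SL_n(q). -/
theorem result {F : Type*} [Field F] [Fintype F] {q : ℕ} (hF : Fintype.card F = q) {n : ℕ} (hn : 2 ≤ n) : Nat.card {C : ConjClasses (Matrix.SpecialLinearGroup (Fin n) F) // ∃ u : Matrix.SpecialLinearGroup (Fin n) F, ConjClasses.mk u = C ∧ ((u : Matrix (Fin n) (Fin n) F) - 1) ^ n = 0 ∧ ((u : Matrix (Fin n) (Fin n) F) - 1).rank = n - 1} = Nat.gcd n (q - 1) := by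
  obtain ⟨A, hA, hA'⟩ := Conj.exists_regular F (Fin n)
  rw [Fintype.card_fin] at hA hA'
  let x : Matrix.SpecialLinearGroup (Fin n) F := ⟨A, Conj.det_eq_one_of_unipotent ⟨n, hA⟩⟩
  haveI : Nonempty (Fin n) := ⟨⟨0, by omega⟩⟩
  rw [Conj.card_classes_split Matrix.GeneralLinearGroup.det Matrix.SpecialLinearGroup.toGL
    Matrix.SpecialLinearGroup.toGL_injective Classical.SLBasic.range_toGL_eq_ker x,
    MonoidHom.range_eq_top.2 Matrix.GeneralLinearGroup.det_surjective, Subgroup.relIndex_top_right,
    Nat.gcd_comm, ← hF, ← Nat.card_eq_fintype_card, ← Nat.card_units,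
    ← IsCyclic.index_powMonoidHom_range]
  · congr 1
    ext y
    constructor
    · rintro ⟨c, hc, rfl⟩
      have h1 : c.1 * A = A * c.1 :=
        congrArg Units.val (Subgroup.mem_centralizer_singleton_iff.1 hc)
      obtain ⟨a, -, ha⟩ := Conj.exists_det_eq_pow (f := Matrix.toLin' (A - 1))
        (c := Matrix.toLin' c.1) ⟨n, by rw [← Conj.toLin'_pow', hA, map_zero]⟩
        (by rw [← Conj.rank_eq_finrank, hA']; simp)
        (by rw [← Conj.toLin'_mul', ← Conj.toLin'_mul', mul_sub, sub_mul, h1]; simp)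
      rw [LinearMap.det_toLin', Module.finrank_fintype_fun_eq_card, Fintype.card_fin] at ha
      have ha0 : a ≠ 0 := by
        rintro rfl
        exact c.det_ne_zero (by rw [ha, zero_pow (by omega)])
      exact ⟨Units.mk0 a ha0, Units.ext (by simp [ha])⟩
    · rintro ⟨a, rfl⟩
      refine ⟨Matrix.GeneralLinearGroup.scalar _ a, ?_, Units.ext (by simp)⟩
      refine Subgroup.center_le_centralizer _ ?_
      rw [Matrix.GeneralLinearGroup.center_eq_range_scalar]
      exact ⟨a, rfl⟩
  · intro g
    rw [Conj.isConj_units_iff]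
    constructor
    · rintro ⟨h1, h2⟩
      exact Conj.isConj_of_regular ⟨n, hA⟩ ⟨n, h1⟩ (by simpa using hA') (by simpa using h2)
    · intro h
      have := Conj.regular_of_isConj h n
      exact ⟨this.1.1 hA, this.2.symm.trans hA'⟩

end Cfsg.Agent.S2578
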