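import Mathlib
import Cfsg.Statements.S2579
import Cfsg.Agent.Conj.Reg
-- import your own Cfsg.Agent.* helpers here

set_option autoImplicit false
open Cfsg

namespace Cfsg.Agent.S2579

/-- In SL_n(F) with n ≥ 3, over a finite field F, any two transvections (matrices t with t − 1 of rank one and square zero) are conjugate by an element of SL_n(F). -/
theorem result {F : Type*} [Field F] [Finite F] {n : ℕ} (hn : 3 ≤ n) (s t : Matrix.SpecialLinearGroup (Fin n) F) (hs : Cfsg.IsTransvection (s : Matrix (Fin n) (Fin n) F)) (ht : Cfsg.IsTransvection (t : Matrix (Fin n) (Fin n) F)) : IsConj s t := by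
  have sq : ∀ a : Matrix.SpecialLinearGroup (Fin n) F, IsTransvection a.1 →
      (Matrix.toLin' a.1 - 1) * (Matrix.toLin' a.1 - 1) = 0 := by
    intro a ha
    rw [← Conj.toLin'_sub_one, ← Conj.toLin'_mul', ha.2, map_zero]
  have rk : ∀ a : Matrix.SpecialLinearGroup (Fin n) F, IsTransvection a.1 →
      Module.finrank F (LinearMap.range (Matrix.toLin' a.1 - 1)) = 1 := by
    intro a ha
    rw [← Conj.toLin'_sub_one, ← Conj.rank_eq_finrank, ha.1]
  refine Conj.isConj_SL_of_sim (Conj.sim_sub_one_iff.1
    (Conj.sim_of_sq_zero (sq s hs) (sq t ht) rfl ((rk s hs).trans (rk t ht).symm))) fun d _ => ?_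
  obtain ⟨k, e, he, S⟩ := Conj.exists_jordan (f := Matrix.toLin' s.1 - 1)
    ⟨2, by rw [_root_.sq, sq s hs]⟩
  have h3 : ∃ c : Module.End F (Fin n → F), c * (Matrix.toLin' s.1 - 1) =
      (Matrix.toLin' s.1 - 1) * c ∧ LinearMap.det c = d := by
    apply S.exists_commute_det
    obtain ⟨i, hi⟩ : ∃ i, e i = 1 := by
      by_contra hne
      push Not at hne
      have h1 := Conj.finrank_range_nil (F := F) he
      have h2 := S.finrank_eq
      rw [Conj.finrank_nil] at h2
      rw [← S.finrank_range, rk s hs] at h1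
      have h4 : ∑ _i : Fin k, 2 ≤ ∑ i, e i := Finset.sum_le_sum fun i _ => by
        have := he i
        have := hne i
        omega
      simp at h1 h2 h4
      omega
    have := Conj.exists_commute_det_pow (f := fun i => Polynomial.X ^ e i)
      (fun _ => Polynomial.monic_X_pow _) i d
    rwa [Polynomial.natDegree_X_pow, hi, pow_one] at this
  obtain ⟨c, hc, hd⟩ := h3
  exact ⟨c, by simpa [mul_sub, sub_mul] using hc, hd⟩

end Cfsg.Agent.S2579
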