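import Mathlib
import Cfsg.Statements.S2581
import Cfsg.Agent.Conj.Lay
-- import your own Cfsg.Agent.* helpers here

set_option autoImplicit false
open Cfsg

namespace Cfsg.Agent.S2581

/-- Order of the centraliser in GL of a unipotent matrix of given Jordan type over the field with q elements: if the type has a_i blocks of size i (all block sizes at least 1), the invertible matrices commuting with it number q^γ · Π_i |GL_(a_i)(q)| with γ = 2 Σ_(i<j) i a_i a_j + Σ_i (i − 1) a_i² (a group of order q^γ extended by Π GL_(a_i)(q)). -/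
theorem result {F : Type*} [Field F] [Fintype F] {q : ℕ} (hF : Fintype.card F = q) {t : ℕ} (d : Fin t → ℕ) (hd : ∀ k, 1 ≤ d k) : Nat.card {g : GL ((k : Fin t) × Fin (d k)) F // (g : Matrix ((k : Fin t) × Fin (d k)) ((k : Fin t) × Fin (d k)) F) * Cfsg.jordanTypeMatrix d F = Cfsg.jordanTypeMatrix d F * (g : Matrix ((k : Fin t) × Fin (d k)) ((k : Fin t) × Fin (d k)) F)} = q ^ (2 * (∑ i ∈ Finset.range (Finset.univ.sup d + 1), ∑ j ∈ Finset.range (Finset.univ.sup d + 1), if i < j then i * (Finset.univ.filter (fun k : Fin t => d k = i)).card * (Finset.univ.filter (fun k : Fin t => d k = j)).card else 0) + ∑ i ∈ Finset.range (Finset.univ.sup d + 1), (i - 1) * (Finset.univ.filter (fun k : Fin t => d k = i)).card ^ 2) * ∏ i ∈ Finset.range (Finset.univ.sup d + 1), ∏ j : Fin ((Finset.univ.filter (fun k : Fin t => d k = i)).card), (q ^ (Finset.univ.filter (fun k : Fin t => d k = i)).card - q ^ (j : ℕ)) := by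
  have hn : ∀ k, d k ≤ Finset.univ.sup d := fun k => Finset.le_sup (Finset.mem_univ k)
  obtain ⟨e⟩ := (Conj.sim_jordanType (F := F) d).sub_one.cent_equiv
  rw [Conj.card_commute_eq, ← Conj.cent_sub_one, ← Nat.card_congr e.toEquiv, add_sub_cancel_right,
    Conj.card_cent_nilpotent ((Conj.nil_pow_eq_zero_iff d _).2 hn),
    Conj.finrank_ker_Psi_of_sim (Conj.Sim.refl _) hn, Nat.card_eq_fintype_card, hF,
    Conj.prod_range_succ_of_zero]
  · congr 1
    refine Finset.prod_congr rfl fun j _ => ?_
    rw [Conj.card_units_End (Conj.finrank_Lay_of_sim (Conj.Sim.refl _) j), Nat.card_eq_fintype_card,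
      hF]
  · rw [Finset.filter_false_of_mem fun k _ => by have := hd k; omega]
    simp

end Cfsg.Agent.S2581
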