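import Mathlib
import Cfsg.Statements.S2583
import Cfsg.Agent.Conj.UniEx
import Cfsg.Agent.Orth.Matrix
-- import your own Cfsg.Agent.* helpers here

set_option autoImplicit false
open Cfsg

namespace Cfsg.Agent.S2583

/-- Which unipotent Jordan types occur in a finite orthogonal group in odd characteristic: over a finite field of odd order, a unipotent matrix with Jordan block sizes d_1, …, d_t (sum n, all at least 1) is similar to an isometry of some quadratic form on F^n with non-degenerate polar form if and only if every even block size occurs an even number of times. -/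
theorem result {F : Type*} [Field F] [Fintype F] (h2 : (2 : F) ≠ 0) {n t : ℕ} (d : Fin t → ℕ) (hd : ∀ k, 1 ≤ d k) (hsum : ∑ k, d k = n) : (∃ Q : QuadraticForm F (Fin n → F), (QuadraticMap.polarBilin Q).Nondegenerate ∧ ∃ e : ((k : Fin t) × Fin (d k)) ≃ Fin n, ∃ A : ↥(Cfsg.isometryGroup F ⇑Q), IsConj (Matrix.reindex e e (Cfsg.jordanTypeMatrix d F)) ((A : Matrix.GeneralLinearGroup (Fin n) F) : Matrix (Fin n) (Fin n) F)) ↔ ∀ j : ℕ, Even j → 0 < j → Even (Finset.univ.filter (fun k : Fin t => d k = j)).card := by
  simp only [Conj.isConj_jordanType_iff hd, ← Conj.count_map_univ]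
  constructor
  · rintro ⟨Q, hQ, e, A, h1, h3⟩ j hj h0
    rw [← h3]
    refine Conj.even_count_of_symm h2 (B := Q.polarBilin)
      ⟨fun _ => rfl, Or.inl rfl, fun x y => by simp [QuadraticMap.polar_comm], hQ.1⟩
      (Conj.uIso_iff.2 fun x y => ?_) h1 hj h0
    exact Orth.polar_of_isom _ ((Orth.mem_isometryGroup _ _).1 A.2) x y
  · intro h
    obtain ⟨V, _, _, _, B, N, h1, -, h3, h4, h5⟩ := Conj.real_symm h2 (Finset.univ.val.map d)
      (by simpa [Nat.one_le_iff_ne_zero, Nat.pos_iff_ne_zero] using hd) fun j hj => by
        rcases Nat.eq_zero_or_pos j with rfl | h0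
        · rw [Conj.count_map_univ, Finset.filter_false_of_mem fun k _ => by have := hd k; omega]
          simp
        · exact h j hj h0
    have h6 : Module.finrank F V = n := by rw [← Conj.sum_jt h4, h5, ← hsum]; rfl
    let b := Module.finBasisOfFinrankEq F V h6
    have s := (Conj.sim_toMatrix b (N + 1)).sub_one
    rw [add_sub_cancel_right] at s
    have h7 := h1.comp b.equivFun.symm
    have h8 : IsUnit (LinearMap.toMatrix b b (N + 1)) :=
      h4.isUnit_add_one.map (LinearMap.toMatrixAlgEquiv b)
    refine ⟨LinearMap.BilinMap.toQuadraticMap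
      ((LinearMap.comp B b.equivFun.symm.toLinearMap).compl₂ b.equivFun.symm.toLinearMap), ?_,
      Fintype.equivOfCardEq (by simp [hsum]), ⟨h8.unit, (Orth.mem_isometryGroup _ _).2 fun v => ?_⟩,
      s.symm.isNilpotent h4, ((Conj.sim_iff_jt h4 (s.symm.isNilpotent h4)).1 s).symm.trans h5⟩
    · rw [← Orth.nd_iff]
      intro x hx
      refine h7.nd x fun y => mul_left_cancel₀ h2 ?_
      have := hx y
      rw [LinearMap.BilinMap.polar_toQuadraticMap, h7.symm x y] at this
      simp only [RingHom.id_apply] at this
      linear_combination this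
    · obtain ⟨w, rfl⟩ := b.equivFun.surjective v
      have : h8.unit.1.mulVec (b.equivFun w) = b.equivFun ((N + 1) w) :=
        LinearMap.toMatrix_mulVec_repr b b (N + 1) w
      rw [this]
      have h9 := Conj.uIso_iff.1 (show Conj.UIso B (N + 1 - 1) by rwa [add_sub_cancel_right]) w w
      change B (b.equivFun.symm _) (b.equivFun.symm _) = B (b.equivFun.symm _) (b.equivFun.symm _)
      rw [LinearEquiv.symm_apply_apply, LinearEquiv.symm_apply_apply, h9]

end Cfsg.Agent.S2583
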