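import Mathlib
import Cfsg.Statements.S2585
import Cfsg.Agent.Orth.Char2
-- import your own Cfsg.Agent.* helpers here

set_option autoImplicit false
open Cfsg

namespace Cfsg.Agent.S2585

/-- Over a finite field of characteristic two every element of the symplectic group is orthogonal for a suitable quadratic form: for each A in Sp_2m(F) there is a quadratic form Q on F^(2m) whose polar form is the alternating form defining Sp_2m(F) (so Q is non-degenerate) and which A preserves. Equivalently, for m ≥ 1, Sp_2m(F) is the union of the conjugates of its two orthogonal subgroups O⁺_2m(F) and O⁻_2m(F). -/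
theorem result {F : Type*} [Field F] [Fintype F] [CharP F 2] {m : ℕ} (A : Matrix.symplecticGroup (Fin m) F) : ∃ Q : QuadraticForm F (Fin m ⊕ Fin m → F), (∀ u v : Fin m ⊕ Fin m → F, QuadraticMap.polar ⇑Q u v = Cfsg.sympForm m F u v) ∧ ∀ v : Fin m ⊕ Fin m → F, Q ((A : Matrix (Fin m ⊕ Fin m) (Fin m ⊕ Fin m) F).mulVec v) = Q v := by
  have h2 : (2 : F) = 0 := Orth.two_eq_zero_of_charP
  let g : Classical.SpWitt.SG (Orth.plusQ m F).polarBilin :=
    ⟨(Classical.SpMat.spEquiv (Fin m) F A).1, by
      rw [Orth.polarBilin_plusQ h2]; exact (Classical.SpMat.spEquiv (Fin m) F A).2⟩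
  have hg : ∀ v, g.1 v = A.1.mulVec v := fun v => Classical.SpMat.spEquiv_apply A v
  obtain ⟨φ, hφ⟩ : Orth.defect h2 g ∈
      LinearMap.range (g.1.toLinearMap - LinearMap.id (R := F)).dualMap := by
    rw [LinearMap.range_dualMap_eq_dualAnnihilator_ker, Submodule.mem_dualAnnihilator]
    intro w hw
    have h1 : g.1 w = w := sub_eq_zero.1 hw
    apply pow_eq_zero_iff (n := 2) (by norm_num) |>.1
    rw [Orth.defect_sq, h1, ← two_mul, h2, zero_mul]
  refine ⟨Orth.plusQ m F + QuadraticMap.linMulLin φ φ, fun u v => ?_, fun v => ?_⟩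
  · rw [Classical.SpMat.sympForm_eq, ← Orth.polarBilin_plusQ h2, QuadraticMap.polarBilin_apply_apply]
    simp only [QuadraticMap.polar, QuadraticMap.add_apply, QuadraticMap.linMulLin_apply, map_add]
    linear_combination (φ u * φ v) * h2
  · have h1 := Orth.defect_sq h2 g v
    rw [← hφ] at h1
    simp only [LinearMap.dualMap_apply, LinearMap.sub_apply, LinearEquiv.coe_coe,
      LinearMap.id_apply, map_sub] at h1
    rw [← hg]
    simp only [QuadraticMap.add_apply, QuadraticMap.linMulLin_apply]
    linear_combination (-1 : F) * h1 + (φ (g.1 v) * φ (g.1 v) - φ (g.1 v) * φ v -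
      Orth.plusQ m F v) * h2

end Cfsg.Agent.S2585
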