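import Mathlib
import Cfsg.Statements.S2584
import Cfsg.Agent.Conj.UniEx
import Cfsg.Agent.Orth.Char2
import Cfsg.Agent.S2585
-- import your own Cfsg.Agent.* helpers here

set_option autoImplicit false
open Cfsg

namespace Cfsg.Agent.S2584

/-- Which unipotent Jordan types occur in a finite orthogonal group in characteristic two: over a finite field of characteristic 2 and in even dimension 2m, a unipotent matrix with Jordan block sizes d_1, …, d_t (sum 2m, all at least 1) is similar to an isometry of some quadratic form on F^(2m) with non-degenerate polar form if and only if every odd block size occurs an even number of times (the same condition as for the symplectic group, which contains these orthogonal groups). -/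
theorem result {F : Type*} [Field F] [Fintype F] [CharP F 2] {m t : ℕ} (d : Fin t → ℕ) (hd : ∀ k, 1 ≤ d k) (hsum : ∑ k, d k = 2 * m) : (∃ Q : QuadraticForm F (Fin (2 * m) → F), (QuadraticMap.polarBilin Q).Nondegenerate ∧ ∃ e : ((k : Fin t) × Fin (d k)) ≃ Fin (2 * m), ∃ A : ↥(Cfsg.isometryGroup F ⇑Q), IsConj (Matrix.reindex e e (Cfsg.jordanTypeMatrix d F)) ((A : Matrix.GeneralLinearGroup (Fin (2 * m)) F) : Matrix (Fin (2 * m)) (Fin (2 * m)) F)) ↔ ∀ j : ℕ, Odd j → Even (Finset.univ.filter (fun k : Fin t => d k = j)).card := by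
  have h2 : (2 : F) = 0 := Orth.two_eq_zero_of_charP
  simp only [Conj.isConj_jordanType_iff hd, ← Conj.count_map_univ]
  constructor
  · rintro ⟨Q, hQ, e, A, h1, h3⟩ j hj
    rw [← h3]
    refine Conj.even_count_of_alt (Conj.ef_of_alt hQ (Orth.polarBilin_isAlt h2 Q))
      (Orth.polarBilin_isAlt h2 Q) (Conj.uIso_iff.2 fun x y => ?_) h1 hj
    exact Orth.polar_of_isom _ ((Orth.mem_isometryGroup _ _).1 A.2) x y
  · intro h
    obtain ⟨A, h4, h5⟩ := Conj.exists_sp_unipotent (F := F) (Finset.univ.val.map d)
      (by simpa [Nat.one_le_iff_ne_zero, Nat.pos_iff_ne_zero] using hd) h hsum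
    obtain ⟨Q, hQ, hA⟩ := S2585.result A
    let e : Fin m ⊕ Fin m ≃ Fin (2 * m) := Fintype.equivOfCardEq (by simp [two_mul])
    let E := LinearEquiv.funCongrLeft F F e
    have s := (Conj.sim_reindex e A.1).sub_one
    have h8 : IsUnit (Matrix.reindex e e A.1) :=
      (IsUnit.of_mul_eq_one _ (Classical.SpMat.coe_mul_inv A)).map (Matrix.reindexAlgEquiv F F e)
    refine ⟨Q.comp E.toLinearMap, ?_,
      Fintype.equivOfCardEq (by simp [hsum]), ⟨h8.unit, (Orth.mem_isometryGroup _ _).2 fun v => ?_⟩,
      s.symm.isNilpotent h4, ((Conj.sim_iff_jt h4 (s.symm.isNilpotent h4)).1 s).symm.trans h5⟩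
    · rw [← Orth.nd_iff]
      intro x hx
      apply E.injective
      rw [map_zero]
      refine Classical.SpMat.sB_nondeg.1 _ fun y => ?_
      obtain ⟨y, rfl⟩ := E.surjective y
      rw [← Classical.SpMat.sympForm_eq, ← hQ, ← hx y]
      simp [QuadraticMap.polar]
    · rw [QuadraticMap.comp_apply, QuadraticMap.comp_apply, ← hA (E.toLinearMap v)]
      congr 1
      ext i
      simp only [E, IsUnit.unit_spec, LinearEquiv.coe_coe, LinearEquiv.funCongrLeft_apply,
        LinearMap.funLeft_apply, Matrix.reindex_apply, Matrix.mulVec, dotProduct,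
        Matrix.submatrix_apply, Equiv.symm_apply_apply]
      exact (Equiv.sum_comp e _).symm.trans (by simp)

end Cfsg.Agent.S2584
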