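import Mathlib
import Cfsg.Statements.S2676
import Cfsg.Agent.Conj.UniCl
-- import your own Cfsg.Agent.* helpers here

set_option autoImplicit false
open Classical
open Cfsg

namespace Cfsg.Agent.S2676

open Conj Module

theorem pow_eq_one_iff {F V : Type*} [Field F] [AddCommGroup V] [Module F V] {σ : F →+* F}
    {B : V →ₛₗ[σ] V →ₗ[F] F} {p : ℕ} [Fact p.Prime] [CharP F p] (g : Herm.UG B) :
    g ^ p = 1 ↔ nl g ^ p = 0 := by
  have : ((Polynomial.X : Polynomial F) - 1) ^ p = Polynomial.X ^ p - 1 := by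
    rw [sub_pow_char, one_pow]
  have h := congrArg (Polynomial.aeval (g.1.toLinearMap : End F V)) this
  simp only [map_pow, map_sub, Polynomial.aeval_X, map_one] at h
  rw [h, sub_eq_zero]
  let φ : Herm.UG B →* End F V := LinearEquiv.automorphismGroup.toLinearMapMonoidHom.comp
    (Herm.UG B).subtype
  have hφ : Function.Injective φ := fun a b hab => Herm.UG.ext fun v => LinearMap.congr_fun hab v
  rw [← map_eq_one_iff φ hφ, map_pow]
  rfl

theorem eq_one_iff {F V : Type*} [Field F] [AddCommGroup V] [Module F V] [FiniteDimensional F V]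
    {σ : F →+* F} {B : V →ₛₗ[σ] V →ₗ[F] F} (g : Herm.UG B) (hg : IsNilpotent (nl g)) :
    g = 1 ↔ jt (nl g) = Multiset.replicate (finrank F V) 1 := by
  have h3 := pow_eq_zero_iff_jt hg 1
  have h0 : g = 1 ↔ nl g = 0 := by
    rw [sub_eq_zero]
    exact ⟨by rintro rfl; rfl, fun h => Herm.UG.ext fun v => LinearMap.congr_fun h v⟩
  rw [pow_one, ← h0] at h3
  rw [h3, Multiset.eq_replicate]
  constructor
  · intro h
    have h4 : ∀ a ∈ jt (nl g), a = 1 := fun a ha => le_antisymm (h a ha) (jt_pos hg a ha)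
    refine ⟨?_, h4⟩
    have h5 := sum_jt hg
    rw [Multiset.eq_replicate_card.2 h4] at h5
    simpa using h5
  · exact fun h a ha => (h.2 a ha).le

/-- the symplectic group as an isometry group -/
noncomputable def spU (F : Type*) [Field F] (m : ℕ) :
    Matrix.symplecticGroup (Fin m) F ≃* Herm.UG (Classical.SpMat.sB (Fin m) F) :=
  Classical.SpMat.spEquiv (Fin m) F

theorem nl_spU {F : Type*} [Field F] {m : ℕ} (A : Matrix.symplecticGroup (Fin m) F) :
    nl (spU F m A) = Matrix.toLin' (A.1 - 1) := by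
  rw [toLin'_sub_one]
  exact congrArg (· - 1) (LinearMap.ext fun v => Classical.SpMat.spEquiv_apply A v)

/-- Number of conjugacy classes of elements of order p in Sp_2m(q), q a power of the odd prime p: the classes correspond to the signed partitions of 2m — partitions with all parts at most p in which every odd part has even multiplicity, each even part size that occurs carrying a sign — other than the all-ones partition; so the count is the sum over such partitions of 2^(number of distinct even parts), minus one. -/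
theorem result {F : Type*} [Field F] [Fintype F] {p : ℕ} [Fact p.Prime] [CharP F p] (hp : p ≠ 2) (m : ℕ) : Nat.card {C : ConjClasses ↥(Matrix.symplecticGroup (Fin m) F) // ∃ g : Matrix.symplecticGroup (Fin m) F, ConjClasses.mk g = C ∧ orderOf g = p} = (∑ μ ∈ Finset.univ.filter (fun μ : Nat.Partition (2 * m) => (∀ a ∈ μ.parts, a ≤ p) ∧ ∀ j : ℕ, Odd j → Even (μ.parts.count j)), 2 ^ ((μ.parts.toFinset.filter (fun j : ℕ => Even j)).card)) - 1 := by
  have hp' : p.Prime := Fact.out
  have h2 : (2 : F) ≠ 0 := fun h => hp ((Nat.prime_dvd_prime_iff_eq hp' Nat.prime_two).1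
    ((CharP.cast_eq_zero_iff F p 2).1 h))
  have hB := ef_of_alt (Classical.SpMat.sB_nondeg (ι := Fin m) (F := F)) Classical.SpMat.sB_alt
  have hd : finrank F (Fin m ⊕ Fin m → F) = 2 * m := by simp [two_mul]
  have key2 : ∀ g : Herm.UG (Classical.SpMat.sB (Fin m) F), orderOf g = p → IsNilpotent (nl g) :=
    fun g hg => ⟨p, (pow_eq_one_iff g).1 (hg ▸ pow_orderOf_eq_one g)⟩
  let S : Finset (Multiset ℕ × Finset ℕ) :=
    ((Finset.univ.filter (fun μ : Nat.Partition (2 * m) => (∀ a ∈ μ.parts, a ≤ p) ∧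
      ∀ j : ℕ, Odd j → Even (μ.parts.count j))).sigma
        fun μ => (μ.parts.toFinset.filter (fun j : ℕ => Even j)).powerset).map
      ⟨fun x => (x.1.parts, x.2), fun ⟨a, b⟩ ⟨c, d⟩ h => by
        simp only [Prod.mk.injEq] at h
        obtain rfl := Nat.Partition.ext h.1
        rw [h.2]⟩
  have hS : ∀ x, x ∈ S ↔ ∃ g : Herm.UG (Classical.SpMat.sB (Fin m) F), g ^ p = 1 ∧ spInv g = x := by
    rintro ⟨s, T⟩
    simp only [S, Finset.mem_map, Finset.mem_sigma, Finset.mem_filter, Finset.mem_univ, true_and,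
      Finset.mem_powerset]
    constructor
    · rintro ⟨⟨μ, T⟩, ⟨⟨h3, h4⟩, h5⟩, ⟨⟩⟩
      obtain ⟨g, hg, hg'⟩ := exists_spInv h2 hB μ.parts (fun a ha => μ.parts_pos ha) h4
        (by rw [μ.parts_sum, hd]) T h5
      refine ⟨g, ?_, hg'⟩
      rw [pow_eq_one_iff, pow_eq_zero_iff_jt hg, show jt (nl g) = μ.parts from congrArg Prod.fst hg']
      exact h3
    · rintro ⟨g, hg, hg'⟩
      rw [pow_eq_one_iff] at hg
      have h3 : IsNilpotent (nl g) := ⟨p, hg⟩
      obtain ⟨rfl, rfl⟩ := Prod.mk.inj hg'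
      refine ⟨⟨⟨_, fun h => jt_pos h3 _ h, by rw [sum_jt h3, hd]⟩, _⟩,
        ⟨⟨(pow_eq_zero_iff_jt h3 p).1 hg, fun j hj => ?_⟩, fun a ha => ?_⟩, rfl⟩
      · exact even_count_of_alt hB Classical.SpMat.sB_alt (uIso_nl g) h3 hj
      · have ha' := Finset.mem_filter.1 (show a ∈ (spInv g).2 from ha)
        exact Finset.mem_filter.2 ⟨ha'.1, ha'.2.1⟩
  have h1 : IsNilpotent (nl (1 : Herm.UG (Classical.SpMat.sB (Fin m) F))) :=
    ⟨p, (pow_eq_one_iff _).1 (one_pow p)⟩
  rw [Orth.card_classes_equiv (spU F m) _ (fun g => orderOf g = p) fun g => by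
      rw [MulEquiv.orderOf_eq],
    Orth.card_classes _ spInv (fun g h hg hh => sp_isConj_iff_inv h2 hB (key2 g hg) (key2 h hh))
      (S.erase (spInv (1 : Herm.UG (Classical.SpMat.sB (Fin m) F)))),
    Finset.card_erase_of_mem ((hS _).2 ⟨1, one_pow p, rfl⟩), Finset.card_map, Finset.card_sigma]
  · simp only [Finset.card_powerset]
  · intro x
    rw [Finset.mem_erase, hS]
    constructor
    · rintro ⟨h3, g, hg, rfl⟩
      exact ⟨g, orderOf_eq_prime hg (by rintro rfl; exact h3 rfl), rfl⟩
    · rintro ⟨g, hg, rfl⟩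
      refine ⟨fun h => ?_, g, hg ▸ pow_orderOf_eq_one g, rfl⟩
      have := (sp_isConj_iff_inv h2 hB (key2 g hg) h1).2 h
      rw [isConj_one_left] at this
      rw [this, orderOf_one] at hg
      exact hp'.one_lt.ne hg

end Cfsg.Agent.S2676
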