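import Mathlib
import Cfsg.Statements.S2591
import Cfsg.Agent.S2676
-- import your own Cfsg.Agent.* helpers here

set_option autoImplicit false
open Cfsg

namespace Cfsg.Agent.S2591

open Conj Module

theorem regular_iff {F V : Type*} [Field F] [AddCommGroup V] [Module F V] [FiniteDimensional F V]
    {N : End F V} {n : ℕ} (hn : finrank F V = n) (h0 : 1 ≤ n) :
    (N ^ n = 0 ∧ finrank F (LinearMap.range N) = n - 1) ↔ IsNilpotent N ∧ jt N = {n} := by
  have h1 := LinearMap.finrank_range_add_finrank_ker N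
  constructor
  · rintro ⟨h2, h3⟩
    exact ⟨⟨n, h2⟩, by rw [jt_of_regular ⟨n, h2⟩ (by omega), hn]⟩
  · rintro ⟨h2, h3⟩
    have h4 := card_jt h2
    rw [h3, Multiset.card_singleton] at h4
    exact ⟨hn ▸ pow_finrank_eq_zero h2, by omega⟩

/-- Over a finite field of odd order and for m ≥ 1, the regular unipotent elements of Sp_2m(F) (u − 1 nilpotent of rank 2m − 1, a single Jordan block) form exactly two conjugacy classes of Sp_2m(F) (one class under the similarity group, which splits in two). -/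
theorem result {F : Type*} [Field F] [Fintype F] {q : ℕ} (hF : Fintype.card F = q) (hq : Odd q) {m : ℕ} (hm : 1 ≤ m) : Nat.card {C : ConjClasses ↥(Matrix.symplecticGroup (Fin m) F) // ∃ u : Matrix.symplecticGroup (Fin m) F, ConjClasses.mk u = C ∧ ((u : Matrix (Fin m ⊕ Fin m) (Fin m ⊕ Fin m) F) - 1) ^ (2 * m) = 0 ∧ ((u : Matrix (Fin m ⊕ Fin m) (Fin m ⊕ Fin m) F) - 1).rank = 2 * m - 1} = 2 := by
  have h2 : (2 : F) ≠ 0 := Orth.two_ne_zero_of_odd (hF ▸ hq)
  have hB := ef_of_alt (Classical.SpMat.sB_nondeg (ι := Fin m) (F := F)) Classical.SpMat.sB_alt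
  have hd : finrank F (Fin m ⊕ Fin m → F) = 2 * m := by simp [two_mul]
  have h3 : ({2 * m} : Multiset ℕ).toFinset.filter Even = {2 * m} := by
    rw [Multiset.toFinset_singleton, Finset.filter_singleton, if_pos (even_two_mul m)]
  rw [Orth.card_classes_equiv (S2676.spU F m) _
      (fun g => IsNilpotent (nl g) ∧ jt (nl g) = {2 * m}) fun g => by
        rw [← regular_iff hd (by omega), S2676.nl_spU, ← toLin'_pow', rank_eq_finrank,
          map_eq_zero_iff _ Matrix.toLin'.injective],
    Orth.card_classes _ spInv (fun g h hg hh => sp_isConj_iff_inv h2 hB hg.1 hh.1)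
      (({2 * m} : Finset ℕ).powerset.map ⟨fun T => ({2 * m}, T), fun a b h => (Prod.mk.inj h).2⟩)]
  · simp
  · intro x
    simp only [Finset.mem_map, Finset.mem_powerset, Function.Embedding.coeFn_mk]
    constructor
    · rintro ⟨T, hT, rfl⟩
      obtain ⟨g, hg, hg'⟩ := exists_spInv h2 hB {2 * m} (by simp; omega) (fun j hj => by
        rw [Multiset.count_singleton, if_neg]
        · simp
        · rintro rfl
          exact Nat.not_even_iff_odd.2 hj (even_two_mul m)) (by simp [hd]) T (by rwa [h3])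
      exact ⟨g, ⟨hg, congrArg Prod.fst hg'⟩, hg'⟩
    · rintro ⟨g, ⟨-, hg⟩, rfl⟩
      refine ⟨(spInv g).2, ?_, Prod.ext hg.symm rfl⟩
      intro a ha
      rw [← h3, ← hg]
      simp only [spInv, Finset.mem_filter] at ha ⊢
      exact ⟨ha.1, ha.2.1⟩

end Cfsg.Agent.S2591
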