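import Mathlib
import Cfsg.Statements.S2592
import Cfsg.Agent.S2676
-- import your own Cfsg.Agent.* helpers here

set_option autoImplicit false
set_option backward.isDefEq.respectTransparency false
open Cfsg

namespace Cfsg.Agent.S2592

open Conj Module Polynomial

variable {F : Type*} [Field F]

theorem xBasis_apply (n : ℕ) (i : Fin n) :
    xBasis (F := F) n i = AdjoinRoot.root ((X : F[X]) ^ n) ^ (i : ℕ) := by
  rw [xBasis, Basis.reindex_apply]
  exact (AdjoinRoot.powerBasis' (monic_X_pow n : ((X : F[X]) ^ n).Monic)).basis_eq_pow _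

theorem card_skew [Finite F] (h2 : (2 : F) ≠ 0) (m : ℕ) :
    Nat.card {s : AdjoinRoot ((X : F[X]) ^ (2 * m)) // negRoot _ s = -s} = Nat.card F ^ m := by
  have h1 : ∀ (a : AdjoinRoot ((X : F[X]) ^ (2 * m))) i, (xBasis _).repr (negRoot _ a) i =
      (-1) ^ (i : ℕ) * (xBasis _).repr a i := fun a i => by
    have : ((xBasis (2 * m)).coord i) ∘ₗ (negRoot (F := F) (2 * m)).toLinearMap =
        ((-1 : F) ^ (i : ℕ)) • (xBasis _).coord i := by
      refine (xBasis _).ext fun j => ?_
      have : negRoot (F := F) (2 * m) (xBasis _ j) = ((-1 : F) ^ (j : ℕ)) • xBasis _ j := by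
        rw [xBasis_apply, map_pow, negRoot_root, neg_pow, Algebra.smul_def]
        simp
      simp only [LinearMap.comp_apply, AlgHom.toLinearMap_apply, this, map_smul,
        LinearMap.smul_apply, Basis.coord_apply, Basis.repr_self, Finsupp.single_apply]
      split_ifs with h
      · rw [h]
      · simp
    exact LinearMap.congr_fun this a
  have h3 : Nat.card {s : AdjoinRoot ((X : F[X]) ^ (2 * m)) // negRoot _ s = -s} =
      Nat.card ((i : Fin (2 * m)) → {x : F // (-1) ^ (i : ℕ) * x = -x}) := by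
    refine Nat.card_congr (((xBasis (2 * m)).equivFun.toEquiv.subtypeEquiv fun s => ?_).trans
      Equiv.subtypePiEquivPi)
    rw [(xBasis _).ext_elem_iff]
    simp [h1]
  rw [h3, Nat.card_pi, Fin.prod_univ_eq_prod_range
    (fun i => Nat.card {x : F // (-1) ^ i * x = -x})]
  clear h1 h3
  induction m with
  | zero => simp
  | succ m ih =>
    rw [Nat.mul_succ, Finset.prod_range_succ, Finset.prod_range_succ, ih, pow_succ (Nat.card F),
      (even_two_mul m).neg_one_pow, (even_two_mul m).add_one.neg_one_pow]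
    have : Nat.card {x : F // 1 * x = -x} = 1 := by
      rw [Nat.card_eq_one_iff_exists]
      refine ⟨⟨0, by simp⟩, fun x => Subtype.ext (mul_left_cancel₀ h2 ?_)⟩
      linear_combination x.2
    rw [this]
    simp

theorem card_unit [Finite F] (h2 : (2 : F) ≠ 0) {n : ℕ} (hn : n ≠ 0) :
    Nat.card {c : AdjoinRoot ((X : F[X]) ^ n) // negRoot _ c * c = 1} =
      2 * Nat.card {s : AdjoinRoot ((X : F[X]) ^ n) // negRoot _ s = -s} := by
  have h0 : ∀ a, ev0 hn (negRoot (F := F) n a) = ev0 hn a := fun a => by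
    have : (ev0 hn).comp (negRoot (F := F) n) = ev0 hn :=
      AdjoinRoot.algHom_ext (by simp [negRoot_root, ev0])
    exact AlgHom.congr_fun this a
  have h1 : Nat.card {e : F // e * e = 1} = 2 := by
    rw [Nat.card_eq_two_iff]
    refine ⟨⟨1, by simp⟩, ⟨-1, by simp⟩, fun h => h2 ?_, ?_⟩
    · have : (1 : F) = -1 := congrArg Subtype.val h
      linear_combination this
    · rw [Set.eq_univ_iff_forall]
      rintro ⟨e, he⟩
      simpa using mul_self_eq_one_iff.1 he
  have h3 : ∀ s : {s : AdjoinRoot ((X : F[X]) ^ n) // negRoot _ s = -s}, ev0 hn s.1 = 0 :=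
    fun s => mul_left_cancel₀ h2 (by
      have := h0 s
      rw [s.2, map_neg] at this
      linear_combination -this)
  have h4 : ∀ s : {s : AdjoinRoot ((X : F[X]) ^ n) // negRoot _ s = -s}, ∃ w, (1 - s.1) * w = 1 :=
    fun s => ((isUnit_iff_ev0 hn _).2 (by simp [h3])).exists_right_inv
  choose w hw using h4
  have h5 : ∀ s, ev0 hn (w s) = 1 := fun s => by simpa [h3] using congrArg (ev0 hn) (hw s)
  have h6 : IsUnit (2 : AdjoinRoot ((X : F[X]) ^ n)) := by
    have := (IsUnit.mk0 _ h2).map (algebraMap F (AdjoinRoot ((X : F[X]) ^ n)))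
    rwa [map_ofNat] at this
  rw [← h1, ← Nat.card_prod]
  symm
  refine Nat.card_congr (Equiv.ofBijective
    (fun x => ⟨algebraMap F _ x.1.1 * ((1 + x.2.1) * w x.2), ?_⟩) ⟨?_, ?_⟩)
  · have a := hw x.2
    have b := congrArg (negRoot n) a
    have c := congrArg (algebraMap F (AdjoinRoot ((X : F[X]) ^ n))) x.1.2
    simp only [map_mul, map_sub, map_add, map_one, x.2.2, AlgHom.commutes] at b c ⊢
    linear_combination ((1 - x.2.1) * w x.2 * ((1 + x.2.1) * negRoot n (w x.2))) * c +
      ((1 + x.2.1) * negRoot n (w x.2)) * a + b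
  · rintro ⟨e, s⟩ ⟨e', s'⟩ h
    have h' : algebraMap F _ e.1 * ((1 + s.1) * w s) = algebraMap F _ e'.1 * ((1 + s'.1) * w s') :=
      congrArg Subtype.val h
    obtain rfl : e = e' := Subtype.ext (by
      have := congrArg (ev0 hn) h'
      simp only [map_mul, AlgHom.commutes] at this
      simpa [h3, h5] using this)
    have h7 := ((IsUnit.of_mul_eq_one _ e.2).map (algebraMap F _)).mul_left_cancel h'
    have : s = s' := Subtype.ext (h6.mul_left_cancel (by
      linear_combination ((1 - s.1) * (1 - s'.1)) * h7 - ((1 + s.1) * (1 - s'.1)) * hw s +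
        ((1 + s'.1) * (1 - s.1)) * hw s'))
    rw [this]
  · rintro ⟨c, hc⟩
    have h7 : ev0 hn c * ev0 hn c = 1 := by simpa [h0] using congrArg (ev0 hn) hc
    have h8 := congrArg (algebraMap F (AdjoinRoot ((X : F[X]) ^ n))) h7
    obtain ⟨v, hv⟩ := ((isUnit_iff_ev0 hn (algebraMap F _ (ev0 hn c) * c + 1)).2 (by
      rw [map_add, map_mul, AlgHom.commutes, map_one]
      change ev0 hn c * ev0 hn c + 1 ≠ 0
      rwa [h7, one_add_one_eq_two])).exists_right_inv
    have hv' := congrArg (negRoot n) hv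
    simp only [map_mul, map_add, map_one, AlgHom.commutes] at hv' h8
    generalize hE : algebraMap F (AdjoinRoot ((X : F[X]) ^ n)) (ev0 hn c) = E at hv hv' h8
    have hτE : negRoot n E = E := by rw [← hE, AlgHom.commutes]
    let s : {s : AdjoinRoot ((X : F[X]) ^ n) // negRoot _ s = -s} := ⟨(E * c - 1) * v, by
      simp only [map_mul, map_sub, map_one, hτE]
      linear_combination (-(E * negRoot n c - 1) * negRoot n v) * hv -
        ((E * c - 1) * v) * hv' + (2 * v * negRoot n v * E * E) * hc +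
        (2 * v * negRoot n v) * h8⟩
    refine ⟨(⟨_, h7⟩, s), Subtype.ext ?_⟩
    have h9 := hw s
    change algebraMap F _ (ev0 hn c) * ((1 + (E * c - 1) * v) * w s) = c
    change (1 - (E * c - 1) * v) * w s = 1 at h9
    rw [hE]
    linear_combination (E * E * c) * h9 + c * h8 + (E * w s * (E * c - 1)) * hv

/-- Over a finite field with q elements, q odd, the centraliser in Sp_2m(F) (m ≥ 1) of a regular unipotent element (u − 1 nilpotent of rank 2m − 1) has order 2 q^m. -/
theorem result {F : Type*} [Field F] [Fintype F] {q : ℕ} (hF : Fintype.card F = q) (hq : Odd q) {m : ℕ} (hm : 1 ≤ m) (u : Matrix.symplecticGroup (Fin m) F) (hnil : ((u : Matrix (Fin m ⊕ Fin m) (Fin m ⊕ Fin m) F) - 1) ^ (2 * m) = 0) (hreg : ((u : Matrix (Fin m ⊕ Fin m) (Fin m ⊕ Fin m) F) - 1).rank = 2 * m - 1) : Nat.card ↥(Subgroup.centralizer ({u} : Set ↥(Matrix.symplecticGroup (Fin m) F))) = 2 * q ^ m := by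
  have h2 : (2 : F) ≠ 0 := Orth.two_ne_zero_of_odd (hF ▸ hq)
  have hB := ef_of_alt (Classical.SpMat.sB_nondeg (ι := Fin m) (F := F)) Classical.SpMat.sB_alt
  have hd : finrank F (Fin m ⊕ Fin m → F) = 2 * m := by simp [two_mul]
  rw [← Orth.card_centralizer_equiv (S2676.spU F m), card_centralizer_UG hB, ← hF,
    ← Nat.card_eq_fintype_card, ← card_skew h2, ← card_unit h2 (by omega)]
  have h1 : nl (S2676.spU F m u) ^ (2 * m) = 0 := by
    rw [S2676.nl_spU, ← toLin'_pow', hnil, map_zero]
  have h3 : finrank F (LinearMap.range (nl (S2676.spU F m u))) = 2 * m - 1 := by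
    rw [S2676.nl_spU, ← rank_eq_finrank, hreg]
  have hu := uIso_nl (S2676.spU F m u)
  change Nat.card {c // tauC hB hu c * c = 1} = _
  generalize nl (S2676.spU F m u) = N at h1 h3 hu
  have h4 := hu.adj_eq hB
  have h5 := mul_eq_one_comm.1 h4
  let U : Cen N := ⟨N + 1, mem_Cen.2 ((Commute.refl N).add_right (Commute.one_right N))⟩
  let Z : Cen N := U - tauC hB hu U
  have hZ : tauC hB hu Z = -Z := by
    refine Subtype.ext ?_
    change hB.adj (U.1 - hB.adj U.1) = -(U.1 - hB.adj U.1)
    rw [map_sub, neg_sub, hB.adj_adj]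
  have h6 : IsUnit ((N + 2) * hB.adj (N + 1)) := by
    refine IsUnit.mul ?_ (IsUnit.of_mul_eq_one _ h4)
    have : IsUnit (2 : End F (Fin m ⊕ Fin m → F)) := by
      have := (IsUnit.mk0 _ h2).map (algebraMap F (End F (Fin m ⊕ Fin m → F)))
      rwa [map_ofNat] at this
    exact IsNilpotent.isUnit_add_right_of_commute ⟨_, h1⟩ this (Commute.ofNat_right _ _)
  have h7 : Commute ((N + 2) * hB.adj (N + 1)) N :=
    (((Commute.refl N).add_left (Commute.ofNat_left _ _))).mul_left
      (show Commute N _ from mem_Cen.1 (tauC hB hu U).2).symm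
  have h8 : Z.1 = ((N + 2) * hB.adj (N + 1)) * N := by
    rw [h7.eq]
    change N + 1 - hB.adj (N + 1) = _
    have : N * (N + 2) = (N + 1) * (N + 1) - 1 := by noncomm_ring
    rw [← mul_assoc, this, sub_mul, mul_assoc, h5, mul_one, one_mul]
  have h9 : Z.1 ^ (2 * m) = 0 := by rw [h8, h7.mul_pow, h1, mul_zero]
  have h10 : Sim Z.1 (cyc (X ^ (2 * m))) := by
    refine sim_cyc_of_regular ⟨_, h9⟩ hd ?_
    rw [← h3, h8, h7.eq, End.mul_eq_comp, LinearMap.range_comp_of_range_eq_top _
      (LinearMap.range_eq_top.2 ((End.isUnit_iff _).1 h6).2)]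
  let φ : AdjoinRoot ((X : F[X]) ^ (2 * m)) →ₗ[F] Cen N :=
    (aeval Z).toLinearMap ∘ₗ AdjoinRoot.modByMonicHom (monic_X_pow _)
  have hφ : ∀ p, φ (AdjoinRoot.mk _ p) = aeval Z p := fun p => by
    change aeval Z (AdjoinRoot.modByMonicHom _ (AdjoinRoot.mk _ p)) = _
    rw [AdjoinRoot.modByMonicHom_mk]
    conv_rhs => rw [← modByMonic_add_div p (X ^ (2 * m)), map_add, map_mul, map_pow, aeval_X,
      show Z ^ (2 * m) = 0 from Subtype.ext h9, zero_mul, add_zero]
  have hinj : Function.Injective φ := by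
    rw [injective_iff_map_eq_zero]
    intro a ha
    obtain ⟨p, rfl⟩ := AdjoinRoot.mk_surjective a
    rw [hφ] at ha
    have h11 : aeval Z.1 p = 0 := by
      rw [show Z.1 = (Cen N).val Z from rfl, aeval_algHom_apply, ha, map_zero]
    rw [(h10.aeval p).zero_iff, aeval_cyc] at h11
    simpa using LinearMap.congr_fun h11 1
  haveI := (monic_X_pow (2 * m) : ((X : F[X]) ^ (2 * m)).Monic).finite_adjoinRoot
  have hsurj : Function.Surjective φ := by
    refine (LinearMap.injective_iff_surjective_of_finrank_eq_finrank (K := F) (V₂ := Cen N) (f := φ)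
      ?_).1 hinj
    rw [finrank_Cen_of_sim (d := fun _ : Unit => 2 * m) ((sim_cyc_of_regular ⟨_, h1⟩ hd h3).trans
      (sim_mdl_single (fun _ : Unit => (X : F[X]) ^ (2 * m)) () fun _ h => (h rfl).elim).symm),
      finrank_adjoinRoot (monic_X_pow _), natDegree_X_pow]
    simp
  have hτ : ∀ a, tauC hB hu (φ a) = φ (negRoot _ a) := fun a => by
    obtain ⟨p, rfl⟩ := AdjoinRoot.mk_surjective a
    rw [negRoot_mk, hφ, hφ, aeval_comp]
    induction p using Polynomial.induction_on' with
    | add p q hp hq => rw [map_add, map_add, map_add, hp, hq]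
    | monomial k a =>
      refine Subtype.ext ?_
      have : hB.adj Z.1 = -Z.1 := congrArg Subtype.val hZ
      simp only [aeval_monomial, ← Algebra.smul_def]
      change hB.adj (a • Z.1 ^ k) = _
      rw [hB.adj_smul, hB.adj_pow, this]
      simp
  have hmul : ∀ a b, φ (a * b) = φ a * φ b := fun a b => by
    obtain ⟨p, rfl⟩ := AdjoinRoot.mk_surjective a
    obtain ⟨q, rfl⟩ := AdjoinRoot.mk_surjective b
    rw [← map_mul, hφ, hφ, hφ, map_mul]
  have hone : φ 1 = 1 := by simpa using hφ 1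
  refine (Nat.card_congr ((Equiv.ofBijective φ ⟨hinj, hsurj⟩).subtypeEquiv fun a => ?_)).symm
  change _ ↔ tauC hB hu (φ a) * φ a = 1
  rw [hτ, ← hmul, ← hone, hinj.eq_iff]

end Cfsg.Agent.S2592
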