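import Mathlib
import Cfsg.Statements.S2681
import Cfsg.Agent.Orth.Inv2Mat
-- import your own Cfsg.Agent.* helpers here

set_option autoImplicit false
open Cfsg

namespace Cfsg.Agent.S2681

open Module Orth Classical.SpMat in
theorem main {F : Type*} [Field F] [Fintype F] [CharP F 2] {q : ℕ} (hF : Fintype.card F = q) {m s : ℕ}
    (t : Matrix.symplecticGroup (Fin m) F) (ht : t ^ 2 = 1)
    (hs : ((t : Matrix (Fin m ⊕ Fin m) (Fin m ⊕ Fin m) F) - 1).rank = s) :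
    s ≤ m ∧ ∃ (W : Submodule F (Fin m ⊕ Fin m → F)) (χ : LinearMap.BilinForm F W), SymND χ ∧
      finrank F W = s ∧ (χ.IsAlt ↔ ∀ v, Cfsg.sympForm m F v (t.1.mulVec v) = 0) ∧
      Nat.card (Subgroup.centralizer {t}) = q ^ (2 * m * s - (3 * s ^ 2 - s) / 2) *
        Nat.card (Classical.SpWitt.SG χ) * ordSp q (m - s) := by
  have h2 : (2 : F) = 0 := two_eq_zero_of_charP
  have ht' : spEquiv _ F t * spEquiv _ F t = 1 := by rw [← map_mul, ← pow_two, ht, map_one]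
  rw [rank_spEquiv] at hs
  rw [← card_centralizer_equiv (spEquiv _ F)]
  simp only [sympForm_eq, ← spEquiv_apply]
  generalize spEquiv _ F t = t at *
  have hS := symND_of_alt h2 (sB_nondeg (ι := Fin m) (F := F)) sB_alt
  have h1 := two_mul_finrank_le_of_iso hS (iso_mv h2 t.2 (invol_of_mul_self ht'))
  rw [finrank_plus, hs] at h1
  refine ⟨by omega, _, _, (sa_mv t.2 (invol_of_mul_self ht')).symND_wall hS, hs,
    isAlt_wall_mv sB_alt t.2 (invol_of_mul_self ht'), ?_⟩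
  rw [sp_card_centralizer h2 sB_nondeg sB_alt ht' (finrank_plus m) hs, Nat.card_eq_fintype_card (α := F), hF,
    mul_right_comm]
  congr 3
  obtain ⟨r, rfl⟩ : ∃ r, m = s + r := ⟨m - s, by omega⟩
  obtain ⟨T, hT⟩ := Nat.even_mul_succ_self s
  rw [Nat.add_sub_cancel_left, show 2 * (s + r) * s = 2 * (s * s) + 2 * (s * r) by ring, pow_two,
    mul_assoc 2 s r]
  have : s ≤ s * s := Nat.le_mul_self s
  rw [mul_add_one] at hT ⊢
  omega

theorem ordSp_eq (q m : ℕ) : Orth.ordSp q m = q ^ (m ^ 2) * ∏ i : Fin m, (q ^ (2 * ((i : ℕ) + 1)) - 1) := by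
  rw [Orth.ordSp, Finset.prod_range]

/-- Centraliser order of an involution t of Sp_2m(q), q even, with s = rank(t − 1) even and f(v, tv) = 0 for every v, f the symplectic form (type a_s): |C(t)| = q^(2ms − (3s² − s)/2) · |Sp_s(q)| · |Sp_(2m−2s)(q)|. -/
theorem result {F : Type*} [Field F] [Fintype F] [CharP F 2] {q : ℕ} (hF : Fintype.card F = q) {m s : ℕ} (t : Matrix.symplecticGroup (Fin m) F) (ht : t ^ 2 = 1) (ht1 : t ≠ 1) (hs : ((t : Matrix (Fin m ⊕ Fin m) (Fin m ⊕ Fin m) F) - 1).rank = s) (heven : Even s) (halt : ∀ v : Fin m ⊕ Fin m → F, Cfsg.sympForm m F v ((t : Matrix (Fin m ⊕ Fin m) (Fin m ⊕ Fin m) F).mulVec v) = 0) : Nat.card ↥(Subgroup.centralizer ({t} : Set ↥(Matrix.symplecticGroup (Fin m) F))) = q ^ (2 * m * s - (3 * s ^ 2 - s) / 2) * ((q : ℕ) ^ ((s / 2) ^ 2) * ∏ i : Fin (s / 2), (q ^ (2 * ((i : ℕ) + 1)) - 1)) * ((q : ℕ) ^ ((m - s) ^ 2) * ∏ i : Fin (m - s), (q ^ (2 * ((i : ℕ) + 1)) - 1))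 := by
  obtain ⟨-, W, χ, h1, h2, h3, h4⟩ := main hF t ht hs
  rw [h4, h1.card_SG_alt (h3.2 halt), h2, Nat.card_eq_fintype_card, hF, ordSp_eq, ordSp_eq]

end Cfsg.Agent.S2681
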