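import Mathlib
import Cfsg.Statements.S2594
import Cfsg.Agent.S2680
import Cfsg.Agent.Orth.ReflClass
-- import your own Cfsg.Agent.* helpers here

set_option autoImplicit false
open Cfsg

namespace Cfsg.Agent.S2594

/-- Over a finite field with q elements, q even, an element t of Sp_2m(F) with rank(t − 1) = 1 (a symplectic transvection) has centraliser in Sp_2m(F) of order q^(2m−1) · |Sp_(2m−2)(q)| = q^(2m−1) · q^((m−1)²) · Π_(i=1)^(m−1) (q^(2i) − 1). -/
theorem result {F : Type*} [Field F] [Fintype F] [CharP F 2] {q : ℕ} (hF : Fintype.card F = q) {m : ℕ} (hm : 1 ≤ m) (t : Matrix.symplecticGroup (Fin m) F) (ht : ((t : Matrix (Fin m ⊕ Fin m) (Fin m ⊕ Fin m) F) - 1).rank = 1) : Nat.card ↥(Subgroup.centralizer ({t} : Set ↥(Matrix.symplecticGroup (Fin m) F))) = q ^ (2 * m - 1) * (q ^ ((m - 1) ^ 2) * ∏ i : Fin (m - 1), (q ^ (2 * ((i : ℕ) + 1)) - 1)) := by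
  have h2 : (2 : F) = 0 := Orth.two_eq_zero_of_charP
  have ht2 : t ^ 2 = 1 := by
    rw [Orth.rank_spEquiv] at ht
    apply (Classical.SpMat.spEquiv _ F).injective
    rw [map_pow, map_one]
    generalize Classical.SpMat.spEquiv _ F t = g at ht
    obtain ⟨⟨v, hv⟩, hv0, hv1⟩ := finrank_eq_one_iff'.1 ht
    have key : ∀ x, ∃ c : F, g.1 x = x + c • v := fun x => by
      obtain ⟨c, hc⟩ := hv1 ⟨_, x, rfl⟩
      exact ⟨c, by rw [show c • v = g.1 x - x from congrArg Subtype.val hc]; simp⟩
    have h3 : ∀ v : Fin m ⊕ Fin m → F, v + v = 0 := fun v => by rw [← two_smul F, h2, zero_smul]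
    have hvv : g.1 v = v := by
      obtain ⟨a, ha⟩ := key v
      obtain ⟨y, hy⟩ := Classical.SpWitt.exists_one Classical.SpMat.sB_nondeg Classical.SpMat.sB_alt.isRefl
        (u := v) (fun h => hv0 (Subtype.ext h))
      obtain ⟨b, hb⟩ := key y
      have := g.2 v y
      rw [ha, hb] at this
      simp only [map_add, map_smul, LinearMap.add_apply, LinearMap.smul_apply, hy,
        Classical.SpMat.sB_alt.self_eq_zero, smul_eq_mul] at this
      rw [ha, show a = 0 by linear_combination this]; simp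
    apply Classical.SpWitt.SG.ext
    intro x
    obtain ⟨c, hc⟩ := key x
    rw [pow_two, Classical.SpWitt.SG.mul_apply, hc, map_add, map_smul, hvv, hc, add_assoc, h3, add_zero]; rfl
  simpa using S2680.result hF t ht2 ht odd_one

end Cfsg.Agent.S2594
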