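import Mathlib
import Cfsg.Statements.S2601
import Cfsg.Agent.Classical.AutPSL2

set_option autoImplicit false
set_option backward.isDefEq.respectTransparency false
open Cfsg

namespace Cfsg.Agent.S2601

open Classical.AutPSL Classical.AutPSL2

/-- Structure of the outer automorphism group of PSL_n(q), n ≥ 3, q = p^f: it has a normal cyclic subgroup of order gcd(n, q − 1) (the diagonal automorphisms) whose quotient is the direct product of a cyclic group of order f (field automorphisms) and a group of order 2 (the inverse-transpose graph automorphism). -/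
theorem result {F : Type*} [Field F] [Fintype F] {p f n : ℕ} [Fact p.Prime] (hf : 1 ≤ f) (hF : Fintype.card F = p ^ f) (hn : 3 ≤ n) : ∃ φ : Cfsg.Out (Matrix.ProjectiveSpecialLinearGroup (Fin n) F) →* Multiplicative (ZMod f × ZMod 2), Function.Surjective φ ∧ IsCyclic φ.ker ∧ Nat.card φ.ker = Nat.gcd n (p ^ f - 1) := by
  have hF' : Nat.card F = p ^ f := by rw [Nat.card_eq_fintype_card, hF]
  haveI : Nonempty (Fin n) := ⟨⟨0, by omega⟩⟩
  obtain ⟨ρ, h1, h3, h4⟩ := exists_hom_three (F := F) hn
  obtain ⟨e⟩ := ringAut_equiv_zmod hF'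
  let e' : (F ≃+* F) × Multiplicative (ZMod 2) ≃* Multiplicative (ZMod f × ZMod 2) :=
    (e.prodCongr (MulEquiv.refl _)).trans (MulEquiv.prodMultiplicative _ _).symm
  have := exists_out_hom (e'.toMonoidHom.comp ρ) (e'.surjective.comp (surjective_three h3 h4))
    (by rw [← h1]; ext x; simp)
  rwa [Fintype.card_fin, hF'] at this

end Cfsg.Agent.S2601
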