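import Mathlib
import Cfsg.Statements.S2605
import Cfsg.Agent.Classical.GamO7

set_option autoImplicit false
set_option backward.isDefEq.respectTransparency false
open Cfsg

namespace Cfsg.Agent.S2605

open Classical.GamO Classical.AutPSL2 Orth

/-- Outer automorphism group of PΩ⁻_2m(q), m ≥ 4, q = 2^f: cyclic of order 2f, generated by a semilinear map inducing the Frobenius automorphism of the field (its f-th power is a graph automorphism, an orthogonal transvection). -/
theorem result {F : Type*} [Field F] [Fintype F] {f m : ℕ} (hf : 1 ≤ f) (hF : Fintype.card F = 2 ^ f) (hm : 4 ≤ m) (a b : F) (hab : ∀ z₁ z₂ : F, z₁ ^ 2 + a * z₁ * z₂ + b * z₂ ^ 2 = 0 → z₁ = 0 ∧ z₂ = 0) : IsCyclic (Cfsg.Out (Cfsg.POmega F (Cfsg.quadFormMinus (m - 1) F a b))) ∧ Nat.card (Cfsg.Out (Cfsg.POmega F (Cfsg.quadFormMinus (m - 1) F a b))) = 2 * f := by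
  obtain ⟨k, rfl⟩ : ∃ k, m = k + 1 := ⟨m - 1, by omega⟩
  have h := big_minusQ (m := k) (by omega) hab
  have hF' := Nat.card_eq_fintype_card.trans hF
  haveI := Classical.Congr.charP_of_card hF'
  obtain ⟨c, w, hw, -, hc, h1⟩ := exists_frob h (not_isPlus_minusQ k hab) finrank_minus hf hF'
  have h2 := DO_even (Q := minusQ k F a b) two_eq_zero_of_charP
  obtain ⟨e⟩ := out_twist h (even_of_eq finrank_minus) (inf_le_left.trans h2.le) (card_ringAut hF')
    hc hw h1
  haveI := (Nat.card_eq_one_iff_unique.1 ((card_map_mk' _ _).trans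
    (Subgroup.relIndex_eq_one.2 h2.le))).1
  haveI : Unique ((DO (minusQ k F a b)).map (pi _)) := uniqueOfSubsingleton 1
  let e' := ((model_aM h).outEquiv (surj_minus (by omega) hab)).trans (e.trans MulEquiv.uniqueProd)
  exact ⟨isCyclic_of_surjective _ e'.symm.surjective, (Nat.card_congr e'.toEquiv).trans (Nat.card_zmod _)⟩

end Cfsg.Agent.S2605
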