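import Mathlib
import Cfsg.Statements.S2606
import Cfsg.Agent.Classical.GamO7

set_option autoImplicit false
set_option backward.isDefEq.respectTransparency false
open Cfsg

namespace Cfsg.Agent.S2606

open Classical.GamO Classical.AutPSL2 Orth

/-- Outer automorphism group of PΩ⁻_2m(q), m ≥ 4, q = p^f odd: it is dihedral of order 8 times cyclic of order f when q ≡ 3 (mod 4) and m is odd, and otherwise the direct product of a group of order 2 with a cyclic group of order 2f. -/
theorem result {F : Type*} [Field F] [Fintype F] {p f m : ℕ} [Fact p.Prime] (hf : 1 ≤ f) (hF : Fintype.card F = p ^ f) (hp : p ≠ 2) (hm : 4 ≤ m) (a b : F) (hab : ∀ z₁ z₂ : F, z₁ ^ 2 + a * z₁ * z₂ + b * z₂ ^ 2 = 0 → z₁ = 0 ∧ z₂ = 0) : if p ^ f % 4 = 3 ∧ Odd m then Nonempty (Cfsg.Out (Cfsg.POmega F (Cfsg.quadFormMinus (m - 1) F a b)) ≃* DihedralGroup 4 × Multiplicative (ZMod f)) else Nonempty (Cfsg.Out (Cfsg.POmega F (Cfsg.quadFormMinus (m - 1) F a b)) ≃* Multiplicative (ZMod 2 × ZMod (2 * f)))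 := by
  obtain ⟨k, rfl⟩ : ∃ k, m = k + 1 := ⟨m - 1, by omega⟩
  have h := big_minusQ (m := k) (by omega) hab
  have hF' := Nat.card_eq_fintype_card.trans hF
  obtain ⟨c, w, hw, h0, hc, h1⟩ := exists_frob h (not_isPlus_minusQ k hab) finrank_minus hf hF'
  have ho : Odd (Fintype.card F) := hF ▸ ((Fact.out : p.Prime).odd_of_ne_two hp).pow
  have h2 := two_ne_zero_of_odd ho
  have h4 := negOne_minus (m := k) ho hab
  rw [hF, and_comm, ← Nat.not_odd_iff_even, ← Nat.odd_add_one] at h4
  let e' := (model_aM h).outEquiv (surj_minus (by omega) hab)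
  split_ifs with h3
  · have h5 : Odd f := Nat.not_even_iff_odd.1 fun ⟨s, hs⟩ => by
      have := pow_mod_four_of_odd ((Fact.out : p.Prime).odd_of_ne_two hp) s
      rw [hs, pow_add, Nat.mul_mod] at h3
      rcases this with h | h <;> simp [h] at h3
    refine (out_split h (c := c ^ 2) (card_ringAut hF') ?_ ?_ (fun g hg => ?_)
      (qiso_dih h h2 finrank_minus (h4.2 h3))).map e'.trans
    · rw [Gam.pow_σ, Nat.Coprime.orderOf_pow (by rwa [hc, Nat.coprime_two_right]), hc]
    · rw [← map_pow, ← pow_mul, pow_mul', h1, map_pow, pow_two, pi_sq h (og_mem_ZO _)]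
    · exact map_pow (pi _) c 2 ▸ comm_sq h h2 finrank_minus (by simp [h0]) hg
  · have h5 := SZ_le h (even_of_eq finrank_minus) (h4.not.2 h3)
    obtain ⟨e⟩ := out_twist h (even_of_eq finrank_minus) h5 (card_ringAut hF') hc hw h1
    obtain ⟨e₂⟩ := qiso_iff.1 (qiso_two (by
      rw [relIndex_DO_eq h h2 finrank_minus, Subgroup.relIndex_eq_one.2 h5]))
    exact ⟨e'.trans (e.trans ((e₂.prodCongr (MulEquiv.refl _)).trans
      (MulEquiv.prodMultiplicative _ _).symm))⟩

end Cfsg.Agent.S2606
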