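import Mathlib
import Cfsg.Statements.S2607
import Cfsg.Agent.Classical.Tri3

set_option autoImplicit false
set_option backward.isDefEq.respectTransparency false
open Cfsg

namespace Cfsg.Agent.S2607

open Classical.GamO Classical.AutPSL2 Classical.Tri Orth

/-- Outer automorphism group of PΩ⁺_2m(q), q = 2^f: for m ≥ 5 it is the direct product of a group of order 2 (graph automorphism, an orthogonal transvection) and a cyclic group of order f (field automorphisms); for m = 4 triality enlarges it to S_3 × C_f. -/
theorem result {F : Type*} [Field F] [Fintype F] {f m : ℕ} (hf : 1 ≤ f) (hF : Fintype.card F = 2 ^ f) (hm : 4 ≤ m) : if m = 4 then Nonempty (Cfsg.Out (Cfsg.POmega F (Cfsg.quadFormPlus m F)) ≃* Equiv.Perm (Fin 3) × Multiplicative (ZMod f)) else Nonempty (Cfsg.Out (Cfsg.POmega F (Cfsg.quadFormPlus m F)) ≃* Multiplicative (ZMod 2 × ZMod f)) := by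
  have hF' := Nat.card_eq_fintype_card.trans hF
  haveI := Classical.Congr.charP_of_card hF'
  split_ifs with h4
  · subst h4
    obtain ⟨τ, h⟩ := exists_trM F
    obtain ⟨e⟩ := h.out_prod cos_aM (card_ringAut hF')
    obtain ⟨e'⟩ := h.equiv_S3 two_eq_zero_of_charP
    exact ⟨e.trans (e'.prodCongr (MulEquiv.refl _))⟩
  · have h := big_plusQ (F := F) (m := m) (by omega)
    obtain ⟨e⟩ := out_std h std_plus (card_ringAut hF')
      (qiso_two (relIndex_GO_two h (Or.inl two_eq_zero_of_charP)))
    exact ⟨((model_aM h).outEquiv (surj_plus (by omega))).trans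
      (e.trans (MulEquiv.prodMultiplicative _ _).symm)⟩

end Cfsg.Agent.S2607
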