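import Mathlib
import Cfsg.Statements.S2608
import Cfsg.Agent.Classical.Tri3

set_option autoImplicit false
set_option backward.isDefEq.respectTransparency false
open Cfsg

namespace Cfsg.Agent.S2608

open Classical.GamO Classical.AutPSL2 Classical.Tri Orth

/-- Outer automorphism group of PΩ⁺_2m(q), q = p^f odd: for m = 4 it is S_4 × C_f (triality); for m ≥ 5 it is C_2 × C_2 × C_f when q ≡ 3 (mod 4) and m is odd, and D_8 × C_f otherwise. -/
theorem result {F : Type*} [Field F] [Fintype F] {p f m : ℕ} [Fact p.Prime] (hf : 1 ≤ f) (hF : Fintype.card F = p ^ f) (hp : p ≠ 2) (hm : 4 ≤ m) : if m = 4 then Nonempty (Cfsg.Out (Cfsg.POmega F (Cfsg.quadFormPlus m F)) ≃* Equiv.Perm (Fin 4) × Multiplicative (ZMod f)) else if p ^ f % 4 = 3 ∧ Odd m then Nonempty (Cfsg.Out (Cfsg.POmega F (Cfsg.quadFormPlus m F)) ≃* Multiplicative (ZMod 2 × ZMod 2 × ZMod f)) else Nonempty (Cfsg.Out (Cfsg.POmega F (Cfsg.quadFormPlus m F)) ≃* DihedralGroup 4 × Multiplicative (ZMod f)) := by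
  have hF' := Nat.card_eq_fintype_card.trans hF
  have ho : Odd (Fintype.card F) := hF ▸ ((Fact.out : p.Prime).odd_of_ne_two hp).pow
  have h2 := two_ne_zero_of_odd ho
  have h := big_plusQ (F := F) (m := m) (by omega)
  have h1 := negOne_plus (m := m) ho
  rw [hF, and_comm] at h1
  split_ifs with h4 h5
  · subst h4
    obtain ⟨τ, h⟩ := exists_trM F
    obtain ⟨e⟩ := h.out_prod cos_aM (card_ringAut hF')
    obtain ⟨e'⟩ := h.equiv_S4 h2
    exact ⟨e.trans (e'.prodCongr (MulEquiv.refl _))⟩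
  · have h3 := qiso_SZ h h2 (finrank_plus m)
    rw [le_antisymm (SZ_le h (even_of_eq (finrank_plus m)) (h1.not.2 (not_not.2 h5)))
      (NO_le_SZ h)] at h3
    obtain ⟨e⟩ := out_std h std_plus (card_ringAut hF') h3
    exact ⟨((model_aM h).outEquiv (surj_plus (by omega))).trans
      (e.trans ((MulEquiv.prodMultiplicative _ _).symm.trans
        (AddEquiv.toMultiplicative AddEquiv.prodAssoc)))⟩
  · exact (out_std h std_plus (card_ringAut hF') (qiso_dih h h2 (finrank_plus m) (h1.2 h5))).map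
      ((model_aM h).outEquiv (surj_plus (by omega))).trans

end Cfsg.Agent.S2608
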