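import Mathlib
import Cfsg.Statements.S2612
import Cfsg.Agent.Orth.Class2
-- import your own Cfsg.Agent.* helpers here

set_option autoImplicit false
open Cfsg

namespace Cfsg.Agent.S2612

/-- For the hyperbolic quadratic form Σ x_i y_i on F^(2m) (F finite, m ≥ 1, excluding m = 2 over the field of two elements), Ω⁺_2m(F) (the commutator subgroup of the orthogonal group) contains an element interchanging the two complementary maximal totally singular subspaces {y = 0} and {x = 0} if and only if m is even (dimension divisible by 4). -/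
theorem result {F : Type*} [Field F] [Fintype F] {m : ℕ} (hm : 1 ≤ m) (h : Fintype.card F ≠ 2 ∨ m ≠ 2) : (∃ g : ↥(Cfsg.isometryGroup F (Cfsg.quadFormPlus m F)), g ∈ Cfsg.Omega F (Cfsg.quadFormPlus m F) ∧ (∀ v : Fin m ⊕ Fin m → F, (∀ i, v (Sum.inr i) = 0) → ∀ i, (((g : Matrix.GeneralLinearGroup (Fin m ⊕ Fin m) F) : Matrix (Fin m ⊕ Fin m) (Fin m ⊕ Fin m) F).mulVec v) (Sum.inl i) = 0) ∧ (∀ v : Fin m ⊕ Fin m → F, (∀ i, v (Sum.inl i) = 0) → ∀ i, (((g : Matrix.GeneralLinearGroup (Fin m ⊕ Fin m) F) : Matrix (Fin m ⊕ Fin m) (Fin m ⊕ Fin m) F).mulVec v) (Sum.inr i) = 0)) ↔ Even m := by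
  have hQ := Orth.nd_plusQ (F := F) m
  have hg := Orth.good_plus h
  have key : ∀ g : Orth.OG (Orth.plusQ m F), (∀ v ∈ Orth.stdX m F, g.1 v ∈ Orth.stdY m F) →
      (Even (Orth.rk g) ↔ Even m) := by
    intro g hX
    have h1 : (Orth.stdX m F).map (g.1 : _ →ₗ[F] _) = Orth.stdY m F := by
      apply Submodule.eq_of_le_of_finrank_eq
      · rintro _ ⟨v, hv, rfl⟩; exact hX v hv
      · rw [Orth.finrank_map_og, Orth.finrank_stdX, Orth.finrank_stdY]
    rw [← hQ.even_class_iff hg (Orth.finrank_plus m) (Orth.sing_stdX m) (Orth.finrank_stdX m), h1,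
      Orth.stdX_inf_stdY, finrank_bot, Nat.sub_zero]
  constructor
  · rintro ⟨g, hg', h1, -⟩
    rw [← key (Orth.toOG _ g) fun v hv => Orth.mem_stdY.2 (h1 v (Orth.mem_stdX.1 hv))]
    exact ((hQ.mem_commutator_iff hg _).1 ((Orth.mem_Omega_iff (Q := Orth.plusQ m F) g).1 hg')).1
  · intro hm'
    have fr := Orth.hypFrame_plusQ (F := F) m
    let i : Fin m := ⟨0, hm⟩
    have hef : QuadraticMap.polar (Orth.plusQ m F) (Pi.single (.inl i) 1) (Pi.single (.inr i) 1) = 1 := by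
      rw [fr.ef, if_pos rfl]
    have eX : (Pi.single (.inl i) 1 : Fin m ⊕ Fin m → F) ∈ Orth.stdX m F := Orth.mem_stdX.2 (by simp)
    have fY : (Pi.single (.inr i) 1 : Fin m ⊕ Fin m → F) ∈ Orth.stdY m F := Orth.mem_stdY.2 (by simp)
    obtain ⟨s, hs, h2⟩ := hQ.exists_mul_mem_of_even hg
      (Orth.stab _ (Orth.stdX m F) ⊓ Orth.stab _ (Orth.stdY m F))
      (fun a ha => ⟨Orth.torus _ _ _ a, ⟨Orth.torus_mem_stab (fr.qe i) (fr.qf i) hef ha (Or.inl eX)
        (Or.inr fun w hw => (Orth.sing_stdX m).polar eX hw), Orth.torus_mem_stab (fr.qe i) (fr.qf i) hef ha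
        (Or.inr fun w hw => (Orth.sing_stdY m).polar fY hw) (Or.inl fY)⟩,
        hQ.even_rk_torus (fr.qe i) (fr.qf i) hef ha, hQ.sqSpin_torus (fr.qe i) (fr.qf i) hef ha⟩)
      (g := Orth.plusSwap m F) ((key _ fun v hv => Orth.mem_stdY.2 fun j => Orth.mem_stdX.1 hv j).2 hm')
    refine ⟨(Orth.toOG _).symm (Orth.plusSwap m F * s),
      (Orth.mem_Omega_iff (Q := Orth.plusQ m F) _).2 (by simpa using h2), fun v hv j => ?_, fun v hv j => ?_⟩
    · rw [Orth.toOG_symm_mulVec]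
      exact Orth.mem_stdX.1 ((Orth.mem_stab.1 hs.1 v).1 (Orth.mem_stdX.2 hv)) j
    · rw [Orth.toOG_symm_mulVec]
      exact Orth.mem_stdY.1 ((Orth.mem_stab.1 hs.2 v).1 (Orth.mem_stdY.2 hv)) j

end Cfsg.Agent.S2612
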