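import Mathlib
import Cfsg.Statements.S2613
import Cfsg.Agent.Orth.Disc
-- import your own Cfsg.Agent.* helpers here

set_option autoImplicit false
open Cfsg

namespace Cfsg.Agent.S2613

/-- For the hyperbolic form Σ x_j y_j on F^(2m), F finite with q elements, q odd, and 1 ≤ i ≤ m: the involution negating the first i hyperbolic pairs (x_j, y_j ↦ −x_j, −y_j for j < i) and fixing the rest lies in Ω⁺_2m(q) (commutator subgroup of the orthogonal group) if and only if q^i ≡ 1 (mod 4); its (−1)-eigenspace is a hyperbolic 2i-space. -/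
theorem result {F : Type*} [Field F] [Fintype F] {q : ℕ} (hF : Fintype.card F = q) (hq : Odd q) {m : ℕ} (i : ℕ) (hi : 1 ≤ i) (him : i ≤ m) : (∃ g : ↥(Cfsg.isometryGroup F (Cfsg.quadFormPlus m F)), g ∈ Cfsg.Omega F (Cfsg.quadFormPlus m F) ∧ ((g : Matrix.GeneralLinearGroup (Fin m ⊕ Fin m) F) : Matrix (Fin m ⊕ Fin m) (Fin m ⊕ Fin m) F) = Matrix.diagonal (fun k : Fin m ⊕ Fin m => if (Sum.elim (fun j : Fin m => (j : ℕ)) (fun j : Fin m => (j : ℕ)) k) < i then (-1 : F) else 1)) ↔ q ^ i % 4 = 1 := by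
  subst hF
  have h2 := Orth.two_ne_zero_of_odd hq
  let D : Matrix (Fin m ⊕ Fin m) (Fin m ⊕ Fin m) F := Matrix.diagonal (fun k : Fin m ⊕ Fin m => if (Sum.elim (fun j : Fin m => (j : ℕ)) (fun j : Fin m => (j : ℕ)) k) < i then (-1 : F) else 1)
  have hD : Function.Involutive (Matrix.toLin' D) := by
    intro x; ext k
    simp only [D, Matrix.toLin'_apply, Matrix.mulVec_diagonal]
    split_ifs <;> simp
  have hD0 : ∀ x j, D.mulVec x (.inl j) = if (j : ℕ) < i then - x (.inl j) else x (.inl j) := by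
    intro x j
    rw [Matrix.mulVec_diagonal]
    by_cases h : (j : ℕ) < i
    · rw [if_pos h, if_pos (by exact h)]; simp
    · rw [if_neg h, if_neg (by exact h)]; simp
  have hD1 : ∀ x j, D.mulVec x (.inr j) = if (j : ℕ) < i then - x (.inr j) else x (.inr j) := by
    intro x j
    rw [Matrix.mulVec_diagonal]
    by_cases h : (j : ℕ) < i
    · rw [if_pos h, if_pos (by exact h)]; simp
    · rw [if_neg h, if_neg (by exact h)]; simp
  let g : Orth.OG (Orth.plusQ m F) := ⟨LinearEquiv.ofInvolutive _ hD, fun x => by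
    change Orth.plusQ m F (D.mulVec x) = _
    simp only [Orth.plusQ_apply, hD0, hD1]
    refine Finset.sum_congr rfl fun j _ => ?_
    split_ifs <;> simp⟩
  refine (Orth.exists_Omega_coe_eq_iff (Q := Orth.plusQ m F) D g (fun x => rfl)).trans ?_
  rw [(Orth.nd_plusQ m).neg_pairs_mem_iff h2 (fun j : Fin m => Pi.single (.inl j) 1)
    (fun j : Fin m => Pi.single (.inr j) 1) (by simp [Orth.plusQ_apply])
    (by simp [Orth.plusQ_apply]) (by simp [Orth.polar_plusQ]) (by simp [Orth.polar_plusQ])
    (by simp [Orth.polar_plusQ, Pi.single_apply, eq_comm])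
    (Finset.univ.filter fun j : Fin m => (j : ℕ) < i) g, Fin.card_filter_val_lt, min_eq_right him,
    Orth.isSquare_neg_one_pow_iff h2]
  intro x
  change D.mulVec x = _
  ext k
  rcases k with k | k <;>
  · simp [hD0, hD1, Orth.polar_plusQ, Pi.single_apply, Finset.sum_apply]
    split_ifs <;> ring

end Cfsg.Agent.S2613
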