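import Mathlib
import Cfsg.Statements.S2615
import Cfsg.Agent.Orth.Disc
-- import your own Cfsg.Agent.* helpers here

set_option autoImplicit false
open Cfsg

namespace Cfsg.Agent.S2615

/-- For an elliptic form Σ_(j<m−1) x_j y_j + (z₁² + a z₁z₂ + b z₂²) (anisotropic binary part) on F^(2m), F finite with q elements, q odd, and 1 ≤ i ≤ m − 1: the involution negating the first i hyperbolic pairs and fixing the rest lies in Ω⁻_2m(q) (commutator subgroup of the orthogonal group) if and only if q^i ≡ 1 (mod 4). -/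
theorem result {F : Type*} [Field F] [Fintype F] {q : ℕ} (hF : Fintype.card F = q) (hq : Odd q) {m : ℕ} (a b : F) (hab : ∀ z₁ z₂ : F, z₁ ^ 2 + a * z₁ * z₂ + b * z₂ ^ 2 = 0 → z₁ = 0 ∧ z₂ = 0) (i : ℕ) (hi : 1 ≤ i) (him : i + 1 ≤ m) : (∃ g : ↥(Cfsg.isometryGroup F (Cfsg.quadFormMinus (m - 1) F a b)), g ∈ Cfsg.Omega F (Cfsg.quadFormMinus (m - 1) F a b) ∧ ((g : Matrix.GeneralLinearGroup ((Fin (m - 1) ⊕ Fin (m - 1)) ⊕ Fin 2) F) : Matrix ((Fin (m - 1) ⊕ Fin (m - 1)) ⊕ Fin 2) ((Fin (m - 1) ⊕ Fin (m - 1)) ⊕ Fin 2) F) = Matrix.diagonal (fun k : (Fin (m - 1) ⊕ Fin (m - 1)) ⊕ Fin 2 => if (Sum.elim (Sum.elim (fun j : Fin (m - 1) => (j : ℕ)) (fun j : Fin (m - 1) => (j : ℕ))) (fun _ : Fin 2 => i) k) < i then (-1 : F) else 1)) ↔ q ^ i % 4 = 1 := by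
  subst hF
  have h2 := Orth.two_ne_zero_of_odd hq
  let D : Matrix ((Fin (m - 1) ⊕ Fin (m - 1)) ⊕ Fin 2) ((Fin (m - 1) ⊕ Fin (m - 1)) ⊕ Fin 2) F := Matrix.diagonal (fun k : (Fin (m - 1) ⊕ Fin (m - 1)) ⊕ Fin 2 => if (Sum.elim (Sum.elim (fun j : Fin (m - 1) => (j : ℕ)) (fun j : Fin (m - 1) => (j : ℕ))) (fun _ : Fin 2 => i) k) < i then (-1 : F) else 1)
  have hD : Function.Involutive (Matrix.toLin' D) := by
    intro x; ext k
    simp only [D, Matrix.toLin'_apply, Matrix.mulVec_diagonal]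
    split_ifs <;> simp
  have hD0 : ∀ x j, D.mulVec x (.inl (.inl j)) = if (j : ℕ) < i then - x (.inl (.inl j)) else x (.inl (.inl j)) := by
    intro x j
    rw [Matrix.mulVec_diagonal]
    by_cases h : (j : ℕ) < i
    · rw [if_pos h, if_pos (by exact h)]; simp
    · rw [if_neg h, if_neg (by exact h)]; simp
  have hD1 : ∀ x j, D.mulVec x (.inl (.inr j)) = if (j : ℕ) < i then - x (.inl (.inr j)) else x (.inl (.inr j)) := by
    intro x j
    rw [Matrix.mulVec_diagonal]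
    by_cases h : (j : ℕ) < i
    · rw [if_pos h, if_pos (by exact h)]; simp
    · rw [if_neg h, if_neg (by exact h)]; simp
  have hD2 : ∀ x j, D.mulVec x (.inr j) = x (.inr j) := by
    intro x j
    rw [Matrix.mulVec_diagonal, if_neg (by exact lt_irrefl i), one_mul]
  let g : Orth.OG (Orth.minusQ (m - 1) F a b) := ⟨LinearEquiv.ofInvolutive _ hD, fun x => by
    change Orth.minusQ (m - 1) F a b (D.mulVec x) = _
    simp only [Orth.minusQ_apply, hD0, hD1, hD2]
    congr 1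
    refine Finset.sum_congr rfl fun j _ => ?_
    split_ifs <;> simp⟩
  refine (Orth.exists_Omega_coe_eq_iff (Q := Orth.minusQ (m - 1) F a b) D g (fun x => rfl)).trans ?_
  rw [(Orth.nd_minusQ (m - 1) (Orth.aniso_disc_ne_zero hab)).neg_pairs_mem_iff h2
    (fun j : Fin (m - 1) => Pi.single (.inl (.inl j)) 1)
    (fun j : Fin (m - 1) => Pi.single (.inl (.inr j)) 1) (by simp [Orth.minusQ_apply])
    (by simp [Orth.minusQ_apply]) (by simp [Orth.polar_minusQ]) (by simp [Orth.polar_minusQ])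
    (by simp [Orth.polar_minusQ, Pi.single_apply, eq_comm])
    (Finset.univ.filter fun j : Fin (m - 1) => (j : ℕ) < i) g, Fin.card_filter_val_lt,
    min_eq_right (by omega), Orth.isSquare_neg_one_pow_iff h2]
  intro x
  change D.mulVec x = _
  ext k
  rcases k with (k | k) | k
  rotate_left 2
  · simp [hD0, hD1, hD2, Orth.polar_minusQ, Pi.single_apply, Finset.sum_apply]
  all_goals
    simp [hD0, hD1, hD2, Orth.polar_minusQ, Pi.single_apply, Finset.sum_apply]
    split_ifs <;> ring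

end Cfsg.Agent.S2615
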