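import Mathlib
import Cfsg.Statements.S2619
import Cfsg.Agent.Orth.Witt
-- import your own Cfsg.Agent.* helpers here

set_option autoImplicit false
open Cfsg

namespace Cfsg.Agent.S2619

/-- Over a finite field of characteristic two, given an alternating bilinear form B on a finite-dimensional space, a basis (v_i) and scalars (λ_i), there is exactly one quadratic form whose polar form is B and whose value at each v_i is λ_i. -/
theorem result {F V ι : Type*} [Field F] [Finite F] [CharP F 2] [AddCommGroup V] [Module F V] [Fintype ι] (b : Module.Basis ι F V) (B : LinearMap.BilinForm F V) (hB : B.IsAlt) (c : ι → F) : ∃! Q : QuadraticForm F V, QuadraticMap.polarBilin Q = B ∧ ∀ i, Q (b i) = c i := by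
  classical
  let _ : LinearOrder ι := LinearOrder.lift' (Fintype.equivFin ι) (Fintype.equivFin ι).injective
  have h2 : (2 : F) = 0 := CharP.cast_eq_zero F 2
  let B' : LinearMap.BilinForm F V :=
    b.constr F fun i => b.constr F fun j => if i = j then c i else if i < j then B (b i) (b j) else 0
  have hB' : ∀ i j, B' (b i) (b j) = if i = j then c i else if i < j then B (b i) (b j) else 0 :=
    fun i j => by simp only [B', Module.Basis.constr_basis]
  refine ⟨LinearMap.BilinMap.toQuadraticMap B', ⟨?_, fun i => by simp [hB']⟩, ?_⟩
  · rw [LinearMap.BilinMap.polarBilin_toQuadraticMap]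
    refine b.ext fun i => b.ext fun j => ?_
    rw [LinearMap.add_apply, LinearMap.add_apply, LinearMap.flip_apply, hB', hB']
    rcases lt_trichotomy i j with h | h | h
    · simp [h, h.ne, h.ne', h.not_gt]
    · subst h; simp only [if_true, hB.self_eq_zero]; linear_combination c i * h2
    · simp only [h, h.ne, h.ne', h.not_gt, if_true, if_false, zero_add]
      rw [← hB.neg_eq]; linear_combination (-B (b i) (b j)) * h2
  · have key : ∀ Q Q' : QuadraticForm F V, (QuadraticMap.polarBilin Q = B ∧ ∀ i, Q (b i) = c i) →
        (QuadraticMap.polarBilin Q' = B ∧ ∀ i, Q' (b i) = c i) → Q = Q' := by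
      intro Q Q' hQ hQ'
      ext v
      rw [← b.sum_repr v]
      refine Orth.Q_sum_eq b b (fun i => by rw [hQ.2, hQ'.2]) (fun i j => ?_) _ _
      rw [← QuadraticMap.polarBilin_apply_apply, ← QuadraticMap.polarBilin_apply_apply, hQ.1, hQ'.1]
    intro Q hQ
    refine key _ _ hQ ⟨?_, fun i => by simp [hB']⟩
    rw [LinearMap.BilinMap.polarBilin_toQuadraticMap]
    refine b.ext fun i => b.ext fun j => ?_
    rw [LinearMap.add_apply, LinearMap.add_apply, LinearMap.flip_apply, hB', hB']
    rcases lt_trichotomy i j with h | h | h
    · simp [h, h.ne, h.ne', h.not_gt]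
    · subst h; simp only [if_true, hB.self_eq_zero]; linear_combination c i * h2
    · simp only [h, h.ne, h.ne', h.not_gt, if_true, if_false, zero_add]
      rw [← hB.neg_eq]; linear_combination (-B (b i) (b j)) * h2

end Cfsg.Agent.S2619
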