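import Mathlib
import Cfsg.Statements.S2623
import Cfsg.Agent.Orth.Hyp
-- import your own Cfsg.Agent.* helpers here

set_option autoImplicit false
open Cfsg

namespace Cfsg.Agent.S2623

/-- Over a finite field of odd order, two quadratic forms on F^n with non-degenerate polar forms are isometric (related by an invertible linear change of variables) if and only if their discriminants (determinants of the Gram matrices of their polar forms) lie in the same square class. -/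
theorem result {F : Type*} [Field F] [Fintype F] (h2 : (2 : F) ≠ 0) {n : ℕ} (Q₁ Q₂ : QuadraticForm F (Fin n → F)) (h₁ : (QuadraticMap.polarBilin Q₁).Nondegenerate) (h₂ : (QuadraticMap.polarBilin Q₂).Nondegenerate) : (∃ g : (Fin n → F) ≃ₗ[F] (Fin n → F), ∀ v, Q₂ (g v) = Q₁ v) ↔ IsSquare ((Matrix.of (fun i j : Fin n => QuadraticMap.polar ⇑Q₁ (Pi.single i 1) (Pi.single j 1))).det * (Matrix.of (fun i j : Fin n => QuadraticMap.polar ⇑Q₂ (Pi.single i 1) (Pi.single j 1))).det) := by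
  have hQ₁ := (Orth.nd_iff Q₁).2 h₁
  have hQ₂ := (Orth.nd_iff Q₂).2 h₂
  rw [← Orth.gram_basisFun, ← Orth.gram_basisFun]
  have key : ∀ {V : Type _} [AddCommGroup V] [Module F V] {κ : Type} [Fintype κ] [DecidableEq κ]
      (Q : QuadraticForm F (Fin n → F)) (Q' : QuadraticForm F V) (b : Module.Basis κ F V)
      (e : Q'.IsometryEquiv Q), ∃ t : F, t ≠ 0 ∧
        (Orth.gram Q (Pi.basisFun F _)).det = t ^ 2 * (Orth.gram Q' b).det := by
    intro V _ _ κ _ _ Q Q' b e
    obtain ⟨t, ht, h⟩ := Orth.det_gram_change (Q := Q) (b.map e.toLinearEquiv) (Pi.basisFun F _)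
    refine ⟨t, ht, h.trans ?_⟩
    congr 2
    ext i j
    exact Orth.iso_polar e _ _
  have d1 := hQ₁.det_gram_ne_zero (Pi.basisFun F _)
  have d2 := hQ₂.det_gram_ne_zero (Pi.basisFun F _)
  constructor
  · rintro ⟨g, hg⟩
    obtain ⟨t, -, h⟩ := key Q₂ Q₁ (Pi.basisFun F _) ⟨g, hg⟩
    exact ⟨t * (Orth.gram Q₁ (Pi.basisFun F _)).det, by rw [h]; ring⟩
  · intro h
    rcases Nat.even_or_odd' n with ⟨m, hm | hm⟩
    · obtain ⟨e⟩ := hQ₁.iso_of_isPlus_iff hQ₂ rfl ⟨m, by simp [hm, two_mul]⟩ (by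
        rw [hQ₁.isPlus_iff_disc h2 (m := m) (by simp [hm]) (Pi.basisFun F _),
          hQ₂.isPlus_iff_disc h2 (m := m) (by simp [hm]) (Pi.basisFun F _),
          ← Orth.isSquare_mul_iff (by simp [d1]) (by simp [d2])]
        rw [← Orth.isSquare_sq_mul_iff (t := (-1) ^ m) (by simp)] at h
        convert h using 1; ring)
      exact ⟨e.toLinearEquiv, e.map_app⟩
    · obtain ⟨c₁, hc₁, ⟨e₁⟩⟩ := hQ₁.iso_smul_oddQ (m := m) (by simp [hm])
      obtain ⟨c₂, hc₂, ⟨e₂⟩⟩ := hQ₂.iso_smul_oddQ (m := m) (by simp [hm])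
      obtain ⟨t₁, ht₁, k₁⟩ := key Q₁ _ (Pi.basisFun F _) e₁
      obtain ⟨t₂, ht₂, k₂⟩ := key Q₂ _ (Pi.basisFun F _) e₂
      have hg : ∀ c : F, (Orth.gram (c • Orth.oddQ m F) (Pi.basisFun F _)).det =
          c ^ (2 * m + 1) * (2 * (-1) ^ m) := by
        intro c
        have : Orth.gram (c • Orth.oddQ m F) (Pi.basisFun F _) =
            c • Orth.gram (Orth.oddQ m F) (Pi.basisFun F _) := by
          ext i j; simp [Orth.gram, QuadraticMap.polar_smul]
        rw [this, Matrix.det_smul, Orth.det_gram_oddQ]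
        congr 2; simp; omega
      rw [k₁, k₂, hg, hg, show t₁ ^ 2 * (c₁ ^ (2 * m + 1) * (2 * (-1) ^ m)) *
          (t₂ ^ 2 * (c₂ ^ (2 * m + 1) * (2 * (-1) ^ m))) =
          (t₁ * t₂ * c₁ ^ m * c₂ ^ m * (2 * (-1) ^ m)) ^ 2 * (c₁ * c₂) by ring,
        Orth.isSquare_sq_mul_iff (by simp [ht₁, ht₂, hc₁, hc₂, h2])] at h
      obtain ⟨s, hs⟩ := h
      have hs0 : s / c₂ ≠ 0 := div_ne_zero (by rintro rfl; simp [hc₁, hc₂] at hs) hc₂
      refine ⟨(e₁.toLinearEquiv.symm.trans (LinearEquiv.smulOfNeZero F _ _ hs0)).trans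
        e₂.toLinearEquiv, fun v => ?_⟩
      change Q₂ (e₂ ((s / c₂) • e₁.symm v)) = _
      rw [e₂.map_app, Orth.q_smul, ← e₁.symm.map_app v]
      simp only [QuadraticMap.smul_apply, smul_eq_mul]
      field_simp
      linear_combination (-1) * (Orth.oddQ m F (e₁.symm v)) * hs

end Cfsg.Agent.S2623
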