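import Mathlib
import Cfsg.Statements.S2625
import Cfsg.Agent.Orth.Hyp
-- import your own Cfsg.Agent.* helpers here

set_option autoImplicit false
open Cfsg

namespace Cfsg.Agent.S2625

/-- For a quadratic form Q on F^n with non-degenerate polar form, F finite and n odd (so |F| is odd), the multiplier of any similarity is a square: if g is an invertible linear map with Q(g v) = c·Q(v) for all v then c is a square. -/
theorem result {F : Type*} [Field F] [Fintype F] {n : ℕ} (hn : Odd n) (Q : QuadraticForm F (Fin n → F)) (hQ : (QuadraticMap.polarBilin Q).Nondegenerate) (g : (Fin n → F) ≃ₗ[F] (Fin n → F)) (c : F) (hg : ∀ v, Q (g v) = c * Q v) : IsSquare c := by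
  have hQ' := (Orth.nd_iff Q).2 hQ
  obtain ⟨k, hk⟩ := hn
  obtain ⟨t, ht, h⟩ := Orth.det_gram_change (Q := Q) (Pi.basisFun F (Fin n)) ((Pi.basisFun F (Fin n)).map g)
  have h1 : Orth.gram Q ((Pi.basisFun F (Fin n)).map g) = c • Orth.gram Q (Pi.basisFun F (Fin n)) := by
    ext i j
    have := Orth.polar_of_isom (Q := c • Q) (Q' := Q) (g : _ →ₗ[F] _) hg (Pi.single i 1) (Pi.single j 1)
    simpa [Orth.gram, QuadraticMap.polar_smul] using this
  rw [h1, Matrix.det_smul, Fintype.card_fin] at h
  have h2 := mul_right_cancel₀ (hQ'.det_gram_ne_zero _) h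
  have hc : c ≠ 0 := by
    rintro rfl
    rw [hk, pow_succ, mul_zero] at h2
    exact pow_ne_zero 2 ht h2.symm
  rw [← Orth.isSquare_sq_mul_iff (pow_ne_zero k hc), show (c ^ k) ^ 2 * c = c ^ n by rw [hk]; ring, h2]
  exact ⟨t, by ring⟩

end Cfsg.Agent.S2625
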