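import Mathlib
import Cfsg.Statements.S2628
import Cfsg.Agent.Orth.Class2
-- import your own Cfsg.Agent.* helpers here

set_option autoImplicit false
open Cfsg

namespace Cfsg.Agent.S2628

/-- For the orthogonal direct sum Q ⊕ Q of two copies of a quadratic form Q with non-degenerate polar form on F^k (F finite), every isometry g of Q acting diagonally, diag(g, g), lies in Ω(Q ⊕ Q), the commutator subgroup of the orthogonal group of Q ⊕ Q. (Excluded: k = 2 over the field of two elements, where Q ⊕ Q is the hyperbolic 4-space whose orthogonal group's commutator subgroup is smaller than the group usually called Ω.) -/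
theorem result {F : Type*} [Field F] [Fintype F] {k : ℕ} (h : Fintype.card F ≠ 2 ∨ k ≠ 2) (Q : QuadraticForm F (Fin k → F)) (hQ : (QuadraticMap.polarBilin Q).Nondegenerate) (g : ↥(Cfsg.isometryGroup F ⇑Q)) : ∃ x : ↥(Cfsg.isometryGroup F (fun v : Fin k ⊕ Fin k → F => Q (v ∘ Sum.inl) + Q (v ∘ Sum.inr))), x ∈ Cfsg.Omega F (fun v : Fin k ⊕ Fin k → F => Q (v ∘ Sum.inl) + Q (v ∘ Sum.inr)) ∧ ((x : Matrix.GeneralLinearGroup (Fin k ⊕ Fin k) F) : Matrix (Fin k ⊕ Fin k) (Fin k ⊕ Fin k) F) = Matrix.fromBlocks ((g : Matrix.GeneralLinearGroup (Fin k) F) : Matrix (Fin k) (Fin k) F) 0 0 ((g : Matrix.GeneralLinearGroup (Fin k) F) : Matrix (Fin k) (Fin k) F) := by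
  have h₁ := (Orth.nd_iff _).2 hQ
  have hQ' := Orth.nd_sumQ h₁ h₁
  have g2 : Orth.Good F (Fin k ⊕ Fin k → F) := Orth.good_plus h
  refine (Orth.exists_Omega_coe_eq_iff (Q := Orth.sumQ Q Q) _ _ (Orth.sumHom_mulVec g g)).2 ?_
  rw [hQ'.mem_commutator_iff g2, Orth.rk_sumHom]
  refine ⟨⟨_, rfl⟩, ?_⟩
  by_cases h2 : (2 : F) = 0
  · exact hQ'.sqSpin_of_char_two g2 h2 _
  have g1 : Orth.Good F (Fin k → F) := Orth.good_of_two_ne_zero h2
  rw [Orth.sumHom_eq_mul, hQ'.sqSpin_mul g2, Orth.sqSpin_sumHom_left _ hQ' h₁ g1,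
    Orth.sqSpin_sumHom_right _ hQ' h₁ g1]

end Cfsg.Agent.S2628
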