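import Mathlib
import Cfsg.Statements.S2634
import Cfsg.Agent.Orth.Finite
-- import your own Cfsg.Agent.* helpers here

set_option autoImplicit false
open Cfsg

namespace Cfsg.Agent.S2634

/-- Over a finite field of characteristic two, Ω (the commutator subgroup of the orthogonal group of a quadratic form Q on F^n with non-degenerate polar form; excluding dimension 4 over the field of two elements) acts transitively on the non-singular 1-spaces: for u, v with Q(u) ≠ 0 and Q(v) ≠ 0 some element of Ω carries the line through u to the line through v. -/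
theorem result {F : Type*} [Field F] [Fintype F] [CharP F 2] {n : ℕ} (h : Fintype.card F ≠ 2 ∨ n ≠ 4) (Q : QuadraticForm F (Fin n → F)) (hQ : (QuadraticMap.polarBilin Q).Nondegenerate) (u v : Fin n → F) (hu : Q u ≠ 0) (hv : Q v ≠ 0) : ∃ g : ↥(Cfsg.isometryGroup F ⇑Q), g ∈ Cfsg.Omega F ⇑Q ∧ (F ∙ ((g : Matrix.GeneralLinearGroup (Fin n) F) : Matrix (Fin n) (Fin n) F).mulVec u) = F ∙ v := by
  have hnd := (Orth.nd_iff Q).2 hQ
  have hg : Orth.Good F (Fin n → F) := Orth.good_of_card (by simpa using h)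
  have h2 : (2 : F) = 0 := Orth.two_eq_zero_of_charP
  obtain ⟨c, hc⟩ := Orth.isSquare_of_two_eq_zero h2 (Q u / Q v)
  have hc0 : c ≠ 0 := by rintro rfl; simp [hu, hv] at hc
  obtain ⟨g, hgu⟩ := Orth.witt_one hnd (u := u) (v := c • v) (Orth.ne_zero_of_Q_ne_zero hu)
    (smul_ne_zero hc0 (Orth.ne_zero_of_Q_ne_zero hv))
    (by rw [Orth.q_smul, pow_two, ← hc]; field_simp)
  suffices ∃ g ∈ commutator (Orth.OG Q), (F ∙ g.1 u) = F ∙ v by
    obtain ⟨g, h1, h3⟩ := this
    exact ⟨(Orth.toOG Q).symm g, by rwa [Orth.mem_Omega_iff, MulEquiv.apply_symm_apply],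
      by rwa [Orth.toOG_symm_mulVec]⟩
  by_cases he : Even (Orth.rk g)
  · refine ⟨g, (hnd.mem_commutator_iff_char_two hg h2 g).2 he, ?_⟩
    rw [hgu, Submodule.span_singleton_smul_eq (IsUnit.mk0 c hc0)]
  · refine ⟨Orth.refl Q v * g, (hnd.mem_commutator_iff_char_two hg h2 _).2
      ((hnd.even_rk_refl_mul hv g).2 he), ?_⟩
    rw [Orth.OG.mul_apply, hgu, map_smul, Orth.refl_apply_self hv, smul_neg, ← neg_smul,
      Submodule.span_singleton_smul_eq (IsUnit.mk0 _ (neg_ne_zero.2 hc0))]

end Cfsg.Agent.S2634
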