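import Mathlib
import Cfsg.Statements.S2635
import Cfsg.Agent.Orth.Finite
-- import your own Cfsg.Agent.* helpers here

set_option autoImplicit false
open Cfsg

namespace Cfsg.Agent.S2635

/-- Over a finite field of characteristic two, for a quadratic form Q on F^n with non-degenerate polar form, n ≥ 2, other than dimension 4 over the field of two elements, Ω (the commutator subgroup of the orthogonal group) is exactly the subgroup generated by the products of two reflections (orthogonal transvections) x ↦ x − Q(v)⁻¹ f(x, v) v, Q(v) ≠ 0: the products of an even number of reflections. -/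
theorem result {F : Type*} [Field F] [Fintype F] [CharP F 2] {n : ℕ} (hn : 2 ≤ n) (h : Fintype.card F ≠ 2 ∨ n ≠ 4) (Q : QuadraticForm F (Fin n → F)) (hQ : (QuadraticMap.polarBilin Q).Nondegenerate) : Cfsg.Omega F ⇑Q = Subgroup.closure {g : ↥(Cfsg.isometryGroup F ⇑Q) | ∃ u v : Fin n → F, Q u ≠ 0 ∧ Q v ≠ 0 ∧ ((g : Matrix.GeneralLinearGroup (Fin n) F) : Matrix (Fin n) (Fin n) F) = Cfsg.reflectionMatrix ⇑Q u * Cfsg.reflectionMatrix ⇑Q v} := by
  have hnd := (Orth.nd_iff Q).2 hQ
  have hg : Orth.Good F (Fin n → F) := Orth.good_of_card (by simpa using h)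
  apply le_antisymm
  · intro g hg'
    rw [Orth.mem_Omega_iff] at hg'
    have := hnd.commutator_le_of_pairs hg (Subgroup.map (Orth.toOG Q).toMonoidHom _)
      (fun u v hu huv => ⟨(Orth.toOG Q).symm (Orth.refl Q u * Orth.refl Q v),
        Subgroup.subset_closure (k := {g : ↥(Cfsg.isometryGroup F ⇑Q) | ∃ u v : Fin n → F, Q u ≠ 0 ∧ Q v ≠ 0 ∧ ((g : Matrix.GeneralLinearGroup (Fin n) F) : Matrix (Fin n) (Fin n) F) = Cfsg.reflectionMatrix ⇑Q u * Cfsg.reflectionMatrix ⇑Q v})
          ⟨u, v, hu, huv ▸ hu, by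
          rw [Orth.coe_eq_refl_mul_refl_iff, MulEquiv.apply_symm_apply]⟩, by simp⟩) hg'
    exact (Subgroup.mem_map_iff_mem (f := (Orth.toOG Q).toMonoidHom) (Orth.toOG Q).injective).1 this
  · rw [Subgroup.closure_le]
    rintro g ⟨u, v, hu, hv, hg⟩
    rw [Orth.coe_eq_refl_mul_refl_iff] at hg
    rw [SetLike.mem_coe, Orth.mem_Omega_iff, hg]
    exact hnd.refl_mul_refl_mem_commutator' hu hv
      (Orth.isSquare_of_two_eq_zero Orth.two_eq_zero_of_charP _)

end Cfsg.Agent.S2635
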