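import Mathlib
import Cfsg.Statements.S2636
import Cfsg.Agent.Classical.AutPSL3

set_option autoImplicit false
set_option backward.isDefEq.respectTransparency false
open Cfsg

namespace Cfsg.Agent.S2636

open Classical.AutPSL2 Classical.AutPSL3 Classical.Lang Classical.SLBasic Matrix

/-- Centraliser of a field automorphism in PGL_n: let F be the field with q = q₀^r elements, σ a field automorphism of F of prime order r (so its fixed field has q₀ elements) and n ≥ 1. The invertible matrices g whose entrywise image under σ is a scalar multiple of g — those whose coset modulo scalars is fixed by σ — number (q − 1)/(q₀ − 1) · |GL_n(q₀)|; equivalently the centraliser in PGL_n(q) of the induced automorphism has the order of PGL_n(q₀). -/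
theorem result {F : Type*} [Field F] [Fintype F] {q₀ r n : ℕ} (hr : r.Prime) (hn : 1 ≤ n) (hF : Fintype.card F = q₀ ^ r) (σ : F ≃+* F) (hσ : orderOf σ = r) : Nat.card {g : GL (Fin n) F // ∃ c : F, c ≠ 0 ∧ (g : Matrix (Fin n) (Fin n) F).map σ = c • (g : Matrix (Fin n) (Fin n) F)} = (q₀ ^ r - 1) / (q₀ - 1) * ∏ i : Fin n, (q₀ ^ n - q₀ ^ (i : ℕ)) := by
  haveI : Nonempty (Fin n) := ⟨⟨0, hn⟩⟩
  have hK : Nat.card (Herm.fixF σ.toRingHom) = q₀ := by
    have h := card_eq_pow_orderOf σ
    rw [Nat.card_eq_fintype_card, hF, hσ] at h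
    exact (Nat.pow_left_injective hr.ne_zero h).symm
  let K := Herm.fixF σ.toRingHom
  let ψ : GL (Fin n) K × Fˣ →* GL (Fin n) F := (GeneralLinearGroup.map K.subtype).noncommCoprod
    (GeneralLinearGroup.scalar (Fin n)) fun g c => (GeneralLinearGroup.scalar_commute _ _).symm
  have h1 : Nat.card {g : GL (Fin n) F // ∃ c : F, c ≠ 0 ∧
      (g : Matrix (Fin n) (Fin n) F).map σ = c • (g : Matrix (Fin n) (Fin n) F)} =
      Nat.card ψ.range := by
    refine Nat.card_congr (Equiv.subtypeEquivRight fun g => ⟨?_, ?_⟩)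
    · rintro ⟨c, hc, h⟩
      obtain ⟨k, a, rfl⟩ := exists_map_of_proj_fixed (φ := σ.toRingHom) (g := g)
        (c := Units.mk0 c hc) (Units.ext (by
          rw [Units.val_mul, scalar_coe, mul_smul_comm, mul_one]; exact h))
      exact ⟨(k, a), rfl⟩
    · rintro ⟨⟨k, a⟩, rfl⟩
      refine ⟨σ a / a, by simp, ?_⟩
      ext i j
      have : σ (k i j) = k i j := (k i j).2
      simp [ψ, this]
      field_simp
  have h2 : Nat.card ψ.ker = Nat.card Kˣ := by
    symm
    refine Nat.card_congr (Equiv.ofBijective (fun a => ⟨(GeneralLinearGroup.scalar _ a,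
      (Units.map K.subtype.toMonoidHom a)⁻¹), by
        simp [ψ, MonoidHom.mem_ker, GeneralLinearGroup.map_scalar]⟩) ⟨fun a b h => ?_, ?_⟩)
    · exact scalar_injective (congrArg (fun x => x.1.1) h)
    · rintro ⟨⟨k, a⟩, h⟩
      replace h : GeneralLinearGroup.map K.subtype k = GeneralLinearGroup.scalar _ a⁻¹ := by
        rw [map_inv]; exact eq_inv_of_mul_eq_one_left h
      have h3 : k ∈ Subgroup.center (GL (Fin n) K) := by
        rw [← ker_dA_comp K.subtype, MonoidHom.mem_ker, MonoidHom.comp_apply, h, dA_scalar]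
      rw [GeneralLinearGroup.center_eq_range_scalar] at h3
      obtain ⟨b, rfl⟩ := h3
      rw [GeneralLinearGroup.map_scalar] at h
      refine ⟨b, Subtype.ext (Prod.ext rfl ?_)⟩
      exact inv_eq_iff_eq_inv.2 (scalar_injective h)
  have h3 := Subgroup.card_mul_index ψ.ker
  rw [Subgroup.index_ker, h2, Nat.card_prod, card_GL, Nat.card_units, Nat.card_units, hK,
    Nat.card_eq_fintype_card (α := F), hF] at h3
  have h4 : 1 < q₀ := hK ▸ one_lt_card
  obtain ⟨m, hm⟩ : q₀ - 1 ∣ q₀ ^ r - 1 := by simpa using Nat.sub_dvd_pow_sub_pow q₀ 1 r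
  rw [h1, hm, Nat.mul_div_cancel_left _ (by omega)]
  rw [hm, mul_left_comm] at h3
  rw [Nat.eq_of_mul_eq_mul_left (by omega) h3, mul_comm]

end Cfsg.Agent.S2636
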