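import Mathlib
import Cfsg.Statements.S2637
import Cfsg.Agent.Conj.SsMat
import Cfsg.Agent.Herm.Embed
-- import your own Cfsg.Agent.* helpers here

set_option autoImplicit false
open Cfsg

namespace Cfsg.Agent.S2637

open Conj Module Polynomial

theorem sim_of_irreducible {F V W : Type*} [Field F] [AddCommGroup V] [Module F V]
    [AddCommGroup W] [Module F W] [FiniteDimensional F V] [FiniteDimensional F W] {f : End F V}
    {g : End F W} {s : F[X]} (hs : Irreducible s) (hm : s.Monic) (hf : aeval f s = 0)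
    (hg : aeval g s = 0) (hd : finrank F V = finrank F W) : Sim f g := by
  obtain ⟨t, p, h1, h2, h3, h4⟩ := exists_model_ss hs.squarefree hf
  obtain ⟨t', p', h1', h2', h3', h4'⟩ := exists_model_ss hs.squarefree hg
  have e1 : ∀ i, p i = s := fun i =>
    eq_of_monic_of_associated (h2 i) hm ((h1 i).associated_of_dvd hs (h3 i))
  have e2 : ∀ i, p' i = s := fun i =>
    eq_of_monic_of_associated (h2' i) hm ((h1' i).associated_of_dvd hs (h3' i))
  rw [h4.finrank_eq, h4'.finrank_eq, finrank_alg h2, finrank_alg h2'] at hd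
  simp only [e1, e2, Finset.sum_const, Finset.card_univ, Fintype.card_fin, smul_eq_mul] at hd
  obtain rfl := Nat.eq_of_mul_eq_mul_right hs.natDegree_pos hd
  exact h4.trans ((sim_mdl_equiv (Equiv.refl _) fun i => (e2 i).trans (e1 i).symm).trans h4'.symm)

theorem main {F K : Type*} [Field F] [Finite F] [Field K] [Finite K] {q : ℕ}
    (hF : Nat.card F = q) (hK : Nat.card K = q ^ 2) (hq : q % 3 = 2) {m : ℕ}
    (x : Matrix.symplecticGroup (Fin m) F) (hx3 : x ^ 3 = 1)
    (hfpf : IsUnit ((x : Matrix (Fin m ⊕ Fin m) (Fin m ⊕ Fin m) F) - 1)) :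
    Nat.card ↥(Subgroup.centralizer ({x} : Set ↥(Matrix.symplecticGroup (Fin m) F))) =
      Herm.ordU q m := by
  obtain ⟨ι, hι⟩ := (Herm.inv_frob hK).exists_ringHom hK (K := F) hF
  letI := ι.toAlgebra
  have h : Herm.IsFix F (Herm.frob hK) := ⟨Herm.inv_frob hK, hι⟩
  have hB := Herm.hf_sB hK m
  have : Module.Finite F (Fin m → K) := Module.Finite.of_finite
  obtain ⟨θ, hθ0, hθ⟩ := h.toInv.exists_skew
  have hq2 := Herm.two_le_of_card hK
  have := Fintype.ofFinite K
  have : Fact (Nat.Prime 3) := ⟨Nat.prime_three⟩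
  obtain ⟨ω, hω⟩ := exists_prime_orderOf_dvd_card' (G := Kˣ) 3 (by
    rw [Nat.card_units, hK]
    have : q ^ 2 % 3 = 1 := by rw [Nat.pow_mod, hq]
    omega)
  have hω3 : (ω : K) ^ 3 = 1 := by
    rw [← Units.val_pow_eq_pow_val, ← hω, pow_orderOf_eq_one, Units.val_one]
  have hω1 : (ω : K) ≠ 1 := fun h => by
    rw [Units.val_eq_one.1 h, orderOf_one] at hω; omega
  have hωs : (ω : K) ^ 2 + ω + 1 = 0 :=
    mul_left_cancel₀ (sub_ne_zero.2 hω1) (by linear_combination hω3)
  have hσω : Herm.frob hK ω = ω ^ 2 := by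
    rw [Herm.frob_apply, ← Nat.div_add_mod q 3, pow_add, pow_mul, hω3, one_pow, one_mul, hq]
  have hne : ∀ a : F, algebraMap F K a ≠ ω := fun a ha => by
    have := h.map_alg a
    rw [ha, hσω] at this
    exact hω1 (mul_left_cancel₀ ω.ne_zero (by linear_combination this))
  have hs : Irreducible (X ^ 2 + X + 1 : F[X]) := by
    have hd : (X ^ 2 + X + 1 : F[X]).natDegree = 2 := by compute_degree!
    refine irreducible_of_degree_le_three_of_not_isRoot (by simp [hd]) fun a ha => ?_
    have h1 : algebraMap F K a ^ 2 + algebraMap F K a + 1 = 0 := by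
      simpa using congrArg (algebraMap F K) ha
    have h2 : (algebraMap F K a - ω) * (algebraMap F K (-1 - a) - ω) = 0 := by
      rw [map_sub, map_neg, map_one]; linear_combination hωs - h1
    rcases mul_eq_zero.1 h2 with h3 | h3 <;> exact hne _ (sub_eq_zero.1 h3)
  let g₀ : Herm.UG (Herm.sB hK m) := hB.ofLin ((ω : K) • LinearMap.id) fun x y => by
    simp only [LinearMap.smul_apply, LinearMap.id_apply, Herm.b_smul_left, Herm.b_smul_right, hσω]
    linear_combination (Herm.sB hK m x y) * hω3
  have hg₀ : ∀ v, g₀.1 v = (ω : K) • v := fun v => rfl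
  let φ := h.toSG (Herm.sB hK m) θ
  have hx : aeval (Matrix.toLin' x.1) (X ^ 2 + X + 1 : F[X]) = 0 := by
    rw [← toLin'_aeval, LinearEquiv.map_eq_zero_iff]
    apply hfpf.mul_left_cancel
    have : x.1 ^ 3 = 1 := congrArg Subtype.val hx3
    simp only [map_add, map_pow, aeval_X, map_one, mul_zero]
    linear_combination (norm := noncomm_ring) this
  have hg : aeval ((φ g₀).1.toLinearMap : End F _) (X ^ 2 + X + 1 : F[X]) = 0 := by
    refine LinearMap.ext fun v => ?_
    simp only [map_add, map_pow, aeval_X, map_one, LinearMap.add_apply, pow_two, map_mul, End.mul_apply,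
      End.one_apply, LinearMap.zero_apply]
    change (ω : K) • (ω : K) • v + (ω : K) • v + v = 0
    linear_combination (norm := module) hωs • v
  obtain ⟨e, he, he'⟩ := tri_alt Classical.SpMat.sB_nondeg Classical.SpMat.sB_alt
    (h.trForm_nondeg hB hθ0 hθ) (h.trForm_alt hB hθ) (Classical.SpMat.spEquiv _ F x).2 (φ g₀).2
    (sim_of_irreducible hs (by monicity!) (spEquiv_lin x ▸ hx) hg (by
      rw [h.finrank_res (V := Fin m → K)]; simp [two_mul])) hs.squarefree (spEquiv_lin x ▸ hx)
  let E : Matrix.symplecticGroup (Fin m) F ≃* Classical.SpWitt.SG (h.trForm (Herm.sB hK m) θ) :=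
    (Classical.SpMat.spEquiv _ F).trans (Herm.ugCongr (σ := RingHom.id F) e he')
  have hE : E x = φ g₀ := Classical.SpWitt.SG.ext fun v => by
    obtain ⟨v, rfl⟩ := e.surjective v
    exact (congrArg (fun w => e ((Classical.SpMat.spEquiv _ F x).1 w))
      (e.symm_apply_apply v)).trans (he v)
  rw [← Orth.card_centralizer_equiv E, hE]
  have hr : Subgroup.centralizer {φ g₀} = φ.range := by
    ext c
    rw [Subgroup.mem_centralizer_singleton_iff]
    constructor
    · intro hc
      have h1 : ∀ v, c.1 ((ω : K) • v) = (ω : K) • c.1 v := fun v =>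
        congrArg (fun k : Classical.SpWitt.SG _ => k.1 v) hc
      have h2 : ∀ (a : K) v, c.1 (a • v) = a • c.1 v := fun a v => by
        have hli : LinearIndependent F ![(1 : K), ω] := by
          rw [LinearIndependent.pair_iff' one_ne_zero]
          intro a ha
          exact hne a (by rw [← ha, Algebra.algebraMap_eq_smul_one])
        have hsp := hli.span_eq_top_of_card_eq_finrank' (by simp [h.finrank_eq])
        obtain ⟨b, hb⟩ := (Submodule.mem_span_range_iff_exists_fun F).1
          (hsp ▸ Submodule.mem_top : a ∈ _)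
        simp only [Fin.sum_univ_two, Matrix.cons_val_zero, Matrix.cons_val_one] at hb
        simp only [← hb, add_smul, smul_assoc, one_smul, map_add, map_smul, h1]
      let c' : (Fin m → K) →ₗ[K] (Fin m → K) := ⟨c.1.toLinearMap.toAddHom, h2⟩
      refine ⟨hB.ofLin c' fun u v => ?_, Classical.SpWitt.SG.ext fun v => rfl⟩
      by_contra hne'
      obtain ⟨a, ha⟩ := h.toInv.exists_trace_one
      have h3 := c.2 u ((a / (θ * (Herm.sB hK m (c' u) (c' v) - Herm.sB hK m u v))) • v)
      rw [h2, h.trForm_apply, h.trForm_apply, ← sub_eq_zero, ← map_sub, h.tr_eq_zero_iff,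
        Herm.b_smul_right, Herm.b_smul_right] at h3
      have h4 : θ * (a / (θ * (Herm.sB hK m (c' u) (c' v) - Herm.sB hK m u v)) *
          Herm.sB hK m (c.1 u) (c.1 v)) -
          θ * (a / (θ * (Herm.sB hK m (c' u) (c' v) - Herm.sB hK m u v)) * Herm.sB hK m u v) = a := by
        have := sub_ne_zero.2 hne'
        change θ * (_ * Herm.sB hK m (c' u) (c' v)) - _ = _
        field_simp
      rw [h4, ha] at h3
      exact one_ne_zero h3
    · rintro ⟨c, rfl⟩
      exact Classical.SpWitt.SG.ext fun v => map_smul c.1 (ω : K) v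
  rw [hr, ← Nat.card_congr (MonoidHom.ofInjective (h.toSG_injective θ)).toEquiv, hB.card_UG' hK,
    finrank_fin_fun]

/-- Centraliser of a fixed-point-free element of order three in Sp_2m(q) when q ≡ 2 (mod 3): if x ∈ Sp_2m(F) (|F| = q, m ≥ 1) satisfies x³ = 1 and x − 1 is invertible, then its centraliser in Sp_2m(F) has the order of the unitary group GU_m(q), namely q^(m(m−1)/2) Π_(i=1)^m (q^i − (−1)^i) (x lies in the centre of a subgroup GU_m(q) of Sp_2m(q)). -/
theorem result {F : Type*} [Field F] [Fintype F] {q : ℕ} (hF : Fintype.card F = q) (hq : q % 3 = 2) {m : ℕ} (hm : 1 ≤ m) (x : Matrix.symplecticGroup (Fin m) F) (hx3 : x ^ 3 = 1) (hfpf : IsUnit ((x : Matrix (Fin m ⊕ Fin m) (Fin m ⊕ Fin m) F) - 1)) : (Nat.card ↥(Subgroup.centralizer ({x} : Set ↥(Matrix.symplecticGroup (Fin m) F))) : ℤ) = (q : ℤ) ^ (m * (m - 1) / 2) * ∏ i : Fin m, ((q : ℤ) ^ ((i : ℕ) + 1) - (-1) ^ ((i : ℕ) + 1)) := by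
  obtain ⟨p, hp⟩ := CharP.exists F
  have : Fact p.Prime := ⟨CharP.char_is_prime F p⟩
  have hF' : Nat.card F = q := by rw [Nat.card_eq_fintype_card, hF]
  rw [main (K := FiniteField.Extension F p 2) hF' (by rw [FiniteField.natCard_extension, hF']) hq
    x hx3 hfpf, Conj.ordU_int (by omega)]

end Cfsg.Agent.S2637
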