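import Mathlib
import Cfsg.Statements.S2638
import Cfsg.Agent.Conj.Reg
-- import your own Cfsg.Agent.* helpers here

set_option autoImplicit false
open Cfsg

namespace Cfsg.Agent.S2638

/-- If an element x of GL_n(q), n ≥ 1, has prime order r and the multiplicative order of q modulo r is n (r is a primitive prime divisor of q^n − 1, so x acts irreducibly), then the centraliser of x in GL_n(q) is cyclic of order q^n − 1 (the multiplicative group of the field with q^n elements, a Singer cycle). -/
theorem result {F : Type*} [Field F] [Fintype F] {p q : ℕ} [Fact p.Prime] [CharP F p] (hF : Fintype.card F = q) {n r : ℕ} (hn : 1 ≤ n) (hr : r.Prime) (hrp : r ≠ p) (hi : orderOf (q : ZMod r) = n) (x : GL (Fin n) F) (hx : orderOf x = r) : IsCyclic ↥(Subgroup.centralizer ({x} : Set (GL (Fin n) F))) ∧ Nat.card ↥(Subgroup.centralizer ({x} : Set (GL (Fin n) F))) = q ^ n - 1 := by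
  have hr0 : (r : F) ≠ 0 :=
    Conj.natCast_ne_zero_of_coprime (p := p) ((Nat.coprime_primes hr Fact.out).2 hrp)
  have hx1 : x.1 ^ r = 1 := by
    rw [← Units.val_pow_eq_pow_val, ← hx, pow_orderOf_eq_one, Units.val_one]
  obtain ⟨t, f, hf, hm, hd, s⟩ := Conj.exists_model_ss (Conj.squarefree_X_pow_sub_one hr0)
    (Conj.aeval_toLin'_pow_sub_one hx1)
  obtain ⟨i, hi'⟩ : ∃ i, f i ≠ Polynomial.X - 1 := by
    by_contra hne
    push Not at hne
    have h1 := (s.aeval (Polynomial.X - 1)).zero_iff.2
      ((Conj.aeval_mdl_eq_zero_iff _ _).2 fun i => by rw [hne i])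
    rw [← Conj.toLin'_aeval, map_sub, Polynomial.aeval_X, map_one, map_eq_zero_iff _
      Matrix.toLin'.injective, sub_eq_zero] at h1
    have : x = 1 := Units.ext h1
    rw [this, orderOf_one] at hx
    exact hr.one_lt.ne hx
  have hdeg := Conj.natDegree_eq_orderOf hF hr hrp (hf i) (hm i) (hd i) hi'
  rw [hi] at hdeg
  have hsum := s.finrank_eq
  rw [Conj.finrank_alg hm, ← Finset.add_sum_erase _ _ (Finset.mem_univ i), hdeg] at hsum
  simp only [Module.finrank_fintype_fun_eq_card, Fintype.card_fin, left_eq_add,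
    Finset.sum_eq_zero_iff] at hsum
  have s2 := s.trans (Conj.sim_mdl_single f i fun j hj => (hm j).natDegree_eq_zero.1
    (hsum j (by simp [hj])))
  obtain ⟨e⟩ := Conj.centralizer_equiv x
  obtain ⟨e2⟩ := s2.cent_equiv
  obtain ⟨e3⟩ := Conj.cent_cyc (f i)
  haveI := Fact.mk (hf i)
  haveI := (hm i).finite_adjoinRoot
  haveI : Finite (AdjoinRoot (f i)) := Module.finite_of_finite F
  refine ⟨(e.trans (e2.trans e3)).isCyclic.2 inferInstance, ?_⟩
  rw [Nat.card_congr (e.trans (e2.trans e3)).toEquiv, Nat.card_units, Conj.card_adjoinRoot (hm i),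
    hdeg, Nat.card_eq_fintype_card, hF]

end Cfsg.Agent.S2638
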