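import Mathlib
import Cfsg.Statements.S2639
import Cfsg.Agent.Herm.Embed
-- import your own Cfsg.Agent.* helpers here

set_option autoImplicit false
open Cfsg

namespace Cfsg.Agent.S2639

/-- The unitary group embeds in the symplectic group of twice the dimension over the subfield: for a field K with q² elements and a field F with q elements (isomorphic to the subfield of K of order q), there is an injective homomorphism GU_m(q) → Sp_2m(F). -/
theorem result {K F : Type*} [Field K] [Fintype K] [Field F] [Fintype F] {q : ℕ} (hK : Fintype.card K = q ^ 2) (hF : Fintype.card F = q) (m : ℕ) : ∃ φ : ↥(Cfsg.GU m K q) →* ↥(Matrix.symplecticGroup (Fin m) F), Function.Injective φ := by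
  have hF' := Herm.natCard_of_card hK
  obtain ⟨ι, hι⟩ := (Herm.inv_frob hF').exists_ringHom hF' (K := F)
    (by rw [Nat.card_eq_fintype_card, hF])
  letI := ι.toAlgebra
  have h : Herm.IsFix F (Herm.frob hF') := ⟨Herm.inv_frob hF', hι⟩
  have hB := Herm.hf_sB hF' m
  obtain ⟨θ, hθ0, hθ⟩ := h.exists_skew
  have : Module.Finite F (Fin m → K) := Module.Finite.of_finite
  obtain ⟨m', b, h1, hb⟩ := Classical.SpSimple.exists_basis_J (h.trForm_nondeg hB hθ0 hθ)
    (h.trForm_alt hB hθ)
  rw [h.finrank_res, Module.finrank_fin_fun] at h1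
  obtain rfl : m = m' := by omega
  exact ⟨(Classical.SpMat.sgEquiv b hb).symm.toMonoidHom.comp
    ((h.toSG _ θ).comp (Herm.toUG hF' m).toMonoidHom), (Classical.SpMat.sgEquiv b hb).symm.injective.comp
      ((h.toSG_injective θ).comp (Herm.toUG hF' m).injective)⟩

end Cfsg.Agent.S2639
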