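import Mathlib
import Cfsg.Statements.S2640
import Cfsg.Agent.Herm.Embed
-- import your own Cfsg.Agent.* helpers here

set_option autoImplicit false
open Cfsg

namespace Cfsg.Agent.S2640

/-- For m even, the unitary group GU_m(q) (over the field with q² elements) embeds in the orthogonal group O⁺_2m(q) of the hyperbolic form Σ x_i y_i over the field with q elements (there is an injective homomorphism). -/
theorem result {K F : Type*} [Field K] [Fintype K] [Field F] [Fintype F] {q : ℕ} (hK : Fintype.card K = q ^ 2) (hF : Fintype.card F = q) (m : ℕ) (hm : Even m) : ∃ φ : ↥(Cfsg.GU m K q) →* ↥(Cfsg.isometryGroup F (Cfsg.quadFormPlus m F)), Function.Injective φ := by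
  have hF' := Herm.natCard_of_card hK
  obtain ⟨ι, hι⟩ := (Herm.inv_frob hF').exists_ringHom hF' (K := F)
    (by rw [Nat.card_eq_fintype_card, hF])
  letI := ι.toAlgebra
  have h : Herm.IsFix F (Herm.frob hF') := ⟨Herm.inv_frob hF', hι⟩
  have hB := Herm.hf_sB hF' m
  have : Module.Finite F (Fin m → K) := Module.Finite.of_finite
  obtain ⟨e⟩ := (h.nd_quad hB).iso_plusQ ((h.isPlus_quad_iff hB).2 (by simpa using hm)) (m := m)
    (by rw [h.finrank_res, Module.finrank_fin_fun])
  let e' := ((Orth.toOG (Orth.plusQ m F)).trans (Orth.ogCongr e)).symm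
  exact ⟨e'.toMonoidHom.comp ((h.toOG hB).comp (Herm.toUG hF' m).toMonoidHom),
    e'.injective.comp ((h.toOG_injective hB).comp (Herm.toUG hF' m).injective)⟩

end Cfsg.Agent.S2640
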