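import Mathlib
import Cfsg.Statements.S2642
import Cfsg.Agent.Conj.Jt
import Cfsg.Agent.S2588
-- import your own Cfsg.Agent.* helpers here

set_option autoImplicit false
open Cfsg

namespace Cfsg.Agent.S2642

theorem exists_GU {K : Type*} [Field K] [Fintype K] {q n : ℕ} (hK : Fintype.card K = q ^ 2)
    (g : GL (Fin n) K) (hg : IsNilpotent (g.1 - 1)) :
    ∃ h : Cfsg.GU n K q, IsConj g (h : GL (Fin n) K) := by
  have hF := Herm.natCard_of_card hK
  rw [S2588.result hK]
  change IsConj _ (Matrix.transpose (g.1.map (Herm.frob hF)))⁻¹
  have h1 := (Conj.isConj_map_of_unipotent (Herm.frob hF) hg).trans (Conj.isConj_transpose _)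
  obtain ⟨k, hk⟩ := hg
  exact h1.trans (Conj.isConj_inv_of_unipotent ⟨k, (Conj.regular_of_isConj h1 k).1.1 hk⟩)

/-- Number of conjugacy classes of elements of order p in the general unitary group GU_n(q), q a power of p: every unipotent Jordan type occurs and the classes correspond to the partitions of n with all parts at most p other than the all-ones partition, exactly as in GL_n; so there are (number of partitions of n with parts ≤ p) − 1 classes. -/
theorem result {K : Type*} [Field K] [Fintype K] {p q n : ℕ} [Fact p.Prime] [CharP K p] (hK : Fintype.card K = q ^ 2) : Nat.card {C : ConjClasses ↥(Cfsg.GU n K q) // ∃ g : ↥(Cfsg.GU n K q), ConjClasses.mk g = C ∧ orderOf g = p} = (Finset.univ.filter (fun μ : Nat.Partition n => ∀ a ∈ μ.parts, a ≤ p)).card - 1 := by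
  exact Conj.card_classes_jordan (Cfsg.GU n K q).subtype Subtype.val_injective
    (fun g h H => (Herm.isConj_GU_iff (Herm.natCard_of_card hK) g h).2 H) (exists_GU hK)

end Cfsg.Agent.S2642
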