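import Mathlib
import Cfsg.Statements.S2643
import Cfsg.Agent.Conj.Jt
import Cfsg.Agent.S2642
-- import your own Cfsg.Agent.* helpers here

set_option autoImplicit false
open Cfsg

namespace Cfsg.Agent.S2643

/-- Regular unipotent classes of SU_n(q), n ≥ 2: the elements u of the special unitary group (isometries of Σ u_i v_i^q of determinant one over the field with q² elements) with (u − 1)^n = 0 and rank(u − 1) = n − 1 form exactly gcd(n, q + 1) conjugacy classes of SU_n(q). -/
theorem result {K : Type*} [Field K] [Fintype K] {q n : ℕ} (hK : Fintype.card K = q ^ 2) (hn : 2 ≤ n) : Nat.card {C : ConjClasses ↥(Cfsg.SU n K q) // ∃ u : ↥(Cfsg.SU n K q), ConjClasses.mk u = C ∧ (((u : GL (Fin n) K) : Matrix (Fin n) (Fin n) K) - 1) ^ n = 0 ∧ (((u : GL (Fin n) K) : Matrix (Fin n) (Fin n) K) - 1).rank = n - 1} = Nat.gcd n (q + 1) := by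
  have hF := Herm.natCard_of_card hK
  have hσ := Herm.inv_frob hF
  obtain ⟨A', hB, hB'⟩ := Conj.exists_regular K (Fin n)
  rw [Fintype.card_fin] at hB hB'
  have hu : IsUnit A' := by simpa using IsNilpotent.isUnit_add_one ⟨n, hB⟩
  obtain ⟨y, hy⟩ := S2642.exists_GU hK hu.unit ⟨n, hB⟩
  obtain ⟨hA, hA'⟩ := Conj.regular_of_isConj (Conj.isConj_units_iff.1 hy) n
  replace hA := hA.1 hB
  replace hA' := hA'.symm.trans hB'
  obtain ⟨x, rfl⟩ := (Herm.mem_range_suToGU y).2 (Conj.det_eq_one_of_unipotent ⟨n, hA⟩)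
  haveI : Nonempty (Fin n) := ⟨⟨0, by omega⟩⟩
  let φ : Cfsg.GU n K q →* Kˣ := Matrix.GeneralLinearGroup.det.comp (Cfsg.GU n K q).subtype
  have hφ : φ.range = Herm.normOne (Herm.frob hF) := by
    rw [← (Herm.hf_sB hF n).range_detU]
    ext a
    constructor
    · rintro ⟨g, rfl⟩
      exact ⟨_, Herm.detU_toUG hF g⟩
    · rintro ⟨g, rfl⟩
      obtain ⟨g, rfl⟩ := (Herm.toUG hF n).surjective g
      exact ⟨g, (Herm.detU_toUG hF g).symm⟩
  rw [Conj.card_classes_split φ (Herm.suToGU n K q) Herm.suToGU_injective ?_ x, hφ,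
    Nat.gcd_comm, ← hσ.card_normOne hF, ← IsCyclic.index_powMonoidHom_range, Subgroup.relIndex]
  · congr 1
    ext y
    rw [Subgroup.mem_subgroupOf]
    constructor
    · rintro ⟨c, hc, hy⟩
      have h1 : c.1.1 * (Herm.suToGU n K q x).1.1 = (Herm.suToGU n K q x).1.1 * c.1.1 :=
        congrArg (fun g : Cfsg.GU n K q => g.1.1) (Subgroup.mem_centralizer_singleton_iff.1 hc)
      obtain ⟨a, hn, ha⟩ := Conj.exists_det_eq_pow
        (f := Matrix.toLin' ((Herm.suToGU n K q x).1.1 - 1))
        (c := Matrix.toLin' c.1.1) ⟨n, by rw [← Conj.toLin'_pow', hA, map_zero]⟩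
        (by rw [← Conj.rank_eq_finrank, hA']; simp)
        (by rw [← Conj.toLin'_mul', ← Conj.toLin'_mul', mul_sub, sub_mul, h1]; simp)
      rw [LinearMap.det_toLin', Module.finrank_fintype_fun_eq_card, Fintype.card_fin] at ha
      have ha0 : a ≠ 0 := by
        rintro rfl
        exact c.1.det_ne_zero (by rw [ha, zero_pow (by omega)])
      have h2 : IsNilpotent (c.1.1 - algebraMap K _ a) :=
        (IsNilpotent.map_iff (f := Matrix.toLinAlgEquiv' (R := K) (n := Fin n))
          Matrix.toLinAlgEquiv'.injective).1 (by rw [map_sub, AlgEquiv.commutes]; exact hn)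
      have h3 : IsNilpotent (Herm.ct (Herm.frob hF) c.1.1 - algebraMap K _ (Herm.frob hF a)) := by
        rw [← Herm.ct_algebraMap, ← map_sub, Herm.ct_apply, Matrix.isNilpotent_transpose_iff]
        exact h2.map (Herm.frob hF).mapMatrix
      have h4 := (Herm.mem_GU_iff hF _).1 c.2
      have h5 : Commute (Herm.ct (Herm.frob hF) c.1.1) c.1.1 :=
        h4.trans (mul_eq_one_comm.1 h4).symm
      have h6 : IsNilpotent (algebraMap K (Matrix (Fin n) (Fin n) K) (1 - Herm.frob hF a * a)) := by
        have : algebraMap K (Matrix (Fin n) (Fin n) K) (1 - Herm.frob hF a * a) =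
            Herm.ct (Herm.frob hF) c.1.1 * (c.1.1 - algebraMap K _ a) +
            (Herm.ct (Herm.frob hF) c.1.1 - algebraMap K _ (Herm.frob hF a)) * algebraMap K _ a := by
          rw [mul_sub, sub_mul, h4, map_sub, map_mul, map_one]; abel
        rw [this]
        have c1 : Commute (Herm.ct (Herm.frob hF) c.1.1) (c.1.1 - algebraMap K _ a) :=
          h5.sub_right (Algebra.commute_algebraMap_right _ _)
        have c2 : Commute (Herm.ct (Herm.frob hF) c.1.1 - algebraMap K _ (Herm.frob hF a))
            (c.1.1 - algebraMap K _ a) := c1.sub_left (Algebra.commute_algebraMap_left _ _)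
        refine Commute.isNilpotent_add ?_ (c1.isNilpotent_mul_left h2)
          ((Algebra.commute_algebraMap_right _ _).isNilpotent_mul_right h3)
        refine Commute.mul_left (Commute.mul_right ?_ (Algebra.commute_algebraMap_right _ _))
          (c2.symm.mul_right (Algebra.commute_algebraMap_right _ _))
        exact (Commute.refl _).sub_right (Algebra.commute_algebraMap_right _ _)
      have h7 := ((IsNilpotent.map_iff (algebraMap K _).injective).1 h6).eq_zero
      refine ⟨⟨Units.mk0 a ha0, Herm.mem_normOne.2 (sub_eq_zero.1 h7).symm⟩,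
        Subtype.ext (Units.ext ?_)⟩
      rw [← hy]
      exact ha.symm
    · rintro ⟨a, rfl⟩
      have h1 : Matrix.GeneralLinearGroup.scalar (Fin n) a.1 ∈ Cfsg.GU n K q := by
        rw [Herm.mem_GU_iff hF]
        change Herm.ct _ (algebraMap K (Matrix (Fin n) (Fin n) K) a.1) * algebraMap K _ a.1 = 1
        rw [Herm.ct_algebraMap, ← map_mul, Herm.mem_normOne.1 a.2, map_one]
      refine ⟨⟨_, h1⟩, ?_, Units.ext (by simp [φ])⟩
      rw [SetLike.mem_coe, Subgroup.mem_centralizer_singleton_iff]
      exact Subtype.ext (Units.ext (Algebra.commutes (a.1 : K) _))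
  · intro g
    rw [Herm.isConj_GU_iff hF, Conj.isConj_units_iff]
    constructor
    · rintro ⟨h1, h2⟩
      exact Conj.isConj_of_regular ⟨n, hA⟩ ⟨n, h1⟩ (by simpa using hA') (by rw [Fintype.card_fin]; exact h2)
    · intro h
      have := Conj.regular_of_isConj h n
      exact ⟨this.1.1 hA, this.2.symm.trans hA'⟩
  · ext g
    rw [Herm.mem_range_suToGU, MonoidHom.mem_ker, ← Units.val_eq_one]
    rfl

end Cfsg.Agent.S2643
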