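import Mathlib
import Cfsg.Statements.S2644
import Cfsg.Agent.Herm.Matrix
import Cfsg.Agent.Herm.Conj
-- import your own Cfsg.Agent.* helpers here

set_option autoImplicit false
open Cfsg

namespace Cfsg.Agent.S2644

theorem aux {K : Type*} [Field K] [Finite K] {q n : ℕ} (hF : Nat.card K = q ^ 2) (s : ↥(Cfsg.SU n K q)) (hs : Cfsg.IsTransvection (((s : GL (Fin n) K) : Matrix (Fin n) (Fin n) K))) :
    ∃ v c, v ≠ 0 ∧ c ≠ 0 ∧ Herm.sB hF n v v = 0 ∧ c + Herm.frob hF c = 0 ∧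
      (Herm.toSUG hF n s).1 = (Herm.hf_sB hF n).qr v c := by
  have hB := Herm.hf_sB hF n
  obtain ⟨v, c, hv, hc, h1, h2⟩ := hB.exists_qr_of_finrank_mov (g := (Herm.toSUG hF n s).1) 
    ((Herm.finrank_mov_toSUG hF s).trans hs.1)
  have h3 := (Herm.toSUG hF n s).2
  rw [h2, Herm.mem_SUG, hB.detU_qr h1, add_eq_left, mul_eq_zero] at h3
  have h4 := h3.resolve_left hc
  exact ⟨v, c, hv, hc, h4, by simpa [h4] using h1, h2⟩

/-- In the special unitary group SU_n(q) with n ≥ 3 (isometries of Σ u_i v_i^q of determinant one over the field with q² elements), any two transvections (elements t with t − 1 of rank one and square zero) are conjugate. -/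
theorem result {K : Type*} [Field K] [Fintype K] {q n : ℕ} (hK : Fintype.card K = q ^ 2) (hn : 3 ≤ n) (s t : ↥(Cfsg.SU n K q)) (hs : Cfsg.IsTransvection (((s : GL (Fin n) K) : Matrix (Fin n) (Fin n) K))) (ht : Cfsg.IsTransvection (((t : GL (Fin n) K) : Matrix (Fin n) (Fin n) K))) : IsConj s t := by
  have hF := Herm.natCard_of_card hK
  obtain ⟨u, c, hu0, hc0, hu, hc, h1⟩ := aux hF s hs
  obtain ⟨v, d, hv0, hd0, hv, hd, h2⟩ := aux hF t ht
  obtain ⟨g, hg, h⟩ := (Herm.hf_sB hF n).tv_conj (by simpa using hn) hu0 hv0 hu hv hc0 hd0 hc hd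
  refine isConj_iff.2 ⟨(Herm.toSUG hF n).symm ⟨g, hg⟩, (Herm.toSUG hF n).injective ?_⟩
  rw [map_mul, map_mul, map_inv, MulEquiv.apply_symm_apply]
  apply Subtype.ext
  rw [h2, ← h, ← h1]; rfl

end Cfsg.Agent.S2644
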