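import Mathlib
import Cfsg.Statements.S2645
import Cfsg.Agent.Conj.SsCnt
-- import your own Cfsg.Agent.* helpers here

set_option autoImplicit false
open Cfsg

namespace Cfsg.Agent.S2645

/-- Number of conjugacy classes of elements of odd prime order r, r different from the characteristic, in the symplectic group Sp_2m(q): let i be the multiplicative order of q modulo r and t = (r − 1)/i. If i is odd the eigenvalue orbits pair off (Λ ≠ Λ⁻¹) and the classes correspond to the non-zero (t/2)-tuples (a_j) with 2i Σ a_j ≤ 2m, giving C(⌊m/i⌋ + t/2, t/2) − 1 classes; if i is even (Λ = Λ⁻¹) they correspond to the non-zero t-tuples with i Σ a_j ≤ 2m, giving C(⌊2m/i⌋ + t, t) − 1 classes. -/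
theorem result {F : Type*} [Field F] [Fintype F] {p q : ℕ} [Fact p.Prime] [CharP F p] (hF : Fintype.card F = q) (m r i t : ℕ) (hr : r.Prime) (hr2 : r ≠ 2) (hrp : r ≠ p) (hi : i = orderOf (q : ZMod r)) (ht : t * i = r - 1) : Nat.card {C : ConjClasses ↥(Matrix.symplecticGroup (Fin m) F) // ∃ g : Matrix.symplecticGroup (Fin m) F, ConjClasses.mk g = C ∧ orderOf g = r} = if Odd i then Nat.choose (m / i + t / 2) (t / 2) - 1 else Nat.choose (2 * m / i + t) t - 1 := by
  have := Fact.mk hr
  have h0 : (r : F) ≠ 0 := Conj.natCast_ne_zero_of_ne hr hrp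
  obtain ⟨ζ, hζ⟩ := Conj.exists_prim_root h0
  subst hi hF
  obtain ⟨v, hv, h1, h2, h3⟩ := Conj.card_pair hr2 (Conj.card_ne_zero_zmod h0) ht
  have : Finite (Classical.SpWitt.SG (Classical.SpMat.sB (Fin m) F)) :=
    Finite.of_equiv _ (Classical.SpMat.spEquiv (Fin m) F).toEquiv
  rw [Orth.card_classes_equiv (Classical.SpMat.spEquiv (Fin m) F) _ (fun g => orderOf g = r)
      fun g => by rw [MulEquiv.orderOf_eq],
    Conj.card_classes_mu hζ h0 _ (fun g h hg _ => Conj.sg_isConj_iff Classical.SpMat.sB_nondeg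
      Classical.SpMat.sB_alt (Conj.squarefree_X_pow_sub_one h0)
      (Conj.aeval_of_pow (f := Conj.subRep _ g) (by rw [← map_pow, hg, map_one]))) _
      (Conj.exists_sg_iff hζ h0 hr2 Classical.SpMat.sB_nondeg Classical.SpMat.sB_alt)]
  simp only [h3]
  rw [Conj.card_inv hv h2, h1, Classical.SpMat.finrank_eq, Fintype.card_fin]
  split_ifs
  · rw [Nat.mul_div_mul_left _ _ two_pos]
  · rfl

end Cfsg.Agent.S2645
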