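import Mathlib
import Cfsg.Statements.S2646
import Cfsg.Agent.Conj.UniEx
-- import your own Cfsg.Agent.* helpers here

set_option autoImplicit false
open Cfsg

namespace Cfsg.Agent.S2646

/-- Order of the centraliser in the general unitary group GU_n(q) of a unipotent element of given Jordan type: if u ∈ GU_n(q) (isometries of Σ u_i v_i^q over the field with q² elements) is similar to the unipotent matrix with a_i Jordan blocks of size i (all sizes at least 1), then its centraliser in GU_n(q) has order q^γ · Π_i |GU_(a_i)(q)| with γ = 2 Σ_(i<j) i a_i a_j + Σ_i (i − 1) a_i², the same exponent as in GL_n(q), where |GU_a(q)| = q^(a(a−1)/2) Π_(k=1)^a (q^k − (−1)^k). -/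
theorem result {K : Type*} [Field K] [Fintype K] {q n t : ℕ} (hK : Fintype.card K = q ^ 2) (d : Fin t → ℕ) (hd : ∀ k, 1 ≤ d k) (e : ((k : Fin t) × Fin (d k)) ≃ Fin n) (u : ↥(Cfsg.GU n K q)) (hu : IsConj (Matrix.reindex e e (Cfsg.jordanTypeMatrix d K)) ((u : GL (Fin n) K) : Matrix (Fin n) (Fin n) K)) : (Nat.card ↥(Subgroup.centralizer ({u} : Set ↥(Cfsg.GU n K q))) : ℤ) = (q : ℤ) ^ (2 * (∑ i ∈ Finset.range (Finset.univ.sup d + 1), ∑ j ∈ Finset.range (Finset.univ.sup d + 1), if i < j then i * (Finset.univ.filter (fun k : Fin t => d k = i)).card * (Finset.univ.filter (fun k : Fin t => d k = j)).card else 0) + ∑ i ∈ Finset.range (Finset.univ.sup d + 1), (i - 1) * (Finset.univ.filter (fun k : Fin t => d k = i)).card ^ 2) * ∏ i ∈ Finset.range (Finset.univ.sup d + 1), ((q : ℤ) ^ ((Finset.univ.filter (fun k : Fin t => d k = i)).card * ((Finset.univ.filter (fun k : Fin t => d k = i)).card - 1) / 2) * ∏ j : Fin (Finset.univ.filter (fun k : Fin t => d k = i)).card, ((q : ℤ) ^ ((j : ℕ) + 1) - (-1) ^ ((j : ℕ)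 + 1))) := by
  have hF := Herm.natCard_of_card hK
  have hq : 1 ≤ q := by have := Herm.two_le_of_card hF; omega
  have hn : ∀ k, d k ≤ Finset.univ.sup d := fun k => Finset.le_sup (Finset.mem_univ k)
  have s := ((Conj.sim_jordanType (F := K) d).trans ((Conj.sim_reindex e _).trans
    (Conj.isConj_iff_sim.1 hu))).sub_one.symm
  rw [add_sub_cancel_right] at s
  have hB : Conj.EF (Herm.sB hF n) 1 := ⟨(Herm.inv_frob hF).invol, Or.inl rfl,
    fun x y => by rw [one_mul, (Herm.hf_sB hF n).symm], (Herm.hf_sB hF n).nd⟩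
  have h1 : (Herm.toUG hF n u).1.toLinearMap = Matrix.toLin' u.1.1 :=
    LinearMap.ext fun v => Herm.toUG_apply hF u v
  rw [← h1] at s
  rw [← Orth.card_centralizer_equiv (Herm.toUG hF n), Conj.card_centralizer_UG hB,
    Conj.card_cent_unitary (Herm.inv_frob hF) hB _ hF
      ((s.pow _).zero_iff.2 ((Conj.nil_pow_eq_zero_iff d _).2 hn)),
    Conj.finrank_ker_Psi_of_sim s hn, Conj.prod_range_succ_of_zero]
  · push_cast
    congr 1
    refine Finset.prod_congr rfl fun j _ => ?_
    rw [Conj.ordU_int hq, Conj.finrank_Lay_of_sim s]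
  · have h0 : (Finset.univ.filter fun k => d k = 0).card = 0 := by
      rw [Finset.filter_false_of_mem fun k _ => by have := hd k; omega]
      rfl
    generalize (Finset.univ.filter fun k => d k = 0).card = a at h0
    subst h0
    simp

end Cfsg.Agent.S2646
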