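import Mathlib
import Cfsg.Statements.S2660
import Cfsg.Agent.AltS.D4
import Cfsg.Agent.AltS.A8b
import Cfsg.Agent.AltS.D4b
-- import your own Cfsg.Agent.* helpers here

set_option autoImplicit false
open scoped MatrixGroups
open Cfsg

namespace Cfsg.Agent.S2660

/-- Alternating sections of the triality-twisted groups ³D₄. Let `q = p^a` be a prime power and `K` a field with `q³` elements, and let `G` be the twisted group ³D₄(q) realised over `K`. If some subgroup of `G` has a quotient isomorphic to the alternating group of degree `r`, then `r` is at most 6, or 7 in characteristic 5. (Only an upper bound is asserted.) -/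
theorem result {K : Type*} [Field K] [Fintype K] (p a : ℕ) [Fact p.Prime] [CharP K p]
    (ha : 1 ≤ a) (hK : Fintype.card K = (p ^ a) ^ 3) (r : ℕ) (H : Subgroup ↥(Cfsg.Lie.twistedD4 K (p ^ a))) (N : Subgroup ↥H) [N.Normal]
    (h : Nonempty (↥H ⧸ N ≃* ↥(alternatingGroup (Fin r)))) :
    r ≤ 6 + (if p = 5 then 1 else 0) := by
  have hp : p.Prime := Fact.out
  have hq : IsPrimePow (p ^ a) := hp.isPrimePow.pow (by omega)
  split_ifs with h5
  · subst h5
    obtain ⟨f, N', h1, h2, h3, h4⟩ := Cfsg.Agent.Chev.d4s_two hq hK (by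
      have : ∀ k : ℕ, 5 ^ k % 8 = 1 ∨ 5 ^ k % 8 = 5 := fun k => by
        induction k with
        | zero => simp
        | succ k ih => rcases ih with h | h <;> simp [pow_succ, Nat.mul_mod, h]
      exact this a)
    exact Cfsg.Agent.AltS.no_A8b f N' h1 h2 h3 h4 r H N h
  · obtain ⟨K', _, _, hK', j, hj⟩ := Cfsg.Agent.Chev.d4s_ext p hK
    have h1 : (p ^ a) ^ 4 % 5 = 1 := by
      have h2 : ¬ 5 ∣ p ^ a := fun h =>
        h5 ((Nat.prime_dvd_prime_iff_eq Nat.prime_five hp).mp (Nat.prime_five.dvd_of_dvd_pow h)).symm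
      generalize p ^ a = s at h2
      have : s % 5 = 1 ∨ s % 5 = 2 ∨ s % 5 = 3 ∨ s % 5 = 4 := by omega
      rcases this with h | h | h | h <;> simp [Nat.pow_mod, h]
    refine Cfsg.Agent.AltS.d4b_noA7 (fun P hP y hy x hx => hj ?_) r H N h
    have := Cfsg.Agent.Chev.d4s_five (hq.pow (by norm_num)) hK' h1 (P.map j) (hP.map j) (j y)
      (Subgroup.le_normalizer_map _ ⟨y, hy, rfl⟩) (j x) ⟨x, hx, rfl⟩
    simpa using this

end Cfsg.Agent.S2660
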