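import Mathlib
import Cfsg.Statements.S2665
import Cfsg.Agent.Classical.Lang

set_option autoImplicit false
set_option backward.isDefEq.respectTransparency false
open scoped MatrixGroups
open Cfsg

namespace Cfsg.Agent.S2665

/-- The Lang–Steinberg Theorem for the general linear group. Let `K` be an algebraically closed field of prime characteristic `p`, let `q = p^f` with `f ≥ 1`, and let `σ` be the endomorphism of GL_n(K) raising every matrix entry to the `q`-th power. Then every element `g` of GL_n(K) can be written `g = x · σ(x)⁻¹` for some `x` in GL_n(K): the map `x ↦ x σ(x)⁻¹` is surjective. -/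
theorem result {K : Type*} [Field K] [IsAlgClosed K] (p : ℕ) [Fact p.Prime] [CharP K p]
    (f : ℕ) (hf : 1 ≤ f) (n : ℕ) (g : GL (Fin n) K) :
    ∃ x : GL (Fin n) K, g = x * (Matrix.GeneralLinearGroup.map (iterateFrobenius K p f) x)⁻¹ := by
  obtain ⟨x, hx⟩ := Classical.Lang.lang (φ := iterateFrobenius K p f) (q := p ^ f)
    (Nat.one_lt_pow (by omega) (Fact.out : p.Prime).one_lt) (fun _ => rfl) g
  exact ⟨x, eq_mul_inv_iff_mul_eq.2 hx⟩

end Cfsg.Agent.S2665
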