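import Mathlib
import Cfsg.Statements.S2669
import Cfsg.Agent.S2668
-- import your own Cfsg.Agent.* helpers here

set_option autoImplicit false
open Cfsg

namespace Cfsg.Agent.S2669

theorem card_fib {T A Z : Type*} (f : T → A) (h : ∀ a, Nonempty ({t // f t = a} ≃ Z)) :
    Nat.card T = Nat.card A * Nat.card Z := by
  rw [← Nat.card_prod]
  exact Nat.card_congr ((Equiv.sigmaFiberEquiv f).symm.trans
    ((Equiv.sigmaCongrRight fun a => (h a).some).trans (Equiv.sigmaEquivProd A Z)))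

/-- Shintani descent preserves numbers of fixed points on coset spaces (abstract form). Let `σ` be an automorphism of a group `X` and `e ≥ 1`; write `G` for the fixed points of `σᵉ` and `H` for the fixed points of `σ`, and assume `G` is finite. Let `Y` be a `σ`-stable subgroup of `X` on which the maps `a ↦ a σ(a)⁻¹` and `a ↦ a σᵉ(a)⁻¹` are surjective (as for a closed connected `σ`-stable subgroup of an algebraic group). Let `g ∈ G`, let `a ∈ X` satisfy `g = a σ(a)⁻¹` and put `x = σᵉ(a)⁻¹ a` (the Shintani image, an element of `H`). The element `g σ` of the semidirect product acts on the cosets of `Y ∩ G` in `G` by `k (Y ∩ G) ↦ g σ(k) (Y ∩ G)`, fixing that coset exactly when `k⁻¹ g σ(k) ∈ Y`; and `x` fixes the coset `h (Y ∩ H)` of `H` exactly when `h⁻¹ x h ∈ Y`. Then the two numbers of fixed cosets agree; in cross-multiplied form, `#{k ∈ G : k⁻¹ g σ(k) ∈ Y} · |Y ∩ H| = #{h ∈ H : h⁻¹ x h ∈ Y} · |Y ∩ G|`. -/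
theorem result {X : Type*} [Group X] (σ : MulAut X) (e : ℕ) (he : 1 ≤ e)
    [Finite ↥((MulEquiv.toMonoidHom (σ ^ e)).eqLocus (MonoidHom.id X))]
    (Y : Subgroup X) (hY : ∀ y : X, y ∈ Y ↔ σ y ∈ Y)
    (hYL : ∀ y ∈ Y, ∃ a ∈ Y, y = a * (σ a)⁻¹) (hYLe : ∀ y ∈ Y, ∃ a ∈ Y, y = a * ((σ ^ e) a)⁻¹)
    (g : X) (hg : g ∈ (MulEquiv.toMonoidHom (σ ^ e)).eqLocus (MonoidHom.id X)) (a : X) (ha : g = a * (σ a)⁻¹) :
    Nat.card {k : ↥((MulEquiv.toMonoidHom (σ ^ e)).eqLocus (MonoidHom.id X)) // (k : X)⁻¹ * g * σ k ∈ Y} *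
        Nat.card ↥(Y ⊓ (MulEquiv.toMonoidHom σ).eqLocus (MonoidHom.id X)) =
      Nat.card {h : ↥((MulEquiv.toMonoidHom σ).eqLocus (MonoidHom.id X)) // (h : X)⁻¹ * (((σ ^ e) a)⁻¹ * a) * h ∈ Y} *
        Nat.card ↥(Y ⊓ (MulEquiv.toMonoidHom (σ ^ e)).eqLocus (MonoidHom.id X)) := by
  subst ha
  have hg' : (σ ^ e) (a * (σ a)⁻¹) = a * (σ a)⁻¹ := hg
  have hYe : ∀ n : ℕ, ∀ y ∈ Y, (σ ^ n) y ∈ Y := by
    intro n
    induction n with
    | zero => intro y hy; exact hy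
    | succ n ih => intro y hy; rw [pow_succ', MulAut.mul_apply]; exact (hY _).1 (ih y hy)
  let T := {p : X × X // (σ ^ e) p.1 = p.1 ∧ p.2 ∈ Y ∧ p.1⁻¹ * (a * (σ a)⁻¹) * σ p.1 = p.2 * (σ p.2)⁻¹}
  let T' := {p : X × X // σ p.1 = p.1 ∧ p.2 ∈ Y ∧
    p.1⁻¹ * (((σ ^ e) a)⁻¹ * a) * p.1 = ((σ ^ e) p.2)⁻¹ * p.2}
  have e1 : T ≃ T' :=
    { toFun := fun p => ⟨(a⁻¹ * p.1.1 * p.1.2, p.1.2), by
        obtain ⟨⟨k, y⟩, h1, h2, h3⟩ := p
        dsimp only at *
        have h4 : σ (a⁻¹ * k * y) = a⁻¹ * k * y := by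
          simp only [map_mul, map_inv]
          calc (σ a)⁻¹ * σ k * σ y = a⁻¹ * k * (k⁻¹ * (a * (σ a)⁻¹) * σ k) * σ y := by group
            _ = _ := by rw [h3]; group
        refine ⟨h4, h2, ?_⟩
        have h5 := S2668.pow_fix σ h4 e
        rw [map_mul, map_mul, map_inv, h1] at h5
        calc (a⁻¹ * k * y)⁻¹ * (((σ ^ e) a)⁻¹ * a) * (a⁻¹ * k * y) =
            (((σ ^ e) a)⁻¹ * k * (σ ^ e) y)⁻¹ * (((σ ^ e) a)⁻¹ * a) * (a⁻¹ * k * y) := by rw [h5]
          _ = _ := by group⟩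
      invFun := fun p => ⟨(a * p.1.1 * p.1.2⁻¹, p.1.2), by
        obtain ⟨⟨h, y⟩, h1, h2, h3⟩ := p
        dsimp only at *
        refine ⟨?_, h2, ?_⟩
        · rw [map_mul, map_mul, map_inv, S2668.pow_fix σ h1 e]
          calc (σ ^ e) a * h * ((σ ^ e) y)⁻¹ = (σ ^ e) a * h * (((σ ^ e) y)⁻¹ * y) * y⁻¹ := by group
            _ = _ := by rw [← h3]; group
        · rw [map_mul, map_mul, map_inv, h1]; group⟩
      left_inv := fun p => Subtype.ext (Prod.ext (by dsimp only; group) rfl)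
      right_inv := fun p => Subtype.ext (Prod.ext (by dsimp only; group) rfl) }
  rw [← card_fib (T := T) (fun p => ⟨⟨p.1.1, p.2.1⟩, by
      rw [p.2.2.2]; exact Y.mul_mem p.2.2.1 (Y.inv_mem ((hY _).1 p.2.2.1))⟩),
    ← card_fib (T := T') (fun p => ⟨⟨p.1.1, p.2.1⟩, by
      rw [p.2.2.2]; exact Y.mul_mem (Y.inv_mem (hYe e _ p.2.2.1)) p.2.2.1⟩), Nat.card_congr e1]
  · rintro ⟨⟨h, hh⟩, hh'⟩
    obtain ⟨c, hc, hc'⟩ := hYLe _ (Y.inv_mem hh')
    have h1 : h⁻¹ * (((σ ^ e) a)⁻¹ * a) * h = (σ ^ e) c * c⁻¹ := by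
      rw [← inv_inv (h⁻¹ * _ * h)]; rw [hc']; group
    exact ⟨{
      toFun := fun p => ⟨p.1.1.2 * c, Y.mul_mem p.1.2.2.1 hc, by
        obtain ⟨⟨⟨h', y⟩, h2, h3, h4⟩, h5⟩ := p
        have h6 : h' = h := congrArg (fun z => z.1.1) h5
        subst h6
        change (σ ^ e) (y * c) = y * c
        dsimp only at h4
        rw [h1] at h4
        rw [map_mul]
        calc (σ ^ e) y * (σ ^ e) c = (σ ^ e) y * ((σ ^ e) c * c⁻¹) * c := by group
          _ = _ := by rw [h4]; group⟩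
      invFun := fun z => ⟨⟨(h, z.1 * c⁻¹), hh, Y.mul_mem z.2.1 (Y.inv_mem hc), by
        have : (σ ^ e) z.1 = z.1 := z.2.2
        dsimp only
        rw [h1, map_mul, map_inv, this]; group⟩, rfl⟩
      left_inv := fun p => by
        obtain ⟨⟨⟨h', y⟩, h2, h3, h4⟩, h5⟩ := p
        have h6 : h' = h := congrArg (fun z => z.1.1) h5
        subst h6
        apply Subtype.ext; apply Subtype.ext
        simp
      right_inv := fun z => Subtype.ext (by simp) }⟩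
  · rintro ⟨⟨k, hk⟩, hk'⟩
    obtain ⟨c, hc, h1⟩ := hYL _ hk'
    dsimp only at h1
    exact ⟨{
      toFun := fun p => ⟨c⁻¹ * p.1.1.2, Y.mul_mem (Y.inv_mem hc) p.1.2.2.1, by
        obtain ⟨⟨⟨h', y⟩, h2, h3, h4⟩, h5⟩ := p
        have h6 : h' = k := congrArg (fun z => z.1.1) h5
        subst h6
        change σ (c⁻¹ * y) = c⁻¹ * y
        dsimp only at h4
        rw [h1] at h4
        rw [map_mul, map_inv]
        calc (σ c)⁻¹ * σ y = c⁻¹ * (c * (σ c)⁻¹) * σ y := by group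
          _ = _ := by rw [h4]; group⟩
      invFun := fun z => ⟨⟨(k, c * z.1), hk, Y.mul_mem hc z.2.1, by
        have : σ z.1 = z.1 := z.2.2
        dsimp only
        rw [h1, map_mul, this]; group⟩, rfl⟩
      left_inv := fun p => by
        obtain ⟨⟨⟨h', y⟩, h2, h3, h4⟩, h5⟩ := p
        have h6 : h' = k := congrArg (fun z => z.1.1) h5
        subst h6
        apply Subtype.ext; apply Subtype.ext
        simp
      right_inv := fun z => Subtype.ext (by simp) }⟩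

end Cfsg.Agent.S2669
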