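import Mathlib
import Cfsg.Statements.S2671
import Cfsg.Agent.Conj.SsU
-- import your own Cfsg.Agent.* helpers here

set_option autoImplicit false
open Cfsg

namespace Cfsg.Agent.S2671

/-- Number of conjugacy classes of elements of odd prime order r in the general unitary group GU_n(q), for r not dividing q(q + 1): let i be the multiplicative order of q modulo r, b = i if i is odd and b = i/2 if i is even, and s = (r − 1)/b. If i ≢ 2 (mod 4) the eigenvalue orbits pair off into dual pairs of totally isotropic blocks and there are C(⌊n/(2b)⌋ + s/2, s/2) − 1 classes; if i ≡ 2 (mod 4) each orbit gives a non-degenerate block of dimension i/2 and there are C(⌊2n/i⌋ + s, s) − 1 classes. -/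
theorem result {K : Type*} [Field K] [Fintype K] {p q n r i b s : ℕ} [Fact p.Prime] [CharP K p] (hK : Fintype.card K = q ^ 2) (hr : r.Prime) (hr2 : r ≠ 2) (hrp : r ≠ p) (hi : i = orderOf (q : ZMod r)) (hi2 : i ≠ 2) (hb : b = if Odd i then i else i / 2) (hs : s * b = r - 1) : Nat.card {C : ConjClasses ↥(Cfsg.GU n K q) // ∃ g : ↥(Cfsg.GU n K q), ConjClasses.mk g = C ∧ orderOf g = r} = if i % 4 = 2 then Nat.choose (2 * n / i + s) s - 1 else Nat.choose (n / (2 * b) + s / 2) (s / 2) - 1 := by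
  have := Fact.mk hr
  have h0 : (r : K) ≠ 0 := Conj.natCast_ne_zero_of_ne hr hrp
  obtain ⟨ζ, hζ⟩ := Conj.exists_prim_root h0
  have hq : (q : ZMod r) ≠ 0 := fun h => Conj.card_ne_zero_zmod h0 (by rw [hK]; simp [h])
  have hi0 : i ≠ 0 := by
    rw [hi, ← Units.val_mk0 hq, orderOf_units]
    exact (orderOf_pos _).ne'
  have key : ∀ M : Multiset (AlgebraicClosure K), (∀ z ∈ M, z ^ r = 1 ^ r) →
      (M.map (fun z => (z ^ q)⁻¹) = M ↔
        ∀ a, Conj.cnt ζ 1 M (-(q : ZMod r) * a) = Conj.cnt ζ 1 M a) := fun M hM =>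
    Conj.map_eq_iff_cnt hζ one_ne_zero hM (Conj.pow_inv_injective _ hK)
      (mul_left_surjective₀ (neg_ne_zero.2 hq)) fun a => by
        rw [one_mul, one_mul, neg_mul, Conj.ez_neg hζ, Conj.ez_mul hζ]
  have ho : orderOf (-(q : ZMod r)) = if i % 4 = 2 then b else 2 * b := by
    by_cases h : Odd i
    · rw [Conj.orderOf_neg_of_odd hr2 (hi ▸ h), hb, if_pos h, if_neg (by obtain ⟨k, hk⟩ := h; omega),
        hi]
    · obtain ⟨c, hc⟩ := (Nat.not_odd_iff_even.1 h).two_dvd
      rw [Conj.orderOf_neg_of_even (hi ▸ hc) (by omega), hb, if_neg h,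
        show i / 2 = c by omega]
      exact if_congr (by rw [Nat.odd_iff]; omega) rfl rfl
  have ht : (if i % 4 = 2 then s else s / 2) * orderOf (-(q : ZMod r)) = r - 1 := by
    rw [ho]
    split_ifs with h
    · exact hs
    · have h1 : 2 * b ∣ s * b := by
        rw [if_neg h] at ho
        rw [hs, ← ho]
        exact ZMod.orderOf_dvd_card_sub_one (neg_ne_zero.2 hq)
      have hb0 : 0 < b := by
        have := hr.two_le
        rcases b with _ | b <;> omega
      rw [← mul_assoc, Nat.div_mul_cancel (Nat.dvd_of_mul_dvd_mul_right hb0 h1), hs]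
  rw [Conj.card_classes_mu hζ h0 (Conj.guRep n K q) (fun g h _ _ => Conj.gu_isConj_iff hK g h)
    (fun μ => (∀ a, μ (-(q : ZMod r) * a) = μ a) ∧ ∑ a, μ a = n),
    Conj.card_inv (neg_ne_zero.2 hq) ht, ho]
  · split_ifs with h
    · rw [hb, if_neg (by rw [Nat.odd_iff]; omega), ← Nat.mul_div_mul_left n _ two_pos,
        show 2 * (i / 2) = i by omega]
    · rfl
  intro μ
  constructor
  · rintro ⟨h1, h2⟩
    obtain ⟨A, hA, hA'⟩ := Conj.exists_mu hζ h0 μ (fun a => by
      rw [← Conj.inv_mul_pow h1 2 a, hK]; simp) (ι := Fin n) (by simpa using h2)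
    have h3 : Matrix.toLin' A ^ r = 1 := by rw [← Conj.toLin'_pow', hA, Matrix.toLin'_one]; rfl
    obtain ⟨g, hg⟩ := (Conj.exists_gu_iff _ hK h0 hA).2 ((key _ (Conj.pow_ev h3)).2
      (by rw [← hA'] at h1; exact h1))
    refine ⟨g, Subtype.ext (Units.ext (Matrix.toLin'.injective ?_)), by rw [← hg.mu, hA']⟩
    have := (hg.pow r).one_iff.1 h3
    rw [← map_pow] at this
    exact this.trans Matrix.toLin'_one.symm
  · rintro ⟨g, hg, rfl⟩
    have h3 : Conj.guRep n K q g ^ r = 1 := by rw [← map_pow, hg, map_one]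
    exact ⟨(key _ (Conj.pow_ev h3)).1 ((Conj.exists_gu_iff _ hK h0
      (congrArg (fun x => x.1.1) hg)).1 ⟨g, Conj.Sim.refl _⟩), by
      rw [Conj.sum_mu hζ h3, Module.finrank_fin_fun]⟩

end Cfsg.Agent.S2671
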