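import Mathlib
import Cfsg.Statements.S2672
import Cfsg.Agent.Conj.Proj
import Cfsg.Agent.Conj.SsU
import Cfsg.Agent.Herm.SU
-- import your own Cfsg.Agent.* helpers here

set_option autoImplicit false
open Cfsg

namespace Cfsg.Agent.S2672

open Conj Polynomial in
theorem main {K : Type*} [Field K] [Fintype K] {q n r : ℕ} (hK : Fintype.card K = q ^ 2)
    (hr : r.Prime) (hrq : r ∣ q + 1) (hq : ((q + 1 : ℕ) : K) ≠ 0) (c : Kˣ)
    (hc : (c : K) ^ (q + 1) = 1) (M : Multiset (AlgebraicClosure K)) (h1 : M.card = n)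
    (h2 : ∀ z ∈ M, z ^ r = algebraMap K _ c) :
    (∃ g, guRep n K q g ^ r = algebraMap K _ (c : K) ∧ ev _ (guRep n K q g) = M) ↔
      M.map (algebraMap K _ (c ^ ((q + 1) / r)) * ·) = M := by
  set η := algebraMap K (AlgebraicClosure K) (c ^ ((q + 1) / r)) with hη
  have hη0 : η ≠ 0 := (_root_.map_ne_zero _).2 (pow_ne_zero _ c.ne_zero)
  have h3 : M.map (fun z => (z ^ q)⁻¹) = M.map (η⁻¹ * ·) := Multiset.map_congr rfl fun z hz => by
    have h0 : z ≠ 0 := by
      rintro rfl
      exact (_root_.map_ne_zero _).2 c.ne_zero ((h2 0 hz).symm.trans (zero_pow hr.ne_zero))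
    rw [hη, map_pow, ← h2 z hz, ← pow_mul, Nat.mul_div_cancel' hrq]
    field_simp
    ring
  have h4 : M.map (η * ·) = M ↔ M.map (fun z => (z ^ q)⁻¹) = M := by
    rw [h3]
    constructor <;> intro h <;> conv_lhs => rw [← h, Multiset.map_map]
    · simp [hη0]
    · simp [hη0]
  have hrK : (r : K) ≠ 0 := fun h => hq (by obtain ⟨k, hk⟩ := hrq; simp [hk, h])
  have hN : ((r * (q + 1) : ℕ) : K) ≠ 0 := by rw [Nat.cast_mul]; exact mul_ne_zero hrK hq
  have h5 : ∀ A : Matrix (Fin n) (Fin n) K, A ^ r = algebraMap K _ c → A ^ (r * (q + 1)) = 1 :=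
    fun A hA => by rw [pow_mul, hA, ← map_pow, hc, map_one]
  rw [h4]
  constructor
  · rintro ⟨g, hg, rfl⟩
    refine (exists_gu_iff _ hK hN (h5 _ (Matrix.toLinAlgEquiv'.injective ?_))).1 ⟨g, Sim.refl _⟩
    rw [map_pow, AlgEquiv.commutes]; exact hg
  · intro h
    obtain ⟨A, hA, hA'⟩ := exists_of_multiset _ M (s := X ^ r - C (c : K)) (ι := Fin n) (by
        conv_rhs => rw [← h, ← h, Multiset.map_map]
        simp [hK, pow_two, pow_mul])
      (fun z hz => by simp [h2 z hz]) (by simpa using h1)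
    simp only [map_sub, map_pow, aeval_X, aeval_C, sub_eq_zero] at hA
    obtain ⟨g, hg⟩ := (exists_gu_iff _ hK hN (h5 _ hA)).2 (hA' ▸ h)
    refine ⟨g, ?_, by rw [← hg.ev (AlgebraicClosure K), hA']⟩
    have := (hg.aeval (X ^ r - C (c : K))).zero_iff.1 (by
      rw [← toLin'_aeval]; simp [hA])
    simpa [sub_eq_zero] using this

/-- Number of conjugacy classes of elements of odd prime order r in PGU_n(q) = GU_n(q)/scalars (n ≥ 3) when r divides q + 1: as in the linear case with q − 1 replaced by q + 1, the classes correspond to the rotation orbits on r-tuples of eigenvalue multiplicities summing to n with every entry < n, plus r − 1 further classes when r divides n; in all (C(n+r−1, r−1) − r − [r ∣ n])/r + r·[r ∣ n]. -/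
theorem result {K : Type*} [Field K] [Fintype K] {q n r : ℕ} (hK : Fintype.card K = q ^ 2) (hn : 3 ≤ n) (hr : r.Prime) (hr2 : r ≠ 2) (hrq : r ∣ q + 1) : Nat.card {C : ConjClasses (↥(Cfsg.GU n K q) ⧸ Subgroup.center ↥(Cfsg.GU n K q)) // ∃ g : ↥(Cfsg.GU n K q) ⧸ Subgroup.center ↥(Cfsg.GU n K q), ConjClasses.mk g = C ∧ orderOf g = r} = (Nat.choose (n + r - 1) (r - 1) - r - (if r ∣ n then 1 else 0)) / r + r * (if r ∣ n then 1 else 0) := by
  have := Fact.mk hr
  have hF := Herm.natCard_of_card hK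
  have hq : ((q + 1 : ℕ) : K) ≠ 0 := by
    have : (q : K) = 0 := pow_eq_zero_iff two_ne_zero |>.1 (by
      rw [← Nat.cast_pow, ← hK, FiniteField.cast_card_eq_zero])
    simp [this]
  refine Conj.card_classes_proj n (AlgebraicClosure K) (Conj.guRep n K q)
    (fun a b h => Subtype.ext (Units.ext (Matrix.toLin'.injective h))) (Conj.gu_isConj_iff hK)
    (Herm.normOne (Herm.frob hF)) ((Herm.inv_frob hF).card_normOne hF) hq hrq
    (Module.finrank_fin_fun K) (by omega) (fun g => ?_) (fun z hz => ?_) fun c hc =>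
      main hK hr hrq hq c (by rw [pow_succ]; exact hc)
  · rw [← Classical.SpMat.mem_center_congr (Herm.toUG hF n),
      (Herm.hf_sB hF n).center_UG (by simp; omega)]
    constructor
    · rintro ⟨a, ha⟩
      exact ⟨a, a.2, LinearMap.ext fun v =>
        (Herm.toUG_apply hF g v).symm.trans (congrArg (fun x => x.1 v) ha.symm)⟩
    · rintro ⟨a, ha, h⟩
      exact ⟨⟨a, ha⟩, Herm.UG.ext fun v =>
        ((Herm.toUG_apply hF g v).trans (LinearMap.congr_fun h v)).symm⟩
  · exact ⟨(Herm.toUG hF n).symm (Herm.scal _ ⟨z, hz⟩), LinearMap.ext fun v =>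
      Herm.toUG_symm_mulVec hF _ v⟩

end Cfsg.Agent.S2672
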