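import Mathlib
import Cfsg.Statements.S2673
import Cfsg.Agent.Conj.SsCnt
-- import your own Cfsg.Agent.* helpers here

set_option autoImplicit false
open Cfsg

namespace Cfsg.Agent.S2673

/-- Number of conjugacy classes of elements of odd prime order r ≠ p in the orthogonal group O_(2m+1)(q) of x_0² + Σ x_j y_j, q odd: with i the multiplicative order of q mod r and t = (r − 1)/i, there are C(⌊m/i⌋ + t/2, t/2) − 1 classes if i is odd (dual pairs of totally singular i-blocks) and C(⌊(2m+1)/i⌋ + t, t) − 1 if i is even (elliptic i-blocks). -/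
theorem result {F : Type*} [Field F] [Fintype F] {p q : ℕ} [Fact p.Prime] [CharP F p] (hF : Fintype.card F = q) (hq : Odd q) (m r i t : ℕ) (hr : r.Prime) (hr2 : r ≠ 2) (hrp : r ≠ p) (hi : i = orderOf (q : ZMod r)) (ht : t * i = r - 1) : Nat.card {C : ConjClasses ↥(Cfsg.isometryGroup F (Cfsg.quadFormOdd m F)) // ∃ g : ↥(Cfsg.isometryGroup F (Cfsg.quadFormOdd m F)), ConjClasses.mk g = C ∧ orderOf g = r} = if Odd i then Nat.choose (m / i + t / 2) (t / 2) - 1 else Nat.choose ((2 * m + 1) / i + t) t - 1 := by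
  have := Fact.mk hr
  have h0 : (r : F) ≠ 0 := Conj.natCast_ne_zero_of_ne hr hrp
  obtain ⟨ζ, hζ⟩ := Conj.exists_prim_root h0
  subst hi hF
  have h2' := Orth.two_ne_zero_of_odd hq
  have hQ := Orth.nd_oddQ m h2'
  have hm : Module.finrank F (Unit ⊕ (Fin m ⊕ Fin m) → F) = 2 * m + 1 := by simp; ring
  obtain ⟨v, hv, h1, h2, h3⟩ := Conj.card_pair hr2 (Conj.card_ne_zero_zmod h0) ht
  refine (Orth.card_classes_equiv (Orth.toOG (Orth.oddQ m F)) _ (fun g => orderOf g = r)
      fun g => by rw [MulEquiv.orderOf_eq]; rfl).trans ?_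
  rw [Conj.card_classes_mu hζ h0 _ (fun g h hg _ => Conj.og_isConj_iff' h0 hr2 hQ g h hg) _
      (Conj.exists_og_iff_odd hζ h0 hr2 h2' hQ hm)]
  simp only [h3]
  rw [Conj.card_inv hv h2, h1, hm]
  split_ifs
  · rw [← Nat.div_div_eq_div_mul, show (2 * m + 1) / 2 = m by omega]
  · rfl

end Cfsg.Agent.S2673
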