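import Mathlib
import Cfsg.Statements.S2674
import Cfsg.Agent.Conj.SsCnt
-- import your own Cfsg.Agent.* helpers here

set_option autoImplicit false
open Cfsg

namespace Cfsg.Agent.S2674

/-- Number of conjugacy classes of elements of odd prime order r ≠ p in the orthogonal group O⁺_2m(q) of Σ x_j y_j (m ≥ 1): with i the multiplicative order of q mod r and t = (r − 1)/i — if i is odd, C(⌊m/i⌋ + t/2, t/2) − 1; if i is even, C(⌊2m/i⌋ + t, t) − 1 minus, when i divides 2m with odd quotient, the C(2m/i + t − 1, t − 1) tuples using the whole space (an odd number of elliptic i-blocks fills an elliptic, not a hyperbolic, space). -/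
theorem result {F : Type*} [Field F] [Fintype F] {p q : ℕ} [Fact p.Prime] [CharP F p] (hF : Fintype.card F = q) (m r i t : ℕ) (hm : 1 ≤ m) (hr : r.Prime) (hr2 : r ≠ 2) (hrp : r ≠ p) (hi : i = orderOf (q : ZMod r)) (ht : t * i = r - 1) : Nat.card {C : ConjClasses ↥(Cfsg.isometryGroup F (Cfsg.quadFormPlus m F)) // ∃ g : ↥(Cfsg.isometryGroup F (Cfsg.quadFormPlus m F)), ConjClasses.mk g = C ∧ orderOf g = r} = if Odd i then Nat.choose (m / i + t / 2) (t / 2) - 1 else Nat.choose (2 * m / i + t) t - 1 - (if i ∣ 2 * m ∧ Odd (2 * m / i) then Nat.choose (2 * m / i + t - 1) (t - 1) else 0) := by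
  have := Fact.mk hr
  have h0 : (r : F) ≠ 0 := Conj.natCast_ne_zero_of_ne hr hrp
  subst hF
  refine (Orth.card_classes_equiv (Orth.toOG (Orth.plusQ m F)) _ (fun g => orderOf g = r)
      fun g => by rw [MulEquiv.orderOf_eq]; rfl).trans ?_
  rw [Conj.card_classes_og_even h0 hr2 (Orth.nd_plusQ m) (Orth.finrank_plus m) hi ht]
  simp only [Orth.isPlus_plusQ, true_iff, not_and_self_iff, if_false, Nat.sub_zero]
  by_cases h : Odd i
  · simp only [h, if_true]
  · simp only [h, if_false]
    congr 1
    refine if_congr ?_ rfl rfl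
    obtain ⟨b, rfl⟩ := (Nat.not_odd_iff_even.1 h).two_dvd
    have hb : 0 < b := by
      have := hr.two_le
      rcases b with _ | b <;> omega
    rw [and_comm, and_congr_right_iff, Nat.mul_dvd_mul_iff_left two_pos,
      Nat.mul_div_mul_left _ _ two_pos]
    rintro ⟨c, rfl⟩
    rw [Nat.mul_div_cancel_left _ hb, mul_comm 2 b, Nat.mul_dvd_mul_iff_left hb,
      ← even_iff_two_dvd, Nat.not_even_iff_odd]

end Cfsg.Agent.S2674
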