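import Mathlib
import Cfsg.Statements.S2675
import Cfsg.Agent.Conj.SsCnt
-- import your own Cfsg.Agent.* helpers here

set_option autoImplicit false
open Cfsg

namespace Cfsg.Agent.S2675

/-- Number of conjugacy classes of elements of odd prime order r ≠ p in the orthogonal group O⁻_2m(q) of an elliptic form Σ_(j<m−1) x_j y_j + z₁² + a z₁z₂ + c z₂² (binary part anisotropic, m ≥ 1): with i the multiplicative order of q mod r and t = (r − 1)/i — if i is odd, C(⌊m/i⌋ + t/2, t/2) − 1 minus, when i divides m, the C(m/i + t/2 − 1, t/2 − 1) tuples filling the whole space (dual pairs of totally singular blocks fill a hyperbolic space); if i is even, C(⌊2m/i⌋ + t, t) − 1 minus, when i divides 2m with even quotient, the C(2m/i + t − 1, t − 1) tuples filling the whole space with an even number of elliptic blocks. -/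
theorem result {F : Type*} [Field F] [Fintype F] {p q : ℕ} [Fact p.Prime] [CharP F p] (hF : Fintype.card F = q) (m r i t : ℕ) (hm : 1 ≤ m) (a c : F) (hac : ∀ z₁ z₂ : F, z₁ ^ 2 + a * z₁ * z₂ + c * z₂ ^ 2 = 0 → z₁ = 0 ∧ z₂ = 0) (hr : r.Prime) (hr2 : r ≠ 2) (hrp : r ≠ p) (hi : i = orderOf (q : ZMod r)) (ht : t * i = r - 1) : Nat.card {C : ConjClasses ↥(Cfsg.isometryGroup F (Cfsg.quadFormMinus (m - 1) F a c)) // ∃ g : ↥(Cfsg.isometryGroup F (Cfsg.quadFormMinus (m - 1) F a c)), ConjClasses.mk g = C ∧ orderOf g = r} = if Odd i then Nat.choose (m / i + t / 2) (t / 2) - 1 - (if i ∣ m then Nat.choose (m / i + t / 2 - 1) (t / 2 - 1) else 0) else Nat.choose (2 * m / i + t) t - 1 - (if i ∣ 2 * m ∧ Even (2 * m / i) then Nat.choose (2 * m / i + t - 1) (t - 1) else 0) := by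
  have := Fact.mk hr
  have h0 : (r : F) ≠ 0 := Conj.natCast_ne_zero_of_ne hr hrp
  subst hF
  refine (Orth.card_classes_equiv (Orth.toOG (Orth.minusQ (m - 1) F a c)) _ (fun g => orderOf g = r)
      fun g => by rw [MulEquiv.orderOf_eq]; rfl).trans ?_
  rw [Conj.card_classes_og_even h0 hr2 (Orth.nd_minusQ _ (Orth.aniso_disc_ne_zero hac)) (m := m)
      (by simp; omega) hi ht]
  simp only [Orth.not_isPlus_minusQ _ hac, false_iff, not_not, and_self]
  by_cases h : Odd i
  · simp only [h, if_true]
  · simp only [h, if_false]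
    congr 1
    refine if_congr ?_ rfl rfl
    obtain ⟨b, rfl⟩ := (Nat.not_odd_iff_even.1 h).two_dvd
    have hb : 0 < b := by
      have := hr.two_le
      rcases b with _ | b <;> omega
    rw [and_comm, and_congr_right_iff, Nat.mul_dvd_mul_iff_left two_pos,
      Nat.mul_div_mul_left _ _ two_pos]
    rintro ⟨c, rfl⟩
    rw [Nat.mul_div_cancel_left _ hb, mul_comm 2 b, Nat.mul_dvd_mul_iff_left hb,
      ← even_iff_two_dvd]

end Cfsg.Agent.S2675
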