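import Mathlib
import Cfsg.Statements.S2677
import Cfsg.Agent.Conj.UniEx
import Cfsg.Agent.Classical.Lang
import Cfsg.Agent.Herm.Conj
-- import your own Cfsg.Agent.* helpers here

set_option autoImplicit false
open Cfsg

namespace Cfsg.Agent.S2677

open Matrix in
theorem main {K : Type*} [Field K] [Finite K] {q₀ q n : ℕ} (hn : 1 ≤ n) (hK : Nat.card K = q ^ 2)
    (σ : K →+* K) (h₀ : Nat.card (Herm.fixF σ) = q₀ ^ 2)
    (hc : ∀ x : Herm.fixF σ, Herm.frob hK x = Herm.frob h₀ x) :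
    Nat.card {g : ↥(Cfsg.GU n K q) // ∃ c : K, c ≠ 0 ∧
      ((g : GL (Fin n) K) : Matrix (Fin n) (Fin n) K).map σ =
        c • ((g : GL (Fin n) K) : Matrix (Fin n) (Fin n) K)} * (q₀ + 1) =
      (q + 1) * Herm.ordU q₀ n := by
  have : Nonempty (Fin n) := ⟨⟨0, hn⟩⟩
  have hct : ∀ k : Matrix (Fin n) (Fin n) (Herm.fixF σ), Herm.ct (Herm.frob hK)
      (k.map (Herm.fixF σ).subtype) = (Herm.ct (Herm.frob h₀) k).map (Herm.fixF σ).subtype :=
    fun k => by ext i j; simp [Herm.ct_apply, hc]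
  have hinj : Function.Injective fun k : Matrix (Fin n) (Fin n) (Herm.fixF σ) =>
      k.map (Herm.fixF σ).subtype := Matrix.map_injective Subtype.val_injective
  let ψ₀ : Kˣ × GL (Fin n) (Herm.fixF σ) →* GL (Fin n) K :=
    (GeneralLinearGroup.scalar (Fin n)).noncommCoprod
      (GeneralLinearGroup.map (Herm.fixF σ).subtype) fun a k =>
        Units.ext (Matrix.scalar_commute _ (fun _ => Commute.all _ _) _).eq
  have hψ₀ : ∀ a k, (ψ₀ (a, k)).1 = (a : K) • k.1.map (Herm.fixF σ).subtype := fun a k => by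
    change Matrix.scalar _ _ * _ = _
    rw [Matrix.scalar_apply, ← Matrix.smul_eq_diagonal_mul]; rfl
  let ψ : Herm.normOne (Herm.frob hK) × Cfsg.GU n (Herm.fixF σ) q₀ →* Cfsg.GU n K q :=
    (ψ₀.comp ((Subgroup.subtype _).prodMap (Subgroup.subtype _))).codRestrict _ fun x => by
      rw [Herm.mem_GU_iff hK]
      change Herm.ct _ (ψ₀ (x.1.1, x.2.1)).1 * (ψ₀ (x.1.1, x.2.1)).1 = 1
      rw [hψ₀, Herm.ct_smul, smul_mul_smul_comm, Herm.mem_normOne.1 x.1.2, one_smul, hct,
        ← Matrix.map_mul, (Herm.mem_GU_iff h₀ _).1 x.2.2, Matrix.map_one _ (map_zero _) (map_one _)]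
  have hψ : ∀ x, (ψ x).1.1 = (x.1.1 : K) • x.2.1.1.map (Herm.fixF σ).subtype := fun x => hψ₀ _ _
  have h1 : Nat.card {g : ↥(Cfsg.GU n K q) // ∃ c : K, c ≠ 0 ∧
      ((g : GL (Fin n) K) : Matrix (Fin n) (Fin n) K).map σ =
        c • ((g : GL (Fin n) K) : Matrix (Fin n) (Fin n) K)} = Nat.card ψ.range := by
    refine Nat.card_congr (Equiv.subtypeEquivRight fun g => ⟨?_, ?_⟩)
    · rintro ⟨c, hc0, hg⟩
      obtain ⟨k, a, hk⟩ := Classical.Lang.exists_map_of_proj_fixed (φ := σ) (g := g.1)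
        (c := Units.mk0 c hc0) (Units.ext (by
          change _ = _ * Matrix.scalar _ c
          rw [Matrix.scalar_apply, ← Matrix.smul_eq_mul_diagonal]; exact hg))
      have h2 : g.1.1 = (a : K) • k.1.map (Herm.fixF σ).subtype := by
        rw [hk]
        change _ * Matrix.scalar _ _ = _
        rw [Matrix.scalar_apply, ← Matrix.smul_eq_mul_diagonal]; rfl
      have h3 := (Herm.mem_GU_iff hK _).1 g.2
      rw [h2, Herm.ct_smul, smul_mul_smul_comm, hct, ← Matrix.map_mul] at h3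
      set μ := (Herm.ct (Herm.frob h₀) k.1 * k.1) ⟨0, hn⟩ ⟨0, hn⟩
      have h4 : Herm.frob hK a * a * μ = 1 := by simpa using congrFun (congrFun h3 ⟨0, hn⟩) ⟨0, hn⟩
      obtain ⟨b, hb⟩ := (Herm.inv_frob h₀).exists_norm (μ := μ) (Subtype.ext (by
        rw [← hc, eq_inv_of_mul_eq_one_right h4, map_inv₀, map_mul, (Herm.inv_frob hK).invol,
          mul_comm]))
      have hb0 : b ≠ 0 := by
        rintro rfl
        rw [← hb] at h4; simp at h4
      have h5 : Herm.frob hK a * a * (Herm.frob hK b * b) = 1 := by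
        rw [← h4, ← hb, hc]; rfl
      refine ⟨(⟨a * Units.mk0 (b : K) (by simpa using hb0), ?_⟩,
        Herm.mkGU h₀ (b⁻¹ • k.1) (hinj ?_)), Subtype.ext (Units.ext ?_)⟩
      · rw [Herm.mem_normOne]
        simp only [Units.val_mul, Units.val_mk0, map_mul]
        linear_combination h5
      · beta_reduce
        rw [Matrix.map_one _ (map_zero _) (map_one _), ← h3, Herm.ct_smul, smul_mul_smul_comm,
          eq_inv_of_mul_eq_one_left h5]
        ext i j
        simp [hc, mul_comm]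
      · rw [hψ, h2]
        ext i j
        have : (b : K) ≠ 0 := by simpa using hb0
        change (a : K) * b * ((b⁻¹ * k.1 i j : Herm.fixF σ) : K) = a * k.1 i j
        push_cast
        field_simp
    · rintro ⟨x, rfl⟩
      refine ⟨σ x.1.1 / x.1.1, div_ne_zero ((_root_.map_ne_zero _).2 x.1.1.ne_zero) x.1.1.ne_zero, ?_⟩
      rw [hψ, smul_smul, div_mul_cancel₀ _ x.1.1.ne_zero]
      ext i j
      simp [Herm.mem_fixF.1 (x.2.1.1 i j).2]
  have h2 : Nat.card ψ.ker = q₀ + 1 := by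
    rw [← (Herm.inv_frob h₀).card_normOne h₀]
    symm
    refine Nat.card_eq_of_bijective (fun b => ⟨(⟨Units.map (Herm.fixF σ).subtype.toMonoidHom b.1, by
        rw [Herm.mem_normOne]
        exact (congrArg (· * _) (hc _)).trans (congrArg Subtype.val (Herm.mem_normOne.1 b.2))⟩,
      Herm.mkGU h₀ (((b⁻¹).1 : Herm.fixF σ) • (1 : Matrix _ _ _)) (by
        rw [Herm.ct_smul, smul_mul_smul_comm, Herm.mem_normOne.1 b⁻¹.2]; simp)),
      Subtype.ext (Units.ext ?_)⟩) ⟨fun a b h => ?_, ?_⟩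
    · rw [hψ]
      ext i j
      change (b.1.1 : K) * ((((b.1⁻¹ : (Herm.fixF σ)ˣ) : Herm.fixF σ) * (1 : Matrix _ _ _) i j :
        Herm.fixF σ) : K) = (1 : Matrix _ _ K) i j
      rw [← Subfield.coe_mul, Units.mul_inv_cancel_left]
      by_cases h : i = j <;> simp [h, Matrix.one_apply]
    · exact Subtype.ext (Units.ext (Subtype.ext (congrArg (fun x => x.1.1.1.1) h)))
    · rintro ⟨⟨a, k⟩, h⟩
      have h3 : (a.1 : K) • k.1.1.map (Herm.fixF σ).subtype = 1 :=
        (hψ _).symm.trans (congrArg (fun x => x.1.1) h)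
      have h4 : (a.1 : K) * k.1.1 ⟨0, hn⟩ ⟨0, hn⟩ = 1 := by
        simpa using congrFun (congrFun h3 ⟨0, hn⟩) ⟨0, hn⟩
      have h5 : k.1.1 ⟨0, hn⟩ ⟨0, hn⟩ ≠ 0 := fun h => by simp [h] at h4
      have h6 : (a.1 : K) = ((k.1.1 ⟨0, hn⟩ ⟨0, hn⟩)⁻¹ : Herm.fixF σ) := by
        rw [eq_inv_of_mul_eq_one_left h4]; simp
      refine ⟨⟨(Units.mk0 _ h5)⁻¹, Subtype.ext ?_⟩, Subtype.ext (Prod.ext
        (Subtype.ext (Units.ext h6.symm)) (Subtype.ext (Units.ext (hinj ?_))))⟩
      · have := Herm.mem_normOne.1 a.2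
        rw [h6, hc] at this
        exact this
      · have := congrArg (((k.1.1 ⟨0, hn⟩ ⟨0, hn⟩ : Herm.fixF σ) : K) • ·) h3
        simp only [smul_smul, mul_comm _ (a.1 : K), h4, one_smul] at this
        beta_reduce
        rw [this]
        ext i j
        change ((k.1.1 ⟨0, hn⟩ ⟨0, hn⟩ * (1 : Matrix _ _ _) i j : Herm.fixF σ) : K) = _
        by_cases h : i = j <;> simp [h, Matrix.one_apply]
  rw [h1, ← h2, ← Subgroup.index_ker, Subgroup.index_mul_card, Nat.card_prod,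
    (Herm.inv_frob hK).card_normOne hK, Nat.card_congr (Herm.toUG h₀ n).toEquiv,
    (Herm.hf_sB h₀ n).card_UG' h₀, Module.finrank_fin_fun]

/-- Centraliser of a field automorphism of odd prime order in PGU_n(q): let q = q₀^r with r an odd prime, K the field with q² elements and σ a field automorphism of K of order r (fixed field of order q₀²). The elements g of GU_n(q) whose entrywise image under σ is a scalar multiple of g — those whose coset modulo the q + 1 unitary scalars is fixed by σ — number (q + 1)/(q₀ + 1) · |GU_n(q₀)|; equivalently the centraliser in PGU_n(q) of the induced automorphism has the order of PGU_n(q₀). -/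
theorem result {K : Type*} [Field K] [Fintype K] {q₀ q r n : ℕ} (hr : r.Prime) (hr2 : r ≠ 2) (hn : 1 ≤ n) (hq : q = q₀ ^ r) (hK : Fintype.card K = q ^ 2) (σ : K ≃+* K) (hσ : orderOf σ = r) : (Nat.card {g : ↥(Cfsg.GU n K q) // ∃ c : K, c ≠ 0 ∧ ((g : GL (Fin n) K) : Matrix (Fin n) (Fin n) K).map σ = c • ((g : GL (Fin n) K) : Matrix (Fin n) (Fin n) K)} : ℤ) = ((q + 1) / (q₀ + 1) : ℕ) * ((q₀ : ℤ) ^ (n * (n - 1) / 2) * ∏ i : Fin n, ((q₀ : ℤ) ^ ((i : ℕ) + 1) - (-1) ^ ((i : ℕ) + 1))) := by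
  have hK' := Herm.natCard_of_card hK
  have h₀ : Nat.card (Herm.fixF σ.toRingHom) = q₀ ^ 2 := by
    have := Classical.Lang.card_eq_pow_orderOf σ
    rw [hK', hσ, hq, ← pow_mul, mul_comm, pow_mul] at this
    exact (Nat.pow_left_injective hr.ne_zero this).symm
  obtain ⟨k, hk⟩ := hr.odd_of_ne_two hr2
  have h1 := main hn hK' σ.toRingHom h₀ fun x => by
    rw [Herm.frob_apply, Herm.frob_apply, hq, hk, pow_succ, pow_mul (x : K), pow_mul q₀, ← h₀]
    have : ∀ j, (x : K) ^ Nat.card (Herm.fixF σ.toRingHom) ^ j = x := by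
      intro j
      induction j with
      | zero => simp
      | succ j ih => rw [pow_succ, pow_mul, ih, ← SubmonoidClass.coe_pow, Herm.pow_card_eq]
    rw [this, SubmonoidClass.coe_pow]
  obtain ⟨c, hc⟩ : q₀ + 1 ∣ q + 1 := by
    simpa [hq] using Odd.nat_add_dvd_pow_add_pow q₀ 1 (hr.odd_of_ne_two hr2)
  rw [hc, mul_assoc, mul_comm] at h1
  rw [← Conj.ordU_int (by have := Herm.two_le_of_card h₀; omega), hc,
    Nat.mul_div_cancel_left _ (Nat.succ_pos _), ← Nat.cast_mul,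
    ← Nat.eq_of_mul_eq_mul_left (Nat.succ_pos _) h1]
  rfl

end Cfsg.Agent.S2677
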