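import Mathlib
import Cfsg.Statements.S2678
import Cfsg.Agent.Classical.SpMat
import Cfsg.Agent.Classical.Congr
-- import your own Cfsg.Agent.* helpers here

set_option autoImplicit false
open Cfsg

namespace Cfsg.Agent.S2678

/-- Field-extension embedding of symplectic groups: for a field K with q² elements and a field F with q elements there is an injective homomorphism Sp_2a(K) → Sp_4a(F). -/
theorem result {K F : Type*} [Field K] [Fintype K] [Field F] [Fintype F] {q : ℕ} (hK : Fintype.card K = q ^ 2) (hF : Fintype.card F = q) (a : ℕ) : ∃ φ : ↥(Matrix.symplecticGroup (Fin a) K) →* ↥(Matrix.symplecticGroup (Fin (2 * a)) F), Function.Injective φ := by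
  obtain ⟨φ⟩ := Classical.Congr.nonempty_ringHom (K := F) (F := K) (m := 2) (by simp [hK, hF])
  let _ := φ.toAlgebra
  have hd : Module.finrank F K = 2 := by
    have h1 := Module.card_eq_pow_finrank (K := F) (V := K)
    rw [hK, hF] at h1
    exact (Nat.pow_right_injective (hF ▸ Fintype.one_lt_card) h1).symm
  obtain ⟨τ, hτ⟩ : ∃ τ : K →ₗ[F] F, τ 1 ≠ 0 := Module.Projective.exists_dual_ne_zero F one_ne_zero
  let B := Classical.SpMat.sB (Fin a) K
  let B' : LinearMap.BilinForm F (Fin a ⊕ Fin a → K) :=
    LinearMap.mk₂ F (fun u v => τ (B u v)) (fun u u' v => by simp)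
      (fun c u v => by rw [← algebraMap_smul K c u, map_smul, LinearMap.smul_apply, algebraMap_smul, map_smul])
      (fun u v v' => by simp)
      (fun c u v => by rw [← algebraMap_smul K c v, map_smul, algebraMap_smul, map_smul])
  have hA : B'.IsAlt := fun u => by
    change τ (B u u) = 0
    rw [Classical.SpMat.sB_alt.self_eq_zero, map_zero]
  have hB : B'.Nondegenerate := by
    refine (hA.isRefl.nondegenerate_iff_separatingLeft).2 fun u hu => by_contra fun h0 => ?_
    obtain ⟨y, hy⟩ := Classical.SpWitt.exists_one Classical.SpMat.sB_nondeg Classical.SpMat.sB_alt.isRefl h0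
    exact hτ (hy ▸ hu y)
  obtain ⟨m, b, hm, hb⟩ := Classical.SpSimple.exists_basis_J hB hA
  have : m = 2 * a := by
    rw [← Module.finrank_mul_finrank F K, hd, Classical.SpMat.finrank_eq, Fintype.card_fin] at hm
    omega
  subst this
  let ψ : Classical.SpWitt.SG B →* Classical.SpWitt.SG B' :=
    { toFun := fun g => ⟨g.1.restrictScalars F, fun u v => congrArg τ (g.2 u v)⟩
      map_one' := rfl
      map_mul' := fun _ _ => rfl }
  have hψ : Function.Injective ψ := fun g h e => Classical.SpWitt.SG.ext fun x =>
    congrArg (fun k : Classical.SpWitt.SG B' => k.1 x) e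
  exact ⟨(Classical.SpMat.sgEquiv b hb).symm.toMonoidHom.comp
    (ψ.comp (Classical.SpMat.spEquiv (Fin a) K).toMonoidHom),
    fun _ _ h => (Classical.SpMat.spEquiv (Fin a) K).injective
      (hψ ((Classical.SpMat.sgEquiv b hb).symm.injective h))⟩

end Cfsg.Agent.S2678
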