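import Mathlib
import Cfsg.Statements.S2679
import Cfsg.Agent.Orth.Base
-- import your own Cfsg.Agent.* helpers here

set_option autoImplicit false
open Cfsg

namespace Cfsg.Agent.S2679

/-- An elliptic orthogonal group embeds in the hyperbolic orthogonal group of the same dimension over the quadratic extension: for a field F with q elements and a field K with q² elements there is an injective homomorphism from O⁻_2m(F) (isometries of Σ_(j<m−1) x_j y_j + z₁² + a z₁z₂ + c z₂², binary part anisotropic) to O⁺_2m(K) (isometries of Σ_(j<m) x_j y_j over K). -/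
theorem result {F K : Type*} [Field F] [Fintype F] [Field K] [Fintype K] {q : ℕ} (hF : Fintype.card F = q) (hK : Fintype.card K = q ^ 2) {m : ℕ} (hm : 1 ≤ m) (a c : F) (hac : ∀ z₁ z₂ : F, z₁ ^ 2 + a * z₁ * z₂ + c * z₂ ^ 2 = 0 → z₁ = 0 ∧ z₂ = 0) : ∃ φ : ↥(Cfsg.isometryGroup F (Cfsg.quadFormMinus (m - 1) F a c)) →* ↥(Cfsg.isometryGroup K (Cfsg.quadFormPlus m K)), Function.Injective φ := by
  obtain ⟨k, rfl⟩ : ∃ k, m = k + 1 := ⟨m - 1, by omega⟩
  obtain ⟨φ, r, h⟩ := Orth.Aniso.exists_hom_root (K := K) hac (by simp [hK, hF])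
  have hn : Orth.ND (Orth.minusQ k K (φ a) (φ c)) := Orth.nd_minusQ k (by
    have := (map_ne_zero φ).2 (Orth.aniso_disc_ne_zero hac)
    simpa [map_ofNat] using this)
  obtain ⟨e⟩ := hn.iso_plusQ (Orth.isPlus_minusQ k h) (m := k + 1) (by simp; ring)
  let ε := (Orth.toOG (Orth.minusQ k K (φ a) (φ c))).trans ((Orth.ogCongr e).symm.trans
    (Orth.toOG _).symm)
  exact ⟨ε.toMonoidHom.comp (Orth.baseHom φ (Orth.minusQ_base φ k a c)),
    ε.injective.comp (Orth.baseHom_injective φ (Orth.minusQ_base φ k a c))⟩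

end Cfsg.Agent.S2679
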