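import Mathlib
import Cfsg.Statements.S2682
import Cfsg.Agent.S2681
-- import your own Cfsg.Agent.* helpers here

set_option autoImplicit false
open Cfsg

namespace Cfsg.Agent.S2682

/-- Centraliser order of an involution t of Sp_2m(q), q even, with s = rank(t − 1) even and f(v, tv) ≠ 0 for some v, f the symplectic form (type c_s): |C(t)| = q^(2ms − (3s² − 3s)/2 − 1) · |Sp_(s−2)(q)| · |Sp_(2m−2s)(q)|. -/
theorem result {F : Type*} [Field F] [Fintype F] [CharP F 2] {q : ℕ} (hF : Fintype.card F = q) {m s : ℕ} (t : Matrix.symplecticGroup (Fin m) F) (ht : t ^ 2 = 1) (hs : ((t : Matrix (Fin m ⊕ Fin m) (Fin m ⊕ Fin m) F) - 1).rank = s) (heven : Even s) (hna : ∃ v : Fin m ⊕ Fin m → F, Cfsg.sympForm m F v ((t : Matrix (Fin m ⊕ Fin m) (Fin m ⊕ Fin m) F).mulVec v) ≠ 0) : Nat.card ↥(Subgroup.centralizer ({t} : Set ↥(Matrix.symplecticGroup (Fin m) F))) = q ^ (2 * m * s - (3 * s ^ 2 - 3 * s) / 2 - 1) *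 ((q : ℕ) ^ (((s - 2) / 2) ^ 2) * ∏ i : Fin ((s - 2) / 2), (q ^ (2 * ((i : ℕ) + 1)) - 1)) * ((q : ℕ) ^ ((m - s) ^ 2) * ∏ i : Fin (m - s), (q ^ (2 * ((i : ℕ) + 1)) - 1)) := by
  obtain ⟨h0, W, χ, h1, h2, h3, h4⟩ := S2681.main hF t ht hs
  have h5 : ¬ χ.IsAlt := fun h => by obtain ⟨v, hv⟩ := hna; exact hv (h3.1 h v)
  rw [h4, h1.card_SG_nonalt Orth.two_eq_zero_of_charP h5, h2,
    if_pos heven, Nat.card_eq_fintype_card, hF, S2681.ordSp_eq, S2681.ordSp_eq, ← mul_assoc (q ^ _), ← pow_add]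
  congr 3
  have hs0 : s ≠ 0 := by
    rintro rfl
    have := Module.finrank_zero_iff.1 h2
    exact h5 fun x => by simp [Subsingleton.elim x 0]
  obtain ⟨r, rfl⟩ : ∃ r, m = s + r := ⟨m - s, by omega⟩
  obtain ⟨T, hT⟩ := Nat.even_mul_succ_self s
  rw [show 2 * (s + r) * s = 2 * (s * s) + 2 * (s * r) by ring, pow_two]
  have : s ≤ s * s := Nat.le_mul_self s
  rw [mul_add_one] at hT
  omega

end Cfsg.Agent.S2682
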