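import Mathlib
import Cfsg.Statements.S2683
import Cfsg.Agent.Orth.Fix
import Cfsg.Agent.S2681
-- import your own Cfsg.Agent.* helpers here

set_option autoImplicit false
open Cfsg

namespace Cfsg.Agent.S2683

open Module Orth in
theorem conv {F : Type*} [Field F] {ι : Type} [Fintype ι] [DecidableEq ι] {Q : QuadraticForm F (ι → F)}
    (x : Cfsg.isometryGroup F ⇑Q) :
    Nat.card {g : Cfsg.Omega F ⇑Q // (g : Cfsg.isometryGroup F ⇑Q) * x = x * g} =
      Nat.card {g : commutator (OG Q) // g.1 ∈ Subgroup.centralizer {toOG Q x}} :=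
  Nat.card_congr ((omegaEquiv Q).toEquiv.subtypeEquiv fun g => by
    rw [Subgroup.mem_centralizer_singleton_iff]
    change _ ↔ toOG Q g * _ = _ * toOG Q g
    rw [← map_mul, ← map_mul, (toOG Q).injective.eq_iff])

open Module Orth in
theorem main {F : Type*} [Field F] [Finite F] (h2 : (2 : F) = 0) {m : ℕ}
    (hg : Good F (Fin m ⊕ Fin m → F)) (t : OG (plusQ m F)) (ht : t * t = 1)
    (hs : ¬ Sing (Orth.plusQ m F) (mov t)) : 1 ≤ rk t ∧ rk t ≤ m ∧
    Nat.card {g : commutator (OG (plusQ m F)) // g.1 ∈ Subgroup.centralizer {t}} =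
      Nat.card F ^ (rk t * (rk t - 1) / 2 + 2 * (rk t - 1) * (m - rk t)) *
        Nat.card (Classical.SpWitt.SG (wall (plusQ m F).polarBilin (mv t.1))) *
          ordSp (Nat.card F) (m - rk t) := by
  have hQ := nd_plusQ (F := F) m
  have h1 := hQ.two_mul_rk_le h2 ht
  rw [finrank_plus] at h1
  have h3 : rk t ≠ 0 := fun h => hs (by rw [rk_eq_zero.1 h, mov_one]; exact sing_bot)
  refine ⟨by omega, by omega, ?_⟩
  obtain ⟨v, hv, hv'⟩ := hQ.exists_refl_comm h2 ht fun h => hs h.2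
  have h4 := hQ.card_inf_commutator (hQ.dickKer_of_good h2 hg) (Subgroup.centralizer {t})
    ⟨v, hv, Subgroup.mem_centralizer_singleton_iff.2 hv'⟩
  obtain ⟨k, hk⟩ : ∃ k, rk t = k + 1 := ⟨rk t - 1, by omega⟩
  rw [hQ.card_centralizer_char_two h2 ht, hQ.card_fix_nonsing h2 (r := m - rk t) (k := k)
    (by rw [finrank_plus]; omega) (mov_le_perp h2 ht) hs hk] at h4
  apply Nat.eq_of_mul_eq_mul_left two_pos
  rw [h4, hk, Nat.add_sub_cancel]; ring

/-- For the hyperbolic form Σ x_j y_j on F^(2m) over a finite field with q elements, q even (excluding m = 2 over the field of two elements), and an involution x of the orthogonal group with s = rank(x − 1) odd (type b_s; such x lie outside Ω): the elements of Ω (the commutator subgroup of the orthogonal group) commuting with x number q^(2m(s−1) − (3s² − 3s)/2) · |Sp_(s−1)(q)| · |Sp_(2m−2s)(q)|, where |Sp_2k(q)| = q^(k²) Π_(i=1)^k (q^(2i) − 1). -/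
theorem result {F : Type*} [Field F] [Fintype F] [CharP F 2] {q : ℕ} (hF : Fintype.card F = q) {m s : ℕ} (h : Fintype.card F ≠ 2 ∨ m ≠ 2) (x : ↥(Cfsg.isometryGroup F (Cfsg.quadFormPlus m F))) (hx : x ^ 2 = 1) (hs : (((x : Matrix.GeneralLinearGroup (Fin m ⊕ Fin m) F) : Matrix (Fin m ⊕ Fin m) (Fin m ⊕ Fin m) F) - 1).rank = s) (hodd : Odd s) : Nat.card {g : ↥(Cfsg.Omega F (Cfsg.quadFormPlus m F)) // (g : ↥(Cfsg.isometryGroup F (Cfsg.quadFormPlus m F))) * x = x * (g : ↥(Cfsg.isometryGroup F (Cfsg.quadFormPlus m F)))} = q ^ (2 * m * (s - 1) - (3 * s ^ 2 - 3 * s) / 2) * ((q : ℕ) ^ (((s - 1) / 2) ^ 2) * ∏ i : Fin ((s - 1) / 2), (q ^ (2 * ((i : ℕ) + 1)) - 1)) * ((q : ℕ) ^ ((m - s) ^ 2) * ∏ i : Fin (m - s), (q ^ (2 * ((i : ℕ) + 1)) - 1)) := by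
  have h2 : (2 : F) = 0 := Orth.two_eq_zero_of_charP
  have hQ := Orth.nd_plusQ (F := F) m
  refine (conv (Q := Orth.plusQ m F) x).trans ?_
  have ht : Orth.toOG (Orth.plusQ m F) x * Orth.toOG _ x = 1 :=
    (map_mul _ _ _).symm.trans ((congrArg _ ((pow_two x).symm.trans hx)).trans (map_one _))
  have hs' : Orth.rk (Orth.toOG (Orth.plusQ m F) x) = s := (Orth.rk_toOG _).trans hs
  generalize Orth.toOG (Orth.plusQ m F) x = t at ht hs'
  have h5 : ¬ Even s := Nat.not_even_iff_odd.2 hodd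
  have h3 : ¬ Orth.Sing (Orth.plusQ m F) (Orth.mov t) := fun h => h5 (hs' ▸ hQ.even_rk_of_sing h2 ht h)
  obtain ⟨h6, h7, h8⟩ := main h2 (Orth.good_plus h) t ht h3
  have h9 : Module.finrank F (LinearMap.range (Orth.mv t.1)) = s := hs'
  rw [h8, (hQ.symND_wall ht).card_SG_nonalt h2 (mt (Orth.isAlt_wall_iff_sing h2 ht).1 h3), h9, if_neg h5,
    hs', Nat.card_eq_fintype_card, hF, S2681.ordSp_eq, S2681.ordSp_eq]
  congr 3
  rw [hs'] at h6 h7
  obtain ⟨r, rfl⟩ : ∃ r, m = s + r := ⟨m - s, by omega⟩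
  obtain ⟨k, rfl⟩ : ∃ k, s = k + 1 := ⟨s - 1, by omega⟩
  obtain ⟨T, hT⟩ := Nat.even_mul_succ_self k
  simp only [Nat.add_sub_cancel, Nat.add_sub_cancel_left]
  rw [show 2 * (k + 1 + r) * k = 2 * (k * (k + 1)) + 2 * k * r by ring,
    show 3 * (k + 1) ^ 2 = 3 * (k * (k + 1)) + 3 * (k + 1) by ring, mul_comm (k + 1) k]
  omega

end Cfsg.Agent.S2683
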