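import Mathlib
import Cfsg.Statements.S2684
import Cfsg.Agent.S2683
-- import your own Cfsg.Agent.* helpers here

set_option autoImplicit false
open Cfsg

namespace Cfsg.Agent.S2684

/-- For the hyperbolic form Q = Σ x_j y_j on F^(2m) over a finite field with q elements, q even (excluding m = 2 over the field of two elements), and an involution x ≠ 1 of the orthogonal group with s = rank(x − 1) even and Q vanishing on the image of x − 1 (equivalently f(v, xv) = 0 for all v, where f(u, w) = Q(u + w) − Q(u) − Q(w) is the bilinear form of Q; type a_s, which lies in Ω): its centraliser in Ω (the commutator subgroup of the orthogonal group) has order q^(2ms − (3s² + s)/2) · |Sp_s(q)| · |Ω⁺_(2m−2s)(q)|, where |Ω⁺_2k(q)| = q^(k(k−1)) (q^k − 1) Π_(i=1)^(k−1) (q^(2i) − 1) for k ≥ 1 and the last factor is 1 when s = m. -/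
theorem result {F : Type*} [Field F] [Fintype F] [CharP F 2] {q : ℕ} (hF : Fintype.card F = q) {m s : ℕ} (h : Fintype.card F ≠ 2 ∨ m ≠ 2) (x : ↥(Cfsg.isometryGroup F (Cfsg.quadFormPlus m F))) (hx : x ^ 2 = 1) (hx1 : x ≠ 1) (hs : (((x : Matrix.GeneralLinearGroup (Fin m ⊕ Fin m) F) : Matrix (Fin m ⊕ Fin m) (Fin m ⊕ Fin m) F) - 1).rank = s) (heven : Even s) (halt : ∀ v : Fin m ⊕ Fin m → F, Cfsg.quadFormPlus m F ((((x : Matrix.GeneralLinearGroup (Fin m ⊕ Fin m) F) : Matrix (Fin m ⊕ Fin m) (Fin m ⊕ Fin m) F) - 1).mulVec v) = 0) : Nat.card {g : ↥(Cfsg.Omega F (Cfsg.quadFormPlus m F)) // (g : ↥(Cfsg.isometryGroup F (Cfsg.quadFormPlus m F))) * x = x * (g : ↥(Cfsg.isometryGroup F (Cfsg.quadFormPlus m F)))} = q ^ (2 * m * s - (3 * s ^ 2 + s) / 2) * ((q : ℕ) ^ ((s / 2) ^ 2) * ∏ i : Fin (s / 2), (q ^ (2 * ((i : ℕ) + 1)) - 1)) * (if s = m then 1 else q ^ ((m - s) * (m - s - 1)) * (q ^ (m - s) - 1) * ∏ i : Fin (m - s - 1), (q ^ (2 * ((i : ℕ)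 + 1)) - 1)) := by
  have h2 : (2 : F) = 0 := Orth.two_eq_zero_of_charP
  have hQ := Orth.nd_plusQ (F := F) m
  have hg := Orth.good_plus h
  refine (S2683.conv (Q := Orth.plusQ m F) x).trans ?_
  have ht : Orth.toOG (Orth.plusQ m F) x * Orth.toOG _ x = 1 :=
    (map_mul _ _ _).symm.trans ((congrArg _ ((pow_two x).symm.trans hx)).trans (map_one _))
  have hs' : Orth.rk (Orth.toOG (Orth.plusQ m F) x) = s := (Orth.rk_toOG _).trans hs
  have h3 : Orth.Sing (Orth.plusQ m F) (Orth.mov (Orth.toOG (Orth.plusQ m F) x)) := by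
    rintro _ ⟨v, rfl⟩
    have := halt v
    rwa [Matrix.sub_mulVec, Matrix.one_mulVec] at this
  generalize Orth.toOG (Orth.plusQ m F) x = t at ht hs' h3
  have h1 := hQ.two_mul_rk_le h2 ht
  rw [Orth.finrank_plus, hs'] at h1
  obtain ⟨r, rfl⟩ : ∃ r, m = s + r := ⟨m - s, by omega⟩
  have h9 : Module.finrank F (LinearMap.range (Orth.mv t.1)) = s := hs'
  obtain ⟨ε⟩ := (Orth.nd_prod (Orth.nd_plusQ (F := F) s) (Orth.nd_plusQ r)).iso_plusQ
    (Orth.isPlus_prod (Orth.isPlus_plusQ s) (Orth.isPlus_plusQ r)) (m := s + r)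
    (by rw [Module.finrank_prod, Orth.finrank_plus, Orth.finrank_plus]; ring)
  have h4 := hQ.card_centralizer_char_two h2 ht
  rw [Orth.card_fix_sing (Orth.nd_plusQ r) ε.symm h3 hs', (hQ.symND_wall ht).card_SG_alt
    ((Orth.isAlt_wall_iff_sing h2 ht).2 h3), h9, Nat.card_eq_fintype_card (α := F), hF, S2681.ordSp_eq,
    Orth.finrank_plus] at h4
  have he : 2 * (s + r) * s - (3 * s ^ 2 + s) / 2 = s * (s - 1) / 2 + s * (2 * r) := by
    rcases s with _ | k
    · simp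
    obtain ⟨T, hT⟩ := Nat.even_mul_succ_self k
    simp only [Nat.add_sub_cancel]
    rw [show 2 * (k + 1 + r) * (k + 1) = 2 * (k * (k + 1)) + 2 * (k + 1) + (k + 1) * (2 * r) by ring,
      show 3 * (k + 1) ^ 2 = 3 * (k * (k + 1)) + 3 * (k + 1) by ring, mul_comm (k + 1) k]
    omega
  rw [he, Nat.add_sub_cancel_left]
  rcases r with _ | r
  · rw [if_pos (add_zero s).symm, mul_one]
    rw [Orth.card_OG_subsingleton, mul_one] at h4
    rw [← h4]
    refine Nat.card_congr ⟨fun g => ⟨g.1.1, g.2⟩, fun g => ⟨⟨g.1, ?_⟩, g.2⟩, fun _ => rfl, fun _ => rfl⟩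
    refine (hQ.dickKer_of_good h2 hg _).2 (hQ.even_rk_of_mem_stab hg (Orth.finrank_plus _) h3 hs' ?_)
    rw [Orth.mem_stab_iff_map, ← Orth.mov_conj, Subgroup.mem_centralizer_singleton_iff.1 g.2,
      mul_inv_cancel_right]
  · rw [if_neg (by omega)]
    obtain ⟨v, hv, hv'⟩ := hQ.exists_refl_comm h2 ht fun h => by
      have := h.1; rw [Orth.finrank_plus] at this; omega
    have h5 := hQ.card_inf_commutator (hQ.dickKer_of_good h2 hg) (Subgroup.centralizer {t})
      ⟨v, hv, Subgroup.mem_centralizer_singleton_iff.2 hv'⟩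
    apply Nat.eq_of_mul_eq_mul_left two_pos
    rw [h5, h4, Orth.card_OG_plusQ, Nat.card_eq_fintype_card (α := F), hF, Finset.prod_range]
    change _ = 2 * (_ * _ * (q ^ ((r + 1) * r) * _ * ∏ i : Fin r, (q ^ (2 * ((i : ℕ) + 1)) - 1)))
    ring

end Cfsg.Agent.S2684
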