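import Mathlib
import Cfsg.Statements.S2694
import Cfsg.Agent.Classical.GamO5

set_option autoImplicit false
set_option backward.isDefEq.respectTransparency false
open Cfsg

namespace Cfsg.Agent.S2694

open Classical.GamO Orth

/-- For m ≥ 3 and a finite field F of odd order, the automorphism group of the orthogonal group Ω_{2m+1}(F) (realised as PΩ of the form x₀² + Σ xᵢ yᵢ, whose centre is trivial) is generated by the automorphisms induced by the semisimilarities v ↦ g σ(v) of the form (the image of the projective semisimilarity group); there are no graph or graph-field automorphisms. -/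
theorem result {F : Type*} [Field F] [Fintype F] (hodd : Odd (Fintype.card F)) {m : ℕ} (hm : 3 ≤ m) :
    Cfsg.gammaPOmega F (Cfsg.quadFormOdd m F) = ⊤ := by
  exact (gamma_eq (Q := oddQ m F)).trans
    (MonoidHom.range_eq_top.2 (surj_odd (two_ne_zero_of_odd hodd) hm))

end Cfsg.Agent.S2694
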