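import Mathlib
import Cfsg.Statements.S2697
import Cfsg.Agent.Classical.AutPSL3

set_option autoImplicit false
set_option backward.isDefEq.respectTransparency false
open Cfsg

namespace Cfsg.Agent.S2697

open Classical.AutPSL Classical.AutPSL2 Classical.AutPSL3 Classical.SplitCount

/-- Let T = PSL_n(F) be simple over a finite field (n ≥ 2; |F| ≥ 4 when n = 2) and let x be a field automorphism or a graph-field automorphism of T of prime order r. Then an element y of the coset Inndiag(T)·x (that is, y = δ x with δ in the inner-diagonal group, the image of PGL_n(F)) has order r if and only if y is conjugate to x by an element of Inndiag(T). -/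
theorem result {F : Type*} [Field F] [Fintype F] {p f : ℕ} [Fact p.Prime] (hF : Fintype.card F = p ^ f) (hf : 1 ≤ f) {n : ℕ} (hn : 2 ≤ n) (hs : n = 2 → 4 ≤ Fintype.card F) (x δ : MulAut (Matrix.ProjectiveSpecialLinearGroup (Fin n) F)) (hx : Cfsg.IsFieldAutClassPSL x ∨ Cfsg.IsGraphFieldAutClassPSL x) {r : ℕ} (hr : r.Prime) (hxr : orderOf x = r) (hδ : δ ∈ Cfsg.inndiagPSL n F) :
    orderOf (δ * x) = r ↔ Cfsg.IsConjUnder (Cfsg.inndiagPSL n F) x (δ * x) := by
  haveI := normal_range_dA (F := F) hn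
  haveI : Nontrivial (Fin n) := Fin.nontrivial_iff_two_le.2 hn
  rw [inndiag_eq] at hδ ⊢
  rcases hx with ⟨α, σ, -, h⟩ | ⟨h3, α, φ, γ, σ, h1, h2, h4, h⟩
  · rw [isStdField_iff] at h
    refine lang_conj (α := α) ?_ hxr hδ
    rintro _ ⟨g, rfl⟩ h1
    rw [h] at h1 ⊢
    refine isConjUnder_fA hr.ne_zero ?_ (h1 ▸ pow_orderOf_eq_one _)
    rw [← orderOf_fA (ι := Fin n), ← h, ← hxr]
    exact (MulAut.conj α).orderOf_eq x
  · rw [isStdField_iff] at h2
    rw [isInverseTranspose_iff] at h4
    subst h2 h4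
    have h5 : orderOf (fA (Fin n) σ * gA (Fin n) F) = r := by
      rw [← h, ← hxr]; exact (MulAut.conj α).orderOf_eq x
    obtain rfl := eq_two_of_orderOf (by rwa [Fintype.card_fin]) hr h5
    refine lang_conj (α := α) ?_ hxr hδ
    rintro _ ⟨g, rfl⟩ h6
    rw [h] at h6 ⊢
    exact isConjUnder_fA_gA h1 (sq_eq_one_of (h5 ▸ pow_orderOf_eq_one _))
      (h6 ▸ pow_orderOf_eq_one _)

end Cfsg.Agent.S2697
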