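import Mathlib
import Cfsg.Statements.S2698
import Cfsg.Agent.Classical.AutPSL3

set_option autoImplicit false
set_option backward.isDefEq.respectTransparency false
open Cfsg

namespace Cfsg.Agent.S2698

open Classical.AutPSL Classical.AutPSL2 Classical.AutPSL3 Classical.SplitCount

/-- Let T = PSL_n(F) be simple over the field F with p^f elements (n ≥ 2; p^f ≥ 4 when n = 2), G = Inndiag(T) the image of PGL_n(F) in Aut(T), and x a field automorphism of T of prime order r. Then r divides f; the centralizer C_G(x) is isomorphic to PGL_n(F₀) for the subfield size |F₀| = p^(f/r); and the G-class of x is the union of exactly gcd(n, (p^f − 1)/(p^(f/r) − 1)) classes under conjugation by T (the inner automorphism group). -/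
theorem result {F : Type*} [Field F] [Fintype F] {p f : ℕ} [Fact p.Prime] (hF : Fintype.card F = p ^ f) (hf : 1 ≤ f) {n : ℕ} (hn : 2 ≤ n) (hs : n = 2 → 4 ≤ Fintype.card F) (x : MulAut (Matrix.ProjectiveSpecialLinearGroup (Fin n) F)) (hx : Cfsg.IsFieldAutClassPSL x) {r : ℕ} (hr : r.Prime) (hxr : orderOf x = r) (F₀ : Type*) [Field F₀] [Fintype F₀] (hF₀ : Fintype.card F₀ = p ^ (f / r)) :
    r ∣ f ∧ Nonempty (↥(Cfsg.inndiagPSL n F ⊓ Subgroup.centralizer {x}) ≃* Matrix.ProjGenLinGroup (Fin n) F₀) ∧ Cfsg.splitClassCount (Cfsg.inndiagPSL n F) (Cfsg.Inn (Matrix.ProjectiveSpecialLinearGroup (Fin n) F)) x = Nat.gcd n ((p ^ f - 1) / (p ^ (f / r) - 1)) := by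
  haveI := normal_range_dA (F := F) hn
  haveI : Nontrivial (Fin n) := Fin.nontrivial_iff_two_le.2 hn
  have hF' : Nat.card F = p ^ f := by rw [Nat.card_eq_fintype_card, hF]
  rw [inndiag_eq]
  obtain ⟨α, σ, -, h⟩ := hx
  rw [isStdField_iff] at h
  have hσ : orderOf σ = r := by
    rw [← orderOf_fA (ι := Fin n), ← h, ← hxr]
    exact (MulAut.conj α).orderOf_eq x
  obtain ⟨h1, h2⟩ := card_fixF hF' hσ
  obtain ⟨e⟩ := Classical.Congr.nonempty_ringEquiv (K := Herm.fixF σ.toRingHom) (F := F₀)
    (by rw [h2, Nat.card_eq_fintype_card, hF₀])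
  refine ⟨h1, ⟨(centralizerEquiv _ α x).trans ?_⟩, ?_⟩
  · rw [h]; exact (centralizerFAEquiv σ).trans (Classical.Congr.pglCongr e)
  · rw [← splitClassCount_conj inn_le α, h, splitClassCount_fA, h2, hF', Fintype.card_fin]

end Cfsg.Agent.S2698
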