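import Mathlib
import Cfsg.Statements.S2704
import Cfsg.Agent.Classical.AutPSL3

set_option autoImplicit false
set_option backward.isDefEq.respectTransparency false
open Cfsg

namespace Cfsg.Agent.S2704

open Classical.AutPSL Classical.AutPSL2 Classical.AutPSL3 Classical.SplitCount

/-- Let T = PSL_n(F) over the field F with p^f elements, n ≥ 3, and G = Inndiag(T) the image of PGL_n(F). If x is an involutory graph-field automorphism of T then f is even; x is G-conjugate to every other involutory graph-field automorphism; C_G(x) is isomorphic to the projective general unitary group PGU_n(q₀) with q₀² = p^f, realised over F itself through the Hermitian form Σ uᵢ vᵢ^{q₀}; and the G-class of x is the union of exactly gcd(n, q₀ − 1) T-classes. -/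
theorem result {F : Type*} [Field F] [Fintype F] {p f : ℕ} [Fact p.Prime] (hF : Fintype.card F = p ^ f) (hf : 1 ≤ f) {n : ℕ} (hn : 3 ≤ n) (x : MulAut (Matrix.ProjectiveSpecialLinearGroup (Fin n) F)) (hx : Cfsg.IsGraphFieldAutClassPSL x) (hx2 : orderOf x = 2) :
    Even f ∧ (∀ y : MulAut (Matrix.ProjectiveSpecialLinearGroup (Fin n) F), Cfsg.IsGraphFieldAutClassPSL y → orderOf y = 2 → Cfsg.IsConjUnder (Cfsg.inndiagPSL n F) x y) ∧ Nonempty (↥(Cfsg.inndiagPSL n F ⊓ Subgroup.centralizer {x}) ≃* Cfsg.PGU n F (p ^ (f / 2))) ∧ Cfsg.splitClassCount (Cfsg.inndiagPSL n F) (Cfsg.Inn (Matrix.ProjectiveSpecialLinearGroup (Fin n) F)) x = Nat.gcd n (p ^ (f / 2) - 1) := by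
  haveI := normal_range_dA (F := F) (show 2 ≤ n by omega)
  haveI : Nontrivial (Fin n) := Fin.nontrivial_iff_two_le.2 (by omega)
  haveI : NeZero n := ⟨by omega⟩
  have hF' : Nat.card F = p ^ f := by rw [Nat.card_eq_fintype_card, hF]
  rw [inndiag_eq]
  have key : ∀ y : MulAut (Matrix.ProjectiveSpecialLinearGroup (Fin n) F),
      Cfsg.IsGraphFieldAutClassPSL y → orderOf y = 2 → ∃ (α : MulAut _) (σ : F ≃+* F), σ ≠ 1 ∧
        σ ^ 2 = 1 ∧ α * y * α⁻¹ = fA (Fin n) σ * gA (Fin n) F := by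
    rintro y ⟨-, α, φ, γ, σ, h1, h2, h4, h⟩ hy
    rw [isStdField_iff] at h2
    rw [isInverseTranspose_iff] at h4
    subst h2 h4
    refine ⟨α, σ, h1, sq_eq_one_of (ι := Fin n) ?_, h⟩
    rw [← h, conj_pow, ← hy, pow_orderOf_eq_one, mul_one, mul_inv_cancel]
  obtain ⟨α, σ, h1, h2, h⟩ := key x hx hx2
  have hσ := inv_of_sq h1 h2
  have h3 := (card_fixF hF' (orderOf_eq_prime h2 h1)).1
  have h4 : Nat.card F = (p ^ (f / 2)) ^ 2 := by rw [hF', ← pow_mul, Nat.div_mul_cancel h3]
  refine ⟨even_iff_two_dvd.2 h3, fun y hy hy2 => ?_, ⟨(centralizerEquiv _ α x).trans ?_⟩, ?_⟩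
  · obtain ⟨α', σ', h1', h2', h'⟩ := key y hy hy2
    obtain rfl : σ = σ' := RingEquiv.ext fun a =>
      (hσ.apply_pow h4 a).trans ((inv_of_sq h1' h2').apply_pow h4 a).symm
    obtain ⟨ρ, hρ, h5, h6⟩ := exists_hom_three (F := F) hn
    haveI := isCyclic_ringAut (F := F)
    have h7 : ∀ (β y : MulAut (Matrix.ProjectiveSpecialLinearGroup (Fin n) F)),
        orderOf y = 2 → β * y * β⁻¹ = fA (Fin n) σ * gA (Fin n) F →
        IsConjUnder (dA : GL (Fin n) F →* _).range (fA (Fin n) σ * gA (Fin n) F) y := by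
      intro β y hy e
      obtain ⟨g, hg⟩ : y * (fA (Fin n) σ * gA (Fin n) F)⁻¹ ∈ (dA : GL (Fin n) F →* _).range := by
        rw [← hρ, MonoidHom.mem_ker, ← e, map_mul, map_inv, mul_inv_eq_one, map_mul, map_mul,
          map_inv, eq_mul_inv_iff_mul_eq]
        exact Prod.ext (IsCyclic.isMulCommutative.is_comm.comm _ _) (mul_comm _ _)
      obtain rfl := eq_mul_inv_iff_mul_eq.1 hg
      exact isConjUnder_fA_gA h1 h2 (hy ▸ pow_orderOf_eq_one _)
    exact IsConjUnder.trans (IsConjUnder.symm (h7 α x hx2 h)) (h7 α' y hy2 h')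
  · rw [h, inf_centralizer_fA_gA hσ (hσ.apply_pow h4)]
    exact rangeEquivProjQuot _
  · rw [← splitClassCount_conj inn_le α, h, splitClassCount_fA_gA hσ h4]

end Cfsg.Agent.S2704
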