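import Mathlib
import Cfsg.Statements.S2705
import Cfsg.Agent.Classical.AutU5
import Cfsg.Agent.Classical.GamO7

set_option autoImplicit false
set_option backward.isDefEq.respectTransparency false
open Cfsg

namespace Cfsg.Agent.S2705

open Classical.AutU Classical.SplitCount

/-- Let T = PSU_n(q) be simple (n ≥ 3, (n, q) ≠ (3, 2), q = p^f), realised over the field F with q² elements, G = Inndiag(T) the image of PGU_n(q) in Aut(T), and x a field automorphism of T (conjugate to a standard field automorphism of odd order) of odd prime order r. Then r divides f; C_G(x) is isomorphic to PGU_n(q₀) with q₀ = p^(f/r), realised over a field F₀ with q₀² elements; and the G-class of x is the union of exactly gcd(n, (q + 1)/(q₀ + 1)) T-classes. -/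
theorem result {F : Type*} [Field F] [Fintype F] {p f q : ℕ} [Fact p.Prime] (hq : q = p ^ f) (hf : 1 ≤ f) (hF : Fintype.card F = q ^ 2) {n : ℕ} (hn : 3 ≤ n) (hs : ¬ (n = 3 ∧ q = 2)) (x : MulAut (Cfsg.PSU n F q)) (hx : Cfsg.IsFieldAutClassPSU x) {r : ℕ} (hr : r.Prime) (hro : Odd r) (hxr : orderOf x = r) (F₀ : Type*) [Field F₀] [Fintype F₀] (hF₀ : Fintype.card F₀ = p ^ (2 * (f / r))) :
    r ∣ f ∧ Nonempty (↥(Cfsg.inndiagPSU n F q ⊓ Subgroup.centralizer {x}) ≃* Cfsg.PGU n F₀ (p ^ (f / r))) ∧ Cfsg.splitClassCount (Cfsg.inndiagPSU n F q) (Cfsg.Inn (Cfsg.PSU n F q)) x = Nat.gcd n ((q + 1) / (p ^ (f / r) + 1)) := by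
  have hF' := Herm.natCard_of_card hF
  haveI := normal_range_dU hF' hn hs
  rw [inndiag_eq]
  obtain ⟨α, φ, σ, -, h1, h2, h⟩ := hx
  obtain rfl := isField_iff.1 h2
  have h3 : orderOf σ = r := by
    rw [← orderOf_fU hF' hn hs, ← h, ← hxr]; exact (MulAut.conj α).orderOf_eq x
  obtain ⟨h4, h5⟩ := Classical.AutPSL3.card_fixF (p := p) (f := f * 2) (by rw [hF', hq, pow_mul]) h3
  obtain ⟨k, rfl⟩ := (Nat.coprime_two_right.2 hro).dvd_of_dvd_mul_right h4
  rw [mul_assoc, Nat.mul_div_cancel_left _ hr.pos] at h5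
  rw [Nat.mul_div_cancel_left _ hr.pos] at hF₀ ⊢
  have hK : Nat.card F₀ = (p ^ k) ^ 2 := by rw [Nat.card_eq_fintype_card, hF₀, mul_comm, pow_mul]
  obtain ⟨φ, hφ⟩ := Classical.GamO.exists_fix_hom (K := F₀) (σ := σ) (by rw [h5, hK, pow_mul])
  have h0 : ∀ a, φ (Herm.frob hK a) = Herm.frob hF' (φ a) := fun a => by
    rw [← pow_odd hK hro, map_pow, Herm.frob_apply, hq, mul_comm, pow_mul]
  refine ⟨dvd_mul_right _ _, ⟨(centralizerEquiv _ α x).trans ?_⟩, ?_⟩
  · rw [h, inf_centralizer_fU hF' hK h0 hn hs hφ]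
    exact (QuotientGroup.quotientKerEquivRange _).symm.trans
      (QuotientGroup.quotientMulEquivOfEq (ker_dU_comp hF' hK h0 hn hs))
  · rw [← splitClassCount_conj inn_le α, h, splitClassCount_fU hF' hK h0 hn hs hφ]

end Cfsg.Agent.S2705
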