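import Mathlib
import Cfsg.Statements.S2710
import Cfsg.Agent.Classical.GrI

set_option autoImplicit false
set_option backward.isDefEq.respectTransparency false
open Cfsg

namespace Cfsg.Agent.S2710

open Classical.GrF

/-- Let T = PSU_n(q) with n ≥ 4 divisible by 4 (n = 2m) and q odd, realised over the field F with q² elements, G = Inndiag(T) the image of PGU_n(q), and φ the standard field automorphism of T attached to the q-th power map of F (it induces inverse-transpose on the unitary matrices and is a graph automorphism). Its centralizer in G is isomorphic to the projective conformal orthogonal group of the plus-type form Σ xᵢ yᵢ in dimension n over a field F₀ with q elements. (Dimensions n ≡ 2 (mod 4) are not covered.) -/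
theorem result {F : Type*} [Field F] [Fintype F] {q : ℕ} (hodd : Odd q) (hF : Fintype.card F = q ^ 2) {n m : ℕ} (hm : 2 ≤ m) (hnm : n = 2 * m) (h4 : 4 ∣ n) (F₀ : Type*) [Field F₀] [Fintype F₀] (hF₀ : Fintype.card F₀ = q) (σ : F ≃+* F) (hσ : ∀ a : F, σ a = a ^ q) (φ : MulAut (Cfsg.PSU n F q)) (hφ : Cfsg.IsFieldAutPSUOf σ φ) :
    Nonempty (↥(Cfsg.inndiagPSU n F q ⊓ Subgroup.centralizer {φ}) ≃* Cfsg.PGO F₀ (Cfsg.quadFormPlus m F₀)) := by
  have : NeZero n := ⟨by omega⟩
  obtain ⟨ψ, hψ⟩ := exists_phi (hF := Herm.natCard_of_card hF) (Nat.card_eq_fintype_card.trans hF₀)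
  obtain rfl : σ = fr (Herm.natCard_of_card hF) := RingEquiv.ext hσ
  obtain rfl := Classical.AutU.isField_iff.1 hφ
  refine ((giU hψ (by omega) (by omega)).one (Orth.two_ne_zero_of_odd (hF₀ ▸ hodd)) hm hnm
    RU_one).1 ?_
  rw [Even.neg_one_pow ⟨m / 2, by omega⟩]
  exact IsSquare.one

end Cfsg.Agent.S2710
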