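import Mathlib
import Cfsg.Statements.S2712
import Cfsg.Agent.Classical.AutSp3

set_option autoImplicit false
set_option backward.isDefEq.respectTransparency false
open Cfsg

namespace Cfsg.Agent.S2712

open Classical.AutSp2 Classical.AutSp3 Classical.SplitCount

/-- Let T = PSp_{2m}(F) be simple over the field F with p^f elements (m ≥ 2, (2m, |F|) ≠ (4, 2)), G = Inndiag(T) the image of the projective conformal symplectic group PGSp_{2m}(F), and x a field automorphism of T of prime order r. Then r divides f; C_G(x) is isomorphic to PGSp_{2m}(F₀) for a field F₀ with p^(f/r) elements; and the G-class of x is the union of exactly gcd(gcd(2, p^f − 1), r) T-classes. -/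
theorem result {F : Type*} [Field F] [Fintype F] {p f : ℕ} [Fact p.Prime] (hF : Fintype.card F = p ^ f) (hf : 1 ≤ f) {m : ℕ} (hm : 2 ≤ m) (hs : m = 2 → 3 ≤ Fintype.card F) (x : MulAut (Cfsg.PSp m F)) (hx : Cfsg.IsFieldAutClassPSp x) {r : ℕ} (hr : r.Prime) (hxr : orderOf x = r) (F₀ : Type*) [Field F₀] [Fintype F₀] (hF₀ : Fintype.card F₀ = p ^ (f / r)) :
    r ∣ f ∧ Nonempty (↥(Cfsg.inndiagPSp m F ⊓ Subgroup.centralizer {x}) ≃* Cfsg.PGSp m F₀) ∧ Cfsg.splitClassCount (Cfsg.inndiagPSp m F) (Cfsg.Inn (Cfsg.PSp m F)) x = Nat.gcd (Nat.gcd 2 (p ^ f - 1)) r := by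
  haveI := normal_range_dS (F := F) hm
  haveI : NeZero m := ⟨by omega⟩
  have hF' : Nat.card F = p ^ f := by rw [Nat.card_eq_fintype_card, hF]
  rw [inndiag_eq]
  obtain ⟨α, σ, -, h⟩ := hx
  rw [isStdField_iff] at h
  have hσ : orderOf σ = r := by
    rw [← orderOf_fS (m := m), ← h, ← hxr]
    exact (MulAut.conj α).orderOf_eq x
  obtain ⟨h1, h2⟩ := Classical.AutPSL3.card_fixF hF' hσ
  obtain ⟨e⟩ := Classical.Congr.nonempty_ringEquiv (K := Herm.fixF σ.toRingHom) (F := F₀)
    (by rw [h2, Nat.card_eq_fintype_card, hF₀])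
  refine ⟨h1, ⟨(centralizerEquiv _ α x).trans ?_⟩, ?_⟩
  · rw [h, inf_centralizer_fS]; exact (rangeCompEquiv _).trans (pgspCongr e)
  · rw [← splitClassCount_conj inn_le α, h, splitClassCount_fS, ← hF',
      Classical.Lang.card_eq_pow_orderOf σ, hσ]
    exact gcd_two_geom Finite.one_lt_card hr.ne_zero

end Cfsg.Agent.S2712
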