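import Mathlib
import Cfsg.Statements.S2714
import Cfsg.Agent.Classical.GamO8

set_option autoImplicit false
set_option backward.isDefEq.respectTransparency false
open Cfsg

namespace Cfsg.Agent.S2714

open Classical.GamO Orth

/-- Let T = Ω_{2m+1}(F) (m ≥ 3, |F| = p^f odd; realised as PΩ of the form x₀² + Σ xᵢ yᵢ), G = Inndiag(T) the image of the conformal orthogonal group in Aut(T), and x a field automorphism of T of prime order r. Then r divides f; C_G(x) is isomorphic to Inndiag(Ω_{2m+1}(F₀)) for a field F₀ with p^(f/r) elements; and the G-class of x is a single T-class when r is odd and the union of exactly two T-classes when r = 2. -/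
theorem result {F : Type*} [Field F] [Fintype F] {p f : ℕ} [Fact p.Prime] (hF : Fintype.card F = p ^ f) (hf : 1 ≤ f) (hodd : Odd (Fintype.card F)) {m : ℕ} (hm : 3 ≤ m) (x : MulAut (Cfsg.POmega F (Cfsg.quadFormOdd m F))) (hx : Cfsg.IsFieldAutClassPOmega (Cfsg.quadFormOdd m F) x) {r : ℕ} (hr : r.Prime) (hxr : orderOf x = r) (F₀ : Type*) [Field F₀] [Fintype F₀] (hF₀ : Fintype.card F₀ = p ^ (f / r)) :
    r ∣ f ∧ Nonempty (↥(Cfsg.inndiagPOmegaOdd m F ⊓ Subgroup.centralizer {x}) ≃* ↥(Cfsg.inndiagPOmegaOdd m F₀)) ∧ (Odd r → Cfsg.splitClassCount (Cfsg.inndiagPOmegaOdd m F) (Cfsg.Inn (Cfsg.POmega F (Cfsg.quadFormOdd m F))) x = 1) ∧ (r = 2 → Cfsg.splitClassCount (Cfsg.inndiagPOmegaOdd m F) (Cfsg.Inn (Cfsg.POmega F (Cfsg.quadFormOdd m F))) x = 2) := by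
  have h2 := two_ne_zero_of_odd hodd
  have h := big_oddQ (m := m) h2 (by omega)
  have hA := model_aM h
  obtain ⟨g, rfl, h1⟩ := field_odd h2 hm hx
  have h3 := hA.orderOf_σ hr hxr h1
  obtain ⟨h4, h5⟩ := Classical.AutPSL3.card_fixF (Nat.card_eq_fintype_card.trans hF) h3
  obtain ⟨φ, hφ⟩ := exists_fix_hom (K := F₀) (σ := g.σ) (by rw [h5, Nat.card_eq_fintype_card, hF₀])
  have h₀ := big_oddQ (m := m) (F := F₀) (fun h6 => h2 (by rw [← map_ofNat φ 2, h6, map_zero]))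
    (by omega)
  have h6 : ∀ (K : Type _) [Field K], ¬ IsPlus (oddQ m K) := fun K _ ⟨W, _, hW⟩ => by
    rw [finrank_odd] at hW; omega
  obtain ⟨c, j, e, h7, h8, hj, h9⟩ := hA.exists_form h1 hr hxr hφ h₀.nd
    (finrank_odd.trans finrank_odd.symm) ⟨fun ⟨W, _, hW⟩ => by rw [finrank_odd] at hW; omega,
      fun h => (h6 _ h.1).elim⟩
  rw [← h8] at hφ h3
  rw [inndiag_odd h, inndiag_odd h₀, h7]
  refine ⟨h4, hA.centralizer_equiv (model_aM h₀) hj h9 hφ, fun ho => hA.split_odd hj h9 hφ (h3 ▸ ho),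
    fun h10 => (hA.split_two_of hj h9 hφ (h3.trans h10) (Or.inr ⟨m, finrank_odd⟩)).trans ?_⟩
  rw [DO_oddQ h, relIndex_GO_two h (Or.inr ⟨m, finrank_odd⟩)]

end Cfsg.Agent.S2714
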