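import Mathlib
import Cfsg.Statements.S2715
import Cfsg.Agent.Classical.Tri2

set_option autoImplicit false
set_option backward.isDefEq.respectTransparency false
open Cfsg

namespace Cfsg.Agent.S2715

open Classical.GamO Classical.Tri Orth

/-- Let T = PΩ⁺_{2m}(F) (m ≥ 4, |F| = p^f; the form Σ xᵢ yᵢ), G = Inndiag(T) the image of the class-preserving similarities in Aut(T), and x a field automorphism of T of prime order r. Then r divides f; C_G(x) is isomorphic to Inndiag(PΩ⁺_{2m}(F₀)) for a field F₀ with p^(f/r) elements; and the G-class of x is the union of exactly c T-classes, where c = 1 if r is odd or p = 2, and otherwise (r = 2, p odd) c = 2 when m is odd and p^(f/2) ≡ 1 (mod 4), and c = 4 in the remaining cases. -/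
theorem result {F : Type*} [Field F] [Fintype F] {p f : ℕ} [Fact p.Prime] (hF : Fintype.card F = p ^ f) (hf : 1 ≤ f) {m : ℕ} (hm : 4 ≤ m) (x : MulAut (Cfsg.POmega F (Cfsg.quadFormPlus m F))) (hx : Cfsg.IsFieldAutClassPOmega (Cfsg.quadFormPlus m F) x) {r : ℕ} (hr : r.Prime) (hxr : orderOf x = r) (F₀ : Type*) [Field F₀] [Fintype F₀] (hF₀ : Fintype.card F₀ = p ^ (f / r)) :
    r ∣ f ∧ Nonempty (↥(Cfsg.inndiagPOmegaPlus m F ⊓ Subgroup.centralizer {x}) ≃* ↥(Cfsg.inndiagPOmegaPlus m F₀)) ∧ ((Odd r ∨ p = 2) → Cfsg.splitClassCount (Cfsg.inndiagPOmegaPlus m F) (Cfsg.Inn (Cfsg.POmega F (Cfsg.quadFormPlus m F))) x = 1) ∧ ((r = 2 ∧ p ≠ 2 ∧ Odd m ∧ p ^ (f / 2) % 4 = 1) → Cfsg.splitClassCount (Cfsg.inndiagPOmegaPlus m F) (Cfsg.Inn (Cfsg.POmega F (Cfsg.quadFormPlus m F))) x = 2) ∧ ((r = 2 ∧ p ≠ 2 ∧ ¬ (Odd m ∧ p ^ (f / 2) % 4 = 1)) → Cfsg.splitClassCount (Cfsg.inndiagPOmegaPlus m F) (Cfsg.Inn (Cfsg.POmega F (Cfsg.quadFormPlus m F)))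 x = 4) := by
  have h := big_plusQ (F := F) (m := m) (by omega)
  have hA := model_aM h
  have hp := isPlus_plusQ (F := F) m
  have hF' := Nat.card_eq_fintype_card.trans hF
  obtain ⟨g, rfl, h1, h2⟩ := field_plus' hm hx
  have h3 := hA.orderOf_σ hr hxr h1
  obtain ⟨h4, h5⟩ := Classical.AutPSL3.card_fixF hF' h3
  obtain ⟨φ, hφ⟩ := exists_fix_hom (K := F₀) (σ := g.σ) (by rw [h5, Nat.card_eq_fintype_card, hF₀])
  have h₀ := big_plusQ (F := F₀) (m := m) (by omega)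
  obtain ⟨c, j, e, h7, h8, hj, h9⟩ := hA.exists_form h1 hr hxr hφ h₀.nd
    ((finrank_plus _).trans (finrank_plus _).symm) (iff_of_true (isPlus_plusQ m) ⟨hp, h2⟩)
  rw [← h8] at hφ h3
  have key : r = 2 → p ≠ 2 → splitClassCount _ _ (aM g) =
      if Odd m ∧ p ^ (f / 2) % 4 = 1 then 2 else 4 := fun hr2 hp2 => by
    subst hr2
    have ho := (Fact.out : p.Prime).odd_of_ne_two hp2
    have h10 := Nat.odd_iff.1 (ho.pow (n := f / 2))
    rw [h7, hA.split_two hj h9 hφ h3 (two_ne_zero_of_odd (hF ▸ ho.pow))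
      (finrank_plus _), negOne_plus (hF₀ ▸ ho.pow), hF₀]
    simp only [Nat.even_iff, Nat.odd_iff]
    split_ifs <;> omega
  rw [inndiag_plus h, inndiag_plus h₀]
  refine ⟨h4, h7 ▸ hA.centralizer_equiv (model_aM h₀) hj h9 hφ, fun h10 => ?_,
    fun h10 => (key h10.1 h10.2.1).trans (if_pos h10.2.2),
    fun h10 => (key h10.1 h10.2.1).trans (if_neg h10.2.2)⟩
  rw [h7]
  rcases hr.eq_two_or_odd' with h11 | h11
  · obtain rfl := h10.resolve_left (by rw [h11]; decide)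
    haveI := Classical.Congr.charP_of_card hF'
    exact (hA.split_two_of hj h9 hφ (h3.trans h11) (Or.inl two_eq_zero_of_charP)).trans
      (Subgroup.relIndex_eq_one.2 (DO_even two_eq_zero_of_charP).le)
  · exact hA.split_odd hj h9 hφ (h3 ▸ h11)

end Cfsg.Agent.S2715
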