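import Mathlib
import Cfsg.Statements.S2716
import Cfsg.Agent.Classical.GamO8

set_option autoImplicit false
set_option backward.isDefEq.respectTransparency false
open Cfsg

namespace Cfsg.Agent.S2716

open Classical.GamO Orth

/-- Let T = PΩ⁻_{2m+2}(F) (m ≥ 3, |F| = p^f; the form Σ xᵢ yᵢ + z₁² + a z₁ z₂ + b z₂² with anisotropic binary part), G = Inndiag(T), and x a field automorphism of T of prime order r. Then r is odd and divides f; C_G(x) is isomorphic to Inndiag(PΩ⁻_{2m+2}(F₀)) for a field F₀ with p^(f/r) elements and some anisotropic binary part over F₀; and the G-class of x is a single T-class. -/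
theorem result {F : Type*} [Field F] [Fintype F] {p f : ℕ} [Fact p.Prime] (hF : Fintype.card F = p ^ f) (hf : 1 ≤ f) {m : ℕ} (hm : 3 ≤ m) (a b : F) (hab : (∀ z₁ z₂ : F, z₁ ^ 2 + a * z₁ * z₂ + b * z₂ ^ 2 = 0 → z₁ = 0 ∧ z₂ = 0)) (x : MulAut (Cfsg.POmega F (Cfsg.quadFormMinus m F a b))) (hx : Cfsg.IsFieldAutClassPOmegaMinus m x) {r : ℕ} (hr : r.Prime) (hxr : orderOf x = r) (F₀ : Type*) [Field F₀] [Fintype F₀] (hF₀ : Fintype.card F₀ = p ^ (f / r)) :
    Odd r ∧ r ∣ f ∧ (∃ a₀ b₀ : F₀, (∀ z₁ z₂ : F₀, z₁ ^ 2 + a₀ * z₁ * z₂ + b₀ * z₂ ^ 2 = 0 → z₁ = 0 ∧ z₂ = 0) ∧ Nonempty (↥(Cfsg.inndiagPOmegaMinus m F a b ⊓ Subgroup.centralizer {x}) ≃* ↥(Cfsg.inndiagPOmegaMinus m F₀ a₀ b₀))) ∧ Cfsg.splitClassCount (Cfsg.inndiagPOmegaMinus m F a b) (Cfsg.Inn (Cfsg.POmega F (Cfsg.quadFormMinus m F a b))) x = 1 := by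
  have h := big_minusQ (m := m) (by omega) hab
  have hA := model_aM h
  obtain ⟨g, rfl, h1⟩ := field_minus hm hab hx
  have h3 := hA.orderOf_σ hr hxr h1
  obtain ⟨h4, h5⟩ := Classical.AutPSL3.card_fixF (Nat.card_eq_fintype_card.trans hF) h3
  obtain ⟨φ, hφ⟩ := exists_fix_hom (K := F₀) (σ := g.σ) (by rw [h5, Nat.card_eq_fintype_card, hF₀])
  obtain ⟨b₀, hb⟩ := exists_aniso (F := F₀)
  have h₀ := big_minusQ (m := m) (by omega) hb
  obtain ⟨c, j, e, h7, h8, hj, h9⟩ := hA.exists_form h1 hr hxr hφ h₀.nd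
    (finrank_minus.trans finrank_minus.symm)
    (iff_of_false (not_isPlus_minusQ m hb) fun h => not_isPlus_minusQ m hab h.1)
  rw [← h8] at hφ h3
  have ho : Odd r := hr.odd_of_ne_two fun h10 => not_isPlus_minusQ m hab
    (hj.isPlus_of_sq h (even_of_eq finrank_minus) (by rw [card_eq_of_fix hφ, h3, h10]))
  refine ⟨ho, h4, ⟨1, b₀, hb, ?_⟩, ?_⟩
  · rw [inndiag_minus hab h, inndiag_minus hb h₀, h7]
    exact hA.centralizer_equiv (model_aM h₀) hj h9 hφ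
  · rw [inndiag_minus hab h, h7]
    exact hA.split_odd hj h9 hφ (h3 ▸ ho)

end Cfsg.Agent.S2716
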