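import Mathlib
import Cfsg.Statements.S2717
import Cfsg.Agent.Classical.GamO8

set_option autoImplicit false
set_option backward.isDefEq.respectTransparency false
open Cfsg

namespace Cfsg.Agent.S2717

open Classical.GamO Orth

/-- Let T = PΩ⁺_{2m}(F) with m ≥ 5 (dimension 2m ≠ 8) and |F| = p^f, G = Inndiag(T), and x an involutory graph-field automorphism of T. Then f is even; any two involutory graph-field automorphisms of T are G-conjugate; C_G(x) is isomorphic to Inndiag(PΩ⁻_{2m}(F₀)) for a field F₀ with p^(f/2) elements (some anisotropic binary part over F₀); and the G-class of x is the union of exactly c T-classes with c = 1 if p = 2, c = 4 if p is odd, m is odd and p^(f/2) ≡ 1 (mod 4), and c = 2 otherwise. -/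
theorem result {F : Type*} [Field F] [Fintype F] {p f : ℕ} [Fact p.Prime] (hF : Fintype.card F = p ^ f) (hf : 1 ≤ f) {m : ℕ} (hm : 5 ≤ m) (x : MulAut (Cfsg.POmega F (Cfsg.quadFormPlus m F))) (hx : Cfsg.IsGraphFieldAutClassPOmegaPlus m x) (hx2 : orderOf x = 2) (F₀ : Type*) [Field F₀] [Fintype F₀] (hF₀ : Fintype.card F₀ = p ^ (f / 2)) :
    Even f ∧ (∀ y : MulAut (Cfsg.POmega F (Cfsg.quadFormPlus m F)), Cfsg.IsGraphFieldAutClassPOmegaPlus m y → orderOf y = 2 → Cfsg.IsConjUnder (Cfsg.inndiagPOmegaPlus m F) x y) ∧ (∃ a₀ b₀ : F₀, (∀ z₁ z₂ : F₀, z₁ ^ 2 + a₀ * z₁ * z₂ + b₀ * z₂ ^ 2 = 0 → z₁ = 0 ∧ z₂ = 0) ∧ Nonempty (↥(Cfsg.inndiagPOmegaPlus m F ⊓ Subgroup.centralizer {x}) ≃* ↥(Cfsg.inndiagPOmegaMinus (m - 1) F₀ a₀ b₀))) ∧ (p = 2 → Cfsg.splitClassCount (Cfsg.inndiagPOmegaPlus m F) (Cfsg.Inn (Cfsg.POmega F (Cfsg.quadFormPlus m F))) x = 1) ∧ ((p ≠ 2 ∧ Odd m ∧ p ^ (f / 2) % 4 = 1) → Cfsg.splitClassCount (Cfsg.inndiagPOmegaPlus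 m F) (Cfsg.Inn (Cfsg.POmega F (Cfsg.quadFormPlus m F))) x = 4) ∧ ((p ≠ 2 ∧ ¬ (Odd m ∧ p ^ (f / 2) % 4 = 1)) → Cfsg.splitClassCount (Cfsg.inndiagPOmegaPlus m F) (Cfsg.Inn (Cfsg.POmega F (Cfsg.quadFormPlus m F))) x = 2) := by
  obtain ⟨k, rfl⟩ : ∃ k, m = k + 1 := ⟨m - 1, by omega⟩
  have h := big_plusQ (F := F) (m := k + 1) (by omega)
  have hA := model_aM h
  have hp := isPlus_plusQ (F := F) (k + 1)
  have hF' := Nat.card_eq_fintype_card.trans hF
  obtain ⟨g, rfl, h1, h2⟩ := graphField_plus hm hx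
  have h3 := hA.orderOf_σ Nat.prime_two hx2 h1
  obtain ⟨h4, h5⟩ := Classical.AutPSL3.card_fixF hF' h3
  obtain ⟨φ, hφ⟩ := exists_fix_hom (K := F₀) (σ := g.σ) (by rw [h5, Nat.card_eq_fintype_card, hF₀])
  obtain ⟨b₀, hb⟩ := exists_aniso (F := F₀)
  have h₀ := big_minusQ (m := k) (by omega) hb
  obtain ⟨c, j, e, h7, h8, hj, h9⟩ := hA.exists_form h1 Nat.prime_two hx2 hφ h₀.nd
    (finrank_minus.trans (finrank_plus _).symm)
    (iff_of_false (not_isPlus_minusQ k hb) fun h => h2 h.2)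
  have key : p ≠ 2 → splitClassCount _ _ (aM g) = if Odd (k + 1) ∧ p ^ (f / 2) % 4 = 1 then 4 else 2 :=
    fun hp2 => by
      have ho := (Fact.out : p.Prime).odd_of_ne_two hp2
      have h10 := Nat.odd_iff.1 (ho.pow (n := f / 2))
      rw [h7, hA.split_two hj h9 (h8 ▸ hφ) (h8 ▸ h3) (two_ne_zero_of_odd (hF ▸ ho.pow))
        (finrank_plus _), negOne_minus (hF₀ ▸ ho.pow) hb, hF₀]
      simp only [Nat.even_iff, Nat.odd_iff]
      split_ifs <;> omega
  rw [inndiag_plus h]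
  refine ⟨even_iff_two_dvd.2 h4, fun y hy hy2 => ?_, ⟨1, b₀, hb, ?_⟩, fun h10 => ?_,
    fun h10 => (key h10.1).trans (if_pos h10.2), fun h10 => (key h10.1).trans (if_neg h10.2)⟩
  · obtain ⟨g', rfl, h11, h12⟩ := graphField_plus hm hy
    have h13 : ∀ {σ : F ≃+* F}, orderOf σ = 2 → ∀ a, σ a = a ^ Nat.card F₀ := fun h =>
      (Classical.AutPSL3.inv_of_sq (by rintro rfl; simp at h) (by rw [← h, pow_orderOf_eq_one])).apply_pow
        (h3 ▸ card_eq_of_fix hφ)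
    have h14 : g'.σ = g.σ := RingEquiv.ext fun a =>
      (h13 (hA.orderOf_σ Nat.prime_two hy2 h11) a).trans (h13 h3 a).symm
    have h15 : g' * g⁻¹ ∈ DO _ := (mem_DO_iff_pres h hp).2 ⟨by simp [h14], by
      have := pres_mul h.nd hp (g' * g⁻¹) g
      rw [inv_mul_cancel_right] at this
      tauto⟩
    have := (hA.lang_iff h1 Nat.prime_two hx2 ⟨_, h15, rfl⟩).1
    rw [← map_mul, inv_mul_cancel_right] at this
    exact this hy2
  · rw [h7]
    exact (inndiag_minus hb h₀).symm ▸ hA.centralizer_equiv (model_aM h₀) hj h9 (h8 ▸ hφ)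
  · subst h10
    haveI := Classical.Congr.charP_of_card hF'
    rw [h7]
    exact (hA.split_two_of hj h9 (h8 ▸ hφ) (h8 ▸ h3) (Or.inl two_eq_zero_of_charP)).trans
      (Subgroup.relIndex_eq_one.2 (DO_even two_eq_zero_of_charP).le)

end Cfsg.Agent.S2717
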