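import Mathlib
import Cfsg.Statements.S2718
import Cfsg.Agent.Classical.GamO10

set_option autoImplicit false
set_option backward.isDefEq.respectTransparency false
open Cfsg

namespace Cfsg.Agent.S2718

open Classical.GamO Orth

/-- Let T = PΩ⁺_{2m}(F) with m ≥ 4 and |F| = q odd, G = Inndiag(T), and γ an involutory graph automorphism of T induced by a similarity (one interchanging the two classes of maximal totally singular subspaces). Then the G-class of γ is either a single T-class or the union of exactly two T-classes, and it is the union of two unless m is odd and q ≡ 3 (mod 4). -/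
theorem result {F : Type*} [Field F] [Fintype F] (hodd : Odd (Fintype.card F)) {m : ℕ} (hm : 4 ≤ m) (γ : MulAut (Cfsg.POmega F (Cfsg.quadFormPlus m F))) (hγ : Cfsg.IsSimilarityGraphAutPOmegaPlus m γ) (hγ2 : orderOf γ = 2) :
    (Cfsg.splitClassCount (Cfsg.inndiagPOmegaPlus m F) (Cfsg.Inn (Cfsg.POmega F (Cfsg.quadFormPlus m F))) γ = 1 ∨ Cfsg.splitClassCount (Cfsg.inndiagPOmegaPlus m F) (Cfsg.Inn (Cfsg.POmega F (Cfsg.quadFormPlus m F))) γ = 2) ∧ (¬ (Odd m ∧ Fintype.card F % 4 = 3) → Cfsg.splitClassCount (Cfsg.inndiagPOmegaPlus m F) (Cfsg.Inn (Cfsg.POmega F (Cfsg.quadFormPlus m F))) γ = 2) := by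
  have h := big_plusQ (F := F) (m := m) (by omega)
  have h2 := two_ne_zero_of_odd hodd
  have hA := model_aM h
  obtain ⟨g, h1, h3, h4⟩ := hγ
  obtain ⟨a, h5, h6⟩ := exists_gam (Q := plusQ m F) (σ := RingEquiv.refl F) h1
  obtain rfl := (isInduced_iff h6).1 (h5 ▸ h4)
  have h7 : a ∉ DO _ := fun h7 => h3 ((preserves_iff h.nd (isPlus_plusQ m)
    (by simpa [h5] using h6)).2 ((mem_DO_iff_pres h (isPlus_plusQ m)).1 h7).2)
  rw [inndiag_plus h]
  exact ⟨hA.split_graph_or h2 (finrank_plus m) h5 h7 hγ2, fun h8 =>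
    hA.split_graph h2 (finrank_plus m) h5 h7 hγ2 (Or.inl ((negOne_plus hodd).2 h8))⟩

end Cfsg.Agent.S2718
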