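import Mathlib
import Cfsg.Statements.S2719
import Cfsg.Agent.Classical.GamO10

set_option autoImplicit false
set_option backward.isDefEq.respectTransparency false
open Cfsg

namespace Cfsg.Agent.S2719

open Classical.GamO Orth

/-- Let T = PΩ⁻_{2m+2}(F) with m ≥ 3 and |F| = q odd (form with anisotropic binary part z₁² + a z₁ z₂ + b z₂²), G = Inndiag(T), and γ an involutory graph automorphism of T (an automorphism in the image of the semisimilarity group, not inner-diagonal, of order 2). Then the G-class of γ is either a single T-class or the union of exactly two T-classes, and it is the union of two unless m is even and q ≡ 1 (mod 4). -/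
theorem result {F : Type*} [Field F] [Fintype F] (hodd : Odd (Fintype.card F)) {m : ℕ} (hm : 3 ≤ m) (a b : F) (hab : (∀ z₁ z₂ : F, z₁ ^ 2 + a * z₁ * z₂ + b * z₂ ^ 2 = 0 → z₁ = 0 ∧ z₂ = 0)) (γ : MulAut (Cfsg.POmega F (Cfsg.quadFormMinus m F a b))) (hγ : Cfsg.IsGraphAutClassPOmegaMinus m a b γ) (hγ2 : orderOf γ = 2) :
    (Cfsg.splitClassCount (Cfsg.inndiagPOmegaMinus m F a b) (Cfsg.Inn (Cfsg.POmega F (Cfsg.quadFormMinus m F a b))) γ = 1 ∨ Cfsg.splitClassCount (Cfsg.inndiagPOmegaMinus m F a b) (Cfsg.Inn (Cfsg.POmega F (Cfsg.quadFormMinus m F a b))) γ = 2) ∧ (¬ (Even m ∧ Fintype.card F % 4 = 1) → Cfsg.splitClassCount (Cfsg.inndiagPOmegaMinus m F a b) (Cfsg.Inn (Cfsg.POmega F (Cfsg.quadFormMinus m F a b))) γ = 2) := by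
  have h := big_minusQ (m := m) (by omega) hab
  have h2 := two_ne_zero_of_odd hodd
  have hA := model_aM h
  have hp := not_isPlus_minusQ m hab
  obtain ⟨g, rfl⟩ := surj_minus hm hab γ
  rw [inndiag_minus hab h]
  have h7 : g ∉ DO _ := fun h7 => hγ.2.1 ((inndiag_minus hab h).ge ⟨g, h7, rfl⟩)
  have h5 : g.σ = 1 := by_contra fun h5 => by
    obtain ⟨c, hc⟩ := hA.exists_pow h5 Nat.prime_two hγ2
    obtain ⟨φ, hφ⟩ := exists_fix_hom (σ := g.σ) rfl
    have h8 := hA.orderOf_σ Nat.prime_two hγ2 h5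
    obtain ⟨n, Q₀, j, e, hj, -⟩ := exists_form (a := sc _ c * g) two_ne_zero (h8 :) hc hφ
    exact hp (hj.isPlus_of_sq h (even_of_eq finrank_minus) (by rw [card_eq_of_fix hφ, h8]))
  refine ⟨hA.split_graph_or h2 finrank_minus h5 h7 hγ2, fun h8 =>
    hA.split_graph h2 finrank_minus h5 h7 hγ2 ?_⟩
  have := Nat.odd_iff.1 hodd
  simp only [negOne_minus hodd hab, hp, Nat.even_iff] at h8 ⊢
  simp; omega

end Cfsg.Agent.S2719
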