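import Mathlib
import Cfsg.Statements.S2722
import Cfsg.Agent.Classical.GamO7

set_option autoImplicit false
set_option backward.isDefEq.respectTransparency false
open Cfsg

namespace Cfsg.Agent.S2722

open Classical.GamO Orth

/-- Let T = PΩ⁺_{2m}(F) with m ≥ 4 and |F| = q odd. Inside Aut(T), the image G̃ of the conformal orthogonal group of the form modulo the image of the special orthogonal group is elementary abelian of order 4. -/
theorem result {F : Type*} [Field F] [Fintype F] (hodd : Odd (Fintype.card F)) {m : ℕ} (hm : 4 ≤ m) :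
    (∃ φ : ↥(Cfsg.pgoAut F (Cfsg.quadFormPlus m F)) →* Multiplicative (ZMod 2 × ZMod 2), Function.Surjective φ ∧ φ.ker = (Cfsg.psoAut F (Cfsg.quadFormPlus m F)).subgroupOf (Cfsg.pgoAut F (Cfsg.quadFormPlus m F))) := by
  have h := big_plusQ (F := F) (m := m) (by omega)
  have h2 := two_ne_zero_of_odd hodd
  have hn := finrank_plus (F := F) m
  have h4 := negOne_plus (m := m) hodd
  have hA := model_aM h
  have := hA.qiso (NO_le_SZ h) (qiso_SZ h h2 hn)
  rwa [← pgoAut_eq, ← psoAut_eq h h2 (even_of_eq hn)] at this

end Cfsg.Agent.S2722
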