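import Mathlib
import Cfsg.Statements.S2723
import Cfsg.Agent.Classical.GamO7

set_option autoImplicit false
set_option backward.isDefEq.respectTransparency false
open Cfsg

namespace Cfsg.Agent.S2723

open Classical.GamO Orth

/-- Let T = PΩ⁺_{2m}(F) with m ≥ 4 and |F| = q odd. The image of the special orthogonal group in Aut(T) contains the inner automorphism group T with index 1 (they coincide) when m is odd and q ≡ 3 (mod 4), and with index 2 otherwise (the index is 2 exactly when the discriminant of the form is a square). -/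
theorem result {F : Type*} [Field F] [Fintype F] (hodd : Odd (Fintype.card F)) {m : ℕ} (hm : 4 ≤ m) :
    ((Odd m ∧ Fintype.card F % 4 = 3) → (Cfsg.Inn (Cfsg.POmega F (Cfsg.quadFormPlus m F))).relIndex (Cfsg.psoAut F (Cfsg.quadFormPlus m F)) = 1) ∧ (¬ (Odd m ∧ Fintype.card F % 4 = 3) → (Cfsg.Inn (Cfsg.POmega F (Cfsg.quadFormPlus m F))).relIndex (Cfsg.psoAut F (Cfsg.quadFormPlus m F)) = 2) := by
  have h := big_plusQ (F := F) (m := m) (by omega)
  have h2 := two_ne_zero_of_odd hodd
  have hn := finrank_plus (F := F) m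
  have h4 := negOne_plus (m := m) hodd
  have hA := model_aM h
  have := hA.relIndex_map le_rfl (NO_le_SZ h)
  rw [← hA.inn, ← psoAut_eq h h2 (even_of_eq hn)] at this
  exact ⟨fun h3 => this.trans (Subgroup.relIndex_eq_one.2
    (SZ_le h (even_of_eq hn) fun h5 => h4.1 h5 h3)),
    fun h3 => this.trans (relIndex_SZ_of_mem h h2 (h4.2 h3))⟩

end Cfsg.Agent.S2723
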