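import Mathlib
import Cfsg.Statements.S2724
import Cfsg.Agent.Classical.GamO7

set_option autoImplicit false
set_option backward.isDefEq.respectTransparency false
open Cfsg

namespace Cfsg.Agent.S2724

open Classical.GamO Orth

/-- Let T = PΩ⁺_{2m}(F) with m ≥ 4 and |F| = q odd. The image G̃ of the conformal orthogonal group in Aut(T), taken modulo the inner automorphism group T, is elementary abelian of order 4 when m is odd and q ≡ 3 (mod 4), and dihedral of order 8 otherwise. -/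
theorem result {F : Type*} [Field F] [Fintype F] (hodd : Odd (Fintype.card F)) {m : ℕ} (hm : 4 ≤ m) :
    ((Odd m ∧ Fintype.card F % 4 = 3) → (∃ φ : ↥(Cfsg.pgoAut F (Cfsg.quadFormPlus m F)) →* Multiplicative (ZMod 2 × ZMod 2), Function.Surjective φ ∧ φ.ker = (Cfsg.Inn (Cfsg.POmega F (Cfsg.quadFormPlus m F))).subgroupOf (Cfsg.pgoAut F (Cfsg.quadFormPlus m F)))) ∧ (¬ (Odd m ∧ Fintype.card F % 4 = 3) → (∃ φ : ↥(Cfsg.pgoAut F (Cfsg.quadFormPlus m F)) →* DihedralGroup 4, Function.Surjective φ ∧ φ.ker = (Cfsg.Inn (Cfsg.POmega F (Cfsg.quadFormPlus m F))).subgroupOf (Cfsg.pgoAut F (Cfsg.quadFormPlus m F)))) := by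
  have h := big_plusQ (F := F) (m := m) (by omega)
  have h2 := two_ne_zero_of_odd hodd
  have hn := finrank_plus (F := F) m
  have h4 := negOne_plus (m := m) hodd
  have hA := model_aM h
  have key : ∀ (C : Type) [Group C], QIso (NO _) (GO (plusQ m F)) C →
      QIso (Inn _) (pgoAut F (plusQ m F)) C := fun C _ h5 => by
    rw [pgoAut_eq, hA.inn]; exact hA.qiso le_rfl h5
  refine ⟨fun h3 => key _ ?_, fun h3 => key _ (qiso_dih h h2 hn (h4.2 h3))⟩
  rw [le_antisymm (NO_le_SZ h) (SZ_le h (even_of_eq hn) fun h5 => h4.1 h5 h3)]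
  exact qiso_SZ h h2 hn

end Cfsg.Agent.S2724
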