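import Mathlib
import Cfsg.Statements.S2725
import Cfsg.Agent.Classical.GamO7

set_option autoImplicit false
set_option backward.isDefEq.respectTransparency false
open Cfsg

namespace Cfsg.Agent.S2725

open Classical.GamO Orth

/-- Let T = PΩ⁺_{2m}(F) with m ≥ 4 and |F| = q odd. The inner-diagonal group G = Inndiag(T) (image of the class-preserving similarities) taken modulo the inner automorphism group T is cyclic of order 2 when m is odd and q ≡ 3 (mod 4), cyclic of order 4 when m is odd and q ≡ 1 (mod 4), and elementary abelian of order 4 when m is even. -/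
theorem result {F : Type*} [Field F] [Fintype F] (hodd : Odd (Fintype.card F)) {m : ℕ} (hm : 4 ≤ m) :
    ((Odd m ∧ Fintype.card F % 4 = 3) → (∃ φ : ↥(Cfsg.inndiagPOmegaPlus m F) →* Multiplicative (ZMod 2), Function.Surjective φ ∧ φ.ker = (Cfsg.Inn (Cfsg.POmega F (Cfsg.quadFormPlus m F))).subgroupOf (Cfsg.inndiagPOmegaPlus m F))) ∧ ((Odd m ∧ Fintype.card F % 4 = 1) → (∃ φ : ↥(Cfsg.inndiagPOmegaPlus m F) →* Multiplicative (ZMod 4), Function.Surjective φ ∧ φ.ker = (Cfsg.Inn (Cfsg.POmega F (Cfsg.quadFormPlus m F))).subgroupOf (Cfsg.inndiagPOmegaPlus m F))) ∧ (Even m → (∃ φ : ↥(Cfsg.inndiagPOmegaPlus m F) →* Multiplicative (ZMod 2 × ZMod 2), Function.Surjective φ ∧ φ.ker = (Cfsg.Inn (Cfsg.POmega F (Cfsg.quadFormPlus m F))).subgroupOf (Cfsg.inndiagPOmegaPlus m F))) := by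
  have h := big_plusQ (F := F) (m := m) (by omega)
  have h2 := two_ne_zero_of_odd hodd
  have hn := finrank_plus (F := F) m
  have h4 := negOne_plus (m := m) hodd
  have hA := model_aM h
  have key : ∀ (C : Type) [Group C], QIso (NO _) (DO (plusQ m F)) C →
      QIso (Inn _) (inndiagPOmegaPlus m F) C := fun C _ h5 => by
    rw [inndiag_plus h]; exact hA.inn ▸ hA.qiso le_rfl h5
  refine ⟨fun h3 => key _ (qiso_two ?_), fun h3 => key _ (qiso_four h h2 hn (h4.2 (by omega)) h3.1),
    fun h3 => key _ (qiso_DO_klein h h2 hn (h4.2 fun h5 => Nat.not_odd_iff_even.2 h3 h5.1) h3)⟩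
  rw [relIndex_DO_eq h h2 hn,
    Subgroup.relIndex_eq_one.2 (SZ_le h (even_of_eq hn) fun h5 => h4.1 h5 h3)]

end Cfsg.Agent.S2725
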