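import Mathlib
import Cfsg.Statements.S2726
import Cfsg.Agent.Classical.GamO7

set_option autoImplicit false
set_option backward.isDefEq.respectTransparency false
open Cfsg

namespace Cfsg.Agent.S2726

open Classical.GamO Orth

/-- Let T = PΩ⁻_{2m+2}(F) with m ≥ 3 and |F| = q odd (form with anisotropic binary part). Inside Aut(T), the image G̃ of the conformal orthogonal group of the form modulo the image of the special orthogonal group is elementary abelian of order 4. -/
theorem result {F : Type*} [Field F] [Fintype F] (hodd : Odd (Fintype.card F)) {m : ℕ} (hm : 3 ≤ m) (a b : F) (hab : (∀ z₁ z₂ : F, z₁ ^ 2 + a * z₁ * z₂ + b * z₂ ^ 2 = 0 → z₁ = 0 ∧ z₂ = 0)) :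
    (∃ φ : ↥(Cfsg.pgoAut F (Cfsg.quadFormMinus m F a b)) →* Multiplicative (ZMod 2 × ZMod 2), Function.Surjective φ ∧ φ.ker = (Cfsg.psoAut F (Cfsg.quadFormMinus m F a b)).subgroupOf (Cfsg.pgoAut F (Cfsg.quadFormMinus m F a b))) := by
  have h := big_minusQ (m := m) (by omega) hab
  have h2 := two_ne_zero_of_odd hodd
  have hn := finrank_minus (F := F) (m := m)
  have h4 := negOne_minus (m := m) hodd hab
  have hA := model_aM h
  have := hA.qiso (NO_le_SZ h) (qiso_SZ h h2 hn)
  rwa [← pgoAut_eq, ← psoAut_eq h h2 (even_of_eq hn)] at this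

end Cfsg.Agent.S2726
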