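import Mathlib
import Cfsg.Statements.S2729
import Cfsg.Agent.Classical.GamO7

set_option autoImplicit false
set_option backward.isDefEq.respectTransparency false
open Cfsg

namespace Cfsg.Agent.S2729

open Classical.GamO Orth

/-- Let T = PΩ⁻_{2m+2}(F) with m ≥ 3 and |F| = q odd (form with anisotropic binary part). The inner-diagonal group G = Inndiag(T) (image of the class-preserving similarities) taken modulo the inner automorphism group T is cyclic of order 4 when m is even and q ≡ 3 (mod 4), and of order 2 otherwise. -/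
theorem result {F : Type*} [Field F] [Fintype F] (hodd : Odd (Fintype.card F)) {m : ℕ} (hm : 3 ≤ m) (a b : F) (hab : (∀ z₁ z₂ : F, z₁ ^ 2 + a * z₁ * z₂ + b * z₂ ^ 2 = 0 → z₁ = 0 ∧ z₂ = 0)) :
    ((Even m ∧ Fintype.card F % 4 = 3) → (∃ φ : ↥(Cfsg.inndiagPOmegaMinus m F a b) →* Multiplicative (ZMod 4), Function.Surjective φ ∧ φ.ker = (Cfsg.Inn (Cfsg.POmega F (Cfsg.quadFormMinus m F a b))).subgroupOf (Cfsg.inndiagPOmegaMinus m F a b))) ∧ (¬ (Even m ∧ Fintype.card F % 4 = 3) → (∃ φ : ↥(Cfsg.inndiagPOmegaMinus m F a b) →* Multiplicative (ZMod 2), Function.Surjective φ ∧ φ.ker = (Cfsg.Inn (Cfsg.POmega F (Cfsg.quadFormMinus m F a b))).subgroupOf (Cfsg.inndiagPOmegaMinus m F a b))) := by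
  have h := big_minusQ (m := m) (by omega) hab
  have h2 := two_ne_zero_of_odd hodd
  have hn := finrank_minus (F := F) (m := m)
  have h4 := negOne_minus (m := m) hodd hab
  have hA := model_aM h
  have key : ∀ (C : Type) [Group C], QIso (NO _) (DO (minusQ m F a b)) C →
      QIso (Inn _) (inndiagPOmegaMinus m F a b) C := fun C _ h5 => by
    rw [inndiag_minus hab h]; exact hA.inn ▸ hA.qiso le_rfl h5
  refine ⟨fun h3 => key _ (qiso_four h h2 hn (h4.2 h3) h3.1.add_one), fun h3 => key _ (qiso_two ?_)⟩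
  rw [relIndex_DO_eq h h2 hn, Subgroup.relIndex_eq_one.2 (SZ_le h (even_of_eq hn) (h4.not.2 h3))]

end Cfsg.Agent.S2729
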