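import Cfsg.Statements.S2734
import Mathlib
import Cfsg.Agent.Chev.Fix

set_option autoImplicit false
open Cfsg

namespace Cfsg.Agent.S2734
open Cfsg.Lie Cfsg.Agent.Chev

/-- In the Chevalley group of type D₄ over a finite field F (the matrix group generated by the root elements), a graph automorphism attached to a symmetry π of the Dynkin diagram (sending each fundamental root element x_p(t) to x_{π(p)}(t) and each x_{−p}(t) to x_{−π(p)}(t)) that has order 3 — a standard triality graph automorphism, π being a 3-cycle of the three outer nodes — has fixed-point subgroup isomorphic to the Chevalley group of type G₂ over F. -/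
theorem result {F : Type*} [Field F] [Fintype F] (τ : MulAut ↥(Cfsg.Lie.chevD4.group F)) (hτ : Cfsg.Lie.chevD4.IsGraphAut τ) (hτ3 : orderOf τ = 3) :
    Nonempty (↥(MonoidHom.eqLocus τ.toMonoidHom (MonoidHom.id ↥(Cfsg.Lie.chevD4.group F))) ≃* ↥(Cfsg.Lie.chevG2.group F)) := by
  letI := good2D4
  obtain ⟨π, h2, h3⟩ := exists_isGA bond_D4 (by decide +kernel) (by decide +kernel) hτ
  have key : π * π ≠ 1 := fun e => by
    have := orderOf_dvd_of_pow_eq_one ((pow_two τ).trans (e ▸ h3.mul h3).eq_one)
    rw [hτ3] at this
    omega
  simp only [List.mem_cons, List.not_mem_nil, or_false] at h2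
  rcases h2 with rfl | rfl | rfl | rfl | rfl | rfl
  · exact absurd (one_mul _) key
  · exact fix_D4 h3 fun _ => Iff.rfl
  · have e : symD4b.π⁻¹ = symD4a.π := by decide +kernel
    refine fix_D4 (e ▸ h3.inv) fun a => ?_
    rw [MulAut.inv_apply, MulEquiv.symm_apply_eq, eq_comm]
    rfl
  all_goals exact absurd (by decide +kernel) key

end Cfsg.Agent.S2734
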