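import Mathlib
import Cfsg.Statements.S2738
import Cfsg.Agent.Classical.SLBasic

set_option autoImplicit false
open Cfsg

namespace Cfsg.Agent.S2738

theorem aux {G : Type*} [Group G] {K : Subgroup G} (hK : (Subgroup.center G).IsComplement' K) :
    commutator G ≤ K := by
  haveI : K.Normal := ⟨fun x hx g => by
    obtain ⟨⟨a, b⟩, rfl, -⟩ := hK.existsUnique g
    rw [← Subgroup.mem_center_iff.mp a.2, mul_inv_rev, mul_assoc (b : G), ← Subgroup.mem_center_iff.mp a.2]
    simpa [mul_assoc] using mul_mem (mul_mem b.2 hx) (inv_mem b.2)⟩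
  refine Subgroup.Normal.quotient_commutative_iff_commutator_le.mp ⟨⟨fun x y => ?_⟩⟩
  obtain ⟨x, rfl⟩ := QuotientGroup.mk_surjective x
  obtain ⟨y, rfl⟩ := QuotientGroup.mk_surjective y
  obtain ⟨⟨a, b⟩, rfl, -⟩ := hK.existsUnique x
  rw [QuotientGroup.mk_mul_of_mem _ b.2, ← QuotientGroup.mk_mul, ← QuotientGroup.mk_mul,
    Subgroup.mem_center_iff.mp a.2]

/-- The special linear group SL(3, 4) has centre of order 3 and does not split over it: no subgroup is a complement to the centre (so SL(3, 4) is a non-split central extension of PSL(3, 4) by a group of order 3). -/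
theorem result (F : Type*) [Field F] [Fintype F] (hF : Fintype.card F = 4) : Nat.card ↥(Subgroup.center (Matrix.SpecialLinearGroup (Fin 3) F)) = 3 ∧ ¬ ∃ K : Subgroup (Matrix.SpecialLinearGroup (Fin 3) F), Subgroup.IsComplement' (Subgroup.center (Matrix.SpecialLinearGroup (Fin 3) F)) K := by
  have h1 : Nat.card ↥(Subgroup.center (Matrix.SpecialLinearGroup (Fin 3) F)) = 3 := by
    rw [Classical.SLBasic.card_center_SL, Nat.card_eq_fintype_card, hF]; rfl
  refine ⟨h1, fun ⟨K, hK⟩ => ?_⟩
  have h2 := aux hK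
  rw [Classical.SLBasic.commutator_SL_eq_top (by simp), top_le_iff] at h2
  have h3 := hK.disjoint
  rw [h2, disjoint_top] at h3
  rw [h3, Subgroup.card_bot] at h1
  omega

end Cfsg.Agent.S2738
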