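import Mathlib
import Cfsg.Statements.S2751
import Cfsg.Agent.PLocal.Tri9

set_option autoImplicit false
open Cfsg

namespace Cfsg.Agent.S2751

/-- Goldschmidt's bound for amalgams of index (3, 3): let M₁ and M₂ be finite subgroups of a group G such that M₁ ⊓ M₂ is a Sylow 2-subgroup of both M₁ and M₂, each quotient Mᵢ / O₂(Mᵢ) is isomorphic to the symmetric group of degree 3, and no nontrivial subgroup of M₁ ⊓ M₂ is normal in both M₁ and M₂. Then M₁ ⊓ M₂ has order at most 2^7. -/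
theorem result {G : Type*} [Group G] (M₁ M₂ : Subgroup G) [Finite M₁] [Finite M₂] (ha₁ : ∃ P : Sylow 2 M₁, (P : Subgroup M₁) = (M₁ ⊓ M₂).subgroupOf M₁) (ha₂ : ∃ P : Sylow 2 M₂, (P : Subgroup M₂) = (M₁ ⊓ M₂).subgroupOf M₂) (hb₁ : Nonempty (M₁ ⧸ Cfsg.pCore 2 M₁ ≃* Equiv.Perm (Fin 3))) (hb₂ : Nonempty (M₂ ⧸ Cfsg.pCore 2 M₂ ≃* Equiv.Perm (Fin 3))) (hc : ∀ N : Subgroup G, N ≤ M₁ ⊓ M₂ → (N.subgroupOf M₁).Normal → (N.subgroupOf M₂).Normal → N = ⊥) : Nat.card ↥(M₁ ⊓ M₂) ≤ 2 ^ 7 := by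
  obtain ⟨P₁, h₁⟩ := ha₁
  obtain ⟨P₂, h₂⟩ := ha₂
  obtain ⟨e₁⟩ := hb₁
  obtain ⟨e₂⟩ := hb₂
  have s₁ := LocalEven.isSylowIn_of_subgroupOf inf_le_left P₁ h₁
  have s₂ := LocalEven.isSylowIn_of_subgroupOf inf_le_right P₂ h₂
  exact PLocal.Am3.card_le ⟨‹_›, ‹_›, s₁.pgrp, (PLocal.idx_of_S3 s₁ e₁).1, (PLocal.idx_of_S3 s₂ e₂).1,
    (PLocal.idx_of_S3 s₁ e₁).2, (PLocal.idx_of_S3 s₂ e₂).2, fun N h a b => hc N h
      ((Subgroup.normal_subgroupOf_iff_le_normalizer (h.trans inf_le_left)).2 a)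
      ((Subgroup.normal_subgroupOf_iff_le_normalizer (h.trans inf_le_right)).2 b)⟩

end Cfsg.Agent.S2751
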