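import Cfsg.Statements.S2762
import Cfsg.Agent.Glaub.Qd

set_option autoImplicit false
open Cfsg

namespace Cfsg.Agent.S2762

open Cfsg.Agent.LocalEven Cfsg.Agent.Glaub

/-- Structure of Qd over a finite field F of characteristic p (the affine subgroup of SL₃(F)): its largest normal p-subgroup is the group of translations (matrices with upper-left block the identity), the block-diagonal matrices form a complement isomorphic to SL₂(F), and the translation subgroup is a natural SL₂(F)-module for that complement. -/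
theorem result {F : Type*} [Field F] [Fintype F] {p : ℕ} [Fact p.Prime] [CharP F p] : (∀ M : ↥(Cfsg.qdOver F), M ∈ Cfsg.pCore p ↥(Cfsg.qdOver F) ↔ ((M : Matrix.SpecialLinearGroup (Fin 3) F) : Matrix (Fin 3) (Fin 3) F) 0 0 = 1 ∧ ((M : Matrix.SpecialLinearGroup (Fin 3) F) : Matrix (Fin 3) (Fin 3) F) 0 1 = 0 ∧ ((M : Matrix.SpecialLinearGroup (Fin 3) F) : Matrix (Fin 3) (Fin 3) F) 1 0 = 0 ∧ ((M : Matrix.SpecialLinearGroup (Fin 3) F) : Matrix (Fin 3) (Fin 3) F) 1 1 = 1) ∧ ∃ K : Subgroup ↥(Cfsg.qdOver F), (∀ M : ↥(Cfsg.qdOver F), M ∈ K ↔ ((M : Matrix.SpecialLinearGroup (Fin 3) F) : Matrix (Fin 3) (Fin 3) F) 0 2 = 0 ∧ ((M : Matrix.SpecialLinearGroup (Fin 3) F) : Matrix (Fin 3) (Fin 3) F) 1 2 = 0) ∧ K ⊓ Cfsg.pCore p ↥(Cfsg.qdOver F) = ⊥ ∧ K ⊔ Cfsg.pCore p ↥(Cfsg.qdOver F) = ⊤ ∧ Nonempty (↥K ≃* Matrix.SpecialLinearGroup (Fin 2) F) ∧ Cfsg.IsNaturalSL2Module F (Cfsg.pCore p ↥(Cfsg.qdOver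 F)) K := by
  rw [show qdOver F = qdC F from rfl, pCore_qdC]
  refine ⟨fun M => ?_, (qsl F).range, fun M => ?_, eq_bot_iff.2 ?_, eq_top_iff.2 fun M _ => ?_,
    ⟨(MonoidHom.ofInjective qsl_injective).symm⟩, le_norm_of_normal _ _,
    (qlin F).comp (Subgroup.subtype _), ?_⟩
  · obtain ⟨x, s, rfl⟩ := exists_qa M
    rw [qa_mem_qV]
    exact ⟨fun h => by subst h; exact ⟨rfl, rfl, rfl, rfl⟩,
      fun ⟨h1, h2, h3, h4⟩ => Classical.SL2Basic.sl2_ext h1 h2 h3 h4⟩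
  · obtain ⟨x, s, rfl⟩ := exists_qa M
    refine ⟨fun ⟨t, h⟩ => ?_, fun ⟨h1, h2⟩ => ⟨s, qa_inj.2 ⟨?_, rfl⟩⟩⟩
    · obtain ⟨rfl, -⟩ := qa_inj.1 h
      exact ⟨rfl, rfl⟩
    · ext i
      fin_cases i
      exacts [h1.symm, h2.symm]
  · rintro _ ⟨⟨s, rfl⟩, h⟩
    rw [qa_mem_qV.1 h]
    exact map_one (qsl _)
  · obtain ⟨x, s, rfl⟩ := exists_qa M
    have : qa x s = qa x 1 * qa 0 s := by simp [qa_mul]
    rw [this]
    exact mul_mem (Subgroup.mem_sup_right (qa_mem_qV.2 rfl)) (Subgroup.mem_sup_left ⟨s, rfl⟩)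
  · let e : Multiplicative (Fin 2 → F) ≃* qV F :=
      (MonoidHom.ofInjective qtr_injective).trans (MulEquiv.subgroupCongr range_qtr)
    refine ⟨(MulEquiv.toAdditiveLeft e.symm), fun s => ⟨⟨_, s, rfl⟩, qlin_qa 0 s⟩, ?_, ?_⟩
    · rw [cent_qV]
      rfl
    · rintro ⟨_, s, rfl⟩ v
      obtain ⟨x, rfl⟩ := e.surjective v
      refine ⟨e (Multiplicative.ofAdd (s.1.mulVec x.toAdd)), (qa_conj 0 _ s).symm, ?_⟩
      change (e.symm (e _)).toAdd = (qlin F (qa 0 s)).1.mulVec (e.symm (e x)).toAdd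
      rw [e.symm_apply_apply, e.symm_apply_apply, qlin_qa]
      rfl

end Cfsg.Agent.S2762
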