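import Cfsg.Statements.S2764
import Cfsg.Agent.Push.PY

set_option autoImplicit false
open Cfsg

namespace Cfsg.Agent.S2764

open Cfsg.Agent.LocalEven Cfsg.Agent.Glaub

open Cfsg.Agent.Push Subgroup

/-- Pushing up for a rank-one quotient: let G be a finite group and p a prime with C_G(O_p(G)) ≤ O_p(G), suppose G/K ≅ PSL₂(p^n) for some normal subgroup K and some n ≥ 1, that a Sylow p-subgroup S of G lies in exactly one maximal subgroup of G, and that no nontrivial characteristic subgroup of S is normal in G. Then G/O_p(G) ≅ SL₂(p^n), and every noncentral chief factor U/W of G inside O_p(G) is a natural SL₂-module over the field with p^n elements for the action of G/W. -/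
theorem result {G : Type*} [Group G] [Finite G] {p : ℕ} [Fact p.Prime] (S : Sylow p G) (hE₁ : Subgroup.centralizer (Cfsg.pCore p G : Set G) ≤ Cfsg.pCore p G) (hE₂ : ∃! M : Subgroup G, IsCoatom M ∧ (S : Subgroup G) ≤ M) (K : Subgroup G) [K.Normal] (F : Type) [Field F] [Fintype F] (n : ℕ) (hn : 1 ≤ n) (hF : Fintype.card F = p ^ n) (hE₃ : Nonempty (G ⧸ K ≃* Matrix.ProjectiveSpecialLinearGroup (Fin 2) F)) (hd : ∀ T : Subgroup ↥(S : Subgroup G), T ≠ ⊥ → T.Characteristic → ¬ (T.map (S : Subgroup G).subtype).Normal) : Nonempty (G ⧸ Cfsg.pCore p G ≃* Matrix.SpecialLinearGroup (Fin 2) F) ∧ ∀ (U W : Subgroup G) [W.Normal], U ≤ Cfsg.pCore p G → Cfsg.IsChiefFactor U W → ¬ ⁅U, (⊤ : Subgroup G)⁆ ≤ W → Cfsg.IsNaturalSL2Module F (U.map (QuotientGroup.mk' W)) (⊤ : Subgroup (G ⧸ W)) := by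
  obtain ⟨M, h, q⟩ := ab_of_psl (isSylowIn_top S) hE₂ K hF hE₃
  obtain ⟨f, A, c, -⟩ := h.cf_of hE₁ hd
  have o := c.out_of hd
  obtain ⟨σ, ψ, d, s, -⟩ := c.nat.nat F (q.symm.trans c.idxS.symm)
  obtain ⟨ρ, h1, h2, -⟩ := c.toPN.quot (o.ker_T c.toPN hE₁) d s
  exact ⟨⟨(QuotientGroup.quotientMulEquivOfEq h2.symm).trans
    (QuotientGroup.quotientKerEquivOfSurjective ρ h1)⟩, fun U W _ => o.chief c.toPN F q.symm⟩

end Cfsg.Agent.S2764
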