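import Cfsg.Statements.S2765
import Cfsg.Agent.Push.PY

set_option autoImplicit false
open Cfsg

namespace Cfsg.Agent.S2765

open Cfsg.Agent.LocalEven Cfsg.Agent.Glaub

open Cfsg.Agent.Push Subgroup

/-- In the same pushing-up situation (G finite, C_G(O_p(G)) ≤ O_p(G), G/K ≅ PSL₂(p^n) with n ≥ 1, a Sylow p-subgroup S in exactly one maximal subgroup, no nontrivial characteristic subgroup of S normal in G), one of the following holds: (I) S has nilpotency class 2, exponent 4 if p = 2 and exponent p otherwise, and G has exactly one noncentral chief factor inside O_p(G); or (II) p = 3, S has class 3 and exponent 9, and G has exactly two noncentral chief factors inside O_p(G). 'Exactly one' is phrased as: some noncentral chief factor U/W inside O_p(G) with G acting hypercentrally on W and on O_p(G)/U; 'exactly two' analogously with a chain. -/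
theorem result {G : Type*} [Group G] [Finite G] {p : ℕ} [Fact p.Prime] (S : Sylow p G) (hE₁ : Subgroup.centralizer (Cfsg.pCore p G : Set G) ≤ Cfsg.pCore p G) (hE₂ : ∃! M : Subgroup G, IsCoatom M ∧ (S : Subgroup G) ≤ M) (K : Subgroup G) [K.Normal] (F : Type) [Field F] [Fintype F] (n : ℕ) (hn : 1 ≤ n) (hF : Fintype.card F = p ^ n) (hE₃ : Nonempty (G ⧸ K ≃* Matrix.ProjectiveSpecialLinearGroup (Fin 2) F)) (hd : ∀ T : Subgroup ↥(S : Subgroup G), T ≠ ⊥ → T.Characteristic → ¬ (T.map (S : Subgroup G).subtype).Normal) : ((S : Subgroup G).lowerCentralSeries 2 = ⊥ ∧ (S : Subgroup G).lowerCentralSeries 1 ≠ ⊥ ∧ (p = 2 → Monoid.exponent ↥(S : Subgroup G) = 4) ∧ (p ≠ 2 → Monoid.exponent ↥(S : Subgroup G) = p) ∧ (∃ U W : Subgroup G, W ≤ U ∧ U ≤ (Cfsg.pCore p G) ∧ Cfsg.IsChiefFactor U W ∧ ¬ ⁅U, (⊤ : Subgroup G)⁆ ≤ W ∧ (∃ k : ℕ, Cfsg.iterCommutator W ⊤ k = ⊥) ∧ (∃ k : ℕ, Cfsg.iterCommutator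 (Cfsg.pCore p G) ⊤ k ≤ U))) ∨ (p = 3 ∧ (S : Subgroup G).lowerCentralSeries 3 = ⊥ ∧ (S : Subgroup G).lowerCentralSeries 2 ≠ ⊥ ∧ Monoid.exponent ↥(S : Subgroup G) = 9 ∧ (∃ U₁ W₁ U₂ W₂ : Subgroup G, W₁ ≤ U₁ ∧ U₁ ≤ W₂ ∧ W₂ ≤ U₂ ∧ U₂ ≤ (Cfsg.pCore p G) ∧ Cfsg.IsChiefFactor U₁ W₁ ∧ Cfsg.IsChiefFactor U₂ W₂ ∧ ¬ ⁅U₁, (⊤ : Subgroup G)⁆ ≤ W₁ ∧ ¬ ⁅U₂, (⊤ : Subgroup G)⁆ ≤ W₂ ∧ (∃ k : ℕ, Cfsg.iterCommutator W₁ ⊤ k = ⊥) ∧ (∃ k : ℕ, Cfsg.iterCommutator W₂ ⊤ k ≤ U₁) ∧ (∃ k : ℕ, Cfsg.iterCommutator (Cfsg.pCore p G) ⊤ k ≤ U₂))) := by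
  obtain ⟨M, h, q⟩ := ab_of_psl (isSylowIn_top S) hE₂ K hF hE₃
  obtain ⟨f, A, c, na⟩ := h.cf_of hE₁ hd
  obtain ⟨o1, o⟩ := c.out_of hd
  obtain ⟨σ, ψ, d, s, -⟩ := c.nat.nat F (q.symm.trans c.idxS.symm)
  obtain ⟨k1, k2⟩ := d.chief s (normal_of_top_le c.nZ)
  have z := (iter_succ _ ⊤ 0).trans (comm_bot_of_le_cent (H := omegaOneCenter p (pCore p G) ⊓
    centralizer ((⊤ : Subgroup G) : Set G)) inf_le_right)
  have l := PGrp.commutator_le_map_frattini c.syl.pgrp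
  have := k1.2.1
  rcases o with ⟨a, b, e⟩ | ⟨rfl, b, W, X, x⟩
  · have b' : (S : Subgroup G).lowerCentralSeries 2 = ⊥ :=
      le_bot_iff.1 ((commutator_mono l le_rfl).trans b.le)
    refine Or.inl ⟨b', na, ?_, fun h2 => ?_, _, _, inf_le_left, c.le, k1, k2, ⟨1, z⟩, 2,
      c.toPN.iter a b'⟩
    · rintro rfl
      refine exp_sq c.syl.pgrp o1 (by_contra fun k => na (comm_bot_of_le_cent fun x hx y hy => ?_))
      exact congrArg Subtype.val (Commute.of_orderOf_dvd_two (fun g : (S : Subgroup G) =>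
        orderOf_dvd_of_pow_eq_one (Subtype.ext (by_contra fun e => k ⟨g, g.2, e⟩))) ⟨y, hy⟩ ⟨x, hx⟩)
    · have : Nontrivial (S : Subgroup G) := (nontrivial_iff_ne_bot _).2 fun e => na (by simp [e])
      exact (Monoid.exponent_eq_prime_iff Fact.out).2 fun g hg =>
        orderOf_eq_prime (Subtype.ext (e h2 g g.2)) hg
  · have b' : (S : Subgroup G).lowerCentralSeries 3 = ⊥ :=
      le_bot_iff.1 ((commutator_mono (commutator_mono l le_rfl) le_rfl).trans b.le)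
    obtain ⟨σ, ψ, d, s⟩ := x.nat c.toPN F q.symm
    obtain ⟨k3, k4⟩ := d.chief s this
    have := k3.2.1
    exact Or.inr ⟨rfl, b', x.cl, exp_sq c.syl.pgrp o1 x.nine, _, _, X, _, inf_le_left, le_rfl,
      d.le, x.XT, k1, k3, k2, k4, ⟨1, z⟩, ⟨0, le_rfl⟩, 3, c.toPN.iter x.res b'⟩

end Cfsg.Agent.S2765
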