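import Cfsg.Statements.S2766
import Cfsg.Agent.Push.PQ

set_option autoImplicit false
open Cfsg

namespace Cfsg.Agent.S2766

open Cfsg.Agent.LocalEven Cfsg.Agent.Glaub

open Cfsg.Agent.Push Subgroup

/-- Let p ≥ 5 be prime and G a maximal p-local subgroup of a finite group H (G is the normalizer of a nontrivial p-subgroup and lies in no other such normalizer). Suppose C_G(O_p(G)) ≤ O_p(G), G/K ≅ PSL₂(p^n) for some normal K and n ≥ 1, a Sylow p-subgroup S of G lies in exactly one maximal subgroup of G, and N_H(S) is not contained in G. Then G = G₀ × E for subgroups G₀ ≅ Qd(p^n) (the natural semidirect product of the plane over the field with p^n elements by SL₂) and E an elementary abelian p-group. -/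
theorem result {H : Type*} [Group H] [Finite H] {p : ℕ} [Fact p.Prime] (hp : 5 ≤ p) (G : Subgroup H) (hloc : ∃ R : Subgroup H, IsPGroup p ↥R ∧ R ≠ ⊥ ∧ G = Subgroup.normalizer (R : Set H)) (hmax : ∀ R : Subgroup H, IsPGroup p ↥R → R ≠ ⊥ → G ≤ Subgroup.normalizer (R : Set H) → Subgroup.normalizer (R : Set H) = G) (S : Sylow p ↥G) (hE₁ : Subgroup.centralizer (Cfsg.pCore p ↥G : Set ↥G) ≤ Cfsg.pCore p ↥G) (hE₂ : ∃! M : Subgroup ↥G, IsCoatom M ∧ (S : Subgroup ↥G) ≤ M) (K : Subgroup ↥G) [K.Normal] (F : Type) [Field F] [Fintype F] (n : ℕ) (hn : 1 ≤ n) (hF : Fintype.card F = p ^ n) (hE₃ : Nonempty (↥G ⧸ K ≃* Matrix.ProjectiveSpecialLinearGroup (Fin 2) F)) (hN : ¬ Subgroup.normalizer (((S : Subgroup ↥G).map G.subtype : Subgroup H) : Set H) ≤ G) : ∃ G₀ E : Subgroup H, Cfsg.IsInternalDirectProduct G₀ E G ∧ Cfsg.IsElementaryAbelian p E ∧ Nonempty (↥G₀ ≃* ↥(Cfsg.qdOver F)) := by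
  obtain ⟨M, h, q⟩ := ab_of_psl (isSylowIn_top S) hE₂ K hF hE₃
  have hf := G.subtype_injective
  have eG : map G.subtype ⊤ = G := by rw [← MonoidHom.range_eq_map, range_subtype]
  have mx : ∀ W ≤ (S : Subgroup G).map G.subtype, map G.subtype ⊤ ≤ normalizer (W : Set H) →
      W ≠ ⊥ → normalizer (W : Set H) = G := fun W h1 h2 h0 =>
    hmax W ((S.isPGroup'.map _).to_le h1) h0 (eG.ge.trans h2)
  have nc : NC ((S : Subgroup G).map G.subtype) (map G.subtype ⊤) := fun W h1 h2 h3 =>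
    by_contra fun h0 => hN (h2.trans (mx W h1 h3 h0).le)
  obtain ⟨f, A, c, -⟩ := h.cf_of hE₁ (nc.nd hf)
  have c' := c.map hf
  have o := Out.of_map hf c.syl.pgrp (c'.out nc)
  obtain ⟨g, hg, s, hV | ⟨h3, -⟩⟩ := c'.twist nc
  swap
  · omega
  obtain ⟨-, -, -, a4, a5⟩ := c'.toSt.caseA s hV
  have e0 : phi ((pCore p G).map G.subtype) = ⊥ := by_contra fun h0 => hV (cj_le_of_mem_normalizer
    (c'.nT (eG.ge ((mx _ ((phi_le _).trans c'.TS) (c'.nT.trans (norm_phi _)) h0).le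
      (inv_mem_iff.1 (mem_normalizer_of_cj_le (cj_le_iff.2 ?_)))))) c'.le)
  swap
  · rw [inv_inv]
    exact a4.trans ((PGrp.map_frattini_mono s.pT inf_le_right).trans (map_phi _ c'.pT).ge)
  rw [e0, sup_bot_eq, ← map_commutator, ← map_commutator, map_le_map_iff_of_injective hf] at a5
  obtain ⟨b1, b2⟩ := (PGrp.map_frattini_le_iff c.pT).1 ((map_eq_bot_iff_of_injective _ hf).1
    ((map_phi _ c.pT).trans e0)).le
  have eV : omegaOneCenter p (pCore p G) = pCore p G := le_antisymm c.le fun x hx =>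
    mem_omegaOneCenter.2 ⟨hx, le_cent_of_comm_bot (le_bot_iff.1 b1) hx, b2 x hx⟩
  have k := o.ker_T c.toPN hE₁
  have n := c.toPN
  rw [eV] at n a5 k
  have := charP_of_card hF
  obtain ⟨d1, d2, ⟨e⟩⟩ := n.qd k a5 hp F q.symm
  refine ⟨(commutator G).map G.subtype, map G.subtype (pCore p G ⊓ centralizer ((⊤ : Subgroup G) : Set G)),
    ⟨map_subtype_le _, map_subtype_le _, ?_, by rw [← map_inf _ _ _ hf, d1, Subgroup.map_bot],
      by rw [← Subgroup.map_sup, d2, eG]⟩, elemAb_map (elemAb_of_le n.ea inf_le_left) _,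
    ⟨((commutator G).equivMapOfInjective _ hf).symm.trans e⟩⟩
  rintro _ ⟨a, -, rfl⟩ _ ⟨b, hb, rfl⟩
  exact congrArg Subtype.val (hb.2 a trivial)

end Cfsg.Agent.S2766
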