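import Mathlib
import Cfsg.Statements.S2773
import Cfsg.Agent.Spc.GnKG
import Cfsg.Agent.Spc.GnKB
import Cfsg.Agent.Spc.GnK2
import Cfsg.Agent.Spc.GnK3
import Cfsg.Agent.Spc.GnKR
-- import your own Cfsg.Agent.* helpers here

set_option autoImplicit false
universe u
open Cfsg

namespace Cfsg.Agent.S2773

/-- For every nontrivial finite 3-group S there is a nontrivial characteristic subgroup K of S such that, in every finite group G containing S as a Sylow 3-subgroup, S ∩ G' is the product of S ∩ (C_G(Z(S)))' and S ∩ (N_G(K))' (derived subgroups; product taken elementwise). -/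
theorem result {S : Type u} [Group S] [Finite S] [Nontrivial S] (hS : IsPGroup 3 S) : ∃ K : Subgroup S, K ≠ ⊥ ∧ K.Characteristic ∧ ∀ (G : Type u) [Group G] [Finite G] (τ : S →* G), Function.Injective τ → (∃ P : Sylow 3 G, (P : Subgroup G) = τ.range) → ∀ g : G, g ∈ τ.range ⊓ commutator G ↔ ∃ a ∈ τ.range ⊓ ⁅Subgroup.centralizer ((τ.range ⊓ Subgroup.centralizer (τ.range : Set G) : Subgroup G) : Set G), Subgroup.centralizer ((τ.range ⊓ Subgroup.centralizer (τ.range : Set G) : Subgroup G) : Set G)⁆, ∃ b ∈ τ.range ⊓ ⁅Subgroup.normalizer ((K.map τ : Subgroup G) : Set G), Subgroup.normalizer ((K.map τ : Subgroup G) : Set G)⁆, g = a * b := by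
  have := Fact.mk Nat.prime_three
  exact Cfsg.Agent.Spc.Gn.mainK (Cfsg.Agent.Spc.Gn.coreK_of Cfsg.Agent.Spc.Gn.ph1K (Cfsg.Agent.Spc.Gn.ph2K (Cfsg.Agent.Spc.Gn.ph3K (Cfsg.Agent.Spc.Gn.lemQ (by decide))))) hS

end Cfsg.Agent.S2773
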