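import Mathlib
import Cfsg.Statements.S2774
import Cfsg.Agent.Spc.GnG
import Cfsg.Agent.Spc.GnB
import Cfsg.Agent.Spc.GnP2
import Cfsg.Agent.Spc.GnP3
-- import your own Cfsg.Agent.* helpers here

set_option autoImplicit false
open Cfsg

namespace Cfsg.Agent.S2774

/-- Let p be an odd prime and S a nontrivial Sylow p-subgroup of a finite group G. Then S ∩ G' is generated by the subgroups S ∩ (N_G(K))' as K ranges over the nontrivial characteristic subgroups of S (derived subgroups of the normalizers). -/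
theorem result {G : Type*} [Group G] [Finite G] {p : ℕ} [Fact p.Prime] (hp : p ≠ 2) (S : Sylow p G) (hS : (S : Subgroup G) ≠ ⊥) : (S : Subgroup G) ⊓ commutator G = ⨆ K : {K : Subgroup ↥(S : Subgroup G) // K ≠ ⊥ ∧ K.Characteristic}, (S : Subgroup G) ⊓ ⁅Subgroup.normalizer ((((K : Subgroup ↥(S : Subgroup G))).map (S : Subgroup G).subtype : Subgroup G) : Set G), Subgroup.normalizer ((((K : Subgroup ↥(S : Subgroup G))).map (S : Subgroup G).subtype : Subgroup G) : Set G)⁆ := by
  exact Cfsg.Agent.Spc.Gn.main hp (Cfsg.Agent.Spc.Gn.core_of Cfsg.Agent.Spc.Gn.ph1 (Cfsg.Agent.Spc.Gn.ph2 (Cfsg.Agent.Spc.Gn.ph3 hp))) S hS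

end Cfsg.Agent.S2774
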