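import Mathlib
import Cfsg.Statements.S2779
import Cfsg.Agent.FGS.NatSL2

set_option autoImplicit false
open Cfsg

namespace Cfsg.Agent.S2779

open Subgroup Cfsg.Agent.FGS

/-- Let L act on the elementary abelian p-group V (inside a finite group, by conjugation, faithfully) as SL₂(F) on its natural module, F a field with p^n elements, and let S be a Sylow p-subgroup of L. Then [V, S, S] = 1; |V| = p^(2n) and |C_V(S)| = p^n; and for every nonidentity s ∈ S and every v ∈ V outside C_V(S): C_V(s) = C_V(S) = [V, S] = [V, s] = the subgroup generated by the commutators [v, t], t ∈ S. -/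
theorem result {G : Type*} [Group G] [Finite G] {p : ℕ} [Fact p.Prime] {F : Type*} [Field F] [Fintype F] (n : ℕ) (hF : Fintype.card F = p ^ n) (V L : Subgroup G) (hnat : Cfsg.IsNaturalSL2Module F V L) (hf : L ⊓ Subgroup.centralizer (V : Set G) = ⊥) (S : Sylow p ↥L) (T : Subgroup G) (hT : T = ((S : Subgroup ↥L).map L.subtype)) : ⁅⁅V, T⁆, T⁆ = ⊥ ∧ Nat.card V = p ^ (2 * n) ∧ Nat.card ↥(V ⊓ Subgroup.centralizer ((T : Subgroup G) : Set G)) = p ^ n ∧ ∀ s ∈ T, s ≠ 1 → (V ⊓ Subgroup.centralizer ({s} : Set G)) = (V ⊓ Subgroup.centralizer ((T : Subgroup G) : Set G)) ∧ ⁅V, T⁆ = (V ⊓ Subgroup.centralizer ((T : Subgroup G) : Set G)) ∧ ⁅V, Subgroup.zpowers s⁆ = (V ⊓ Subgroup.centralizer ((T : Subgroup G) : Set G)) ∧ ∀ v ∈ V, v ∉ Subgroup.centralizer (T : Set G) → Subgroup.closure {x : G | ∃ t ∈ T, x = v * t * v⁻¹ * t⁻¹} = (V ⊓ Subgroup.centralizer ((T : Subgroup G) : Set G)) := by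
  have := Classical.Congr.charP_of_card (F := F) (p := p) (k := n) (by rw [Nat.card_eq_fintype_card, hF])
  obtain ⟨σ, ψ, h⟩ := exists_natU hnat hf S
  rw [← hT] at h
  have h1 : ∀ v ∈ V, ∀ t ∈ T, v * t * v⁻¹ * t⁻¹ ∈ V ⊓ centralizer (T : Set G) := fun v hv t ht => by
    simpa [mul_assoc] using inv_mem (h.comm_mem ht hv)
  have h2 : ⁅V, T⁆ ≤ V ⊓ centralizer (T : Set G) := commutator_le.mpr h1
  have h3 : ∀ u ∈ V ⊓ centralizer (T : Set G), ψ u = ![ψ u 0, 0] := fun u hu => by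
    ext i; fin_cases i
    · rfl
    · exact (h.cent_T hu.1).mp hu.2
  refine ⟨commutator_eq_bot_iff_le_centralizer.mpr (h2.trans inf_le_right), ?_, ?_, fun s hs h0 => ?_⟩
  · rw [Nat.card_eq_of_bijective (fun v : V => ψ v) ⟨fun u v e => Subtype.ext (h.inj u.2 v.2 e), fun x => by
      obtain ⟨u, hu, e⟩ := h.d.surj x
      exact ⟨⟨u, hu⟩, e⟩⟩]
    simp [hF, ← pow_mul, mul_comm]
  · rw [Nat.card_eq_of_bijective (fun v : (V ⊓ centralizer (T : Set G) : Subgroup G) => ψ v 0)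
      ⟨fun u v e => Subtype.ext (h.inj u.2.1 v.2.1 (by rw [h3 u u.2, h3 v v.2, show ψ u 0 = ψ v 0 from e])), fun x => by
      obtain ⟨u, hu, e⟩ := h.d.surj ![x, 0]
      exact ⟨⟨u, hu, (h.cent_T hu).mpr (by rw [e]; rfl)⟩, congrFun e 0⟩⟩, Nat.card_eq_fintype_card, hF]
  have h4 : V ⊓ centralizer (T : Set G) ≤ ⁅V, zpowers s⁆ := fun u hu => by
    obtain ⟨c, hc⟩ := (h.up ⟨s, h.le hs⟩).mp hs
    obtain ⟨w, hw, ew⟩ := h.d.surj ![0, 1]
    have hc0 : c ≠ 0 := fun e => by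
      have := (h.cent_one hs h0 hw).mp ((h.cent_iff ⟨s, h.le hs⟩ hw).mpr (by
        rw [← hc, e, Classical.SL2Basic.upper_zero]; simp))
      simp [ew] at this
    obtain ⟨v, hv, ev⟩ := h.d.surj ![0, ψ u 0 / c]
    rw [← h.inj (h.comm_mem hs hv).1 hu.1 (by rw [h.comm_up hc hv, h3 u hu, ev]; simp [mul_div_cancel₀ _ hc0]), commutator_comm]
    exact commutator_mem_commutator (mem_zpowers s) hv
  have h5 := commutator_mono (le_refl V) (zpowers_le.mpr hs)
  refine ⟨ext fun u => and_congr_right fun hu => (h.cent_one hs h0 hu).trans (h.cent_T hu).symm, h2.antisymm (h4.trans h5),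
    (h5.trans h2).antisymm h4, fun v hv hv' => le_antisymm ((closure_le _).mpr ?_) fun u hu => ?_⟩
  · rintro _ ⟨t, ht, rfl⟩
    exact h1 v hv t ht
  · obtain ⟨a, ha, e⟩ := h.exists_up (ψ u 0 / ψ v 1)
    rw [← h.inj (h.comm_mem ha hv).1 hu.1 (by
      rw [h.comm_up e hv, h3 u hu, div_mul_cancel₀ _ fun e => hv' ((h.cent_T hv).mpr e)]; rfl), ← inv_mem_iff]
    exact subset_closure ⟨a, ha, by group⟩

end Cfsg.Agent.S2779
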