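import Mathlib
import Cfsg.Statements.S2780
import Cfsg.Agent.FGS.NatSL2

set_option autoImplicit false
open Cfsg

namespace Cfsg.Agent.S2780

open Subgroup Cfsg.Agent.FGS Matrix Cfsg.Agent.Classical.SL2Basic

/-- Let L act on the elementary abelian p-group V (inside a finite group, faithfully) as SL₂(F) on its natural module, F a field with p^n elements, S a Sylow p-subgroup of L. Then: for every g ∈ L not normalizing S, V is the internal direct product of C_V(S) and C_V(gSg⁻¹); every nonidentity element of L of order prime to p acts on V without nonidentity fixed points; and C_V(S) and V/C_V(S) are irreducible for N_L(S): the only N_L(S)-invariant subgroups of C_V(S) are 1 and C_V(S), and the only N_L(S)-invariant subgroups between C_V(S) and V are those two. -/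
theorem result {G : Type*} [Group G] [Finite G] {p : ℕ} [Fact p.Prime] {F : Type*} [Field F] [Fintype F] (n : ℕ) (hF : Fintype.card F = p ^ n) (V L : Subgroup G) (hnat : Cfsg.IsNaturalSL2Module F V L) (hf : L ⊓ Subgroup.centralizer (V : Set G) = ⊥) (S : Sylow p ↥L) (T : Subgroup G) (hT : T = ((S : Subgroup ↥L).map L.subtype)) : (∀ g ∈ L, g ∉ Subgroup.normalizer (T : Set G) → Cfsg.IsInternalDirectProduct (V ⊓ Subgroup.centralizer ((T : Subgroup G) : Set G)) (V ⊓ Subgroup.centralizer ((T.map (MulAut.conj g).toMonoidHom : Subgroup G) : Set G)) V) ∧ (∀ x ∈ L, x ≠ 1 → (orderOf x).Coprime p → (V ⊓ Subgroup.centralizer ({x} : Set G)) = ⊥) ∧ (∀ U : Subgroup G, U ≤ (V ⊓ Subgroup.centralizer ((T : Subgroup G) : Set G)) → L ⊓ Subgroup.normalizer (T : Set G) ≤ Subgroup.normalizer (U : Set G) → U = ⊥ ∨ U = (V ⊓ Subgroup.centralizer ((T : Subgroup G) : Set G))) ∧ (∀ U : Subgroup G, (V ⊓ Subgroup.centralizer ((T : Subgroup G) :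 Set G)) ≤ U → U ≤ V → L ⊓ Subgroup.normalizer (T : Set G) ≤ Subgroup.normalizer (U : Set G) → U = (V ⊓ Subgroup.centralizer ((T : Subgroup G) : Set G)) ∨ U = V) := by
  have := Classical.Congr.charP_of_card (F := F) (p := p) (k := n) (by rw [Nat.card_eq_fintype_card, hF])
  obtain ⟨σ, ψ, h⟩ := exists_natU hnat hf S
  rw [← hT] at h
  have h3 : ∀ u ∈ V, ∀ v ∈ V, ψ u 0 = ψ v 0 → ψ u 1 = ψ v 1 → u = v := fun u hu v hv e0 e1 => h.inj hu hv (by
    ext i; fin_cases i; exacts [e0, e1])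
  refine ⟨fun g hg hg' => ?_, fun x hx h1 hc => eq_bot_iff.mpr fun v hv => ?_, fun U hU hN => ?_, fun U hU hV hN => ?_⟩
  · have a1 : σ ⟨g, hg⟩⁻¹ 1 0 ≠ 0 := fun e => hg' (inv_mem_iff.mp (h.norm_T _ e))
    have a2 : ∀ u ∈ V, u ∈ centralizer ((T.map (MulAut.conj g).toMonoidHom : Subgroup G) : Set G) ↔
        σ ⟨g, hg⟩⁻¹ 1 0 * ψ u 0 + σ ⟨g, hg⟩⁻¹ 1 1 * ψ u 1 = 0 := fun u hu => by
      have := h.cent_T (h.conj_mem ⟨g, hg⟩⁻¹ hu)
      rw [h.d.conj _ u hu] at this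
      refine Iff.trans ⟨fun e t ht => ?_, ?_⟩ (this.trans (by simp [mulVec, dotProduct, Fin.sum_univ_two]))
      · have := e _ ⟨t, ht, rfl⟩
        change g * t * g⁻¹ * u = u * (g * t * g⁻¹) at this
        change t * (g⁻¹ * u * g⁻¹⁻¹) = g⁻¹ * u * g⁻¹⁻¹ * t
        calc _ = g⁻¹ * (g * t * g⁻¹ * u) * g := by group
          _ = _ := by rw [this]; group
      · rintro e _ ⟨t, ht, rfl⟩
        have : t * (g⁻¹ * u * g⁻¹⁻¹) = g⁻¹ * u * g⁻¹⁻¹ * t := e t ht
        change g * t * g⁻¹ * u = u * (g * t * g⁻¹)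
        calc _ = g * (t * (g⁻¹ * u * g⁻¹⁻¹)) * g⁻¹ := by group
          _ = _ := by rw [this]; group
    generalize σ ⟨g, hg⟩⁻¹ 1 0 = a at a1 a2
    generalize σ ⟨g, hg⟩⁻¹ 1 1 = b at a2
    refine ⟨inf_le_left, inf_le_left, fun u hu v hv => h.comm hu.1 hv.1, eq_bot_iff.mpr fun u hu => ?_,
      le_antisymm (sup_le inf_le_left inf_le_left) fun u hu => ?_⟩
    · have b1 := (h.cent_T hu.1.1).mp hu.1.2
      have b2 := (a2 u hu.1.1).mp hu.2.2
      exact h3 u hu.1.1 1 (one_mem _) (by simpa [h.d.one, b1, a1] using b2) (by rw [b1, h.d.one]; rfl)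
    · obtain ⟨w, hw, e⟩ := h.d.surj ![-(b * ψ u 1) / a, ψ u 1]
      rw [← inv_mul_cancel_right u w]
      refine mul_mem_sup ⟨V.mul_mem hu (inv_mem hw), (h.cent_T (mul_mem hu (inv_mem hw))).mpr ?_⟩ ⟨hw, (a2 w hw).mpr ?_⟩
      · simp [h.d.mul u hu _ (inv_mem hw), h.d.inv hw, e]
      · simp [e, mul_div_cancel₀ _ a1]
  · by_contra h0
    have a1 := (h.cent_iff ⟨x, hx⟩ hv.1).mp hv.2
    have a2 : ψ v ≠ 0 := fun e => h0 ((h.d.ker v hv.1).mp e)
    have a3 := cayley (σ ⟨x, hx⟩)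
    have a4 : tr (σ ⟨x, hx⟩) = 2 := by
      have := congrArg (mulVec · (ψ v)) a3
      simp only [← mulVec_mulVec, a1, sub_mulVec, smul_mulVec, one_mulVec] at this
      rw [eq_sub_iff_add_eq, ← two_smul F, ← sub_eq_zero, ← sub_smul] at this
      exact (sub_eq_zero.mp ((smul_eq_zero.mp this).resolve_right a2)).symm
    have a5 : ∀ k : ℕ, ((σ ⟨x, hx⟩ ^ k : Matrix.SpecialLinearGroup (Fin 2) F) : Matrix (Fin 2) (Fin 2) F) =
        1 + (k : F) • ((σ ⟨x, hx⟩ : Matrix (Fin 2) (Fin 2) F) - 1) := fun k => by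
      induction k with
      | zero => simp
      | succ k ih =>
        rw [pow_succ, Matrix.SpecialLinearGroup.coe_mul, ih, add_mul, smul_mul_assoc, sub_mul, a3, a4]
        simp only [one_mul]; push_cast; module
    have a6 : (⟨x, hx⟩ : L) ^ p = 1 := h.bij.1 (Subtype.ext (by rw [map_pow, a5, map_one]; simp))
    exact h1 (orderOf_eq_one_iff.mp (hc.eq_one_of_dvd (orderOf_dvd_of_pow_eq_one (congrArg Subtype.val a6))))
  · refine or_iff_not_imp_left.mpr fun h0 => hU.antisymm fun w hw => ?_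
    obtain ⟨⟨u, hu⟩, h1⟩ := ne_bot_iff_exists_ne_one.mp h0
    have a1 := (h.cent_T (hU hu).1).mp (hU hu).2
    have a2 : ψ u 0 ≠ 0 := fun e => h1 (Subtype.ext (h3 u (hU hu).1 1 (one_mem _) (by rw [e, h.d.one]; rfl) (by rw [a1, h.d.one]; rfl)))
    have a3 := (h.cent_T hw.1).mp hw.2
    by_cases e : ψ w 0 = 0
    · exact h3 w hw.1 1 (one_mem _) (by rw [e, h.d.one]; rfl) (by rw [a3, h.d.one]; rfl) ▸ one_mem _
    obtain ⟨a, ha, ea⟩ := h.exists_diag (div_ne_zero e a2)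
    rw [← h3 _ (h.conj_mem ⟨a, ha.1⟩ (hU hu).1) w hw.1 (by simp [ea u (hU hu).1, a2]) (by simp [ea u (hU hu).1, a1, a3])]
    exact (hN ha u).mp hu
  · refine or_iff_not_imp_left.mpr fun h0 => hV.antisymm fun w hw => ?_
    obtain ⟨u, hu, h1⟩ := SetLike.exists_of_lt (hU.lt_of_ne' h0)
    have a2 : ψ u 1 ≠ 0 := fun e => h1 ⟨hV hu, (h.cent_T (hV hu)).mpr e⟩
    by_cases e : ψ w 1 = 0
    · exact hU ⟨hw, (h.cent_T hw).mpr e⟩
    obtain ⟨a, ha, ea⟩ := h.exists_diag (div_ne_zero a2 e)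
    have a3 := (hN ha u).mp hu
    have a4 := mul_mem hw (inv_mem (hV a3))
    rw [← inv_mul_cancel_right w (a * u * a⁻¹)]
    exact mul_mem (hU ⟨a4, (h.cent_T a4).mpr (by
      simp [h.d.mul w hw _ (inv_mem (hV a3)), h.d.inv (hV a3), ea u (hV hu), a2, -_root_.mul_inv_rev])⟩) a3

end Cfsg.Agent.S2780
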