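import Mathlib
import Cfsg.Statements.S2792
import Cfsg.Agent.Transfer.Yoshida
-- import your own Cfsg.Agent.* helpers here

set_option autoImplicit false
open Cfsg

namespace Cfsg.Agent.S2792

open Cfsg.Agent.Transfer

/-- Let S be a Sylow p-subgroup of the finite group G and W a subgroup of S weakly closed in S with respect to G. If S ∩ G' ≠ S ∩ (N_G(W))', then there are x ∈ S, z ∈ W and a maximal subgroup W₀ of W such that the iterated commutator [x, z; p−1] (with [x, z] = x⁻¹z⁻¹xz and [x, z; i+1] = [[x, z; i], z]) lies in W₀ but not in the Frattini subgroup of W₀; in particular [x, z; p−1] ≠ 1. -/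
theorem result {G : Type*} [Group G] [Finite G] {p : ℕ} [Fact p.Prime] (S : Sylow p G) (W : Subgroup G) (hW : Cfsg.IsWeaklyClosed W (S : Subgroup G)) (h : (S : Subgroup G) ⊓ commutator G ≠ (S : Subgroup G) ⊓ ⁅Subgroup.normalizer (W : Set G), Subgroup.normalizer (W : Set G)⁆) : ∃ x ∈ (S : Subgroup G), ∃ z ∈ W, ∃ W₀ : Subgroup ↥W, IsCoatom W₀ ∧ (fun y : G => y⁻¹ * z⁻¹ * y * z)^[p - 1] x ∈ W₀.map W.subtype ∧ (fun y : G => y⁻¹ * z⁻¹ * y * z)^[p - 1] x ∉ ((frattini ↥W₀).map W₀.subtype).map W.subtype := by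
  have hp : p.Prime := Fact.out
  have hSN : (S : Subgroup G) ≤ Subgroup.normalizer (W : Set G) := fun s hs =>
    IsWeaklyClosed.conj_eq hW fun w hw => mul_mem (mul_mem hs (hW.1 hw)) (inv_mem hs)
  obtain ⟨u, hu, z, hz, M, m1, m2, m3, m4, m5, m6⟩ := hall_wielandt S hW le_rfl fun h1 =>
    h (le_antisymm (le_inf inf_le_left h1)
      (inf_le_inf_left _ (Subgroup.commutator_mono le_top le_top)))
  have hM : IsPGroup p M := S.2.to_le (m1.trans (sup_le hW.1 (Subgroup.zpowers_le.2 hu)))
  have h1 : (M.subgroupOf W).index = p := by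
    have h2 : M ⊔ W = W ⊔ Subgroup.zpowers u :=
      le_antisymm (sup_le m1 le_sup_left) (sup_le le_sup_right
        ((Subgroup.zpowers_le.2 m4).trans le_sup_left))
    rw [← m3, ← h2, Core.relIndex_sup_of_le_normalizer (le_sup_left.trans m2)]
    rfl
  refine ⟨u, hu, z, hz, M.subgroupOf W, ⟨fun e => hp.one_lt.ne (by rw [← h1, e, Subgroup.index_top]),
    fun K hK => (PGrp.eq_or_eq_top_of_index_prime hp h1 hK.le).resolve_left hK.ne'⟩, ?_,
    fun h2 => m6 ?_⟩
  · rw [Subgroup.subgroupOf_map_subtype]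
    exact ⟨iterate_commutator_mem (m2 (Subgroup.mem_sup_left hz)) m4 _,
      iterate_commutator_mem_right hz (hSN hu) (by have := hp.two_le; omega)⟩
  · have h3 : (frattini (M.subgroupOf W)).map (M.subgroupOf W).subtype ≤
        ((frattini M).map M.subtype).comap W.subtype := by
      refine (PGrp.map_frattini_le_iff (P := M.subgroupOf W) hM.comap_subtype).2
        ⟨?_, fun x hx => PGrp.pow_mem_map_frattini (x := (x : G)) hM hx⟩
      rw [← Subgroup.map_le_iff_le_comap, Subgroup.map_commutator, Subgroup.subgroupOf_map_subtype]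
      exact (Subgroup.commutator_mono inf_le_left inf_le_left).trans
        (PGrp.commutator_le_map_frattini hM)
    exact Subgroup.map_le_iff_le_comap.2 h3 h2

end Cfsg.Agent.S2792
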