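import Mathlib
import Cfsg.Statements.S2793
import Cfsg.Agent.Fusion.FP

set_option autoImplicit false
open Cfsg

namespace Cfsg.Agent.S2793

open Cfsg.Agent.Fusion

/-- Let p be an odd prime, S a Sylow p-subgroup of the finite group G, J(S) the subgroup generated by the abelian subgroups of S of largest order, and suppose Z(J(S)) does not control strong fusion in G. Put H = N_G(Z(J(S))). Then the group F(p) of upper triangular 3 × 3 matrices (a b c; 0 a⁻¹ d; 0 0 1) over the field with p elements is involved in H, and Z(J(S)) contains a subgroup C of order p with |N_H(C) : C_H(C)| = p − 1. -/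
theorem result {G : Type*} [Group G] [Finite G] {p : ℕ} [Fact p.Prime] (hp : p ≠ 2) (S : Sylow p G) (h : ¬ Cfsg.ControlsStrongFusion p (Cfsg.centerThompsonAOf (S : Subgroup G))) (H : Subgroup G) (hH : H = Subgroup.normalizer ((Cfsg.centerThompsonAOf (S : Subgroup G)) : Set G)) : Cfsg.Involves ↥(Cfsg.fOver (ZMod p)) ↥H ∧ ∃ C : Subgroup G, C ≤ (Cfsg.centerThompsonAOf (S : Subgroup G)) ∧ Nat.card C = p ∧ (H ⊓ Subgroup.centralizer (C : Set G)).relIndex (H ⊓ Subgroup.normalizer (C : Set G)) = p - 1 := by
  rw [PLocal.centerThompsonAOf_eq] at h hH ⊢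
  obtain ⟨h1, h2⟩ := exists_pl_eig hp S h
  have hS : (S : Subgroup G) ≤ H := hH ▸ (le_nz _).trans
    ((PLocal.normalizer_le_normalizer_jn _ _).trans (PLocal.normalizer_le_normalizer_zOf _))
  rw [show nz _ = H from hH.symm] at h1 h2
  refine ⟨Transfer.involves_iff_isSectionOf.2 (Glaub.Pl.section (B := (S : Subgroup G).subgroupOf H)
    (M := ⊤) hp (Glaub.Pl.of_map (f := H.subtype) ?_ (ker_le_of_inj H.subtype_injective _))),
    exists_of_eig (S.isPGroup'.to_le ((PLocal.zOf_le _).trans (PLocal.jn_le _))) h2⟩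
  rwa [map_subgroupOf_subtype hS, map_top_subtype]

end Cfsg.Agent.S2793
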