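import Cfsg.Statements.S2794
import Cfsg.Agent.Glaub.ZJD

set_option autoImplicit false
open Cfsg

namespace Cfsg.Agent.S2794

open Cfsg.Agent.LocalEven Cfsg.Agent.Glaub

/-- For an odd prime p and a finite group G, the group Qd(p) is not involved in G if and only if in every section K/R of G, for every Sylow p-subgroup S* of K/R, the centre of J(S*) (J generated by the abelian subgroups of largest order) controls strong fusion in K/R. -/
theorem result {G : Type*} [Group G] [Finite G] {p : ℕ} [Fact p.Prime] (hp : p ≠ 2) : ¬ Cfsg.Involves ↥(Cfsg.qd p) G ↔ ∀ (K R : Subgroup G) [hR : (R.subgroupOf K).Normal], ∀ T : Sylow p (K ⧸ R.subgroupOf K), Cfsg.ControlsStrongFusion p (Cfsg.centerThompsonAOf (T : Subgroup (K ⧸ R.subgroupOf K))) := by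
  simp only [PLocal.centerThompsonAOf_eq]
  refine ⟨fun h K R _ T => controlsStrongFusion_iff.2 ⟨T, (PLocal.zOf_le _).trans (PLocal.jn_le _),
    ctl_zj_of_not_qd hp (Or.inl rfl) _ (fun e => not_involves_qd_iff.1 h
      ((isSectionOf_quot K R).trans e)) _ _ (isSylowIn_top T) ⟨le_rfl, fun _ _ _ h => h⟩⟩,
    fun h ⟨K, R, _, ⟨e⟩⟩ => ?_⟩
  obtain ⟨T⟩ : Nonempty (Sylow p (K ⧸ R.subgroupOf K)) := inferInstance
  have := h K R T
  rw [← PLocal.inducedFunctor_zOf_jn] at this
  exact not_csf_of_equiv e T (PLocal.isCharPFunctor_zOf_jn (Or.inl rfl)) this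

end Cfsg.Agent.S2794
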