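import Mathlib
import Cfsg.Statements.S2856
import Cfsg.Agent.LocalEven.Amalgam

set_option autoImplicit false
open Cfsg

namespace Cfsg.Agent.S2856

open Cfsg.Agent.LocalEven

/-- Let (M₁, M₂) be an amalgam pair in X satisfying the rank-two standing hypothesis (characteristic p, the normalizers in M₁ and in M₂ of a Sylow p-subgroup of M₁ ∩ M₂ equal and contained in M₁ ∩ M₂, and strongly p-embedded residues), λ a vertex of the coset graph, L_λ the subgroup of its stabilizer generated by the p-elements, Q_λ = O_p of the stabilizer, O^p(L_λ) the subgroup of L_λ generated by its elements of order prime to p, and V_λ^{(k)} the subgroup generated by the Z_μ over the vertices μ at distance at most k from λ (Z_μ being generated by the Ω₁(Z(S)), S a Sylow p-subgroup of the stabilizer of μ). If n ≥ 1 and V_λ^{(n)} ≤ Q_λ, then O^p(L_λ) does not centralize V_λ^{(n)}/[V_λ^{(n)}, Q_λ], that is, [V_λ^{(n)}, O^p(L_λ)] is not contained in [V_λ^{(n)}, Q_λ]. -/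
theorem result {X : Type*} [Group X] {p : ℕ} [Fact p.Prime] (M₁ M₂ : Subgroup X) (h : Cfsg.IsSpeAmalgamPair p M₁ M₂) (lam : Cfsg.CosetVertex M₁ M₂) (n : ℕ) (hn : 1 ≤ n) (V : Subgroup X) (hV : V = Cfsg.vertexVIter p M₁ M₂ n lam) (hVQ : V ≤ Cfsg.vertexQ p lam) : ¬ ⁅V, ((Cfsg.pResidual p ↥(Cfsg.pElementClosure p (MulAction.stabilizer X lam))).map (Cfsg.pElementClosure p (MulAction.stabilizer X lam)).subtype)⁆ ≤ ⁅V, Cfsg.vertexQ p lam⁆ := by
  intro hcon
  have hc := cg_connected h.1.1.1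
  have := charAm_finite h.1 lam
  obtain ⟨m, rfl⟩ : ∃ m, n = m + 1 := ⟨n - 1, by omega⟩
  obtain ⟨μ, hμ⟩ := exists_adj lam
  set Q := vertexQ p lam with hQ
  set W := vertexVIter p M₁ M₂ m μ with hW
  have hQle : Q ≤ MulAction.stabilizer X lam := pCoreOf_le _
  have := finite_of_le hQle
  have hWV : W ≤ V := hV ▸ vertexVIter_le_of_adj hc m hμ
  have hVn : MulAction.stabilizer X lam ≤ Subgroup.normalizer (V : Set X) :=
    hV ▸ le_normalizer_vertexVIter hc _ _
  have hWn : MulAction.stabilizer X μ ≤ Subgroup.normalizer (W : Set X) :=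
    le_normalizer_vertexVIter hc _ _
  have hQμ : Q ≤ MulAction.stabilizer X μ :=
    (charAm_vertexQ_le h.1 lam).trans (neighbourKernel_le_of_adj hμ)
  have hcomm : ⁅V, Q⁆ ≤ V := commutator_le_left_of_le_normalizer (hQle.trans hVn)
  have hn1 : pResOf p (pElementClosure p (MulAction.stabilizer X lam)) ≤
      Subgroup.normalizer ((W ⊔ ⁅V, Q⁆ : Subgroup X) : Set X) :=
    le_normalizer_of_commutator_le (hcon.trans le_sup_right) (sup_le hWV hcomm)
  have hnb : ∀ ν, (cosetGraph M₁ M₂).Adj lam ν → vertexVIter p M₁ M₂ m ν ≤ W ⊔ ⁅V, Q⁆ := by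
    intro ν hν
    obtain ⟨g, hg, rfl⟩ := speAm_transitive h hμ hν
    rw [vertexVIter_smul hc]
    exact cj_le_of_mem_normalizer (hn1 hg) le_sup_left
  have hVle : V ≤ W ⊔ ⁅V, Q⁆ := by
    conv_lhs => rw [hV]
    refine vertexVIter_le_iff.2 fun ν hν => ?_
    rcases e : (cosetGraph M₁ M₂).dist lam ν with _ | k
    · rw [hc.dist_eq_zero_iff] at e
      subst e
      refine sylowCenterClosure_le_iff.2 fun T hT => ?_
      obtain ⟨κ, hκ, hT'⟩ := charAm_exists_adj h.1 hT
      exact hT'.le_sylowCenterClosure.trans ((le_vertexVIter (by simp)).trans (hnb κ hκ))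
    · obtain ⟨κ, hκ, hd⟩ := exists_adj_dist hc e
      exact (le_vertexVIter (by omega)).trans (hnb κ hκ)
  have hVW : V ≤ W := le_of_le_sup_commutator (isPGroup_pCoreOf _) hVQ le_rfl (hWV.trans hVQ)
    (hQμ.trans hWn) hVle
  have hEq : V = W := le_antisymm hVW hWV
  have hbot : V = ⊥ := cg_eq_bot_of_normal h.1.1 hμ (hVQ.trans (le_inf hQle hQμ)) hVn (hEq ▸ hWn)
  refine charAm_vertexZ_ne_bot h.1 lam (le_bot_iff.1 ?_)
  rw [← hbot, hV]
  exact le_vertexVIter (by simp)

end Cfsg.Agent.S2856
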