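import Mathlib
import Cfsg.Statements.S2857
import Cfsg.Agent.LocalEven.Amalgam

set_option autoImplicit false
open Cfsg

namespace Cfsg.Agent.S2857

open Cfsg.Agent.LocalEven

/-- Let (M₁, M₂) be an amalgam pair in X satisfying the rank-two standing hypothesis (characteristic p, the normalizers in M₁ and in M₂ of a Sylow p-subgroup of M₁ ∩ M₂ equal and contained in M₁ ∩ M₂, and strongly p-embedded residues), λ a vertex of the coset graph, L_λ the subgroup of its stabilizer generated by the p-elements, Q_λ = O_p of the stabilizer, O^p(L_λ) the subgroup of L_λ generated by its elements of order prime to p, and V_λ^{(k)} the subgroup generated by the Z_μ over the vertices μ at distance at most k from λ (Z_μ being generated by the Ω₁(Z(S)), S a Sylow p-subgroup of the stabilizer of μ). If n ≥ 2 and V_λ^{(n)} ≤ Q_λ, then O^p(L_λ) does not centralize V_λ^{(n)}/V_λ^{(n-2)}, that is, [V_λ^{(n)}, O^p(L_λ)] is not contained in V_λ^{(n-2)}. -/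
theorem result {X : Type*} [Group X] {p : ℕ} [Fact p.Prime] (M₁ M₂ : Subgroup X) (h : Cfsg.IsSpeAmalgamPair p M₁ M₂) (lam : Cfsg.CosetVertex M₁ M₂) (n : ℕ) (hn : 2 ≤ n) (hVQ : Cfsg.vertexVIter p M₁ M₂ n lam ≤ Cfsg.vertexQ p lam) : ¬ ⁅Cfsg.vertexVIter p M₁ M₂ n lam, ((Cfsg.pResidual p ↥(Cfsg.pElementClosure p (MulAction.stabilizer X lam))).map (Cfsg.pElementClosure p (MulAction.stabilizer X lam)).subtype)⁆ ≤ Cfsg.vertexVIter p M₁ M₂ (n - 2) lam := by
  intro hcon
  have hc := cg_connected h.1.1.1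
  obtain ⟨m, rfl⟩ : ∃ m, n = m + 2 := ⟨n - 2, by omega⟩
  rw [Nat.add_sub_cancel] at hcon
  obtain ⟨μ, hμ⟩ := exists_adj lam
  have h1 := vertexVIter_le_of_adj (p := p) hc (m + 1) hμ
  have h2 := vertexVIter_le_of_adj (p := p) hc m hμ.symm
  have hn1 := le_normalizer_of_commutator_le (hcon.trans h2) h1
  have hbot : vertexVIter p M₁ M₂ (m + 1) μ = ⊥ := by
    refine cg_eq_bot_of_transitive h.1.1 (δ := lam) (μ := μ) (h1.trans (hVQ.trans (le_inf
      (pCoreOf_le _) ((charAm_vertexQ_le h.1 lam).trans (neighbourKernel_le_of_adj hμ)))))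
      (fun ν hν => ?_) (fun ν hν => ?_)
    · obtain ⟨g, hg, e⟩ := speAm_transitive h hμ hν
      exact ⟨g, ⟨hn1 hg, pElementClosure_le _ (pResOf_le _ hg)⟩, e⟩
    · obtain ⟨g, hg, e⟩ := cg_transitive hμ.symm hν
      exact ⟨g, ⟨le_normalizer_vertexVIter hc _ _ hg, hg⟩, e⟩
  refine charAm_vertexZ_ne_bot h.1 μ (le_bot_iff.1 ?_)
  rw [← hbot]
  exact le_vertexVIter (by simp)

end Cfsg.Agent.S2857
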