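import Mathlib
import Cfsg.Statements.S2953
import Cfsg.Agent.PLocal.JC6

set_option autoImplicit false
open Cfsg

namespace Cfsg.Agent.S2953

/-- Let G be a finite group of characteristic 2 type in which every 2-local subgroup is solvable and the centralizer of Ω₁(Z(S)) lies in N_G(S) for every Sylow 2-subgroup S; suppose O₂(G) = 1, fix a Sylow 2-subgroup S and a 2-local subgroup M containing N_G(J(S)) (J the Thompson subgroup generated by the elementary abelian 2-subgroups of largest order). Let T be maximal (for the order of a largest elementary abelian subgroup, then the order of J(T), then the order of T) among the nontrivial 2-subgroups of M lying in a 2-local subgroup not inside M. Then there are two distinct J(T)-components K₁, K₂ such that, with Pᵢ = ⟨Kᵢ, T⟩: C_G(O₂(Pᵢ)) ≤ O₂(Pᵢ), T is a Sylow 2-subgroup of Pᵢ, O₂(Pᵢ) has index 6 in Pᵢ with Pᵢ/O₂(Pᵢ) non-abelian,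 [Ω₁(Z(T)), Pᵢ] ≠ 1, O₂(⟨P₁, P₂⟩) = 1, and each Pᵢ lies in exactly one maximal 2-local subgroup Lᵢ of G, in which T is a Sylow 2-subgroup. -/
theorem result {G : Type*} [Group G] [Finite G] (hL : Cfsg.IsCharacteristicTwoType G) (hN : ∀ N : Subgroup G, Cfsg.IsTwoLocal N → Group.IsSolvable ↥N)
    (hZ : ∀ S : Sylow 2 G, Subgroup.centralizer (Cfsg.omegaCenterOf (S : Subgroup G) : Set G) ≤ Subgroup.normalizer ((S : Subgroup G) : Set G)) (hO : Cfsg.pCore 2 G = ⊥) (S : Sylow 2 G) (M : Subgroup G) (hM : Cfsg.IsTwoLocal M)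
    (hMJ : Subgroup.normalizer (Cfsg.thompsonSubgroupOf 2 (S : Subgroup G) : Set G) ≤ M) (T : Subgroup G) (hT : T ∈ Cfsg.maxStraddlingTwoSubgroups M) :
    ∃ K₁ K₂ : Subgroup G, K₁ ≠ K₂ ∧ Cfsg.IsJComponent T K₁ ∧ Cfsg.IsJComponent T K₂ ∧
      Cfsg.pCoreOf 2 ((K₁ ⊔ T) ⊔ (K₂ ⊔ T)) = ⊥ ∧
      ∀ P ∈ [K₁ ⊔ T, K₂ ⊔ T],
        Subgroup.centralizer (Cfsg.pCoreOf 2 P : Set G) ≤ Cfsg.pCoreOf 2 P ∧ Cfsg.IsSylowTwoIn T P ∧
        (Cfsg.pCoreOf 2 P).relIndex P = 6 ∧ ¬ ⁅P, P⁆ ≤ Cfsg.pCoreOf 2 P ∧ ⁅Cfsg.omegaCenterOf T, P⁆ ≠ ⊥ ∧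
        ∃ L : Subgroup G, Cfsg.IsMaximalTwoLocal L ∧ P ≤ L ∧ Cfsg.IsSylowTwoIn T L ∧
          ∀ L' : Subgroup G, Cfsg.IsMaximalTwoLocal L' → P ≤ L' → L' = L := by
  have h : PLocal.Sit M := ⟨⟨hL, hN, hZ⟩, hO, hM, S, LocalEven.isSylowIn_top S, hMJ⟩
  obtain ⟨K, L, K', L', h1⟩ := h.exists_pair hT
  have key : ∀ {K L}, PLocal.Half T K L →
      Subgroup.centralizer (Cfsg.pCoreOf 2 (K ⊔ T) : Set G) ≤ Cfsg.pCoreOf 2 (K ⊔ T) ∧
      Cfsg.IsSylowTwoIn T (K ⊔ T) ∧ (Cfsg.pCoreOf 2 (K ⊔ T)).relIndex (K ⊔ T) = 6 ∧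
      ¬ ⁅K ⊔ T, K ⊔ T⁆ ≤ Cfsg.pCoreOf 2 (K ⊔ T) ∧ ⁅Cfsg.omegaCenterOf T, K ⊔ T⁆ ≠ ⊥ ∧
      ∃ L : Subgroup G, Cfsg.IsMaximalTwoLocal L ∧ K ⊔ T ≤ L ∧ Cfsg.IsSylowTwoIn T L ∧
        ∀ L' : Subgroup G, Cfsg.IsMaximalTwoLocal L' → K ⊔ T ≤ L' → L' = L := by
    intro K L h
    have l := Transfer.thompsonSubgroupOf_le (p := 2) T
    refine ⟨h.jo'.cent, PLocal.sylowTwo_iff.2 h.sy, ?_, fun e => h.not_norm ((h.comm.ge.trans
      (((Subgroup.commutator_mono le_sup_left (l.trans le_sup_right)).trans e).trans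
      h.sy.pCoreOf_le)).trans Subgroup.le_normalizer), fun e => h.not_cent (le_sup_left.trans
      (Subgroup.le_centralizer_iff.1 (LocalEven.commutator_eq_bot_iff.1 e))), L, h.max, h.le_L,
      PLocal.sylowTwo_iff.2 h.jo.syl, fun L' l1 l2 => (l1.2 _ h.max.1 (h.uniq _ l1.1
        ((sup_le_sup_left l K).trans l2))).symm⟩
    have c := LocalEven.card_mul_relIndex h.sy.pCoreOf_le
    rw [h.card_T, mul_comm 2] at c
    rw [← Subgroup.relIndex_mul_relIndex _ _ _ h.sy.pCoreOf_le le_sup_right, h.idx',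
      Nat.eq_of_mul_eq_mul_left Nat.card_pos c]
  refine ⟨K, K', fun e => h1.not_le (e ▸ h1.h1.kL), (PLocal.jc_iff hT.1.1).2 h1.h1.toJC,
    (PLocal.jc_iff hT.1.1).2 h1.h2.toJC, h1.bot_of_norm (LocalEven.isPGroup_pCoreOf _)
    (le_sup_left.trans (LocalEven.le_normalizer_pCoreOf _))
    (le_sup_right.trans (LocalEven.le_normalizer_pCoreOf _)), ?_⟩
  simp only [List.mem_cons, List.not_mem_nil, or_false]
  rintro _ (rfl | rfl)
  exacts [key h1.h1, key h1.h2]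

end Cfsg.Agent.S2953
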