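import Mathlib
import Cfsg.Agent.PGrp.Extra2
import Cfsg.Statements.S3084
-- import your own Cfsg.Agent.* helpers here

set_option autoImplicit false
open Cfsg

namespace Cfsg.Agent.S3084

open Cfsg.Agent.PGrp Matrix
open scoped commutatorElement

noncomputable def ψ (a : ZMod 2) : ℝ := if a = 0 then 1 else -1

theorem ψ_add (a b : ZMod 2) : ψ (a + b) = ψ a * ψ b := by
  have h : ∀ a : ZMod 2, a = 0 ∨ a = 1 := by decide
  have h2 : (1 + 1 : ZMod 2) = 0 := by decide
  rcases h a with rfl | rfl <;> rcases h b with rfl | rfl <;> simp [ψ, h2]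

theorem ψ_ne (a : ZMod 2) : ψ a ≠ 0 := by
  unfold ψ; split_ifs <;> norm_num

theorem ψ_inj {a b : ZMod 2} (e : ψ a = ψ b) : a = b := by
  have h : ∀ a : ZMod 2, a = 0 ∨ a = 1 := by decide
  rcases h a with rfl | rfl <;> rcases h b with rfl | rfl <;> simp [ψ] at e ⊢ <;> norm_num at e

structure Rp {E V : Type*} [Group E] [AddCommGroup V] (D : CExt 2 E V) (ι : Type*) [Fintype ι]
    [DecidableEq ι] (M : E →* Matrix ι ι ℝ) (N : E → Matrix ι ι ℝ) : Prop where
  tr : ∀ x, (M x)ᵀ = M x⁻¹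
  z : M (D.ι 1) = -1
  comm : ∀ x y, M x * N y = N y * M x
  scal : ∀ g : Matrix ι ι ℝ, (∀ x, g * M x = M x * g) → (∀ y, g * N y = N y * g) →
    ∃ c : ℝ, g = c • (1 : Matrix ι ι ℝ)

section heis
variable {V : Type*} [AddCommGroup V] [Module (ZMod 2) V] [Fintype V] [DecidableEq V]
  (β : LinearMap.BilinForm (ZMod 2) V)

noncomputable def MM : Heis β →* Matrix V V ℝ where
  toFun x := Matrix.of fun w' w => if w' = x.v + w then ψ (x.a + β x.v w) else 0
  map_one' := by
    ext i j
    simp [ψ, Matrix.one_apply]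
  map_mul' x y := by
    ext i j
    simp only [Matrix.mul_apply, Matrix.of_apply, mul_ite, mul_zero, Finset.sum_ite_eq',
      Finset.mem_univ, if_true, Heis.mul_v, Heis.mul_a, add_assoc, ite_mul, zero_mul]
    split_ifs
    · rw [← ψ_add]; congr 1; simp only [map_add, LinearMap.add_apply]; ring
    · rfl

theorem MM_apply (x : Heis β) (i j : V) :
    MM β x i j = if i = x.v + j then ψ (x.a + β x.v j) else 0 := rfl

noncomputable def NN (x : Heis β) : Matrix V V ℝ :=
  Matrix.of fun w' w => if w' = w + x.v then ψ (β w x.v) else 0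

theorem rp_heis (h : ∀ u, (∀ v, β v u - β u v = 0) → u = 0) : Rp (Heis.cext β) V (MM β) (NN β) where
  tr x := by
    ext i j
    rw [transpose_apply, MM_apply, MM_apply]
    by_cases e : j = x.v + i
    · subst e
      rw [if_pos rfl, if_pos (by simp)]
      congr 1
      simp only [Heis.inv_a, Heis.inv_v, map_neg, map_add, LinearMap.neg_apply]
      have : ∀ a b c : ZMod 2, a + b = -a + c + (-c + -b) := by decide
      exact this _ _ _
    · rw [if_neg e, if_neg]
      rintro rfl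
      exact e (by simp)
  z := by
    ext i j
    rw [MM_apply]
    simp [Heis.cext, ψ, Matrix.one_apply]
    split_ifs <;> simp
  comm x y := by
    ext i j
    simp only [Matrix.mul_apply, MM_apply, NN, Matrix.of_apply, mul_ite, mul_zero,
      Finset.sum_ite_eq', Finset.mem_univ, if_true, ite_mul, zero_mul, add_assoc]
    split_ifs
    · rw [← ψ_add, ← ψ_add]; congr 1; simp only [map_add, LinearMap.add_apply]; ring
    · rfl
  scal g h1 h2 := by
    have e1 : ∀ v i j, g (v + i) (v + j) * ψ (β v j) = ψ (β v i) * g i j := by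
      intro v i j
      have := congrFun (congrFun (h1 ⟨v, 0⟩) (v + i)) j
      simpa only [Matrix.mul_apply, MM_apply, mul_ite, mul_zero, Finset.sum_ite_eq',
        Finset.mem_univ, if_true, ite_mul, zero_mul, zero_add, add_right_inj,
        Finset.sum_ite_eq] using this
    have e2 : ∀ v i j, g (i + v) (j + v) * ψ (β j v) = ψ (β i v) * g i j := by
      intro v i j
      have := congrFun (congrFun (h2 ⟨v, 0⟩) (i + v)) j
      simpa only [Matrix.mul_apply, NN, Matrix.of_apply, mul_ite, mul_zero, Finset.sum_ite_eq',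
        Finset.mem_univ, if_true, ite_mul, zero_mul, zero_add, add_left_inj,
        Finset.sum_ite_eq] using this
    refine ⟨g 0 0, ?_⟩
    ext i j
    by_cases e : i = j
    · subst e
      have := e1 i 0 0
      simpa [ψ] using this
    · rw [Matrix.smul_apply, Matrix.one_apply_ne e, smul_zero]
      by_contra hg
      apply e
      rw [← sub_eq_zero]
      apply h
      intro v
      have a1 := e1 v i j
      have a2 := e2 v i j
      rw [add_comm i, add_comm j] at a2
      have a3 : ψ (β v i + β j v) * g i j = ψ (β i v + β v j) * g i j := by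
        rw [ψ_add, ψ_add]
        linear_combination (ψ (β v j)) * a2 - (ψ (β j v)) * a1
      have a4 := ψ_inj (mul_right_cancel₀ hg a3)
      simp only [map_sub, LinearMap.sub_apply]
      linear_combination a4

end heis

theorem Rp.reindex {E V : Type*} [Group E] [AddCommGroup V] {D : CExt 2 E V} {ι κ : Type*}
    [Fintype ι] [DecidableEq ι] [Fintype κ] [DecidableEq κ] {M : E →* Matrix ι ι ℝ}
    {N : E → Matrix ι ι ℝ} (h : Rp D ι M N) (e : ι ≃ κ) :
    Rp D κ ((Matrix.reindexAlgEquiv ℝ ℝ e).toRingEquiv.toMonoidHom.comp M)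
      (fun x => Matrix.reindexAlgEquiv ℝ ℝ e (N x)) where
  tr x := by
    show (Matrix.reindexAlgEquiv ℝ ℝ e (M x))ᵀ = Matrix.reindexAlgEquiv ℝ ℝ e (M x⁻¹)
    rw [← h.tr]; rfl
  z := by
    show Matrix.reindexAlgEquiv ℝ ℝ e (M _) = _
    rw [h.z, map_neg, map_one]
  comm x y := by
    show Matrix.reindexAlgEquiv ℝ ℝ e (M _) * _ = _ * Matrix.reindexAlgEquiv ℝ ℝ e (M _)
    rw [← map_mul, h.comm, map_mul]
  scal g h1 h2 := by
    obtain ⟨g, rfl⟩ := (Matrix.reindexAlgEquiv ℝ ℝ e).surjective g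
    obtain ⟨c, hc⟩ := h.scal g (fun x => (Matrix.reindexAlgEquiv ℝ ℝ e).injective (by
      rw [map_mul, map_mul]; exact h1 x)) (fun x => (Matrix.reindexAlgEquiv ℝ ℝ e).injective (by
      rw [map_mul, map_mul]; exact h2 x))
    exact ⟨c, by rw [hc, map_smul, map_one]⟩

section main
variable {E V : Type*} [Group E] [Finite E] [AddCommGroup V] [Module (ZMod 2) V] {D : CExt 2 E V}
  {ι : Type} [Fintype ι] [DecidableEq ι] [Nonempty ι] {M : E →* Matrix ι ι ℝ}
  {N : E → Matrix ι ι ℝ}

theorem exists_conj_z (hB : D.B.Nondegenerate) {c : E} (hc : D.χ c ≠ 0) :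
    ∃ h : E, h⁻¹ * c * h = c * D.ι 1 := by
  have : ¬ ∀ v, D.B (D.χ c⁻¹) v = 0 := fun h => hc (by
    have := hB.1 _ h
    rwa [D.χ_inv, neg_eq_zero] at this)
  push Not at this
  obtain ⟨v, hv⟩ := this
  obtain ⟨y, rfl⟩ := D.χ_surj v
  have h2 : ∀ a : ZMod 2, a ≠ 0 → a = 1 := by decide
  have := D.ι_B c⁻¹ y
  rw [h2 _ hv] at this
  exact ⟨y⁻¹, by rw [this, commutatorElement_def]; group⟩

theorem Rp.inj (h : Rp D ι M N) (hB : D.B.Nondegenerate) : Function.Injective M := by
  have hz : M (D.ι 1) ≠ 1 := by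
    rw [h.z]
    intro e
    obtain ⟨i⟩ := ‹Nonempty ι›
    have := congrFun (congrFun e i) i
    simp at this
    norm_num at this
  rw [injective_iff_map_eq_one]
  intro x hx
  by_cases hc : D.χ x = 0
  · obtain ⟨a, rfl⟩ := (D.χ_eq_zero x).1 hc
    have h2 : ∀ a : ZMod 2, a = 0 ∨ a = 1 := by decide
    rcases h2 a with rfl | rfl
    · exact D.ι_zero
    · exact absurd hx hz
  · obtain ⟨y, hy⟩ := exists_conj_z hB hc
    have := congrArg M hy
    rw [map_mul, map_mul, hx, mul_one, ← map_mul, inv_mul_cancel, map_one, map_mul, hx,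
      one_mul] at this
    exact absurd this.symm hz

theorem Rp.exists_int (h : Rp D ι M N) (hB : D.B.Nondegenerate) (φ : E ≃* E)
    (hφ : ∀ x, D.χ (φ x) = 0 ↔ D.χ x = 0) :
    ∃ g : Matrix.orthogonalGroup ι ℝ, (∀ y, g.1 * N y = N y * g.1) ∧
      ∀ x, g.1 * M x = M (φ x) * g.1 := by
  classical
  haveI := Fintype.ofFinite E
  have hφι : ∀ y, D.χ y = 0 → φ y = y := by
    intro y hy
    obtain ⟨a, rfl⟩ := (D.χ_eq_zero y).1 hy
    obtain ⟨b, hb⟩ := (D.χ_eq_zero _).1 ((hφ _).2 hy)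
    have h2 : ∀ a : ZMod 2, a = 0 ∨ a = 1 := by decide
    rcases h2 a with rfl | rfl
    · rw [D.ι_zero, map_one]
    · rcases h2 b with rfl | rfl
      · rw [D.ι_zero, eq_comm, map_eq_one_iff _ φ.injective, D.ι_eq_one_iff] at hb
        exact absurd hb (by decide)
      · exact hb.symm
  let T : E → Matrix ι ι ℝ := fun x => ∑ y, M (φ y * x * y⁻¹)
  have hT : ∀ x e, T x * M e = M (φ e) * T x := by
    intro x e
    simp only [T, Finset.sum_mul, Finset.mul_sum, ← map_mul]
    refine (Fintype.sum_equiv (Equiv.mulLeft e) _ _ fun y => ?_).symm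
    simp [mul_assoc]
  obtain ⟨x, hx⟩ : ∃ x, T x ≠ 0 := by
    by_contra h0
    push Not at h0
    have h1 : ∑ y, ∑ x, trace (M (x⁻¹ * φ y * x * y⁻¹)) = 0 := by
      rw [Finset.sum_comm]
      apply Finset.sum_eq_zero
      intro x _
      have : M x⁻¹ * T x = 0 := by rw [h0, mul_zero]
      have := congrArg trace this
      simpa only [T, Finset.mul_sum, ← map_mul, trace_sum, trace_zero, mul_assoc] using this
    have h2 : ∀ y, ∑ x, trace (M (x⁻¹ * φ y * x * y⁻¹)) =
        if D.χ y = 0 then (Fintype.card E : ℝ) * Fintype.card ι else 0 := by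
      intro y
      split_ifs with hy
      · rw [hφι y hy]
        have : ∀ x : E, x⁻¹ * y * x * y⁻¹ = 1 := fun x => by
          rw [mul_assoc x⁻¹, ← (D.commute_of_χ_eq_zero hy x).eq]; group
        simp [this]
      · obtain ⟨k, hk⟩ := exists_conj_z hB (fun e => hy ((hφ y).1 e))
        have : ∑ x, trace (M (x⁻¹ * φ y * x * y⁻¹)) = -∑ x, trace (M (x⁻¹ * φ y * x * y⁻¹)) := by
          rw [← Finset.sum_neg_distrib]
          refine (Fintype.sum_equiv (Equiv.mulLeft k) _ _ fun x => ?_).symm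
          have e : (k * x)⁻¹ * φ y * (k * x) * y⁻¹ = x⁻¹ * φ y * x * y⁻¹ * D.ι 1 := by
            calc (k * x)⁻¹ * φ y * (k * x) * y⁻¹ = x⁻¹ * (k⁻¹ * φ y * k) * (x * y⁻¹) := by group
              _ = x⁻¹ * φ y * (D.ι 1 * (x * y⁻¹)) := by rw [hk]; group
              _ = _ := by rw [← D.central]; group
          rw [Equiv.coe_mulLeft, e, map_mul M _ (D.ι 1), h.z, mul_neg, mul_one, trace_neg]
        linarith
    simp only [h2] at h1
    refine (Finset.sum_pos' (fun y _ => ?_) ⟨1, Finset.mem_univ _, ?_⟩).ne' h1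
    · split_ifs <;> positivity
    · rw [if_pos D.χ_one]
      have := Fintype.card_pos (α := E)
      have := Fintype.card_pos (α := ι)
      positivity
  have hN : ∀ y, T x * N y = N y * T x := fun y => by
    simp only [T, Finset.sum_mul, Finset.mul_sum, h.comm]
  have hN' : ∀ y, (T x)ᵀ * N y = N y * (T x)ᵀ := fun y => by
    simp only [T, transpose_sum, h.tr, Finset.sum_mul, Finset.mul_sum, h.comm]
  obtain ⟨c, hc⟩ := h.scal ((T x)ᵀ * T x) (fun e => by
    have := congrArg transpose (hT x e⁻¹)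
    rw [transpose_mul, transpose_mul, h.tr, h.tr, inv_inv, map_inv φ, inv_inv] at this
    rw [mul_assoc, hT, ← mul_assoc, ← this, mul_assoc]) (fun y => by
    rw [mul_assoc, hN, ← mul_assoc, hN', mul_assoc])
  have hc0 : 0 < c := by
    obtain ⟨i⟩ := ‹Nonempty ι›
    have h1 : 0 ≤ c := by
      have := congrFun (congrFun hc i) i
      simp only [Matrix.mul_apply, transpose_apply, Matrix.smul_apply, one_apply_eq, smul_eq_mul,
        mul_one] at this
      rw [← this]
      exact Finset.sum_nonneg fun j _ => mul_self_nonneg _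
    refine h1.lt_of_ne fun e => hx ?_
    rw [← e, zero_smul, ← conjTranspose_eq_transpose_of_trivial] at hc
    exact conjTranspose_mul_self_eq_zero.1 hc
  refine ⟨⟨(√c)⁻¹ • T x, ?_⟩, fun y => ?_, fun e => ?_⟩
  · rw [Matrix.mem_orthogonalGroup_iff', transpose_smul, smul_mul_smul_comm, hc, smul_smul,
      ← mul_inv, Real.mul_self_sqrt hc0.le, inv_mul_cancel₀ hc0.ne', one_smul]
  · simp [hN]
  · simp [hT]

def Rel (D : CExt 2 E V) (M : E →* Matrix ι ι ℝ) {K : Type*} [Group K]
    (ρ : Representation (ZMod 2) K V) (g : Matrix.orthogonalGroup ι ℝ) (k : K) : Prop :=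
  ∃ φ : Equiv.Perm E, ∀ x, g.1 * M x = M (φ x) * g.1 ∧ D.χ (φ x) = ρ k (D.χ x)

theorem inv_mul' (g : Matrix.orthogonalGroup ι ℝ) : (g⁻¹).1 * g.1 = 1 :=
  congrArg Subtype.val (inv_mul_cancel g)

theorem mul_inv' (g : Matrix.orthogonalGroup ι ℝ) : g.1 * (g⁻¹).1 = 1 :=
  congrArg Subtype.val (mul_inv_cancel g)

theorem swap_inv {g : Matrix.orthogonalGroup ι ℝ} {A B : Matrix ι ι ℝ} (h : g.1 * A = B * g.1) :
    (g⁻¹).1 * B = A * (g⁻¹).1 := by
  calc (g⁻¹).1 * B = (g⁻¹).1 * (B * g.1) * (g⁻¹).1 := by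
        rw [mul_assoc, mul_assoc, mul_inv', mul_one]
    _ = _ := by rw [← h, ← mul_assoc, inv_mul', one_mul]

variable {K : Type*} [Group K] {ρ : Representation (ZMod 2) K V}

theorem Rel.one : Rel D M ρ 1 1 := ⟨1, fun x => by simp⟩

theorem Rel.mul {g g' : Matrix.orthogonalGroup ι ℝ} {k k' : K} (h : Rel D M ρ g k)
    (h' : Rel D M ρ g' k') : Rel D M ρ (g * g') (k * k') := by
  obtain ⟨φ, h⟩ := h
  obtain ⟨φ', h'⟩ := h'
  refine ⟨φ * φ', fun x => ⟨?_, ?_⟩⟩
  · rw [Submonoid.coe_mul, mul_assoc, (h' x).1, ← mul_assoc, (h _).1, mul_assoc]; rfl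
  · rw [Equiv.Perm.mul_apply, (h _).2, (h' _).2, map_mul]; rfl

theorem Rel.inv {g : Matrix.orthogonalGroup ι ℝ} {k : K} (h : Rel D M ρ g k) :
    Rel D M ρ g⁻¹ k⁻¹ := by
  obtain ⟨φ, h⟩ := h
  refine ⟨φ.symm, fun x => ?_⟩
  obtain ⟨x, rfl⟩ := φ.surjective x
  rw [φ.symm_apply_apply]
  exact ⟨swap_inv (h x).1, by rw [(h x).2, ρ.inv_self_apply]⟩

theorem cancel' {g : Matrix.orthogonalGroup ι ℝ} {A B : Matrix ι ι ℝ} (h : A * g.1 = B * g.1) :
    A = B := by
  rw [← mul_one A, ← mul_inv' g, ← mul_assoc, h, mul_assoc, mul_inv', mul_one]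

theorem Rel.uniq (hM : Function.Injective M) (hρ : Function.Injective ρ)
    {g : Matrix.orthogonalGroup ι ℝ} {k k' : K} (h : Rel D M ρ g k) (h' : Rel D M ρ g k') :
    k = k' := by
  obtain ⟨φ, h⟩ := h
  obtain ⟨φ', h'⟩ := h'
  apply hρ
  ext v
  obtain ⟨x, rfl⟩ := D.χ_surj v
  rw [← (h x).2, ← (h' x).2, hM (cancel' ((h x).1.symm.trans (h' x).1))]

def RR (D : CExt 2 E V) (M : E →* Matrix ι ι ℝ) (N : E → Matrix ι ι ℝ)
    (ρ : Representation (ZMod 2) K V) : Subgroup (Matrix.orthogonalGroup ι ℝ) where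
  carrier := {g | (∀ y, g.1 * N y = N y * g.1) ∧ ∃ k, Rel D M ρ g k}
  one_mem' := ⟨fun y => by simp, 1, Rel.one⟩
  mul_mem' := fun {a b} ⟨h1, k, hk⟩ ⟨h2, k', hk'⟩ => ⟨fun y => by
    rw [Submonoid.coe_mul, mul_assoc, h2, ← mul_assoc, h1, mul_assoc], _, hk.mul hk'⟩
  inv_mem' := fun {a} ⟨h1, k, hk⟩ => ⟨fun y => swap_inv (h1 y), _, hk.inv⟩

theorem Rp.main [Finite V] [Nontrivial V] (h : Rp D ι M N) (hB : D.B.Nondegenerate)
    (hρ : Function.Injective ρ) (hq : ∀ (k : K) (u : V), D.Q (ρ k u) = D.Q u) :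
    ∃ (R : Type) (_ : Group R) (_ : Finite R) (Q : Subgroup R) (hN : Q.Normal) (e : R ⧸ Q ≃* K)
      (D' : CExt 2 Q V), D'.Q = D.Q ∧ ∀ (r : R) (a : ↥Q),
        D'.χ ⟨r * a * r⁻¹, hN.conj_mem (a : R) a.2 r⟩ = ρ (e (r : R ⧸ Q)) (D'.χ a) := by
  have hM := h.inj hB
  let R := RR D M N ρ
  let π : R →* K := MonoidHom.mk' (fun g => g.2.2.choose) fun a b =>
    Rel.uniq hM hρ (a * b).2.2.choose_spec (a.2.2.choose_spec.mul b.2.2.choose_spec)
  have hπ : ∀ g : R, Rel D M ρ g.1 (π g) := fun g => g.2.2.choose_spec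
  have hπ' : ∀ (g : R) k, Rel D M ρ g.1 k → π g = k := fun g k hk => Rel.uniq hM hρ (hπ g) hk
  have hsurj : Function.Surjective π := by
    intro k
    let σ : D.Q.IsometryEquiv D.Q :=
      { (LinearEquiv.ofLinear (ρ k) (ρ k⁻¹) (by ext v; simp) (by ext v; simp) : V ≃ₗ[ZMod 2] V) with
        map_app' := hq k }
    obtain ⟨φ, hφ⟩ := D.exists_lift_two D σ
    obtain ⟨g, h1, h2⟩ := h.exists_int hB φ fun x => by
      rw [hφ]; exact map_eq_zero_iff _ σ.injective
    have : Rel D M ρ g k := ⟨φ.toEquiv, fun x => ⟨h2 x, hφ x⟩⟩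
    exact ⟨⟨g, h1, k, this⟩, hπ' _ _ this⟩
  let M1 : E →* Matrix.orthogonalGroup ι ℝ := M.codRestrict _ fun x => by
    rw [Matrix.mem_orthogonalGroup_iff', h.tr, ← map_mul, inv_mul_cancel, map_one]
  have hM1 : ∀ x, Rel D M ρ (M1 x) 1 := fun x => ⟨(MulAut.conj x).toEquiv, fun y => ⟨by
    show M x * M y = M (x * y * x⁻¹) * M x
    rw [← map_mul, ← map_mul, inv_mul_cancel_right], by
    show D.χ (x * y * x⁻¹) = _
    rw [D.χ_mul, D.χ_mul, D.χ_inv, map_one]
    simp⟩⟩
  let M2 : E →* R := M1.codRestrict _ fun x => ⟨h.comm x, 1, hM1 x⟩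
  have hM2 : Function.Injective M2 := fun x y e =>
    hM (congrArg (fun g : R => g.1.1) e)
  have hker : π.ker = M2.range := by
    apply le_antisymm
    · intro g hg
      obtain ⟨φ, hφ⟩ := hπ g
      rw [MonoidHom.mem_ker.1 hg] at hφ
      let φ' : E →* E := MonoidHom.mk' φ fun x y => hM (cancel' (g := g.1) (by
        rw [← (hφ _).1, map_mul, map_mul, ← mul_assoc, (hφ x).1, mul_assoc, (hφ y).1, mul_assoc]))
      haveI : Fact (Nat.Prime 2) := ⟨Nat.prime_two⟩
      obtain ⟨y, hy⟩ := D.exists_conj_of_χ_eq hB φ' fun x => by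
        have := (hφ x).2
        rw [map_one] at this
        exact this
      obtain ⟨c, hc⟩ := h.scal (M y⁻¹ * g.1.1) (fun x => by
        rw [mul_assoc, (hφ x).1, ← mul_assoc, ← mul_assoc, ← map_mul, ← map_mul,
          show φ x = y * x * y⁻¹ from hy x]
        congr 2; group) (fun x => by
        rw [mul_assoc, g.2.1, ← mul_assoc, h.comm, mul_assoc])
      have hg1 : g.1.1 = c • M y := by
        rw [← mul_one (M y), ← Matrix.mul_smul, ← hc, ← mul_assoc, ← map_mul, mul_inv_cancel,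
          map_one, one_mul]
      have hc2 : c * c = 1 := by
        have := (Matrix.mem_orthogonalGroup_iff' ι ℝ).1 g.1.2
        rw [hg1, transpose_smul, smul_mul_smul_comm, h.tr, ← map_mul, inv_mul_cancel,
          map_one] at this
        obtain ⟨i⟩ := ‹Nonempty ι›
        simpa using congrFun (congrFun this i) i
      rcases mul_self_eq_one_iff.1 hc2 with e | e
      · exact ⟨y, Subtype.ext (Subtype.ext (by rw [hg1, e, one_smul]; rfl))⟩
      · refine ⟨y * D.ι 1, Subtype.ext (Subtype.ext ?_)⟩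
        show M (y * D.ι 1) = _
        rw [hg1, e, map_mul, h.z]; simp
    · rintro _ ⟨x, rfl⟩
      exact hπ' _ _ (hM1 x)
  haveI hn : M2.range.Normal := hker ▸ inferInstance
  let e : R ⧸ M2.range ≃* K := (QuotientGroup.quotientMulEquivOfEq hker.symm).trans
    (QuotientGroup.quotientKerEquivOfSurjective π hsurj)
  let f : E ≃* M2.range := MonoidHom.ofInjective hM2
  haveI : Finite (V →ₗ[ZMod 2] V) := Finite.of_injective _ DFunLike.coe_injective
  haveI : Finite K := Finite.of_injective ρ hρ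
  haveI : Finite M2.range := Finite.of_equiv _ f.toEquiv
  haveI : Finite (R ⧸ M2.range) := Finite.of_equiv _ e.symm.toEquiv
  refine ⟨R, inferInstance, Finite.of_subgroup_quotient M2.range, M2.range, hn, e, D.congr f, ?_, ?_⟩
  · ext v
    obtain ⟨x, rfl⟩ := D.χ_surj v
    apply D.ι_inj
    apply f.injective
    have := (D.congr f).ι_Q (f x)
    rw [D.ι_Q, map_pow, ← this]
    show (D.congr f).ι _ = (D.congr f).ι ((D.congr f).Q (D.χ (f.symm (f x))))
    rw [f.symm_apply_apply]
  · intro r a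
    obtain ⟨x, rfl⟩ := f.surjective a
    obtain ⟨φ, hφ⟩ := hπ r
    have : (⟨r * f x * r⁻¹, hn.conj_mem _ (f x).2 r⟩ : M2.range) = f (φ x) := by
      apply Subtype.ext
      rw [mul_inv_eq_iff_eq_mul]
      exact Subtype.ext (Subtype.ext (hφ x).1)
    rw [this]
    show D.χ (f.symm (f (φ x))) = ρ (π r) (D.χ (f.symm (f x)))
    rw [f.symm_apply_apply, f.symm_apply_apply, (hφ x).2]

end main

/-- Let K be a group acting faithfully and linearly on a finite-dimensional vector space U of dimension 2n ≥ 2 over the field with two elements, preserving a quadratic form q whose polar bilinear form is non-degenerate and which vanishes on some n-dimensional subspace (a non-singular form of plus type). Then there is a finite group R with a normal extraspecial 2-subgroup Q of order 2^(2n+1), an isomorphism of R/Q with K, and a surjective homomorphism χ from Q onto (the additive group of) U with kernel the centre of Q, such that χ carries conjugation by any r in R to the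 action of the image of r in K, and an element a of Q squares to the identity exactly when q vanishes at χ(a). -/
theorem result {K : Type*} [Group K] {U : Type*} [AddCommGroup U] [Module (ZMod 2) U] [Module.Finite (ZMod 2) U] (n : ℕ) (hn1 : 1 ≤ n) (hn : Module.finrank (ZMod 2) U = 2 * n) (ρ : Representation (ZMod 2) K U) (hρ : Function.Injective ρ) (q : QuadraticForm (ZMod 2) U) (hq : ∀ (k : K) (u : U), q (ρ k u) = q u) (hnd : (QuadraticMap.polarBilin q).Nondegenerate) (hplus : ∃ W : Submodule (ZMod 2) U, Module.finrank (ZMod 2) ↥W = n ∧ ∀ w ∈ W, q w = 0) : ∃ (R : Type) (_ : Group R) (_ : Finite R) (Q : Subgroup R) (hN : Q.Normal) (e : R ⧸ Q ≃* K) (χ : ↥Q →* Multiplicative U), Cfsg.IsExtraspecial 2 ↥Q ∧ Nat.card ↥Q = 2 ^ (2 * n + 1) ∧ Function.Surjective χ ∧ χ.ker = Subgroup.center ↥Q ∧ (∀ (r : R) (a : ↥Q), χ ⟨r * a * r⁻¹, hN.conj_mem (a : R) a.2 r⟩ = Multiplicative.ofAdd (ρ (e (r : R ⧸ Q)) (Multiplicative.toAdd (χ a)))) ∧ ∀ a : ↥Q, a * a = 1 ↔ q (Multiplicative.toAdd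 (χ a)) = 0 := by
  classical
  haveI : Fact (Nat.Prime 2) := ⟨Nat.prime_two⟩
  haveI : Finite U := Module.finite_of_finite (ZMod 2)
  haveI := Fintype.ofFinite U
  haveI : Nontrivial U := Module.nontrivial_of_finrank_pos (R := ZMod 2) (by omega)
  obtain ⟨β, hβ⟩ := exists_cext_Q_eq q
  have hBq : ∀ {E : Type _} [Group E] (D : CExt 2 E U), D.Q = q → D.B.Nondegenerate := by
    intro E _ D hD
    have : D.B = QuadraticMap.polarBilin q := by
      ext u v
      rw [← D.polar_Q, hD]; rfl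
    rwa [this]
  have hB : (Heis.cext β).B.Nondegenerate := by
    have : (Heis.cext β).B = QuadraticMap.polarBilin q := by
      ext u v
      rw [← (Heis.cext β).polar_Q, hβ]; rfl
    rwa [this]
  have h1 := (rp_heis β fun u hu => hB.2 u fun v => by rw [Heis.cext_B]; exact hu v).reindex
    (Fintype.equivFin U)
  haveI : Nonempty (Fin (Fintype.card U)) := ⟨Fintype.equivFin U 0⟩
  obtain ⟨R, _, _, Q, hN, e, D, hD, h2⟩ := h1.main hB hρ (by rwa [hβ])
  have hB' := hBq D (hD.trans hβ)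
  refine ⟨R, inferInstance, inferInstance, Q, hN, e, D.χH, D.isExtraspecial hB', ?_, D.χH_surj,
    (D.nondegenerate_iff.1 hB').symm, fun r a => congrArg Multiplicative.ofAdd (h2 r a), fun a => ?_⟩
  · rw [D.card_eq, Module.natCard_eq_pow_finrank (K := ZMod 2), hn, Nat.card_zmod, pow_succ']
  · rw [← sq, D.sq_eq_one_iff, hD, hβ]; rfl

end Cfsg.Agent.S3084
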