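import Mathlib
import Cfsg.Statements.S3085
import Cfsg.Agent.LocalEven.Conj
import Cfsg.Agent.PGrp.Comm

set_option autoImplicit false
open Cfsg

namespace Cfsg.Agent.S3085

open Cfsg.Agent.LocalEven

open Subgroup
open scoped commutatorElement

section
variable {Q : Type*} [Group Q] {z : Q}

/-- The standing facts about an extraspecial `2`-group with central involution `z`. -/
structure XS (z : Q) : Prop where
  cen : ∀ x, x * z = z * x
  sq : z * z = 1
  ne : z ≠ 1
  ctr : ∀ x, (∀ y, y * x = x * y) → x = 1 ∨ x = z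
  comm : ∀ x y, x * y = y * x ∨ x * y = y * x * z
  sqs : ∀ x, x * x = 1 ∨ x * x = z

theorem XS.not_both (h : XS z) {x y : Q} (h1 : x * y = y * x) (h2 : x * y = y * x * z) : False :=
  h.ne (by rw [h1] at h2; simpa using h2)

theorem XS.anti (h : XS z) {x y : Q} (h1 : x * y ≠ y * x) : x * y = y * x * z :=
  (h.comm x y).resolve_left h1

theorem XS.mul_comm_iff (h : XS z) (a x y : Q) :
    x * y * a = a * (x * y) ↔ (x * a = a * x ↔ y * a = a * y) := by
  by_cases hx : x * a = a * x <;> by_cases hy : y * a = a * y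
  · simp only [hx, hy, iff_true]
    rw [mul_assoc, hy, ← mul_assoc, hx, mul_assoc]
  · refine iff_of_false (fun h3 => ?_) (by simp [hx, hy])
    refine h.not_both h3 ?_
    rw [mul_assoc, h.anti hy, ← mul_assoc, ← mul_assoc, hx]; group
  · refine iff_of_false (fun h3 => ?_) (by simp [hx, hy])
    refine h.not_both h3 ?_
    rw [mul_assoc, hy, ← mul_assoc, h.anti hx, mul_assoc _ z y, ← h.cen y]; group
  · simp only [hx, hy, iff_true]
    calc x * y * a = x * (a * y * z) := by rw [mul_assoc, h.anti hy]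
      _ = (x * a) * y * z := by group
      _ = a * x * (z * y) * z := by rw [h.anti hx]; group
      _ = a * (x * y) * (z * z) := by rw [← h.cen y]; group
      _ = _ := by rw [h.sq, mul_one]

open Classical in
/-- The lift of an orthogonal transvection. -/
noncomputable def ph (a x : Q) : Q := if x * a = a * x then x else x * a

theorem ph_pos {a x : Q} (h : x * a = a * x) : ph a x = x := if_pos h
theorem ph_neg {a x : Q} (h : x * a ≠ a * x) : ph a x = x * a := if_neg h

theorem XS.ph_mul (h : XS z) {a : Q} (ha : a * a = z) (x y : Q) :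
    ph a (x * y) = ph a x * ph a y := by
  have k := h.mul_comm_iff a x y
  by_cases hx : x * a = a * x <;> by_cases hy : y * a = a * y
  · rw [ph_pos hx, ph_pos hy, ph_pos (k.2 (by simp [hx, hy]))]
  · rw [ph_pos hx, ph_neg hy, ph_neg (fun e => hy ((k.1 e).1 hx)), mul_assoc]
  · rw [ph_neg hx, ph_pos hy, ph_neg (fun e => hx ((k.1 e).2 hy)), mul_assoc, hy, mul_assoc]
  · rw [ph_neg hx, ph_neg hy, ph_pos (k.2 (by simp [hx, hy]))]
    symm
    calc x * a * (y * a) = x * a * (a * y * z) := by rw [h.anti hy]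
      _ = x * ((a * a) * y) * z := by group
      _ = x * y * (z * z) := by rw [ha, ← h.cen y]; group
      _ = _ := by rw [h.sq, mul_one]

theorem XS.ph_comm_iff (h : XS z) {a b : Q} (hab : a * b = b * a) (x : Q) :
    ph b x * a = a * ph b x ↔ x * a = a * x := by
  by_cases hx : x * b = b * x
  · rw [ph_pos hx]
  · rw [ph_neg hx, h.mul_comm_iff]; simp [hab]

theorem XS.ph_ph (h : XS z) {a : Q} (ha : a * a = z) (x : Q) : ph a (ph a x) = a * x * a⁻¹ := by
  by_cases hx : x * a = a * x
  · rw [ph_pos hx, ph_pos hx, ← hx]; group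
  · rw [ph_neg (fun e => hx ((h.ph_comm_iff rfl x).1 e)), ph_neg hx, mul_assoc, ha,
      eq_mul_inv_iff_mul_eq, mul_assoc, ← h.cen a, ← mul_assoc, h.anti hx, mul_assoc, h.sq, mul_one]

theorem XS.ph_swap (h : XS z) {a b : Q} (hab : a * b = b * a) (x : Q) :
    ph a (ph b x) = ph b (ph a x) := by
  have k1 := h.ph_comm_iff hab x
  have k2 := h.ph_comm_iff hab.symm x
  by_cases hx : x * a = a * x <;> by_cases hy : x * b = b * x
  · rw [ph_pos hy, ph_pos hx, ph_pos hy]
  · rw [ph_pos (k1.2 hx), ph_pos hx]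
  · rw [ph_pos (k2.2 hy), ph_pos hy]
  · rw [ph_neg (fun e => hx (k1.1 e)), ph_neg (fun e => hy (k2.1 e)), ph_neg hx, ph_neg hy,
      mul_assoc, mul_assoc, hab]

/-- The automorphism given by `ph a`. -/
noncomputable def XS.phi [Finite Q] (h : XS z) {a : Q} (ha : a * a = z) : MulAut Q :=
  MulEquiv.ofBijective (MonoidHom.mk' (ph a) (h.ph_mul ha))
    (Finite.injective_iff_bijective.1 fun x y e => by
      have : ph a (ph a x) = ph a (ph a y) := congrArg (ph a) e
      rw [h.ph_ph ha, h.ph_ph ha] at this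
      simpa using this)

theorem XS.phi_apply [Finite Q] (h : XS z) {a : Q} (ha : a * a = z) (x : Q) :
    h.phi ha x = ph a x := rfl

theorem conj_mul_mul (φ ψ : MulAut Q) (u v : Q) :
    (MulAut.conj u * φ) * (MulAut.conj v * ψ) = MulAut.conj (u * φ v) * (φ * ψ) := by
  ext x; simp [mul_assoc]

theorem XS.cen_of (h : XS z) {L : Subgroup (MulAut Q)} (hL : (Inn Q).IsComplement' L) {w : Q}
    (hw : MulAut.conj w ∈ L) : w = 1 ∨ w = z := by
  have h1 : MulAut.conj w ∈ Inn Q ⊓ L := ⟨⟨w, rfl⟩, hw⟩
  rw [hL.disjoint.eq_bot, mem_bot] at h1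
  refine h.ctr w fun y => ?_
  have := congrArg (fun f : MulAut Q => f y) h1
  simp only [MulAut.conj_apply, MulAut.one_apply] at this
  nth_rewrite 1 [← this]; group

theorem XS.exists_u [Finite Q] (h : XS z) {L : Subgroup (MulAut Q)} (hL : (Inn Q).IsComplement' L)
    {a : Q} (ha : a * a = z) : ∃ u, MulAut.conj u * h.phi ha ∈ L ∧ u * a ≠ a * u := by
  obtain ⟨⟨⟨_, w, rfl⟩, l⟩, hl⟩ := hL.2 (h.phi ha)
  have h1 : MulAut.conj w⁻¹ * h.phi ha ∈ L := by
    have : MulAut.conj w * (l : MulAut Q) = h.phi ha := hl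
    rw [← this, ← mul_assoc, ← map_mul, inv_mul_cancel, map_one, one_mul]
    exact l.2
  refine ⟨w⁻¹, h1, fun hc => ?_⟩
  have h2 := mul_mem h1 h1
  have h3 : h.phi ha * h.phi ha = MulAut.conj a := by
    ext x; exact h.ph_ph ha x
  rw [conj_mul_mul, h3, ← map_mul, h.phi_apply, ph_pos hc] at h2
  have h4 : a * a = 1 := by
    rcases h.sqs w⁻¹ with e | e <;> rw [e] at h2 <;> rcases h.cen_of hL h2 with e' | e'
    · rw [one_mul] at e'; rw [e', one_mul]
    · rw [one_mul] at e'; rw [e', h.sq]
    · rw [eq_inv_of_mul_eq_one_right e', ← mul_inv_rev, h.sq, inv_one]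
    · have : a = 1 := by simpa using e'
      rw [this, one_mul]
  exact h.ne (ha.symm.trans h4)

theorem XS.comm_u [Finite Q] (h : XS z) {L : Subgroup (MulAut Q)} (hL : (Inn Q).IsComplement' L)
    {a b u : Q} (ha : a * a = z) (hb : b * b = z) (hab : a * b = b * a)
    (hn : ∀ c, (c = 1 ∨ c = z) → a * b ≠ c) (hu : MulAut.conj u * h.phi ha ∈ L) :
    u * b = b * u := by
  obtain ⟨v, hv, -⟩ := h.exists_u hL hb
  have h1 := mul_mem (mul_mem hu hv) (inv_mem (mul_mem hv hu))
  have h3 : h.phi ha * h.phi hb = h.phi hb * h.phi ha := by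
    ext x; exact h.ph_swap hab x
  rw [conj_mul_mul, conj_mul_mul, h3, mul_inv_rev, mul_assoc, mul_inv_cancel_left, ← map_inv,
    ← map_mul, h.phi_apply, h.phi_apply] at h1
  have h2 := h.cen_of hL h1
  by_contra hc
  rw [ph_neg hc] at h2
  have hZ : ∀ x : Q, x ∈ center Q ↔ x = 1 ∨ x = z := fun x =>
    ⟨fun hx => h.ctr x (mem_center_iff.1 hx), by
      rintro (rfl | rfl)
      · exact one_mem _
      · exact mem_center_iff.2 h.cen⟩
  have hq : ∀ x y : Q ⧸ center Q, x * y = y * x := by
    intro x y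
    obtain ⟨x, rfl⟩ := QuotientGroup.mk_surjective x
    obtain ⟨y, rfl⟩ := QuotientGroup.mk_surjective y
    rw [← QuotientGroup.mk_mul, ← QuotientGroup.mk_mul]
    rcases h.comm x y with e | e <;> rw [e]
    rw [QuotientGroup.mk_mul _ _ z, (QuotientGroup.eq_one_iff z).2 ((hZ z).2 (Or.inr rfl)), mul_one]
  letI : CommGroup (Q ⧸ center Q) := { (inferInstance : Group (Q ⧸ center Q)) with mul_comm := hq }
  have h4 := (QuotientGroup.eq_one_iff _).2 ((hZ _).2 h2)
  have hb2 : ∀ c : Q, (c = 1 ∨ c = z) → c * c ≠ z := by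
    rintro c (rfl | rfl) e
    · exact h.ne (by simpa using e.symm)
    · exact h.ne (e.symm.trans h.sq)
  by_cases hva : v * a = a * v
  · rw [ph_pos hva] at h4
    have : (b : Q ⧸ center Q) = 1 := by
      simp only [QuotientGroup.mk_mul, QuotientGroup.mk_inv] at h4
      rw [mul_inv_eq_one, mul_comm (u : Q ⧸ center Q), mul_left_cancel_iff, left_eq_mul] at h4
      exact h4
    exact hb2 b ((hZ b).1 ((QuotientGroup.eq_one_iff _).1 this)) hb
  · rw [ph_neg hva] at h4
    have h5 : (a : Q ⧸ center Q) = b := by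
      simp only [QuotientGroup.mk_mul, QuotientGroup.mk_inv] at h4
      rw [mul_inv_eq_one, mul_left_comm (u : Q ⧸ center Q), mul_left_cancel_iff,
        mul_left_cancel_iff] at h4
      exact h4
    have h6 : ((a * b : Q) : Q ⧸ center Q) = 1 := by
      rw [QuotientGroup.mk_mul, h5, ← QuotientGroup.mk_mul, hb]
      exact (QuotientGroup.eq_one_iff z).2 ((hZ z).2 (Or.inr rfl))
    exact hn _ ((hZ _).1 ((QuotientGroup.eq_one_iff _).1 h6)) rfl

theorem XS.final [Finite Q] (h : XS z) {L : Subgroup (MulAut Q)} (hL : (Inn Q).IsComplement' L)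
    {a e f : Q} (ha : a * a = z) (he : e * e = 1) (hf : f * f = 1) (hae : a * e = e * a)
    (haf : a * f = f * a) (hef : e * f = f * e) (h1 : ¬ (e = 1 ∨ e = z)) (h2 : ¬ (f = 1 ∨ f = z))
    (h3 : ¬ (e * f = 1 ∨ e * f = z)) : False := by
  obtain ⟨u, hu, hua⟩ := h.exists_u hL ha
  have key : ∀ g, g * g = 1 → a * g = g * a → ¬ (g = 1 ∨ g = z) → u * (a * g) = a * g * u := by
    intro g hg hag hn
    refine h.comm_u hL ha ?_ (by rw [mul_assoc, ← hag]) ?_ hu
    · calc a * g * (a * g) = a * (g * a) * g := by group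
        _ = a * a * (g * g) := by rw [← hag]; group
        _ = z := by rw [ha, hg, mul_one]
    · rintro c (rfl | rfl) e <;> rw [← mul_assoc, ha] at e
      · exact hn (Or.inr (by rw [eq_inv_of_mul_eq_one_right e, inv_eq_of_mul_eq_one_right h.sq]))
      · exact hn (Or.inl (by simpa using e))
  have k1 := key e he hae h1
  have k2 := key f hf haf h2
  have k3 := key (e * f) (by
      calc e * f * (e * f) = e * (f * e) * f := by group
        _ = e * e * (f * f) := by rw [← hef]; group
        _ = 1 := by rw [he, hf, one_mul])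
    (by rw [← mul_assoc, hae, mul_assoc, haf, mul_assoc]) h3
  have m1 := (h.mul_comm_iff u a e).1 k1.symm
  have m2 := (h.mul_comm_iff u a f).1 k2.symm
  have m3 := (h.mul_comm_iff u a (e * f)).1 k3.symm
  have m4 := h.mul_comm_iff u e f
  have hua' : ¬ a * u = u * a := fun e => hua e.symm
  tauto

end

/-- Let Q be an extraspecial 2-group of order 2^(2n+1) with n ≥ 3 that is of plus type (it contains an elementary abelian subgroup of order 2^(n+1)). Then the group of inner automorphisms of Q has no complement in the full automorphism group of Q: the extension of the inner automorphism group (elementary abelian of order 2^(2n)) by the outer automorphism group (the orthogonal group of plus type) does not split. -/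
theorem result {Q : Type*} [Group Q] [Finite Q] (n : ℕ) (hn : 3 ≤ n) (hQ : Cfsg.IsExtraspecial 2 Q) (hcard : Nat.card Q = 2 ^ (2 * n + 1)) (hplus : ∃ E : Subgroup Q, Cfsg.IsElementaryAbelian 2 E ∧ Nat.card ↥E = 2 ^ (n + 1)) (L : Subgroup (MulAut Q)) : ¬ (Cfsg.Inn Q).IsComplement' L := by
  intro hL
  obtain ⟨⟨hp, hfr, hder⟩, hc⟩ := hQ
  obtain ⟨z', hz1, hz2⟩ := (Nat.card_eq_two_iff' (1 : center Q)).1 hc
  have hZ : ∀ x : Q, x ∈ center Q → x = 1 ∨ x = z' := fun x hx => by
    by_cases h1 : (⟨x, hx⟩ : center Q) = 1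
    · exact Or.inl (congrArg Subtype.val h1)
    · exact Or.inr (congrArg Subtype.val (hz2 _ h1))
  have h : XS (z' : Q) :=
    { cen := mem_center_iff.1 z'.2
      sq := by
        have : z' ^ 2 = 1 := by rw [← hc]; exact pow_card_eq_one'
        rw [← pow_two]; exact congrArg Subtype.val this
      ne := fun e => hz1 (Subtype.ext e)
      ctr := fun x hx => hZ x (mem_center_iff.2 hx)
      comm := fun x y => by
        have h1 : ⁅x⁻¹, y⁻¹⁆ ∈ center Q := hder.le (commutator_mem_commutator (mem_top _) (mem_top _))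
        have h2 : x * y = y * x * ⁅x⁻¹, y⁻¹⁆ := by rw [commutatorElement_def]; group
        rcases hZ _ h1 with e | e <;> rw [e] at h2
        · exact Or.inl (by rwa [mul_one] at h2)
        · exact Or.inr h2
      sqs := fun x => by
        rw [← pow_two]
        exact hZ _ (hfr.le (PGrp.pow_mem_frattini hp x)) }
  generalize (z' : Q) = z at h
  obtain ⟨a, ha⟩ : ∃ a : Q, a * a = z := by
    by_contra hn
    push Not at hn
    have h1 : ∀ x : Q, x * x = 1 := fun x => (h.sqs x).resolve_right (hn x)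
    have h2 : ∀ x y : Q, x * y = y * x := fun x y => by
      rw [← inv_eq_of_mul_eq_one_right (h1 (x * y)), mul_inv_rev,
        inv_eq_of_mul_eq_one_right (h1 x), inv_eq_of_mul_eq_one_right (h1 y)]
    have h3 : center Q = ⊤ := eq_top_iff.2 fun x _ => mem_center_iff.2 fun y => h2 y x
    rw [h3, card_top, hcard] at hc
    have : 2 ^ 1 < 2 ^ (2 * n + 1) := Nat.pow_lt_pow_right (by norm_num) (by omega)
    omega
  obtain ⟨E, ⟨hE1, hE2⟩, hE3⟩ := hplus
  have hEc : ∀ x ∈ E, ∀ y ∈ E, x * y = y * x := fun x hx y hy =>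
    congrArg Subtype.val (hE1.is_comm.comm (⟨x, hx⟩ : E) ⟨y, hy⟩)
  have hE2' : ∀ x ∈ E, x * x = 1 := fun x hx => by rw [← pow_two]; exact hE2 x hx
  let C := E ⊓ centralizer {a}
  have hC : 8 ≤ Nat.card C := by
    have h1 : (centralizer {a} : Subgroup Q).index ≤ 2 := by
      by_cases ht : centralizer {a} = (⊤ : Subgroup Q)
      · rw [ht, index_top]; omega
      · obtain ⟨y, hy⟩ : ∃ y, y ∉ centralizer ({a} : Set Q) := by
          by_contra hn
          push Not at hn
          exact ht (eq_top_iff.2 fun y _ => hn y)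
        refine (index_eq_two_iff.2 ⟨y, fun b => ?_⟩).le
        simp only [mem_centralizer_singleton_iff] at hy ⊢
        have := h.mul_comm_iff a b y
        rw [xor_iff_not_iff]
        tauto
    have h2 : (centralizer {a} : Subgroup Q).relIndex E ≤ 2 := by
      rw [← relIndex_top_right] at h1
      exact (relIndex_le_of_le_right le_top (by
        rw [relIndex_top_right]; exact index_ne_zero_of_finite)).trans h1
    have h3 := card_inf_mul_relIndex (centralizer {a}) E
    rw [inf_comm, hE3] at h3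
    have h4 : 2 ^ 4 ≤ 2 ^ (n + 1) := Nat.pow_le_pow_right (by norm_num) (by omega)
    have h5 : Nat.card C * (centralizer {a} : Subgroup Q).relIndex E ≤ Nat.card C * 2 :=
      Nat.mul_le_mul_left _ h2
    have h6 : Nat.card C * (centralizer {a} : Subgroup Q).relIndex E = 2 ^ (n + 1) := h3
    omega
  have hex : ∀ s : Finset Q, s.card < 8 → ∃ x ∈ C, x ∉ s := fun s hs => by
    by_contra hn
    push Not at hn
    have : (C : Set Q).ncard ≤ (s : Set Q).ncard := Set.ncard_le_ncard hn (Set.toFinite _)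
    rw [Set.ncard_coe_finset] at this
    have h7 : (C : Set Q).ncard = Nat.card C := rfl
    omega
  classical
  obtain ⟨e, he, he'⟩ := hex {1, z} (lt_of_le_of_lt Finset.card_le_two (by norm_num))
  obtain ⟨f, hf, hf'⟩ := hex {1, z, e⁻¹, e⁻¹ * z} (lt_of_le_of_lt Finset.card_le_four (by norm_num))
  simp only [Finset.mem_insert, Finset.mem_singleton, not_or] at he' hf'
  refine h.final hL ha (hE2' e he.1) (hE2' f hf.1) (mem_centralizer_singleton_iff.1 he.2).symm
    (mem_centralizer_singleton_iff.1 hf.2).symm (hEc e he.1 f hf.1) (by tauto) (by tauto) ?_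
  rintro (h1 | h1)
  · exact hf'.2.2.1 (eq_inv_of_mul_eq_one_right h1)
  · exact hf'.2.2.2 (by rw [← h1]; group)

end Cfsg.Agent.S3085
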