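import Mathlib
import Cfsg.Statements.S3116
import Cfsg.Agent.Inv.Wr2
import Cfsg.Agent.Inv.QD

set_option autoImplicit false
open Cfsg

namespace Cfsg.Agent.S3116

theorem aux {X : Type*} [Group X] [Finite X] {x y : X} {n : ℕ} (h : Inv.MC ⊤ x y n)
    (hx : ∀ t, t ∉ Subgroup.zpowers x → orderOf t ≠ orderOf x) : IsPGroup 2 (MulAut X) := by
  intro τ
  obtain ⟨k, m, hm, hkm⟩ := Nat.exists_eq_two_pow_mul_odd (orderOf_pos τ).ne'
  refine ⟨k, ?_⟩
  have hodd : Odd (orderOf (τ ^ 2 ^ k)) := hm.of_dvd_nat (orderOf_dvd_of_pow_eq_one (by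
    rw [← pow_mul, ← hkm, pow_orderOf_eq_one]))
  generalize τ ^ 2 ^ k = σ at hodd
  have hP : IsPGroup 2 (Subgroup.zpowers x) := h.isPGroup.to_le le_top
  have h1 : σ x ∈ Subgroup.zpowers x := by
    by_contra h1
    exact hx _ h1 (σ.orderOf_eq x)
  have h2 : ∀ a ∈ Subgroup.zpowers x, σ a ∈ Subgroup.zpowers x := by
    rintro _ ⟨i, rfl⟩
    simpa using zpow_mem h1 i
  have h3 : ∀ a ∈ Subgroup.zpowers x, σ a = a := fun a ha =>
    Inv.aut_fix_invol hP (fun a ha b hb => Inv.commute_of_mem_zpowers₂ ha hb) h2 hodd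
      (fun a ha haa => by
        rcases h.eq_one_or_z ha haa with rfl | rfl
        · simp
        · exact h.eq_z (h2 _ ha) ((σ.orderOf_eq _).trans h.z_two)) ha
  ext t
  by_cases ht : t ∈ Subgroup.zpowers x
  · exact h3 t ht
  · refine Inv.aut_fix_coset hP hodd h3 (h.mul_inv_mem trivial (fun h4 => ht ?_) trivial ht)
    rwa [← σ.injective (h3 _ h4)]

/-- The automorphism group of a dihedral 2-group of order at least 8, or of a quasi-dihedral (semidihedral) 2-group of order at least 16, is a 2-group. -/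
theorem result {X : Type*} [Group X] [Finite X] (h2 : IsPGroup 2 X)
    (h : (∃ n : ℕ, 4 ≤ n ∧ Nonempty (X ≃* DihedralGroup n)) ∨ Cfsg.IsQuasiDihedral X) : IsPGroup 2 (MulAut X) := by
  rcases h with ⟨n, hn, ⟨e⟩⟩ | h
  · obtain ⟨x, y, k, h⟩ := Inv.exists_dih (S := ⊤) (h2.to_subgroup _) (by omega)
      (Subgroup.topEquiv.trans e)
    refine aux h.toMC fun t ht h1 => ?_
    have h3 := h.card
    rw [Subgroup.card_top, Nat.card_congr e.toEquiv, DihedralGroup.nat_card] at h3
    have h4 := orderOf_dvd_of_pow_eq_one ((pow_two t).trans (h.sq_one trivial ht))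
    rw [h1, h.ord] at h4
    have := Nat.le_of_dvd two_pos h4
    rw [pow_succ] at h3
    omega
  · obtain ⟨x, y, m, h⟩ := Inv.exists_qd_top h
    refine aux h.toMC fun t ht h1 => ?_
    have h4 : t ^ 4 = 1 := by
      rw [show t ^ 4 = t * t * (t * t) by simp [pow_succ, mul_assoc]]
      rcases (h.change trivial ht).y_sq with h3 | h3 <;> rw [h3]
      exacts [one_mul _, h.zz]
    have h5 := Nat.le_of_dvd (by norm_num) (orderOf_dvd_of_pow_eq_one h4)
    rw [h1, h.ord] at h5
    have : 0 < 2 ^ m := by positivity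
    simp only [pow_succ] at h5
    omega

end Cfsg.Agent.S3116
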