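import Mathlib
import Cfsg.Statements.S3357
import Cfsg.Agent.Perm.FC2

set_option autoImplicit false
open Cfsg

namespace Cfsg.Agent.S3357


/-- Let G be a finite group that occurs as a Frobenius complement. Then G has a faithful irreducible representation over an algebraic closure of the rationals in which no non-identity element of G has 1 as an eigenvalue: there are n ≥ 1 and an injective homomorphism ρ from G to GL(n) over that field, with no invariant subspace other than 0 and the whole space, such that for g ≠ 1 the only vector fixed by ρ(g) is 0. -/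
theorem result {G : Type*} [Group G] [Finite G]
    (hFC : ∃ (L : Type) (_ : Group L) (_ : Finite L) (H : Subgroup L), Cfsg.IsFrobeniusComplement H ∧ Nonempty (G ≃* H)) :
    ∃ (n : ℕ) (ρ : G →* GL (Fin n) (AlgebraicClosure ℚ)), 0 < n ∧ Function.Injective ρ ∧
      (∀ W : Submodule (AlgebraicClosure ℚ) (Fin n → AlgebraicClosure ℚ),
        (∀ g : G, ∀ w ∈ W, ((ρ g : GL (Fin n) (AlgebraicClosure ℚ)) : Matrix (Fin n) (Fin n) (AlgebraicClosure ℚ)).mulVec w ∈ W) → W = ⊥ ∨ W = ⊤) ∧
      ∀ g : G, g ≠ 1 → ∀ v : Fin n → AlgebraicClosure ℚ,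
        ((ρ g : GL (Fin n) (AlgebraicClosure ℚ)) : Matrix (Fin n) (Fin n) (AlgebraicClosure ℚ)).mulVec v = v → v = 0 := by
  obtain ⟨n, ρ, hn, hρ⟩ := Perm.isFC_of_exists_frob hFC
  set K := AlgebraicClosure ℚ
  let r : G →* Module.End K (Fin n → K) := (Matrix.toLinAlgEquiv'.toMonoidHom.comp
    (Int.castRingHom K).mapMatrix.toMonoidHom).comp ρ
  have hr : ∀ g, g ≠ 1 → ∀ v, r g v = v → v = 0 := fun g hg v e => by
    refine Matrix.eq_zero_of_mulVec_eq_zero (M := (Int.castRingHom K).mapMatrix (ρ g - 1)) ?_ ?_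
    · rw [← RingHom.map_det, eq_intCast, Int.cast_ne_zero]; exact hρ g hg
    · rw [map_sub, map_one, Matrix.sub_mulVec, Matrix.one_mulVec, sub_eq_zero]; exact e
  have : Nonempty (Fin n) := ⟨⟨0, hn⟩⟩
  obtain ⟨W, ⟨W0, hW⟩, hmin⟩ := exists_minimal_of_wellFoundedLT
    (fun W : Submodule K (Fin n → K) => W ≠ ⊥ ∧ ∀ g, ∀ w ∈ W, r g w ∈ W)
    ⟨⊤, top_ne_bot, fun _ _ _ => trivial⟩
  let s : G →* Module.End K W :=
    { toFun := fun g => (r g).restrict (hW g)
      map_one' := by ext; simp
      map_mul' := fun a b => by ext; simp }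
  let b := Module.finBasis K W
  let τ := ((LinearMap.toMatrixAlgEquiv b).toMonoidHom.comp s).toHomUnits
  have hτ : ∀ g v, ((τ g : GL _ K) : Matrix _ _ K).mulVec (b.equivFun v) = b.equivFun (s g v) :=
    fun g v => LinearMap.toMatrix_mulVec_repr b b (s g) v
  have hf : ∀ g : G, g ≠ 1 → ∀ v, (τ g).val.mulVec v = v → v = 0 :=
    fun g hg v e => by
      obtain ⟨v, rfl⟩ := b.equivFun.surjective v
      rw [hτ, b.equivFun.injective.eq_iff] at e
      rw [show v = 0 from Subtype.ext (hr g hg _ (congrArg Subtype.val e)), map_zero]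
  have : Nontrivial W := Submodule.nontrivial_iff_ne_bot.2 W0
  have hp : 0 < Module.finrank K W := Module.finrank_pos
  refine ⟨_, τ, hp, (injective_iff_map_eq_one τ).2 fun g e => by_contra fun hg => ?_,
    fun U hU => or_iff_not_imp_left.2 fun U0 => ?_, hf⟩
  · have : Nonempty (Fin (Module.finrank K W)) := ⟨⟨0, hp⟩⟩
    obtain ⟨v, hv⟩ := exists_ne (0 : Fin (Module.finrank K W) → K)
    exact hv (hf g hg v (by rw [e]; exact Matrix.one_mulVec v))
  · have h1 := hmin (y := (U.comap b.equivFun.toLinearMap).map W.subtype) ⟨fun e => U0 ?_, ?_⟩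
      (Submodule.map_subtype_le _ _)
    · refine eq_top_iff.2 fun v _ => ?_
      obtain ⟨v, rfl⟩ := b.equivFun.surjective v
      obtain ⟨u, hu, e⟩ := h1 v.2
      rwa [← Subtype.ext e]
    · refine eq_bot_iff.2 fun v hv => ?_
      obtain ⟨v, rfl⟩ := b.equivFun.surjective v
      rw [show v = 0 from Subtype.ext (e.le ⟨v, hv, rfl⟩), map_zero]
      exact zero_mem _
    · rintro g _ ⟨v, hv, rfl⟩
      exact ⟨s g v, (congrArg (· ∈ U) (hτ g v)).mp (hU g _ hv), rfl⟩

end Cfsg.Agent.S3357
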