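import Mathlib
import Cfsg.Statements.S3362
import Cfsg.Agent.Golay.CanonAut

set_option autoImplicit false
open Cfsg

namespace Cfsg.Agent.S3362

open Cfsg.Agent.Golay
open scoped Pointwise

theorem in_of_list {n w : ℕ} {α : Type*} (E : Enc α n) {H : Subgroup (Equiv.Perm α)}
    (L : List (Equiv.Perm α)) (h : ∀ g ∈ L, g ∈ H) : In (E.pcode w) H (L.map (E.pcode w)) :=
  fun _ hc => let ⟨g, hg, e⟩ := List.mem_map.1 hc; ⟨g, h g hg, e⟩

/-- An explicit construction of the Mathieu groups of degrees 11 and 12. On the points 0, …, 11 let s = (3 4 5)(6 7 8)(9 10 11), t = (3 6 9)(4 7 10)(5 8 11), u = (4 6 5 9)(7 8 11 10), v = (4 7 5 11)(6 10 9 8), w = (4 10 5 8)(6 11 9 7), x₁ = (0 3)(6 7)(8 10)(9 11), x₂ = (0 1)(6 9)(7 10)(8 11), x₃ = (1 2)(6 11)(7 9)(8 10) (each written as a product of transpositions). Then the group M₁₂ generated by all eight permutations is sharply 5-transitive on the 12 points and has order 95040, and the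 group M₁₁ generated by the first seven has order 7920 and is the stabilizer of the point 2 in M₁₂. -/
theorem result
    (s t u v w x₁ x₂ x₃ : Equiv.Perm (Fin 12))
    (hs : s = Equiv.swap (3 : Fin 12) 5 * Equiv.swap (3 : Fin 12) 4 * Equiv.swap (6 : Fin 12) 8 * Equiv.swap (6 : Fin 12) 7 * Equiv.swap (9 : Fin 12) 11 * Equiv.swap (9 : Fin 12) 10) (ht : t = Equiv.swap (3 : Fin 12) 9 * Equiv.swap (3 : Fin 12) 6 * Equiv.swap (4 : Fin 12) 10 * Equiv.swap (4 : Fin 12) 7 * Equiv.swap (5 : Fin 12) 11 * Equiv.swap (5 : Fin 12) 8)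
    (hu : u = Equiv.swap (4 : Fin 12) 9 * Equiv.swap (4 : Fin 12) 5 * Equiv.swap (4 : Fin 12) 6 * Equiv.swap (7 : Fin 12) 10 * Equiv.swap (7 : Fin 12) 11 * Equiv.swap (7 : Fin 12) 8) (hv : v = Equiv.swap (4 : Fin 12) 11 * Equiv.swap (4 : Fin 12) 5 * Equiv.swap (4 : Fin 12) 7 * Equiv.swap (6 : Fin 12) 8 * Equiv.swap (6 : Fin 12) 9 * Equiv.swap (6 : Fin 12) 10) (hw : w = Equiv.swap (4 : Fin 12) 8 * Equiv.swap (4 : Fin 12) 5 * Equiv.swap (4 : Fin 12) 10 * Equiv.swap (6 : Fin 12) 7 * Equiv.swap (6 : Fin 12) 9 * Equiv.swap (6 : Fin 12) 11)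
    (hx₁ : x₁ = Equiv.swap (0 : Fin 12) 3 * Equiv.swap (6 : Fin 12) 7 * Equiv.swap (8 : Fin 12) 10 * Equiv.swap (9 : Fin 12) 11) (hx₂ : x₂ = Equiv.swap (0 : Fin 12) 1 * Equiv.swap (6 : Fin 12) 9 * Equiv.swap (7 : Fin 12) 10 * Equiv.swap (8 : Fin 12) 11)
    (hx₃ : x₃ = Equiv.swap (1 : Fin 12) 2 * Equiv.swap (6 : Fin 12) 11 * Equiv.swap (7 : Fin 12) 9 * Equiv.swap (8 : Fin 12) 10)
    (M₁₂ M₁₁ : Subgroup (Equiv.Perm (Fin 12))) (hM₁₂ : M₁₂ = Subgroup.closure {s, t, u, v, w, x₁, x₂, x₃})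
    (hM₁₁ : M₁₁ = Subgroup.closure {s, t, u, v, w, x₁, x₂}) :
    MulAction.IsMultiplyPretransitive M₁₂ (Fin 12) 5 ∧ (∀ y : Fin 5 ↪ Fin 12, MulAction.stabilizer M₁₂ y = ⊥) ∧
    Nat.card M₁₂ = 95040 ∧ Nat.card M₁₁ = 7920 ∧
    M₁₁ = M₁₂ ⊓ MulAction.stabilizer (Equiv.Perm (Fin 12)) (2 : Fin 12) := by
  obtain ⟨f, hf, hf'⟩ : ∃ f : Fin 12 ↪ GolayPt, (∀ x, (∃ a, f a = x) ↔ x ∈ um 340831 ∧ x ∉ um 0) ∧
      ∀ i, f i = pt ([0, 1, 2, 3, 4, 12, 6, 16, 18, 9, 13, 8].getD i 0) :=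
    ⟨⟨fun i => pt ([0, 1, 2, 3, 4, 12, 6, 16, 18, 9, 13, 8].getD i 0), by decide +kernel⟩,
      by decide +kernel, fun _ => rfl⟩
  have h : Canon (um 0) (um 340831) 6 {b | b.card = 6 ∧ InOct (b.map f ∪ um 0)} f :=
    ⟨hf, fun _ => Iff.rfl⟩
  obtain ⟨e, he⟩ := h.aut12
  have hL : [s, t, u, v, w, x₁, x₂, x₃].map ((finEnc 11).pcode 4) = [171139535290896,
      92615224025616, 183942805598736, 80841396400656, 164327252963856, 167926364897811,
      148896472117761, 114875801284896] := by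
    subst hs ht hu hv hw hx₁ hx₂ hx₃
    decide +kernel
  have h1 : ∀ (σ : Equiv.Perm (Fin 12)) (d c : ℕ), (finEnc 11).pcode 4 σ = d →
      (Nat.add (m24Err c) (Nat.xor (act (mat c) 340831) 340831) = 0 ∧ ∀ i : Fin 12,
      [0, 1, 2, 3, 4, 12, 6, 16, 18, 9, 13, 8].getD (get 4 d i) 0 =
        get 5 c ([0, 1, 2, 3, 4, 12, 6, 16, 18, 9, 13, 8].getD i 0)) →
      σ ∈ setSystemAut {b | b.card = 6 ∧ InOct (b.map f ∪ um 0)} := fun σ d c h1 h2 => by
    obtain ⟨g, hg, rfl⟩ := (fixTest_um (m := 340831) (by norm_num)).in_St (cs := [c])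
      (by rw [sumL_eq]; simpa using h2.1) c (by simp)
    have h3 : σ = e ⟨g, hg.1, squareDodecad_eq ▸ (mem_St.1 hg).2⟩ :=
      Equiv.ext fun i => f.injective (by
        have h3 : ∀ i : Fin 12, [0, 1, 2, 3, 4, 12, 6, 16, 18, 9, 13, 8].getD i 0 < 24 := by decide
        have h4 := h2.2 i
        rw [← h1, show get 4 _ i = _ from (finEnc 11).get_pcode_enc (by norm_num) σ i,
          ← enc_pt (h3 i), get_pc] at h4
        rw [he, hf', hf', show [0, 1, 2, 3, 4, 12, 6, 16, 18, 9, 13, 8].getD (σ i) 0 = _ from h4,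
          pt_enc])
    exact h3 ▸ Subtype.prop _
  simp only [List.map_cons, List.map_nil, List.cons.injEq, and_true] at hL
  obtain ⟨e1, e2, e3, e4, e5, e6, e7, e8⟩ := hL
  have hA : Nat.card (setSystemAut {b : Finset (Fin 12) | b.card = 6 ∧ InOct (b.map f ∪ um 0)})
      = 95040 := (Nat.card_congr e.symm.toEquiv).trans card_M12
  have h2 : M₁₂ = setSystemAut {b | b.card = 6 ∧ InOct (b.map f ∪ um 0)} := by
    refine Subgroup.eq_of_le_of_card_ge (hM₁₂ ▸ (Subgroup.closure_le _).2 ?_) (hA ▸ le_trans ?_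
      ((finEnc 11).le_card_of_chainErr (w := 4) (by norm_num) (by norm_num)
      (in_of_list _ [s, t, u, v, w, x₁, x₂, x₃] ?_) (levels := [(3, 4095, 1, [[6], [5, 0, 7, 5, 3]]),
        (4, 4087, 5, [[1, 1, 0, 1, 1, 0, 0, 1], [1, 1, 0, 1, 1, 0, 1, 0, 1]]),
        (0, 4071, 3, [[0, 0, 1, 1, 1], [1, 0, 1, 1]]),
        (1, 4070, 3, [[1, 0, 0, 1, 0], [0, 0, 0, 0, 0, 1]]), (2, 4068, 2, [])]) ?_))
    · simp only [Set.insert_subset_iff, Set.singleton_subset_iff]
      exact ⟨h1 _ _ 487607080158395075740321133224921120 e1 (by decide +kernel),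
        h1 _ _ 984769902586367543974814854303385632 e2 (by decide +kernel),
        h1 _ _ 719923664328491199848526586197411872 e3 (by decide +kernel),
        h1 _ _ 609271311764373893382231684089481248 e4 (by decide +kernel),
        h1 _ _ 227578386318009578406903204956702752 e5 (by decide +kernel),
        h1 _ _ 975731401803090368440380524540725283 e6 (by decide +kernel),
        h1 _ _ 984573615201180725592165913404213249 e7 (by decide +kernel),
        h1 _ _ 233233386906768391987032901617288256 e8 (by decide +kernel)⟩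
    · decide +kernel
    · intro g hg
      exact hM₁₂ ▸ Subgroup.subset_closure (by simpa using hg)
    · simp only [List.map_cons, List.map_nil, e1, e2, e3, e4, e5, e6, e7, e8]
      decide +kernel
  have h3 : MulAction.IsMultiplyPretransitive M₁₂ (Fin 12) 5 := h2 ▸ h.trans_of he fun x y hx hy =>
    M12_trans le_rfl x y (fun i => squareDodecad_eq ▸ (hx i).1) fun i => squareDodecad_eq ▸ (hy i).1
  have h4 : Nat.card ↥(M₁₂ ⊓ MulAction.stabilizer (Equiv.Perm (Fin 12)) (2 : Fin 12)) = 7920 := by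
    have := MulAction.isMultiplyPretransitive_of_le (G := M₁₂) (α := Fin 12) (n := 5) (m := 2)
      (by norm_num) (by simp)
    have := MulAction.isPretransitive_of_is_two_pretransitive (G := M₁₂) (α := Fin 12)
    exact card_inf_stabilizer (h2 ▸ hA) (m := 12) (by rw [MulAction.orbit_eq_univ]; simp)
      (by norm_num) rfl
  have h5 : M₁₁ = M₁₂ ⊓ MulAction.stabilizer (Equiv.Perm (Fin 12)) (2 : Fin 12) := by
    refine Subgroup.eq_of_le_of_card_ge (le_inf (hM₁₁ ▸ hM₁₂ ▸ Subgroup.closure_mono ?_)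
      (hM₁₁ ▸ (Subgroup.closure_le _).2 ?_)) (h4 ▸ le_trans ?_
      ((finEnc 11).le_card_of_chainErr (w := 4) (by norm_num) (by norm_num)
      (in_of_list _ [s, t, u, v, w, x₁, x₂] ?_) (levels :=
        [(3, 4091, 1, [[5, 4, 5, 6, 3, 3], [0, 4, 2, 5, 6, 1]]),
        (4, 4083, 3, [[0, 1, 0, 0, 0, 0], [0, 0, 1, 0]]),
        (0, 4067, 4, [[1, 0, 1, 0, 1, 0, 1], [1, 0, 1, 0, 0, 1]]), (1, 4066, 2, [])]) ?_))
    · simp [Set.insert_subset_iff]
    · simp only [Set.insert_subset_iff, Set.singleton_subset_iff, SetLike.mem_coe,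
        MulAction.mem_stabilizer_iff, hs, ht, hu, hv, hw, hx₁, hx₂]
      decide
    · decide +kernel
    · intro g hg
      exact hM₁₁ ▸ Subgroup.subset_closure (by simpa using hg)
    · simp only [List.map_cons, List.map_nil, e1, e2, e3, e4, e5, e6, e7]
      decide +kernel
  exact ⟨h3, h2 ▸ h.sharp_of he fun x hx g hg => eq_one_of_dod_five dod0_mem x.injective
    (fun i => (hx i).1) hg.1 (smul_M12 g hg), h2 ▸ hA, h5 ▸ h4, h5⟩

end Cfsg.Agent.S3362
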