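import Mathlib
import Cfsg.Statements.S3375

set_option autoImplicit false
open Cfsg

namespace Cfsg.Agent.S3375

open Subgroup

theorem inv_case {H : Type*} [Group H] [Finite H] (γ : MulAut H) (hγ : ∀ x, γ (γ x) = x)
    (h2 : Nat.card {h : H // γ h = h} = 2) (M : Subgroup H) (hM : M.index = 2) (hinv : ∀ a, γ a ∈ M ↔ a ∈ M) :
    ∀ a ∈ M, γ a = a⁻¹ := by
  classical
  let C : Subgroup H := γ.toMonoidHom.eqLocus (MonoidHom.id H)
  have hC : Nat.card C = 2 := h2
  let f : H → M := fun h => ⟨h⁻¹ * γ h, by rw [mul_mem_iff_of_index_two hM, inv_mem_iff, hinv]⟩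
  have hf : ∀ a b : H, f a = f b ↔ a * b⁻¹ ∈ C := fun a b => by
    show _ ↔ γ (a * b⁻¹) = a * b⁻¹
    rw [Subtype.ext_iff, map_mul, map_inv]
    show a⁻¹ * γ a = b⁻¹ * γ b ↔ _
    constructor <;> intro h
    · rw [← mul_inv_cancel_left a (γ a), h]; group
    · rw [← inv_mul_cancel_right (γ a) (γ b), h]; group
  let F : H ⧸ C → M := Quotient.lift (fun h => f h⁻¹) fun a b hab => (hf _ _).2 (by
    simpa using QuotientGroup.leftRel_apply.1 hab)
  have hF : Function.Injective F := fun a b => QuotientGroup.induction_on a fun a =>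
    QuotientGroup.induction_on b fun b h => QuotientGroup.eq.2 (by simpa using (hf _ _).1 h)
  have hs := ((Nat.bijective_iff_injective_and_card F).2 ⟨hF, by
    have h1 := C.card_mul_index
    have h2 := M.card_mul_index
    rw [hC] at h1; rw [hM] at h2
    rw [← index_eq_card]; omega⟩).2
  intro a ha
  obtain ⟨q, hq⟩ := hs ⟨a, ha⟩
  obtain ⟨g, rfl⟩ := QuotientGroup.mk_surjective q
  have : a = g⁻¹⁻¹ * γ g⁻¹ := (congrArg Subtype.val hq).symm
  rw [this]; simp [hγ]


/-- Let γ be an automorphism of order 2 of a finite group H. (i) If γ fixes only the identity, then H is abelian and γ inverts every element. (ii) If γ has exactly two fixed points and H has a subgroup of index 2, then H has a γ-invariant abelian subgroup of index 2 on which γ acts by inversion. -/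
theorem result {H : Type*} [Group H] [Finite H] (γ : MulAut H) (hγ : orderOf γ = 2) :
    ((∀ h : H, γ h = h → h = 1) → (∀ a b : H, a * b = b * a) ∧ ∀ h : H, γ h = h⁻¹) ∧
    ((Nat.card {h : H // γ h = h} = 2 ∧ ∃ M : Subgroup H, M.index = 2) →
      ∃ A : Subgroup H, A.index = 2 ∧ IsMulCommutative A ∧ (∀ a ∈ A, γ a ∈ A) ∧ ∀ a ∈ A, γ a = a⁻¹) := by
  classical
  have hγ2 : ∀ x, γ (γ x) = x := fun x => by
    rw [← MulAut.mul_apply, ← sq, ← hγ, pow_orderOf_eq_one]; rfl
  have comm : ∀ A : Subgroup H, (∀ a ∈ A, γ a = a⁻¹) → ∀ a ∈ A, ∀ b ∈ A, a * b = b * a := fun A h a ha b hb => by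
    have := h _ (mul_mem ha hb)
    rw [map_mul, h a ha, h b hb, ← mul_inv_rev, inv_inj] at this
    exact this.symm
  refine ⟨fun h => ?_, fun ⟨h2, M, hM⟩ => ?_⟩
  · have h1 : ∀ a, γ a = a⁻¹ := fun a =>
      congrFun (MonoidHom.FixedPointFree.coe_eq_inv_of_involutive (φ := γ) h hγ2) a
    exact ⟨fun a b => comm ⊤ (fun a _ => h1 a) a trivial b trivial, h1⟩
  obtain ⟨N, hN, hinv⟩ : ∃ N : Subgroup H, N.index = 2 ∧ ∀ a, γ a ∈ N ↔ a ∈ N := by
    by_cases h : ∀ a, γ a ∈ M ↔ a ∈ M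
    · exact ⟨M, hM, h⟩
    let N : Subgroup H :=
      { carrier := {a | γ a ∈ M ↔ a ∈ M}
        one_mem' := by simp
        mul_mem' := fun {a b} ha hb => by
          simp only [Set.mem_setOf_eq, map_mul, mul_mem_iff_of_index_two hM] at *; tauto
        inv_mem' := fun {a} ha => by simpa using ha }
    obtain ⟨a, ha⟩ := not_forall.1 h
    refine ⟨N, index_eq_two_iff.2 ⟨a, fun b => ?_⟩, fun a => ?_⟩
    · show Xor' (γ (b * a) ∈ M ↔ b * a ∈ M) (γ b ∈ M ↔ b ∈ M)
      simp only [map_mul, mul_mem_iff_of_index_two hM, Xor']; tauto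
    · show (γ (γ a) ∈ M ↔ γ a ∈ M) ↔ (γ a ∈ M ↔ a ∈ M)
      rw [hγ2]; tauto
  have h3 := inv_case γ hγ2 h2 N hN hinv
  exact ⟨N, hN, ⟨⟨fun a b => Subtype.ext (comm N h3 a a.2 b b.2)⟩⟩, fun a ha => (hinv a).2 ha, h3⟩

end Cfsg.Agent.S3375
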