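import Mathlib
import Cfsg.Statements.S3377
import Cfsg.Agent.Perm.Bin

set_option autoImplicit false
open Cfsg

namespace Cfsg.Agent.S3377


/-- The alternating group of degree 5 has the presentation ⟨x, y | x³ = 1, y⁵ = 1, (xy)² = 1⟩: the group so presented is isomorphic to Alt(5). -/
theorem result :
    Nonempty (PresentedGroup ({FreeGroup.of (0 : Fin 2) ^ 3, FreeGroup.of (1 : Fin 2) ^ 5,
        (FreeGroup.of (0 : Fin 2) * FreeGroup.of 1) ^ 2} : Set (FreeGroup (Fin 2))) ≃* alternatingGroup (Fin 5)) := by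
  set R : Set (FreeGroup (Fin 2)) := {FreeGroup.of (0 : Fin 2) ^ 3, FreeGroup.of (1 : Fin 2) ^ 5,
        (FreeGroup.of (0 : Fin 2) * FreeGroup.of 1) ^ 2} with hR
  let ψ : PresentedGroup R →* alternatingGroup (Fin 5) :=
    PresentedGroup.toGroup (f := ![Perm.a5x, Perm.a5y]) (by
      rintro w (rfl | rfl | rfl) <;> simp only [map_pow, map_mul, FreeGroup.lift_apply_of] <;>
        decide +kernel)
  have hψ : Function.Surjective ψ := by
    rw [← MonoidHom.range_eq_top, eq_top_iff, ← Perm.closure_a5, Subgroup.closure_le]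
    rintro _ (rfl | rfl)
    · exact ⟨.of 0, PresentedGroup.toGroup.of _⟩
    · exact ⟨.of 1, PresentedGroup.toGroup.of _⟩
  obtain ⟨φ, h0, h1, h2⟩ := Perm.BinRel.exists_hom (m := 5) (x := (.of 0 : PresentedGroup R))
    (y := .of 1) (z := 1) ⟨PresentedGroup.one_of_mem (rels := R) (Or.inl rfl),
      PresentedGroup.one_of_mem (rels := R) (Or.inr (Or.inl rfl)), one_pow _, Commute.one_left _,
      Commute.one_left _, PresentedGroup.one_of_mem (rels := R) (Or.inr (Or.inr rfl))⟩
  have hφ : Function.Surjective φ := fun w => PresentedGroup.generated_by R φ.range (fun j => by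
    fin_cases j
    · exact ⟨_, h0⟩
    · exact ⟨_, h1⟩) w
  obtain ⟨χ, -, -, h3⟩ := Perm.BinRel.exists_hom (m := 5) (x := Perm.m11x) (y := Perm.m11y)
    (z := -1) ⟨by decide, by decide +kernel, by decide, by unfold Commute SemiconjBy; decide,
      by unfold Commute SemiconjBy; decide, by decide⟩
  obtain ⟨hf, hc⟩ := Perm.card_binP_five
  have : Finite (PresentedGroup R) := Finite.of_surjective φ hφ
  have : Nontrivial φ.ker := (Subgroup.nontrivial_iff_exists_ne_one _).2 ⟨_, h2, fun h => by
    rw [h, map_one] at h3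
    exact absurd h3 (by decide)⟩
  have h4 : 1 < Nat.card φ.ker := Finite.one_lt_card
  have h5 := φ.ker.card_mul_index
  rw [Subgroup.index_ker, MonoidHom.range_eq_top.2 hφ, Subgroup.card_top] at h5
  refine ⟨MulEquiv.ofBijective ψ (hψ.bijective_of_nat_card_le ?_)⟩
  rw [Perm.card_a5]
  nlinarith

end Cfsg.Agent.S3377
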