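import Mathlib
import Cfsg.Statements.S3379

set_option autoImplicit false
open Cfsg

namespace Cfsg.Agent.S3379


/-- Let G be a finite group all of whose Sylow subgroups are cyclic. Then G is generated by two elements x and y of coprime orders n and m with x⁻¹yx = y^r, where gcd(r − 1, m) = 1 and r^n ≡ 1 (mod m). -/
theorem result {G : Type*} [Group G] [Finite G]
    (hZ : ∀ (p : ℕ) [Fact p.Prime] (P : Sylow p G), IsCyclic (P : Subgroup G)) :
    ∃ (x y : G) (n m r : ℕ), Subgroup.closure {x, y} = ⊤ ∧ orderOf x = n ∧ orderOf y = m ∧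
      x⁻¹ * y * x = y ^ r ∧ Nat.Coprime (r - 1) m ∧ Nat.Coprime n m ∧ 1 ≤ r ∧ r ^ n % m = 1 % m := by
  open Subgroup in
  have : IsZGroup G := ⟨fun p hp P => by have := Fact.mk hp; exact hZ p P⟩
  obtain ⟨H, hH⟩ := exists_right_complement'_of_coprime (IsZGroup.coprime_commutator_index G)
  have h1 : Abelianization G ≃* H := hH.symm.QuotientMulEquiv
  obtain ⟨x, rfl⟩ := H.isCyclic_iff_exists_zpowers_eq_top.1 (isCyclic_of_surjective _ h1.surjective)
  obtain ⟨y, hy⟩ := (commutator G).isCyclic_iff_exists_zpowers_eq_top.1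
    (IsZGroup.isCyclic_commutator G)
  have hc := IsZGroup.coprime_commutator_index G
  rw [hH.symm.index_eq_card] at hc
  have hn : (zpowers y).Normal := hy ▸ inferInstance
  rw [← hy] at hH hc
  rw [Nat.card_zpowers, Nat.card_zpowers] at hc
  obtain ⟨r, hr⟩ := mem_powers_iff_mem_zpowers.2 (hn.conj_mem' y (mem_zpowers y) x)
  have hr' : x⁻¹ * y * x = y ^ (r + orderOf y) := by rw [pow_add, pow_orderOf_eq_one, mul_one, ← hr]
  have h0 : 1 ≤ r + orderOf y := by have := orderOf_pos y; omega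
  generalize r + orderOf y = s at hr' h0
  refine ⟨x, y, _, _, s, eq_top_iff.2 fun g _ => ?_, rfl, rfl, hr',
    Nat.coprime_of_dvd fun p hp h2 h3 => ?_, hc.symm, h0, ?_⟩
  · obtain ⟨⟨⟨_, j, rfl⟩, ⟨_, i, rfl⟩⟩, rfl⟩ := hH.2 g
    exact mul_mem (zpow_mem (subset_closure (by simp)) j) (zpow_mem (subset_closure (by simp)) i)
  · have hN : (zpowers (y ^ p)).Normal := ⟨fun _ ⟨i, hi⟩ g => by
      obtain ⟨j, hj⟩ := hn.conj_mem y (mem_zpowers y) g
      refine ⟨j * i, ?_⟩
      simp only at hi hj ⊢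
      rw [← hi, ← conj_zpow, ← conj_pow, ← hj, ← zpow_natCast, ← zpow_natCast, ← zpow_mul,
        ← zpow_mul, ← zpow_mul]
      ring_nf⟩
    have h4 : Commute (y : G ⧸ zpowers (y ^ p)) x := by
      obtain ⟨k, hk⟩ := h2
      refine QuotientGroup.eq.2 ?_
      rw [show (y * x)⁻¹ * (x * y) = (x⁻¹ * y * x)⁻¹ * y by group, hr',
        show s = p * k + 1 by omega, pow_succ', mul_inv_rev, inv_mul_cancel_right, pow_mul]
      exact inv_mem (pow_mem (mem_zpowers _) k)
    have h5 : commutator G ≤ zpowers (y ^ p) :=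
      Normal.quotient_commutative_iff_commutator_le.1 ⟨⟨fun a b => by
        obtain ⟨a, rfl⟩ := QuotientGroup.mk_surjective a
        obtain ⟨b, rfl⟩ := QuotientGroup.mk_surjective b
        obtain ⟨⟨⟨_, j, rfl⟩, ⟨_, i, rfl⟩⟩, rfl⟩ := hH.2 a
        obtain ⟨⟨⟨_, j', rfl⟩, ⟨_, i', rfl⟩⟩, rfl⟩ := hH.2 b
        simp only [QuotientGroup.mk_mul, QuotientGroup.mk_zpow]
        exact (((Commute.zpow_zpow_self _ _ _).mul_right (h4.zpow_zpow _ _)).mul_left
          ((h4.symm.zpow_zpow _ _).mul_right (Commute.zpow_zpow_self _ _ _))).eq⟩⟩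
    have h6 := mem_zpowers_pow_iff.1 (h5 (hy.le (mem_zpowers y)))
    exact hp.one_lt.ne' (Nat.Coprime.eq_one_of_dvd h6 h3)
  · have h4 : ∀ k : ℕ, (x ^ k)⁻¹ * y * x ^ k = y ^ s ^ k := fun k => by
      induction k with
      | zero => simp
      | succ k ih =>
        have h6 : (x⁻¹ * y * x) ^ s ^ k = x⁻¹ * y ^ s ^ k * x := by
          simpa using conj_pow (a := x⁻¹) (b := y) (i := s ^ k)
        rw [pow_succ' s, pow_mul, ← hr', h6, ← ih, pow_succ]
        group
    have h5 := h4 (orderOf x)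
    rw [pow_orderOf_eq_one, inv_one, one_mul, mul_one] at h5
    exact pow_eq_pow_iff_modEq.1 (h5.symm.trans (pow_one y).symm)

end Cfsg.Agent.S3379
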