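import Mathlib
import Cfsg.Statements.S3381

set_option autoImplicit false
open Cfsg

namespace Cfsg.Agent.S3381

open Module

theorem card_disj {K V : Type*} [Field K] [AddCommGroup V] [Module K V] [Finite V] {A B : Submodule K V}
    (h : Disjoint A B) : Nat.card A * Nat.card B ≤ Nat.card V := by
  rw [← Nat.card_prod]
  refine Nat.card_le_card_of_injective (fun x : A × B => (x.1 : V) + x.2) fun x y e => ?_
  have e1 : (x.1 : V) - y.1 = y.2 - x.2 := by
    have e' : (x.1 : V) + x.2 = y.1 + y.2 := e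
    rw [sub_eq_sub_iff_add_eq_add, e', add_comm]
  have e2 := Submodule.disjoint_def.1 h _ (A.sub_mem x.1.2 y.1.2) (e1 ▸ B.sub_mem y.2.2 x.2.2)
  rw [e2] at e1
  exact Prod.ext (Subtype.ext (sub_eq_zero.1 e2)) (Subtype.ext (sub_eq_zero.1 e1.symm).symm)


/-- Let G be a finite group acting faithfully and linearly on a non-trivial finite vector space V over the field with q elements (q prime) so that every non-zero vector has a stabilizer of order 2, and suppose G has a central involution. Then V has q^(2r) elements for some r and G contains exactly q^r + 1 non-central involutions. -/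
theorem result
    (q : ℕ) [Fact q.Prime] {V : Type*} [AddCommGroup V] [Module (ZMod q) V] [Finite V] [Nontrivial V]
    {G : Type*} [Group G] [Finite G] (ρ : G →* (V ≃ₗ[ZMod q] V)) (hρ : Function.Injective ρ)
    (hstab : ∀ v : V, v ≠ 0 → Nat.card {g : G // ρ g v = v} = 2)
    (z : G) (hz : orderOf z = 2) (hzc : z ∈ Subgroup.center G) :
    ∃ r : ℕ, Nat.card V = q ^ (2 * r) ∧
      Nat.card {g : G // orderOf g = 2 ∧ g ∉ Subgroup.center G} = q ^ r + 1 := by
  classical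
  have F : ∀ v : V, v ≠ 0 → ∃ t : G, t ≠ 1 ∧ ρ t v = v ∧ ∀ s : G, s ≠ 1 → ρ s v = v → s = t := by
    intro v hv
    obtain ⟨⟨t, ht⟩, h1, h2⟩ := (Nat.card_eq_two_iff' (⟨1, by simp⟩ : {g : G // ρ g v = v})).1 (hstab v hv)
    exact ⟨t, fun e => h1 (Subtype.ext e), ht, fun s hs hsv =>
      congrArg Subtype.val (h2 ⟨s, hsv⟩ fun e => hs (congrArg Subtype.val e))⟩
  have F2 : ∀ v : V, v ≠ 0 → ∀ s t : G, s ≠ 1 → t ≠ 1 → ρ s v = v → ρ t v = v → s = t := by
    intro v hv s t hs ht h1 h2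
    obtain ⟨u, -, -, hu⟩ := F v hv
    rw [hu s hs h1, hu t ht h2]
  have F3 : ∀ v : V, v ≠ 0 → ∀ t : G, t ≠ 1 → ρ t v = v → orderOf t = 2 := by
    intro v hv t ht h1
    refine orderOf_eq_prime ?_ ht
    by_contra h
    have := F2 v hv (t ^ 2) t h ht (by rw [sq, map_mul, LinearEquiv.mul_apply, h1, h1]) h1
    exact ht (by simpa [sq] using this)
  have A : ∀ w ∈ Subgroup.center G, w ≠ 1 → ∀ v, ρ w v = v → v = 0 := by
    intro w hw hw1 v hv
    by_contra hv0
    obtain ⟨u, hu⟩ : ∃ u, ρ w u ≠ u := by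
      by_contra hc
      push Not at hc
      exact hw1 (hρ (by rw [map_one]; exact LinearEquiv.ext hc))
    have hc : ∀ t x, ρ t x = x → ρ t (ρ w x - x) = ρ w x - x := fun t x h => by
      rw [map_sub, ← LinearEquiv.mul_apply, ← map_mul, Subgroup.mem_center_iff.1 hw t, map_mul,
        LinearEquiv.mul_apply, h]
    obtain ⟨t, ht1, ht, -⟩ := F u (fun e => hu (by rw [e, map_zero]))
    obtain ⟨s, hs1, hs, -⟩ := F (u + v) (fun e => hu (by
      rw [eq_neg_of_add_eq_zero_left e, map_neg, hv]))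
    have e1 := hc s _ hs
    rw [show ρ w (u + v) - (u + v) = ρ w u - u by rw [map_add, hv]; abel] at e1
    have e2 := F2 _ (sub_ne_zero.2 hu) s t hs1 ht1 e1 (hc t u ht)
    rw [e2, map_add, ht, add_right_inj] at hs
    exact hu (by rw [F2 v hv0 w t hw1 ht1 hv hs, ht])
  have sq2 : ∀ t : G, orderOf t = 2 → ∀ v, ρ t (ρ t v) = v := fun t ht v => by
    rw [← LinearEquiv.mul_apply, ← map_mul, ← sq, ← ht, pow_orderOf_eq_one, map_one]; rfl
  have ne1 : ∀ t : G, orderOf t = 2 → t ≠ 1 := fun t ht e => by simp [e] at ht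
  have B : ∀ t : G, orderOf t = 2 → (∀ v, ρ t v = v → v = 0) → ∀ v, ρ t v = -v := fun t ht h v =>
    eq_neg_of_add_eq_zero_left (h _ (by rw [map_add, sq2 t ht, add_comm]))
  have hzv : ∀ v, ρ z v = -v := B z hz (A z hzc (ne1 z hz))
  have B' : ∀ t : G, orderOf t = 2 → (∀ v, ρ t v = v → v = 0) → t = z := fun t ht h =>
    hρ (LinearEquiv.ext fun v => by rw [B t ht h, hzv])
  have h2 : (2 : ZMod q) ≠ 0 := by
    intro e
    obtain ⟨v, hv⟩ := exists_ne (0 : V)
    refine hv (A z hzc (ne1 z hz) v ?_)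
    rw [hzv, neg_eq_iff_add_eq_zero, ← two_smul (ZMod q), e, zero_smul]
  let C : G → Submodule (ZMod q) V := fun t => LinearMap.ker ((ρ t : V →ₗ[ZMod q] V) - LinearMap.id)
  have hC : ∀ t v, v ∈ C t ↔ ρ t v = v := fun t v => by simp [C, sub_eq_zero]
  let I : G → Prop := fun t => orderOf t = 2 ∧ t ∉ Subgroup.center G
  have hzz : z * z = 1 := by rw [← sq, ← hz, pow_orderOf_eq_one]
  have Iz : ∀ t, I t → I (t * z) := fun t ht => by
    have hn : t * z ∉ Subgroup.center G := fun h => ht.2 ((Subgroup.mul_mem_cancel_right _ hzc).1 h)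
    refine ⟨orderOf_eq_prime ?_ (fun e => hn (e ▸ one_mem _)), hn⟩
    rw [(show Commute t z from Subgroup.mem_center_iff.1 hzc t).mul_pow, ← ht.1, pow_orderOf_eq_one, ht.1, ← hz,
      pow_orderOf_eq_one, one_mul]
  have If : ∀ v, v ≠ 0 → ∀ t, t ≠ 1 → ρ t v = v → I t := fun v hv t ht h =>
    ⟨F3 v hv t ht h, fun hc => hv (A t hc ht v h)⟩
  have dis : ∀ s t, I s → I t → s ≠ t → Disjoint (C s) (C t) := fun s t hs ht hst =>
    Submodule.disjoint_def.2 fun v h1 h2 => by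
      by_contra hv
      exact hst (F2 v hv s t (ne1 s hs.1) (ne1 t ht.1) ((hC _ _).1 h1) ((hC _ _).1 h2))
  have nez : ∀ t : G, t ≠ t * z := fun t e => ne1 z hz (by simpa using e.symm)
  have prod : ∀ t, I t → Nat.card (C t) * Nat.card (C (t * z)) = Nat.card V := fun t ht => by
    rw [← Nat.card_prod]
    refine Nat.card_congr (Submodule.prodEquivOfIsCompl _ _ ⟨dis _ _ ht (Iz t ht) (nez t), ?_⟩).toEquiv
    rw [codisjoint_iff, eq_top_iff]
    intro v _
    have : v = (2 : ZMod q)⁻¹ • (v + ρ t v) + (2 : ZMod q)⁻¹ • (v - ρ t v) := by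
      rw [← smul_add, show v + ρ t v + (v - ρ t v) = (2 : ZMod q) • v by rw [two_smul]; abel, smul_smul,
        inv_mul_cancel₀ h2, one_smul]
    rw [this]
    refine Submodule.add_mem_sup (Submodule.smul_mem _ _ ((hC _ _).2 ?_)) (Submodule.smul_mem _ _ ((hC _ _).2 ?_))
    · rw [map_add, sq2 t ht.1, add_comm]
    · rw [map_mul, LinearEquiv.mul_apply, hzv, map_neg, map_sub, sq2 t ht.1, neg_sub]
  have nz : ∀ t, I t → ∃ a, a ≠ 0 ∧ ρ t a = a := fun t ht => by
    by_contra hc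
    push Not at hc
    exact ht.2 (B' t ht.1 (fun v hv => by_contra fun h => hc v h hv) ▸ hzc)
  have sqc : ∀ t, I t → Nat.card (C t) * Nat.card (C t) = Nat.card V := fun t ht => by
    obtain ⟨a, ha, ha'⟩ := nz t ht
    obtain ⟨b, hb, hb'⟩ := nz _ (Iz t ht)
    have hab : a + b ≠ 0 := fun e => nez t (F2 a ha _ _ (ne1 _ ht.1) (ne1 _ (Iz t ht).1) ha' (by
      rw [eq_neg_of_add_eq_zero_left e, map_neg, hb']))
    obtain ⟨s, hs1, hs, -⟩ := F _ hab
    have Is := If _ hab s hs1 hs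
    have n1 : s ≠ t := fun e => nez t (F2 b hb _ _ (ne1 _ ht.1) (ne1 _ (Iz t ht).1) (by
      rwa [e, map_add, ha', add_right_inj] at hs) hb')
    have n2 : s ≠ t * z := fun e => nez t (F2 a ha _ _ (ne1 _ ht.1) (ne1 _ (Iz t ht).1) ha' (by
      rwa [e, map_add, hb', add_left_inj] at hs))
    have n3 : s * z ≠ t := fun e => n2 (by rw [← e, mul_assoc, hzz, mul_one])
    have n4 : s * z ≠ t * z := fun e => n1 (mul_right_cancel e)
    have c1 := card_disj (dis _ _ Is ht n1)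
    have c2 := card_disj (dis _ _ Is (Iz t ht) n2)
    have c3 := card_disj (dis _ _ (Iz s Is) ht n3)
    have c4 := card_disj (dis _ _ (Iz s Is) (Iz t ht) n4)
    have p1 := prod t ht
    have p2 := prod s Is
    have x0 : 0 < Nat.card (C t) := Nat.card_pos
    have x1 : 0 < Nat.card (C (t * z)) := Nat.card_pos
    generalize Nat.card (C t) = x at *
    generalize Nat.card (C (t * z)) = x' at *
    generalize Nat.card (C s) = y at *
    generalize Nat.card (C (s * z)) = y' at *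
    have d1 : y ≤ x' := Nat.le_of_mul_le_mul_right (by nlinarith) x0
    have d2 : y ≤ x := Nat.le_of_mul_le_mul_right (by nlinarith) x1
    have d3 : y' ≤ x' := Nat.le_of_mul_le_mul_right (by nlinarith) x0
    have d4 : y' ≤ x := Nat.le_of_mul_le_mul_right (by nlinarith) x1
    have d5 : x' ≤ x := Nat.le_of_mul_le_mul_left (by nlinarith [Nat.mul_le_mul d2 d4]) x0
    have d6 : x ≤ x' := Nat.le_of_mul_le_mul_right (by nlinarith [Nat.mul_le_mul d1 d3]) x1
    rw [← p1, le_antisymm d5 d6]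
  obtain ⟨v₀, hv₀⟩ := exists_ne (0 : V)
  obtain ⟨t₀, ht₀1, ht₀, -⟩ := F v₀ hv₀
  have I₀ := If v₀ hv₀ t₀ ht₀1 ht₀
  have hx : Nat.card (C t₀) = q ^ finrank (ZMod q) (C t₀) := by rw [Module.natCard_eq_pow_finrank (K := ZMod q), Nat.card_zmod]
  refine ⟨finrank (ZMod q) (C t₀), by rw [← sqc t₀ I₀, hx]; ring, ?_⟩
  rw [← hx]
  have hall : ∀ t, I t → Nat.card (C t) = Nat.card (C t₀) := fun t ht =>
    Nat.mul_self_inj.1 ((sqc t ht).trans (sqc t₀ I₀).symm)
  have e : {v : V // v ≠ 0} ≃ Σ t : {g : G // I g}, {v : C t.1 // v ≠ 0} := by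
    refine (Equiv.ofBijective (fun x : Σ t : {g : G // I g}, {v : C t.1 // v ≠ 0} =>
      (⟨x.2.1.1, fun e => x.2.2 (Subtype.ext e)⟩ : {v : V // v ≠ 0})) ⟨?_, fun v => ?_⟩).symm
    · rintro ⟨⟨s, hs⟩, ⟨a, ha⟩, ha0⟩ ⟨⟨t, ht⟩, ⟨b, hb⟩, hb0⟩ h
      obtain rfl : a = b := congrArg Subtype.val h
      obtain rfl : s = t := F2 a (fun e => ha0 (Subtype.ext e)) _ _ (ne1 _ hs.1) (ne1 _ ht.1)
        ((hC _ _).1 ha) ((hC _ _).1 hb)
      rfl
    · obtain ⟨t, ht1, ht, -⟩ := F v.1 v.2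
      exact ⟨⟨⟨t, If _ v.2 t ht1 ht⟩, ⟨v.1, (hC _ _).2 ht⟩, fun e => v.2 (congrArg Subtype.val e)⟩, rfl⟩
  have cne : ∀ (X : Type _) [Zero X] [Finite X], Nat.card {v : X // v ≠ 0} + 1 = Nat.card X := fun X _ _ => by
    letI := Fintype.ofFinite X
    rw [Nat.card_eq_fintype_card, Nat.card_eq_fintype_card, Fintype.card_subtype_compl, Fintype.card_subtype_eq]
    have : 0 < Fintype.card X := Fintype.card_pos
    omega
  letI := Fintype.ofFinite {g : G // I g}
  have e1 := Nat.card_congr e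
  rw [Nat.card_sigma, Finset.sum_congr rfl (g := fun _ => Nat.card (C t₀) - 1) (fun t _ => by
    rw [← hall t.1 t.2, ← cne (C t.1)]; rfl), Finset.sum_const, Finset.card_univ, smul_eq_mul,
    ← Nat.card_eq_fintype_card] at e1
  have e2 := cne V
  rw [← sqc t₀ I₀, e1] at e2
  haveI : Nontrivial (C t₀) := ⟨⟨v₀, (hC _ _).2 ht₀⟩, 0, fun e => hv₀ (congrArg Subtype.val e)⟩
  have x1 : 1 < Nat.card (C t₀) := Finite.one_lt_card
  change Nat.card {g : G // I g} = _
  obtain ⟨y, hy⟩ : ∃ y, Nat.card (C t₀) = y + 1 := ⟨Nat.card (C t₀) - 1, by omega⟩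
  rw [hy] at e2 x1 ⊢
  rw [Nat.add_sub_cancel] at e2
  exact Nat.eq_of_mul_eq_mul_right (show 0 < y by omega) (by nlinarith)

end Cfsg.Agent.S3381
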