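import Mathlib
import Cfsg.Statements.S3382

set_option autoImplicit false
open Cfsg

namespace Cfsg.Agent.S3382

section
variable {F : Type*} [Field F]

def dg (a b : F) : Matrix (Fin 2) (Fin 2) F := !![a, 0; 0, b]
def ad (a b : F) : Matrix (Fin 2) (Fin 2) F := !![0, b; a, 0]

theorem dd (a b c d : F) : dg a b * dg c d = dg (a * c) (b * d) := by simp [dg]
theorem da (a b c d : F) : dg a b * ad c d = ad (b * c) (a * d) := by simp [dg, ad]
theorem a_d (a b c d : F) : ad a b * dg c d = ad (a * c) (b * d) := by simp [dg, ad]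
theorem aa (a b c d : F) : ad a b * ad c d = dg (b * c) (a * d) := by simp [dg, ad]
theorem di {a b c d : F} : dg a b = dg c d ↔ a = c ∧ b = d := by simp [dg, ← Matrix.ext_iff, Fin.forall_fin_two]
theorem ai {a b c d : F} : ad a b = ad c d ↔ a = c ∧ b = d := by
  simp [ad, ← Matrix.ext_iff, Fin.forall_fin_two, and_comm]
theorem dai {a b c d : F} (h : dg a b = ad c d) : a = 0 ∧ c = 0 := by
  simp [dg, ad, ← Matrix.ext_iff, Fin.forall_fin_two] at h; tauto
theorem d1 : (1 : Matrix (Fin 2) (Fin 2) F) = dg 1 1 := Matrix.one_fin_two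
theorem dp (a b : F) (k : ℕ) : dg a b ^ k = dg (a ^ k) (b ^ k) := by
  induction k with
  | zero => simp [d1]
  | succ k ih => rw [pow_succ, ih, dd, pow_succ, pow_succ]

theorem step {T : Type*} [Group T] (hT : IsPGroup 2 T) (β : MulAut T) {r : ℕ} (hr : Odd r) (hβ : β ^ r = 1)
    (Q : T → Prop) (hQ : ∀ x, Q x → Q (β x)) (h : ∀ x n, Q x → Q (x * n) → β n = n) (x : T) (hx : Q x) : β x = x := by
  have h1 := h x (x⁻¹ * β x) hx (by simpa using hQ x hx)
  have h2 : ∀ k : ℕ, (β ^ k) x = x * (x⁻¹ * β x) ^ k := fun k => by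
    induction k with
    | zero => simp
    | succ k ih => rw [pow_succ', MulAut.mul_apply, ih, map_mul, map_pow, h1, pow_succ', ← mul_assoc, mul_inv_cancel_left]
  have h3 := h2 r
  rw [hβ, MulAut.one_apply, left_eq_mul] at h3
  obtain ⟨k, hk⟩ := hT (x⁻¹ * β x)
  have := pow_gcd_eq_one.2 ⟨h3, hk⟩
  rw [(Nat.coprime_two_right.2 hr).pow_right k, pow_one, inv_mul_eq_one] at this
  exact this.symm

theorem main {T : Type*} [Group T] (M : T →* Matrix (Fin 2) (Fin 2) F) (hM : Function.Injective M) {m : ℕ}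
    (hF : ∀ a : F, a ≠ 0 → a ^ 2 ^ m = 1)
    (hx : ∀ x, ∃ a b, (a * b = 1 ∨ a * b = -1) ∧ (M x = dg a b ∨ M x = ad a b))
    (he : ∀ a b, (a * b = 1 ∨ a * b = -1) → (∃ x, M x = dg a b) ∧ ∃ x, M x = ad a b)
    (hc : (∀ a : F, a ≠ 0 → a = 1) ∨ ((2 : F) ≠ 0 ∧ ((∀ a : F, a ≠ 0 → a * a = 1) ∨ ∃ a : F, a ≠ 0 ∧ a ^ 4 ≠ 1)))
    (β : MulAut T) {r : ℕ} (hr : Odd r) (hβ : β ^ r = 1) : β = 1 := by
  have nz : ∀ {a b : F}, (a * b = 1 ∨ a * b = -1) → a ≠ 0 ∧ b ≠ 0 := fun h => by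
    constructor <;> rintro rfl <;> simp at h
  have one : ∀ {x a b}, M x = dg a b → (x = 1 ↔ a = 1 ∧ b = 1) := fun {x a b} h => by
    rw [← hM.eq_iff, map_one, h, d1, di]
  have hT : IsPGroup 2 T := fun x => ⟨m + 1, by
    obtain ⟨a, b, h1, h | h⟩ := hx x
    · refine hM ?_
      rw [map_pow, h, dp, map_one, d1, pow_succ, pow_mul, pow_mul, hF a (nz h1).1, hF b (nz h1).2, one_pow]
    · refine hM ?_
      rw [map_pow, h, pow_succ', pow_mul, sq, aa, dp, map_one, d1, hF _ (mul_ne_zero (nz h1).2 (nz h1).1),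
        hF _ (mul_ne_zero (nz h1).1 (nz h1).2)]⟩
  have st := step hT β hr hβ
  ext x
  show β x = x
  rcases hc with hc | ⟨h2, hc⟩
  · by_cases h0 : x = 1
    · simp [h0]
    refine st (· ≠ 1) (fun x h => by simpa using h) (fun x n h1 h2 => ?_) x h0
    have key : ∀ x, x ≠ 1 → M x = ad 1 1 := fun x h => by
      obtain ⟨a, b, h1, k | k⟩ := hx x
      · exact absurd ((one k).2 ⟨hc a (nz h1).1, hc b (nz h1).2⟩) h
      · rw [k, hc a (nz h1).1, hc b (nz h1).2]
    rw [left_eq_mul.1 (hM ((key x h1).trans (key _ h2).symm)), map_one]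
  obtain ⟨w, hw⟩ := (he 1 1 (by simp)).2
  obtain ⟨e, hee⟩ := (he 1 (-1) (by simp)).1
  have cen : ∀ x, (∀ y, x * y = y * x) ↔ ∃ a, M x = dg a a := fun x => ⟨fun h => by
    obtain ⟨a, b, h1, k | k⟩ := hx x
    · have := congrArg M (h w)
      rw [map_mul, map_mul, k, hw, da, a_d, ai] at this
      exact ⟨a, by rw [k, show b = a by simpa using this.1]⟩
    · have := congrArg M (h e)
      rw [map_mul, map_mul, k, hee, da, a_d, ai] at this
      exact absurd (mul_left_cancel₀ h2 (by linear_combination this.1)) (nz h1).1, fun ⟨a, k⟩ y => hM (by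
    obtain ⟨c, d, -, l | l⟩ := hx y <;> simp [k, l, dd, da, a_d, mul_comm])⟩
  have cinv : ∀ x, (∀ y, β x * y = y * β x) ↔ ∀ y, x * y = y * x := fun x =>
    ⟨fun h y => β.injective (by rw [map_mul, map_mul, h]), fun h y => by
      obtain ⟨y, rfl⟩ := β.surjective y
      rw [← map_mul, ← map_mul, h]⟩
  have sinv : ∀ x (k : ℕ), β x ^ k = 1 ↔ x ^ k = 1 := fun x k => by rw [← map_pow, map_eq_one_iff β β.injective]
  have sq1 : ∀ {x a b} (k : ℕ), M x = dg a b → (x ^ k = 1 ↔ a ^ k = 1 ∧ b ^ k = 1) := fun {x a b} k h =>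
    one (by rw [map_pow, h, dp])
  have c0 : ∀ x, (∀ y, x * y = y * x) → x ^ 2 = 1 → β x = x := fun x h1 h3 => by
    by_cases h0 : x = 1
    · simp [h0]
    have key : ∀ x, (∀ y, x * y = y * x) → x ^ 2 = 1 → x ≠ 1 → M x = dg (-1) (-1) := fun x h1 h3 h0 => by
      obtain ⟨a, k⟩ := (cen x).1 h1
      rw [k, (sq_eq_one_iff.1 ((sq1 2 k).1 h3).1).resolve_left fun e => h0 ((one k).2 ⟨e, e⟩)]
    exact hM ((key _ ((cinv x).2 h1) ((sinv x 2).2 h3) (by simpa using h0)).trans (key x h1 h3 h0).symm)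
  rcases hc with hc | ⟨g, hg0, hg⟩
  · have o4 : ∀ x, x ^ 2 ≠ 1 ↔ ∃ a, a ≠ 0 ∧ M x = ad a (-a) := fun x => ⟨fun h => by
      obtain ⟨a, b, h1, k | k⟩ := hx x
      · exact absurd ((sq1 2 k).2 ⟨by rw [sq, hc a (nz h1).1], by rw [sq, hc b (nz h1).2]⟩) h
      · rcases h1 with h1 | h1
        · exact absurd (hM (by rw [map_pow, k, sq, aa, map_one, d1, mul_comm, h1])) h
        · exact ⟨a, (nz (Or.inr h1)).1, by
            rw [k, show b = -a by linear_combination a * h1 - b * hc a (nz (Or.inr h1)).1]⟩, fun ⟨a, h0, k⟩ e => by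
      have := (one (x := x ^ 2) (by rw [map_pow, k, sq, aa])).1 e
      exact h2 (by linear_combination -this.1 - hc a h0)⟩
    have c1 : ∀ x, x ^ 2 ≠ 1 → β x = x := st _ (fun x h => mt (sinv x 2).1 h) fun x n h1 h3 => by
      obtain ⟨a, ha, k1⟩ := (o4 x).1 h1
      obtain ⟨b, hb, k2⟩ := (o4 _).1 h3
      obtain ⟨c, d, h4, k | k⟩ := hx n <;> rw [map_mul, k1, k] at k2
      · rw [a_d, ai] at k2
        have : d = c := mul_left_cancel₀ ha (by linear_combination -k2.1 - k2.2)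
        subst this
        exact c0 n ((cen n).2 ⟨d, k⟩) ((sq1 2 k).2 (by simp [sq, hc d (nz h4).1]))
      · rw [aa] at k2
        exact absurd (dai k2).2 hb
    by_cases h1 : x ^ 2 = 1
    swap
    · exact c1 x h1
    by_cases h3 : ∀ y, x * y = y * x
    · exact c0 x h3 h1
    refine st (fun x => x ^ 2 = 1 ∧ ¬ ∀ y, x * y = y * x) (fun x h => ⟨(sinv x 2).2 h.1, mt (cinv x).1 h.2⟩)
      (fun x n k1 k2 => ?_) x ⟨h1, h3⟩
    by_cases h4 : n ^ 2 = 1
    swap
    · exact c1 n h4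
    refine c0 n ?_ h4
    by_contra h5
    have key : ∀ x, x ^ 2 = 1 → (¬ ∀ y, x * y = y * x) → ∃ a, a ≠ 0 ∧ (M x = dg a (-a) ∨ M x = ad a a) := by
      intro x k1 k2
      obtain ⟨a, b, h1, k⟩ := hx x
      have hb : b = a ∨ b = -a := h1.imp (fun h => by linear_combination a * h - b * hc a (nz (Or.inl h)).1)
        fun h => by linear_combination a * h - b * hc a (nz (Or.inr h)).1
      rcases hb with rfl | rfl <;> rcases k with k | k
      · exact absurd ((cen x).2 ⟨_, k⟩) k2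
      · exact ⟨_, (nz h1).1, Or.inr k⟩
      · exact ⟨_, (nz h1).1, Or.inl k⟩
      · exact absurd k1 ((o4 x).2 ⟨_, (nz h1).1, k⟩)
    obtain ⟨a, ha, l1⟩ := key x k1.1 k1.2
    obtain ⟨b, hb, l2⟩ := key n h4 h5
    rcases l1 with l1 | l1 <;> rcases l2 with l2 | l2
    · exact k2.2 ((cen _).2 ⟨a * b, by rw [map_mul, l1, l2, dd, neg_mul_neg]⟩)
    · exact (o4 _).2 ⟨-a * b, by simp [ha, hb], by rw [map_mul, l1, l2, da]; simp⟩ k2.1
    · exact (o4 _).2 ⟨a * b, by simp [ha, hb], by rw [map_mul, l1, l2, a_d]; simp⟩ k2.1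
    · exact k2.2 ((cen _).2 ⟨a * b, by rw [map_mul, l1, l2, aa]⟩)
  obtain ⟨d, hd⟩ := (he g g⁻¹ (Or.inl (mul_inv_cancel₀ hg0))).1
  have isD : ∀ x, (∀ y, x * y ^ 2 = y ^ 2 * x) ↔ ∃ a b, (a * b = 1 ∨ a * b = -1) ∧ M x = dg a b := fun x => ⟨fun h => by
    obtain ⟨a, b, h1, k | k⟩ := hx x
    · exact ⟨a, b, h1, k⟩
    · have := congrArg M (h d)
      rw [map_mul, map_mul, map_pow, k, hd, dp, da, a_d, ai] at this
      have h3 := this.1
      field_simp [(nz h1).1] at h3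
      exact absurd h3 hg, fun ⟨a, b, _, k⟩ y => hM (by
    obtain ⟨c, d, -, l | l⟩ := hx y <;> simp [k, l, dd, aa, sq, mul_comm])⟩
  have dinv : ∀ x, (∀ y, β x * y ^ 2 = y ^ 2 * β x) ↔ ∀ y, x * y ^ 2 = y ^ 2 * x := fun x =>
    ⟨fun h y => β.injective (by rw [map_mul, map_mul, map_pow, h]), fun h y => by
      obtain ⟨y, rfl⟩ := β.surjective y
      rw [← map_pow, ← map_mul, ← map_mul, h]⟩
  have dn : ∀ {x n a b c d}, a ≠ 0 → M x = dg a b → M (x * n) = dg c d → c ≠ 0 →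
      ∃ u v, (u * v = 1 ∨ u * v = -1) ∧ M n = dg u v ∧ a * u = c ∧ b * v = d := fun {x n a b c d} ha k1 k2 h0 => by
    obtain ⟨u, v, h4, k | k⟩ := hx n <;> rw [map_mul, k1, k] at k2
    · exact ⟨u, v, h4, k, by rwa [dd, di] at k2⟩
    · rw [da] at k2
      exact absurd (dai k2.symm).1 h0
  have ci : ∀ (i : ℕ) x, (∀ y, x * y ^ 2 = y ^ 2 * x) → x ^ 2 ^ (i + 1) = 1 → β x = x := fun i => by
    induction i with
    | zero =>
      intro x h1 h3
      by_cases h4 : ∀ y, x * y = y * x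
      · exact c0 x h4 h3
      refine st (fun x => (∀ y, x * y ^ 2 = y ^ 2 * x) ∧ x ^ 2 = 1 ∧ ¬ ∀ y, x * y = y * x)
        (fun x h => ⟨(dinv x).2 h.1, (sinv x 2).2 h.2.1, mt (cinv x).1 h.2.2⟩) (fun x n k1 k2 => ?_) x ⟨h1, h3, h4⟩
      have key : ∀ x, (∀ y, x * y ^ 2 = y ^ 2 * x) ∧ x ^ 2 = 1 ∧ (¬ ∀ y, x * y = y * x) →
          ∃ a, a ^ 2 = 1 ∧ M x = dg a (-a) := fun x h => by
        obtain ⟨a, b, h1, k⟩ := (isD x).1 h.1
        have h5 := ((sq1 2 k).1 h.2.1).1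
        rcases h1 with h1 | h1
        · exact absurd ((cen x).2 ⟨a, by rw [k, show b = a by linear_combination a * h1 - b * h5]⟩) h.2.2
        · exact ⟨a, h5, by rw [k, show b = -a by linear_combination a * h1 - b * h5]⟩
      obtain ⟨a, ha, l1⟩ := key x k1
      obtain ⟨b, hb, l2⟩ := key _ k2
      obtain ⟨u, v, -, l3, l4, l5⟩ := dn (by rintro rfl; simp at ha) l1 l2 (by rintro rfl; simp at hb)
      have : v = u := by linear_combination -a * l4 - a * l5 + (u - v) * ha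
      subst this
      have : v ^ 2 = 1 := by linear_combination (a * v + b) * l4 + hb - v ^ 2 * ha
      exact c0 n ((cen n).2 ⟨v, l3⟩) ((sq1 2 l3).2 ⟨this, this⟩)
    | succ i ih =>
      intro x h1 h3
      by_cases h4 : x ^ 2 ^ (i + 1) = 1
      · exact ih x h1 h4
      refine st (fun x => (∀ y, x * y ^ 2 = y ^ 2 * x) ∧ x ^ 2 ^ (i + 1 + 1) = 1 ∧ ¬ x ^ 2 ^ (i + 1) = 1)
        (fun x h => ⟨(dinv x).2 h.1, (sinv x _).2 h.2.1, mt (sinv x _).1 h.2.2⟩) (fun x n k1 k2 => ?_) x ⟨h1, h3, h4⟩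
      have ab : ∀ {a b : F}, (a * b = 1 ∨ a * b = -1) → a ^ 2 ^ (i + 1) * b ^ 2 ^ (i + 1) = 1 := fun h => by
        rw [← mul_pow, pow_succ', pow_mul]; rcases h with h | h <;> simp [h]
      have key : ∀ x, (∀ y, x * y ^ 2 = y ^ 2 * x) ∧ x ^ 2 ^ (i + 1 + 1) = 1 ∧ (¬ x ^ 2 ^ (i + 1) = 1) →
          ∃ a b, a ^ 2 ^ (i + 1) = -1 ∧ M x = dg a b := fun x h => by
        obtain ⟨a, b, h1, k⟩ := (isD x).1 h.1
        have h5 := ((sq1 _ k).1 h.2.1).1
        rw [pow_succ, pow_mul] at h5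
        refine ⟨a, b, (sq_eq_one_iff.1 h5).resolve_left fun e => h.2.2 ((sq1 _ k).2 ⟨e, ?_⟩), k⟩
        simpa [e] using ab h1
      obtain ⟨a, b, ha, l1⟩ := key x k1
      obtain ⟨c, d, hb, l2⟩ := key _ k2
      obtain ⟨u, v, l0, l3, l4, l5⟩ := dn (by rintro rfl; simp at ha) l1 l2 (by rintro rfl; simp at hb)
      rw [← l4, mul_pow, ha, neg_mul, one_mul, neg_inj] at hb
      exact ih n ((isD n).2 ⟨u, v, l0, l3⟩) ((sq1 _ l3).2 ⟨hb, by simpa [hb] using ab l0⟩)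
  have cD : ∀ x, (∀ y, x * y ^ 2 = y ^ 2 * x) → β x = x := fun x h => by
    obtain ⟨k, hk⟩ := hT x
    exact ci k x h (by rw [pow_succ, pow_mul, hk, one_pow])
  by_cases h1 : ∀ y, x * y ^ 2 = y ^ 2 * x
  · exact cD x h1
  refine st (fun x => ¬ ∀ y, x * y ^ 2 = y ^ 2 * x) (fun x h => mt (dinv x).1 h) (fun x n k1 k2 => cD n ?_) x h1
  obtain ⟨a, b, l0, l | l⟩ := hx n
  · exact (isD n).2 ⟨a, b, l0, l⟩
  obtain ⟨c, d, l1, l2 | l2⟩ := hx x
  · exact absurd ((isD x).2 ⟨c, d, l1, l2⟩) k1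
  refine absurd ((isD _).2 ⟨d * a, c * b, ?_, by rw [map_mul, l, l2, aa]⟩) k2
  rw [show d * a * (c * b) = (a * b) * (c * d) by ring]
  rcases l0 with l0 | l0 <;> rcases l1 with l1 | l1 <;> simp [l0, l1]

end


/-- Let q = 2^m + 1 be a prime other than 5. Then the automorphism group of the group of linear maps of F_q² of the forms (x, y) ↦ (a x, ± a⁻¹ y) and (x, y) ↦ (± a⁻¹ y, a x) with a ≠ 0 is itself a 2-group. -/
theorem result (q m : ℕ) [Fact q.Prime] (hq : q = 2 ^ m + 1) (hq5 : q ≠ 5)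
    (T : Subgroup ((Fin 2 → ZMod q) ≃ₗ[ZMod q] (Fin 2 → ZMod q)))
    (hT : ∀ f, f ∈ T ↔ ∃ a s : ZMod q, a ≠ 0 ∧ (s = 1 ∨ s = -1) ∧
      ((∀ v, f v = ![a * v 0, s * a⁻¹ * v 1]) ∨ (∀ v, f v = ![s * a⁻¹ * v 1, a * v 0]))) :
    IsPGroup 2 (MulAut T) := by
  have hp : q.Prime := Fact.out
  haveI : Finite ((Fin 2 → ZMod q) ≃ₗ[ZMod q] (Fin 2 → ZMod q)) :=
    Finite.of_injective (fun f => (f : (Fin 2 → ZMod q) → (Fin 2 → ZMod q))) DFunLike.coe_injective
  haveI : Finite (MulAut T) := Finite.of_injective (fun f => (f : T → T)) DFunLike.coe_injective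
  let M : T →* Matrix (Fin 2) (Fin 2) (ZMod q) :=
    { toFun := fun f => LinearMap.toMatrix' (f.1 : (Fin 2 → ZMod q) →ₗ[ZMod q] (Fin 2 → ZMod q))
      map_one' := by simp
      map_mul' := fun f g => by rw [← LinearMap.toMatrix'_mul]; rfl }
  have hM : Function.Injective M := fun f g h => Subtype.ext (LinearEquiv.toLinearMap_injective
    (LinearMap.toMatrix'.injective h))
  have e1 : ∀ (x : T) a b, (∀ v, x.1 v = ![a * v 0, b * v 1]) → M x = dg a b := fun x a b h => by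
    ext i j; fin_cases i <;> fin_cases j <;> simp [M, h, dg]
  have e2 : ∀ (x : T) a b, (∀ v, x.1 v = ![b * v 1, a * v 0]) → M x = ad a b := fun x a b h => by
    ext i j; fin_cases i <;> fin_cases j <;> simp [M, h, ad]
  have key := main M hM (m := m) (fun a ha => by
    have := ZMod.pow_card_sub_one_eq_one ha
    rwa [show q - 1 = 2 ^ m by rw [hq, Nat.add_sub_cancel]] at this) (fun x => by
    obtain ⟨a, s, ha, hs, h⟩ := (hT x.1).1 x.2
    exact ⟨a, s * a⁻¹, by rwa [mul_left_comm, mul_inv_cancel₀ ha, mul_one], h.imp (e1 x _ _) (e2 x _ _)⟩)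
    (fun a b h => by
      have ha : a ≠ 0 := by rintro rfl; simp at h
      have hb : b ≠ 0 := by rintro rfl; simp at h
      have hab : a * b * a⁻¹ = b := by field_simp
      let f := Matrix.toLinearEquiv' (dg a b) (Matrix.invertibleOfIsUnitDet _ (by simp [dg, ha, hb]))
      let g := Matrix.toLinearEquiv' (ad a b) (Matrix.invertibleOfIsUnitDet _ (by simp [ad, ha, hb]))
      have hf : ∀ v, f v = ![a * v 0, b * v 1] := fun v => by
        show Matrix.mulVec (dg a b) v = _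
        ext i; fin_cases i <;> simp [dg, Matrix.mulVec, dotProduct]
      have hg : ∀ v, g v = ![b * v 1, a * v 0] := fun v => by
        show Matrix.mulVec (ad a b) v = _
        ext i; fin_cases i <;> simp [ad, Matrix.mulVec, dotProduct]
      exact ⟨⟨⟨f, (hT f).2 ⟨a, a * b, ha, h, Or.inl (by rw [hab]; exact hf)⟩⟩, e1 _ _ _ hf⟩,
        ⟨⟨g, (hT g).2 ⟨a, a * b, ha, h, Or.inr (by rw [hab]; exact hg)⟩⟩, e2 _ _ _ hg⟩⟩) (by
      rcases m with _ | m
      · left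
        intro a ha
        simpa [hq] using ZMod.pow_card_sub_one_eq_one ha
      refine Or.inr ⟨fun e => ?_, ?_⟩
      · have := (ZMod.natCast_eq_zero_iff 2 q).1 (by exact_mod_cast e)
        have := Nat.le_of_dvd two_pos this
        have := Nat.pow_le_pow_right two_pos (show 1 ≤ m + 1 by omega)
        omega
      rcases m with _ | _ | m
      · left
        intro a ha
        simpa [hq, sq] using ZMod.pow_card_sub_one_eq_one ha
      · exact absurd hq hq5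
      · right
        obtain ⟨g, hg⟩ := IsCyclic.exists_ofOrder_eq_natCard (α := (ZMod q)ˣ)
        refine ⟨g, g.ne_zero, fun e => ?_⟩
        have h1 := Nat.le_of_dvd (by norm_num) (orderOf_dvd_of_pow_eq_one (x := g) (n := 4) (Units.ext e))
        rw [hg, Nat.card_eq_fintype_card, ZMod.card_units] at h1
        have := Nat.pow_le_pow_right two_pos (show 3 ≤ m + 1 + 1 + 1 by omega)
        omega)
  refine IsPGroup.of_card (Nat.eq_prime_pow_of_unique_prime_dvd Nat.card_pos.ne' fun {r} hr h => ?_)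
  haveI := Fact.mk hr
  obtain ⟨β, hβ⟩ := exists_prime_orderOf_dvd_card' r h
  by_contra hc
  rw [key β (hr.odd_of_ne_two hc) (hβ ▸ pow_orderOf_eq_one β), orderOf_one] at hβ
  exact hr.ne_one hβ.symm

end Cfsg.Agent.S3382
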