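import Mathlib
import Cfsg.Statements.S3430
import Cfsg.Agent.Comp2.Zsig

set_option autoImplicit false
open Cfsg

namespace Cfsg.Agent.S3430

open Cfsg.Agent.Comp2.Zsig

theorem tot (n : ℕ) : n ≤ 2 * n.totient ^ 2 ∧ (Odd n → n ≤ n.totient ^ 2) := by
  induction n using induction_on_primes with
  | zero => simp
  | one => simp
  | prime_mul p n hp ih =>
    have h2 := hp.two_le
    by_cases h : p ∣ n
    · rw [Nat.totient_mul_of_prime_of_dvd hp h, mul_pow]
      have h3 : p ≤ p ^ 2 := by nlinarith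
      exact ⟨by nlinarith [Nat.mul_le_mul h3 ih.1], fun ho => Nat.mul_le_mul h3 (ih.2 (Nat.odd_mul.1 ho).2)⟩
    · rw [Nat.totient_mul_of_prime_of_not_dvd hp h, mul_pow]
      rcases hp.eq_two_or_odd' with rfl | ho
      · have := ih.2 (Nat.odd_iff.2 (by omega))
        exact ⟨by simpa using this, fun ho => absurd (Nat.odd_mul.1 ho).1 (by decide)⟩
      · obtain ⟨k, rfl⟩ : ∃ k, p = k + 3 := ⟨p - 3, by obtain ⟨j, hj⟩ := ho; omega⟩
        have h3 : k + 3 ≤ (k + 3 - 1) ^ 2 := by rw [show k + 3 - 1 = k + 2 by omega]; nlinarith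
        exact ⟨by nlinarith [Nat.mul_le_mul h3 ih.1], fun ho => Nat.mul_le_mul h3 (ih.2 (Nat.odd_mul.1 ho).2)⟩

theorem pw (r c : ℕ) (h : 3 ^ (r + c) ≤ (2 ^ r - 1) ^ 2) (k : ℕ) : 3 ^ (r + k + c) ≤ (2 ^ (r + k) - 1) ^ 2 := by
  induction k with
  | zero => exact h
  | succ k ih =>
    have h1 : 2 * (2 ^ (r + k) - 1) ≤ 2 ^ (r + (k + 1)) - 1 := by rw [← add_assoc, pow_succ]; omega
    have h2 := Nat.pow_le_pow_left h1 2
    rw [show r + (k + 1) + c = r + k + c + 1 by ring, pow_succ]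
    rw [mul_pow] at h2; omega

theorem low {n q : ℕ} (hq : 1 < q) (hn : 6 < n) : 3 ^ n.totient ≤ phi n q ^ 2 := by
  rcases (show q = 2 ∨ 3 ≤ q by omega) with rfl | h3
  swap
  · refine le_trans ?_ (Nat.pow_le_pow_left (le_phi hq) 2)
    rw [← pow_mul, mul_comm, pow_mul]
    exact Nat.pow_le_pow_left (le_trans (by norm_num) (Nat.pow_le_pow_left (show 2 ≤ q - 1 by omega) 2)) _
  by_cases h : ∃ r, r.Prime ∧ r * r ∣ n
  · obtain ⟨r, hr, m, rfl⟩ := h
    rw [show r * r * m = (r * m) * r by ring, phi_mul_of_dvd hr (dvd_mul_right _ _), mul_comm,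
      Nat.totient_mul_of_prime_of_dvd hr (dvd_mul_right _ _)]
    refine le_trans ?_ (Nat.pow_le_pow_left (le_phi (Nat.one_lt_two_pow hr.ne_zero)) 2)
    rw [← pow_mul, mul_comm _ 2, pow_mul, pow_mul]
    obtain ⟨k, rfl⟩ := Nat.exists_eq_add_of_le hr.two_le
    exact Nat.pow_le_pow_left (pw 2 0 (by norm_num) k) _
  push Not at h
  obtain ⟨r, hr, h5, m, rfl⟩ : ∃ r, r.Prime ∧ 5 ≤ r ∧ r ∣ n := by
    by_contra hc
    push Not at hc
    refine absurd (Nat.le_of_dvd (by norm_num) ((Nat.dvd_iff_prime_pow_dvd_dvd 6 n).2 fun p k hp hk => ?_)) hn.not_ge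
    rcases k with _ | _ | k
    · simp
    · have h1 := mt (hc p hp) (not_not.2 (by simpa using hk))
      have := hp.two_le
      interval_cases p
      exacts [by norm_num, by norm_num, absurd hp (by norm_num)]
    · exact absurd (Dvd.dvd.trans ⟨p ^ k, by ring⟩ hk) (h p hp)
  have hm : ¬ r ∣ m := fun e => h r hr (Nat.mul_dvd_mul_left r e)
  have h1 := phi_mul_of_not_dvd (a := 2) hr hm
  have h2 := Nat.pow_le_pow_left (le_phi (n := m) (Nat.one_lt_two_pow hr.ne_zero)) 2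
  have h3 := Nat.pow_le_pow_left (phi_le (n := m) hq) 2
  rw [Nat.totient_mul_of_prime_of_not_dvd hr hm, mul_comm r m]
  rw [← h1, mul_pow, ← pow_mul, mul_comm _ 2, pow_mul] at h2
  obtain ⟨k, rfl⟩ := Nat.exists_eq_add_of_le h5
  have h4 := (Nat.pow_le_pow_left (pw 5 1 (by norm_num) k) _).trans (h2.trans (Nat.mul_le_mul_left _ h3))
  rw [← pow_mul, ← pow_mul, show (5 + k + 1) * m.totient = (5 + k - 1) * m.totient + m.totient * 2 by
    rw [show 5 + k - 1 = 4 + k by omega]; ring, pow_add] at h4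
  exact Nat.le_of_mul_le_mul_right h4 (by positivity)

theorem big (t : ℕ) (h : 25 ≤ t) : (2 * t ^ 2 * (2 * t ^ 2 + 1)) ^ 2 < 4 * 3 ^ t := by
  induction t, h using Nat.le_induction with
  | base => norm_num
  | succ t h ih =>
    have h1 : 10 * (2 * (t + 1) ^ 2) ≤ 11 * (2 * t ^ 2) := by nlinarith
    have h2 : 100 * (2 * (t + 1) ^ 2 * (2 * (t + 1) ^ 2 + 1)) ≤ 121 * (2 * t ^ 2 * (2 * t ^ 2 + 1)) := by
      have := Nat.mul_le_mul h1 (show 10 * (2 * (t + 1) ^ 2 + 1) ≤ 11 * (2 * t ^ 2 + 1) by omega)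
      linarith
    have h3 := Nat.pow_le_pow_left h2 2
    rw [mul_pow, mul_pow 121] at h3
    rw [pow_succ 3]; omega

def tt (n : ℕ) : ℕ → ℕ
  | 0 => 0
  | k + 1 => tt n k + if n.gcd k = 1 then 1 else 0

theorem tt_card (n k : ℕ) : tt n k = ((Finset.range k).filter n.Coprime).card := by
  induction k with
  | zero => rfl
  | succ k ih => rw [tt, ih, Finset.range_add_one, Finset.filter_insert]; split_ifs <;> simp_all

set_option synthInstance.maxSize 4000 in
theorem fin0 : ∀ n < 1153, 6 < n → n % 2 = 0 → (n + 1) % 3 ≠ 0 → (n + 1) % 5 ≠ 0 →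
    4 * 3 ^ tt n (min n 120) ≤ (n * (n + 1)) ^ 2 → n ∈ [10, 12, 16, 18, 22, 30, 42] := by decide +kernel

theorem fin1 (n : ℕ) (h1 : n < 1153) (h2 : 6 < n) (h3 : (n + 1).Prime) (h4 : 4 * 3 ^ n.totient ≤ (n * (n + 1)) ^ 2) :
    n ∈ [10, 12, 16, 18, 22, 30, 42] := by
  refine fin0 n h1 h2 (by have := h3.eq_two_or_odd; omega) (fun e => ?_) (fun e => ?_) (le_trans ?_ h4)
  · have := h3.eq_one_or_self_of_dvd 3 (Nat.dvd_of_mod_eq_zero e); omega
  · have := h3.eq_one_or_self_of_dvd 5 (Nat.dvd_of_mod_eq_zero e); omega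
  · rw [tt_card, Nat.totient_eq_card_coprime]
    exact Nat.mul_le_mul_left 4 (Nat.pow_le_pow_right (by norm_num) (Finset.card_le_card
      (Finset.filter_subset_filter _ (Finset.range_subset_range.2 (min_le_left _ _)))))

set_option synthInstance.maxSize 4000 in
theorem fin2 : ∀ n ∈ [4, 6, 10, 12, 16, 18, 22, 30, 42], ∀ q < 6, 2 ≤ q → 2 * (q - 1) ^ n.totient ≤ n * (n + 1) →
    ¬ (q = 2 ∧ (n = 4 ∨ n = 6 ∨ n = 10 ∨ n = 12 ∨ n = 18)) → ¬ (q = 3 ∧ (n = 4 ∨ n = 6)) → ¬ (q = 5 ∧ n = 6) →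
    ∃ p ∈ [17, 13, 61, 73, 257, 37, 683, 331, 271, 5419], (q ^ n - 1) % p = 0 ∧
      (∀ i < n, 1 ≤ i → (q ^ i - 1) % p ≠ 0) ∧ n + 1 < p := by decide +kernel

/-- Let q, n ≥ 2 be integers. Unless (n = 2 and q + 1 = 2^s·3^t for some s ≥ 0 and t ≤ 1), or (q = 2 and n ∈ {4, 6, 10, 12, 18}), or (q = 3 and n ∈ {4, 6}), or (q, n) = (5, 6), there is a prime p dividing q^n − 1 but no q^i − 1 with 1 ≤ i < n (a primitive prime divisor), such that p > n + 1 or p² divides q^n − 1. -/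
theorem result (q n : ℕ) (hq : 2 ≤ q) (hn : 2 ≤ n)
    (h1 : ¬ (n = 2 ∧ ∃ s t : ℕ, t ≤ 1 ∧ q + 1 = 2 ^ s * 3 ^ t))
    (h2 : ¬ (q = 2 ∧ (n = 4 ∨ n = 6 ∨ n = 10 ∨ n = 12 ∨ n = 18)))
    (h3 : ¬ (q = 3 ∧ (n = 4 ∨ n = 6))) (h4 : ¬ (q = 5 ∧ n = 6)) :
    ∃ p : ℕ, p.Prime ∧ p ∣ q ^ n - 1 ∧ (∀ i : ℕ, 1 ≤ i → i < n → ¬ p ∣ q ^ i - 1) ∧ (n + 1 < p ∨ p ^ 2 ∣ q ^ n - 1) := by
  by_contra hcon
  push Not at hcon
  have ha : 1 < q := hq
  have key : ∀ r : ℕ, r.Prime → r ∣ phi n q → (r = n + 1 ∧ ¬ r ^ 2 ∣ phi n q) ∨ ∃ k m, ¬ r ∣ m ∧ n = r ^ (k + 1) * m ∧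
      IsPrimitiveRoot (q : ZMod r) m ∧ ∀ s : ℕ, s.Prime → s ∣ n → s ≤ r := by
    intro r hr hd
    haveI := Fact.mk hr
    obtain ⟨k, m, hm, rfl⟩ := Nat.exists_eq_pow_mul_and_not_dvd (n := n) (by omega) r hr.ne_one
    have hp := prim_of_dvd ha hm hd
    have hm0 : m ≠ 0 := fun e => hm (e ▸ dvd_zero r)
    have := hr.two_le
    rcases k with - | k
    · simp only [pow_zero, one_mul] at *
      obtain ⟨h5, h6⟩ := hcon r hr (hd.trans (phi_dvd ha)) fun j hj hjn hdj => by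
        have := Nat.le_of_dvd hj (hp.dvd_of_pow_eq_one _ ((dvd_pow_sub_one_iff ha j).1 hdj))
        omega
      have := Nat.le_of_dvd (by omega) (dvd_sub_one_of_prim hm0 hp)
      exact Or.inl ⟨by omega, fun e => h6 (e.trans (phi_dvd ha))⟩
    · refine Or.inr ⟨k, m, hm, rfl, hp, fun s hs hsd => ?_⟩
      rcases (Nat.Prime.dvd_mul hs).1 hsd with h | h
      · exact Nat.le_of_dvd hr.pos (hs.dvd_of_dvd_pow h)
      · have := Nat.le_of_dvd (by omega) (h.trans (dvd_sub_one_of_prim hm0 hp))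
        omega
  rcases hn.eq_or_lt with rfl | hn2
  · have e : phi 2 q = q + 1 := by
      simp only [phi, Polynomial.cyclotomic_two, Polynomial.eval_add, Polynomial.eval_X, Polynomial.eval_one]
      omega
    rw [e] at key
    obtain ⟨s, m, hm, h5⟩ := Nat.exists_eq_pow_mul_and_not_dvd (n := q + 1) (by omega) 2 (by norm_num)
    have h6 : m ∣ 3 := (Nat.dvd_iff_prime_pow_dvd_dvd 3 m).2 fun p k hp hk => by
      rcases k with _ | k
      · simp
      have h7 := (dvd_pow_self p k.succ_ne_zero).trans hk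
      rcases key p hp (h5 ▸ h7.mul_left _) with ⟨rfl, h8⟩ | ⟨k, m, -, h8, -⟩
      · rcases k with _ | k
        · simp
        · exact absurd (h5 ▸ (Dvd.dvd.trans ⟨(2 + 1) ^ k, by ring⟩ hk).mul_left _) h8
      · have := (Nat.prime_dvd_prime_iff_eq hp Nat.prime_two).1 (h8 ▸ (dvd_pow_self p k.succ_ne_zero).mul_right m)
        exact absurd (this ▸ h7) hm
    rcases (Nat.dvd_prime Nat.prime_three).1 h6 with rfl | rfl
    · exact h1 ⟨rfl, s, 0, by omega, h5⟩
    · exact h1 ⟨rfl, s, 1, le_rfl, h5⟩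
  have hpr : (n + 1).Prime := by
    obtain ⟨r, hr, h5, h6⟩ := zsigmondy q n ha (by omega) (by tauto) (by omega)
    haveI := Fact.mk hr
    have h7 := (hcon r hr h5 h6).1
    have h8 : orderOf (q : ZMod r) = n := (orderOf_eq_iff (by omega)).2 ⟨(dvd_pow_sub_one_iff ha n).1 h5,
      fun m h h' e => h6 m h' h ((dvd_pow_sub_one_iff ha m).2 e)⟩
    have := hr.two_le
    have := Nat.le_of_dvd (by omega) (dvd_sub_one_of_prim (by omega) (h8 ▸ IsPrimitiveRoot.orderOf (q : ZMod r)))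
    rwa [show n + 1 = r by omega]
  have hev : 2 ∣ n := by have := hpr.eq_two_or_odd; omega
  have nsq : ∀ r : ℕ, r.Prime → ¬ r ^ 2 ∣ phi n q := fun r hr hsq => by
    rcases key r hr ((dvd_pow_self r two_ne_zero).trans hsq) with h | ⟨k, m, hm, hnk, hp, -⟩
    · exact h.2 hsq
    haveI := Fact.mk hr
    have hm0 : m ≠ 0 := fun e => hm (e ▸ dvd_zero r)
    have e : n = (r ^ k * m) * r := by rw [hnk]; ring
    by_cases hr2 : r = 2
    · subst hr2
      obtain rfl : m = 1 := Nat.dvd_one.1 (dvd_sub_one_of_prim hm0 hp)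
      rcases k with - | k
      · simp at e; omega
      · refine not_four_dvd ha (d := 2 ^ k) (by positivity) ?_
        rwa [show 2 ^ k * 2 * 2 = n by rw [e]; ring]
    · refine not_sq_dvd_odd ha hr hr2 (d := r ^ k * m)
        (Nat.mul_pos (Nat.pow_pos hr.pos) (by omega)) ?_ (e ▸ hsq)
      rw [dvd_pow_sub_one_iff ha, mul_comm, pow_mul, hp.pow_eq_one, one_pow]
  have hle : 2 * phi n q ≤ n * (n + 1) := by
    obtain ⟨r, hr, hrn, hmax⟩ : ∃ r : ℕ, r.Prime ∧ r ∣ n ∧ ∀ s : ℕ, s.Prime → s ∣ n → s ≤ r := by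
      obtain ⟨r, h5, h6⟩ := n.primeFactors.exists_max_image id (Nat.nonempty_primeFactors.2 (by omega))
      exact ⟨r, Nat.prime_of_mem_primeFactors h5, Nat.dvd_of_mem_primeFactors h5, fun s hs h =>
        h6 s (Nat.mem_primeFactors.2 ⟨hs, h, by omega⟩)⟩
    have h5 : phi n q ∣ r * (n + 1) := (Nat.dvd_iff_prime_pow_dvd_dvd _ _).2 fun p k hp hk => by
      rcases k with _ | _ | k
      · simp
      · rw [zero_add, pow_one] at hk ⊢
        rcases key p hp hk with ⟨rfl, -⟩ | ⟨k, m, -, h8, -, h9⟩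
        · exact dvd_mul_left _ _
        · rw [le_antisymm (hmax p hp (h8 ▸ (dvd_pow_self p k.succ_ne_zero).mul_right m)) (h9 r hr hrn)]
          exact dvd_mul_right _ _
      · exact absurd (Dvd.dvd.trans ⟨p ^ k, by ring⟩ hk) (nsq p hp)
    have h6 := Nat.le_of_dvd (Nat.mul_pos hr.pos (by omega)) h5
    obtain ⟨c, hc⟩ := hrn
    have h7 : 2 ≤ c := by
      by_contra h
      interval_cases c
      · omega
      · have := hr.eq_two_or_odd; omega
    have : 2 * r ≤ n := by nlinarith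
    nlinarith
  have hmem : n ∈ [4, 6, 10, 12, 16, 18, 22, 30, 42] := by
    by_cases h6 : 6 < n
    · have h5 : 4 * 3 ^ n.totient ≤ (n * (n + 1)) ^ 2 := by
        have := Nat.pow_le_pow_left hle 2
        have := low ha h6
        rw [mul_pow 2] at *; omega
      have h7 := (tot n).1
      have h8 : n.totient < 25 := by
        by_contra hc
        have h9 := big _ (not_lt.1 hc)
        have := Nat.pow_le_pow_left (Nat.mul_le_mul h7 (Nat.succ_le_succ h7)) 2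
        simp only [Nat.succ_eq_add_one] at this
        omega
      have := fin1 n (by nlinarith) h6 hpr h5
      simp only [List.mem_cons] at this ⊢; tauto
    · have : n = 4 ∨ n = 6 := by omega
      simp only [List.mem_cons]; tauto
  have h5 := (Nat.mul_le_mul_left 2 (le_phi (n := n) ha)).trans hle
  have h6 : q < 6 := by
    by_contra hc
    have := (Nat.mul_le_mul_left 2 (Nat.pow_le_pow_left (show 5 ≤ q - 1 by omega) _)).trans h5
    revert this
    exact (by decide +kernel : ∀ n ∈ [4, 6, 10, 12, 16, 18, 22, 30, 42], ¬ 2 * 5 ^ n.totient ≤ n * (n + 1)) n hmem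
  obtain ⟨p, h7, h8, h9, h10⟩ := fin2 n hmem q h6 hq h5 h2 h3 h4
  refine absurd (hcon p ?_ (Nat.dvd_of_mod_eq_zero h8) fun i h h' e => h9 i h' h (Nat.mod_eq_zero_of_dvd e)).1 h10.not_ge
  simp only [List.mem_cons, List.not_mem_nil, or_false] at h7
  rcases h7 with rfl | rfl | rfl | rfl | rfl | rfl | rfl | rfl | rfl | rfl <;> norm_num

end Cfsg.Agent.S3430
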