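import Mathlib
import Cfsg.Statements.S3704
import Cfsg.Agent.Fil.B
import Cfsg.Agent.Perm.Multi

set_option autoImplicit false
open Cfsg

namespace Cfsg.Agent.S3704

open Finset MulAction Cfsg.Agent.Char Cfsg.Agent.Inv.CR Cfsg.Agent.Fil

theorem card_orbits_prod' {G Ω Ω' : Type*} [Group G] [MulAction G Ω] [MulAction G Ω'] [IsPretransitive G Ω'] (a : Ω') :
    Nat.card (orbitRel.Quotient (stabilizer G a) Ω) = Nat.card (orbitRel.Quotient G (Ω' × Ω)) := by
  refine Nat.card_congr (Equiv.ofBijective (Quotient.map' (fun b => (a, b)) ?_) ⟨?_, ?_⟩)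
  · rintro b c ⟨⟨g, hg⟩, rfl⟩
    exact ⟨g, Prod.ext hg rfl⟩
  · intro b c
    induction b using Quotient.inductionOn'
    induction c using Quotient.inductionOn'
    intro h
    obtain ⟨g, hg⟩ := Quotient.exact' h
    exact Quotient.sound' ⟨⟨g, congrArg Prod.fst hg⟩, congrArg Prod.snd hg⟩
  · intro q
    induction q using Quotient.inductionOn' with
    | h q =>
      obtain ⟨g, hg⟩ := exists_smul_eq G q.1 a
      exact ⟨Quotient.mk'' (g • q.2), Quotient.sound' ⟨g, Prod.ext hg rfl⟩⟩


/-- Let G be a finite group acting faithfully and 2-transitively on a finite set Ω of size n, and let H be a subgroup of index n in G which is not transitive on Ω and fixes no point of Ω. Then H has exactly two orbits on Ω. -/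
theorem result {G Ω : Type*} [Group G] [Finite G] [MulAction G Ω] [FaithfulSMul G Ω] [Finite Ω] (h2 : MulAction.IsMultiplyPretransitive G Ω 2) (H : Subgroup G) (hidx : H.index = Nat.card Ω) (hnt : ¬ MulAction.IsPretransitive H Ω) (hfix : ∀ a : Ω, ∃ h : H, h • a ≠ a) : Nat.card (MulAction.orbitRel.Quotient H Ω) = 2 := by
  classical
  letI := Fintype.ofFinite G
  letI := Fintype.ofFinite Ω
  letI := Fintype.ofFinite (G ⧸ H)
  obtain ⟨a, b, hab⟩ : ∃ a b : Ω, ∀ h : H, h • a ≠ b := by
    by_contra hc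
    push Not at hc
    exact hnt ⟨hc⟩
  have hne : a ≠ b := by simpa using hab 1
  haveI : Nontrivial Ω := ⟨a, b, hne⟩
  haveI : IsPretransitive G Ω := isPretransitive_of_is_two_pretransitive
  have hlow : 2 ≤ Nat.card (orbitRel.Quotient H Ω) := by
    haveI : Nontrivial (orbitRel.Quotient H Ω) := ⟨Quotient.mk'' b, Quotient.mk'' a, fun e => by
      obtain ⟨h, hh⟩ := orbitRel_apply.1 (Quotient.exact' (s₁ := orbitRel H Ω) e)
      exact hab h hh⟩
    exact Finite.one_lt_card
  obtain ⟨m, hm, hm1, hsq, hdeg⟩ := exists_mult (G := G) a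
  obtain ⟨m', hm', hm1', -, hdeg'⟩ := exists_mult (G := G) ((1 : G) : G ⧸ H)
  set o : IrrCharacter G := ⟨fun _ => 1, isIrr_one⟩ with ho
  have hr : Nat.card (orbitRel.Quotient (stabilizer G a) Ω) ≤ 2 := by
    have hs : Function.Surjective (fun i : Bool => (if i then Quotient.mk'' a else Quotient.mk'' b :
        orbitRel.Quotient (stabilizer G a) Ω)) := by
      intro q
      induction q using Quotient.inductionOn' with
      | h c =>
        by_cases hc : c = a
        · exact ⟨true, by simp [hc]⟩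
        · obtain ⟨g, h1, h2⟩ := Perm.two_trans h2 hne.symm hc (a := b) (b := a) (c := c) (d := a)
          refine ⟨false, ?_⟩
          simp only [Bool.false_eq_true, if_false]
          exact (Quotient.sound' (orbitRel_apply.2 ⟨⟨g, h2⟩, h1⟩)).symm
    simpa using Nat.card_le_card_of_surjective _ hs
  have hin := classInner_eq_sum (isChar_classFun (pc_isChar (G := G) (Ω := G ⧸ H))) (pc G Ω)
  rw [inner_pc, ← card_orbits_prod' ((1 : G) : G ⧸ H), stabilizer_quotient] at hin
  simp only [hm, hm', map_natCast] at hin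
  have hin' : Nat.card (orbitRel.Quotient H Ω) = ∑ χ, m' χ * m χ := by exact_mod_cast hin
  choose d hd0 hd using fun χ : IrrCharacter G => isIrr_degree χ.2
  have hdo : d o = 1 := by
    have : (1 : ℂ) = d o := hd o
    exact_mod_cast this.symm
  simp only [hd] at hdeg hdeg'
  have e1 : ∑ χ, m χ * d χ = Fintype.card Ω := by exact_mod_cast hdeg
  have e2 : ∑ χ, m' χ * d χ = Fintype.card Ω := by
    rw [← Nat.card_eq_fintype_card, ← hidx, Subgroup.index, Nat.card_eq_fintype_card]; exact_mod_cast hdeg'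
  rw [← Finset.add_sum_erase _ _ (mem_univ o)] at hin' e1 e2 hsq
  rw [hm1] at hsq e1 hin'
  rw [hm1'] at e2 hin'
  have h1n : 1 < Fintype.card Ω := Fintype.one_lt_card
  obtain ⟨χ, hχ, hχ0⟩ : ∃ χ ∈ univ.erase o, m χ * d χ ≠ 0 :=
    exists_ne_zero_of_sum_ne_zero (by omega)
  have hm0 : m χ ≠ 0 := left_ne_zero_of_mul hχ0
  rw [← Finset.add_sum_erase _ _ hχ] at hin' e1 e2 hsq
  have hp := pow_pos (Nat.pos_of_ne_zero hm0) 2
  have hz : ∑ ψ ∈ (univ.erase o).erase χ, m ψ ^ 2 = 0 := by omega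
  have hz' : ∀ ψ ∈ (univ.erase o).erase χ, m ψ = 0 := fun ψ hψ =>
    pow_eq_zero_iff (two_ne_zero) |>.1 ((sum_eq_zero_iff.1 hz) ψ hψ)
  have hmχ : m χ = 1 := by
    have : m χ ^ 2 = 1 := by omega
    exact (Nat.pow_eq_one.1 this).resolve_right two_ne_zero
  rw [sum_eq_zero (fun ψ hψ => by rw [hz' ψ hψ, mul_zero])] at hin'
  rw [sum_eq_zero (fun ψ hψ => by rw [hz' ψ hψ, zero_mul])] at e1
  rw [hmχ] at hin' e1
  rw [hdo] at e1 e2
  have : m' χ ≤ 1 := by
    by_contra h
    have := Nat.mul_le_mul_right (d χ) (show 2 ≤ m' χ by omega)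
    have := hd0 χ
    omega
  omega

end Cfsg.Agent.S3704
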