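import Mathlib
import Cfsg.Statements.S3733

set_option autoImplicit false
open Cfsg

namespace Cfsg.Agent.S3733

/-- Let A and V be subgroups of a finite group with V abelian and nontrivial and A normalizing V. Suppose a nonempty finite family of proper subgroups of A partitions A: every non-identity element of A lies in exactly one member. If the number of members minus one is coprime to the order of V, then some member B of the family has a non-identity fixed point on V, that is V ∩ C(B) ≠ 1. -/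
theorem result {G : Type*} [Group G] [Finite G] (A V : Subgroup G) (hVab : IsMulCommutative V) (hV : V ≠ ⊥) (hAV : A ≤ Subgroup.normalizer (V : Set G)) (𝒜 : Finset (Subgroup G)) (hne : 𝒜.Nonempty) (hprop : ∀ B ∈ 𝒜, B < A) (hpart : ∀ a ∈ A, a ≠ 1 → ∃! B, B ∈ 𝒜 ∧ a ∈ B) (hk : (𝒜.card - 1).Coprime (Nat.card V)) : ∃ B ∈ 𝒜, V ⊓ Subgroup.centralizer (B : Set G) ≠ ⊥ := by
  classical
  by_contra! h
  letI : CommGroup V := { (inferInstance : Group V) with mul_comm := hVab.is_comm.comm }
  haveI := Fintype.ofFinite A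
  let φ : A →* MulAut V := V.normalizerMonoidHom.comp (Subgroup.inclusion hAV)
  obtain ⟨v, hv⟩ := Subgroup.ne_bot_iff_exists_ne_one.mp hV
  have h1 : ∀ C B : Subgroup G, B ∈ 𝒜 → B ≤ C → ∏ a : A with a.1 ∈ C, φ a v = 1 := fun C B hB hBC => by
    refine Subtype.ext ((h B hB).le (Subgroup.mem_inf.mpr ⟨Subtype.prop _, fun b hb => ?_⟩))
    have h2 : φ ⟨b, (hprop B hB).le hb⟩ (∏ a : A with a.1 ∈ C, φ a v) = ∏ a : A with a.1 ∈ C, φ a v := by
      rw [map_prod]
      refine Finset.prod_equiv (Equiv.mulLeft ⟨b, (hprop B hB).le hb⟩) (fun a => ?_) fun a _ => ?_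
      · simp [C.mul_mem_cancel_left (hBC hb)]
      · simp
    exact mul_inv_eq_iff_eq_mul.mp (congrArg Subtype.val h2)
  obtain ⟨B₀, hB₀⟩ := hne
  have h2 := h1 ⊤ B₀ hB₀ le_top
  have h3 : ∏ B ∈ 𝒜, ∏ a : A with a.1 ∈ B, φ a v = 1 := Finset.prod_eq_one fun B hB => h1 B B hB le_rfl
  simp only [Finset.prod_filter] at h3
  rw [Finset.prod_comm, ← Finset.mul_prod_erase _ _ (Finset.mem_univ (1 : A))] at h3
  simp only [Subgroup.mem_top, Finset.filter_true] at h2
  rw [← Finset.mul_prod_erase _ _ (Finset.mem_univ (1 : A))] at h2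
  have h4 : ∀ a ∈ Finset.univ.erase (1 : A), (∏ B ∈ 𝒜, if (a : G) ∈ B then φ a v else 1) = φ a v := fun a ha => by
    obtain ⟨B, hB, hu⟩ := hpart a a.2 fun e => Finset.ne_of_mem_erase ha (Subtype.ext e)
    rw [Finset.prod_eq_single B (fun C hC hne => if_neg fun h => hne (hu C ⟨hC, h⟩)) (fun h => (h hB.1).elim),
      if_pos hB.2]
  rw [Finset.prod_congr rfl h4, ← h2] at h3
  simp only [OneMemClass.coe_one, one_mem, if_true, map_one, MulAut.one_apply, Finset.prod_const,
    mul_left_inj] at h3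
  have h5 : v ^ (𝒜.card - 1) = 1 := by
    rw [← mul_left_inj v, ← pow_succ, Nat.sub_add_cancel (Finset.card_pos.mpr ⟨B₀, hB₀⟩), h3, one_mul]
  exact hv (orderOf_eq_one_iff.mp (Nat.eq_one_of_dvd_coprimes hk (orderOf_dvd_of_pow_eq_one h5)
    (orderOf_dvd_natCard v)))

end Cfsg.Agent.S3733
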