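import Mathlib
import Cfsg.Statements.S3734
import Cfsg.Agent.Core.CoprimeGen
import Cfsg.Agent.BG.AmbHall2

set_option autoImplicit false
open Cfsg

namespace Cfsg.Agent.S3734

open Subgroup BG.Amb

/-- Let A and G be subgroups of a finite group with A abelian, A normalizing G and the orders of A and G coprime. Then G is generated by the fixed-point subgroups C_G(B) of those subgroups B of A for which A/B is cyclic (that is, A = ⟨B, a⟩ for some a), and [G, A] is generated by the commutator subgroups [C_G(B), A] over the same subgroups B. -/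
theorem result {X : Type*} [Group X] [Finite X] (A G : Subgroup X) (hAab : IsMulCommutative A) (hAG : A ≤ Subgroup.normalizer (G : Set X)) (hcop : (Nat.card A).Coprime (Nat.card G)) : (⨆ B ∈ {B : Subgroup X | B ≤ A ∧ ∃ a ∈ A, B ⊔ Subgroup.zpowers a = A}, G ⊓ Subgroup.centralizer (B : Set X)) = G ∧ (⨆ B ∈ {B : Subgroup X | B ≤ A ∧ ∃ a ∈ A, B ⊔ Subgroup.zpowers a = A}, ⁅G ⊓ Subgroup.centralizer (B : Set X), A⁆) = ⁅G, A⁆ := by
  have h1 := Core.le_of_centralizers_cocyclic hAab hAG hcop
    (L := ⨆ B ∈ {B : Subgroup X | B ≤ A ∧ ∃ a ∈ A, B ⊔ Subgroup.zpowers a = A},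
      G ⊓ Subgroup.centralizer (B : Set X)) fun B hB h => le_iSup₂_of_le B ⟨hB, h⟩ le_rfl
  refine ⟨le_antisymm (iSup₂_le fun _ _ => inf_le_left) h1,
    le_antisymm (iSup₂_le fun _ _ => commutator_mono inf_le_left le_rfl) ?_⟩
  set L := ⨆ B ∈ {B : Subgroup X | B ≤ A ∧ ∃ a ∈ A, B ⊔ Subgroup.zpowers a = A},
    ⁅G ⊓ Subgroup.centralizer (B : Set X), A⁆
  have hA : ∀ B ≤ A, A ≤ normalizer ((G ⊓ centralizer (B : Set X) : Subgroup X) : Set X) := fun B hB =>
    le_norm_inf hAG (le_norm_of_le (le_cent_of_comm hAab le_rfl hB))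
  have hn : ∀ T : Subgroup X, (∀ B ≤ A, T ≤ normalizer ((G ⊓ centralizer (B : Set X) : Subgroup X) : Set X)) →
      T ≤ normalizer (A : Set X) → T ≤ normalizer (L : Set X) := by
    intro T h2 h3 t ht
    refine mem_normalizer_of_conj_le ?_
    rw [conj_le_iff]
    refine iSup₂_le fun B hB => conj_le_iff.mp ?_
    rw [conj_eq_of_mem_normalizer (le_norm_comm (h2 B hB.1) h3 ht)]
    exact le_iSup₂_of_le B hB le_rfl
  have h2 := hn A hA le_normalizer
  have h3 := hn (G ⊓ centralizer (A : Set X)) (fun B hB => le_norm_of_le (inf_le_inf_left _ (cent_anti hB)))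
    (inf_le_right.trans (cent_le_norm A))
  have h4 : G ≤ L ⊔ (G ⊓ centralizer (A : Set X)) := h1.trans (iSup₂_le fun B hB => by
    rw [← Core.commutator_sup_centralizer A _ (hA B hB.1) (Core.coprime_of_le_right hcop inf_le_left)
      (Or.inl Core.solvable_of_isMulCommutative)]
    exact sup_le_sup (le_iSup₂_of_le B hB le_rfl) (inf_le_inf_right _ inf_le_left))
  refine (Core.commutator_le_of_mul_centralizer (X := L) fun k hk => ?_).trans (comm_le_left h2)
  obtain ⟨x, hx, c, hc, e⟩ := (Core.mem_sup_of_le_normalizer h3).mp (h4 hk)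
  exact ⟨x, hx, c, hc.2, e⟩

end Cfsg.Agent.S3734
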