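import Mathlib
import Cfsg.Statements.S3735
import Cfsg.Agent.Core.MinNormal
import Cfsg.Agent.Core.Product
import Cfsg.Agent.H2.Subnormal

set_option autoImplicit false
open Cfsg

namespace Cfsg.Agent.S3735

open Subgroup
open scoped Pointwise

/-- Clifford's Theorem for actions on finite abelian groups, first part. Let H and V be subgroups of a finite group with V abelian and H normalizing V, and let A be a normal subgroup of H. If every H-invariant subgroup of V has an H-invariant complement in V, then every A-invariant subgroup of V has an A-invariant complement in V. -/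
theorem result {G : Type*} [Group G] [Finite G] (H A V : Subgroup G) (hVab : IsMulCommutative V) (hHV : H ≤ Subgroup.normalizer (V : Set G)) (hAH : A ≤ H) (hAn : H ≤ Subgroup.normalizer (A : Set G)) (hss : ∀ U : Subgroup G, U ≤ V → H ≤ Subgroup.normalizer (U : Set G) → ∃ W : Subgroup G, W ≤ V ∧ H ≤ Subgroup.normalizer (W : Set G) ∧ U ⊓ W = ⊥ ∧ U ⊔ W = V) (U : Subgroup G) (hUV : U ≤ V) (hAU : A ≤ Subgroup.normalizer (U : Set G)) : ∃ W : Subgroup G, W ≤ V ∧ A ≤ Subgroup.normalizer (W : Set G) ∧ U ⊓ W = ⊥ ∧ U ⊔ W = V := by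
  have hn : ∀ {X Y : Subgroup G}, X ≤ V → Y ≤ V → X ≤ normalizer (Y : Set G) := fun hX hY x hx =>
    centralizer_le_normalizer _ fun y hy => Core.comm_of_isMulCommutative hVab (hY hy) (hX hx)
  let M : Set (Subgroup G) := {N | N ≤ V ∧ A ≤ normalizer (N : Set G) ∧
    ∀ K : Subgroup G, A ≤ normalizer (K : Set G) → K ≤ N → K = ⊥ ∨ K = N}
  have hinv : ∀ h ∈ H, ∀ K : Subgroup G, A ≤ normalizer (K : Set G) → A ≤ normalizer (MulAut.conj h • K : Subgroup G) :=
    fun h hh K hK => (H2.mem_normalizer_iff_conj_smul.mp (hAn hh)).ge.trans (Core.map_le_normalizer_map hK _)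
  have hS : H ≤ normalizer (sSup M : Subgroup G) := fun h hh => H2.mem_normalizer_of_conj_smul_le (by
    rw [H2.conj_smul_sSup]
    refine sSup_le_sSup ?_
    rintro _ ⟨N, hN, rfl⟩
    refine ⟨H2.conj_smul_le_of_mem_normalizer hN.1 (hHV hh), hinv h hh N hN.2.1, fun K hK hle => ?_⟩
    rcases hN.2.2 _ (hinv h⁻¹ (inv_mem hh) K hK) (by rwa [map_inv, ← subset_pointwise_smul_iff]) with e | e
    · left; rwa [map_inv, inv_smul_eq_iff, smul_bot] at e
    · right; rwa [map_inv, inv_smul_eq_iff] at e)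
  obtain ⟨W, hWV, hHW, h1, h2⟩ := hss _ (sSup_le fun N hN => hN.1) hS
  obtain rfl : W = ⊥ := by
    by_contra hW
    obtain ⟨N, hN, hN0, hNW, hmin⟩ := Core.exists_minimal_invariant_le A W (hAH.trans hHW) hW
    exact hN0 (eq_bot_iff.mpr ((le_inf (le_sSup (show N ∈ M from ⟨hNW.trans hWV, hN, hmin⟩)) hNW).trans h1.le))
  obtain ⟨W, ⟨hWV, hAW, hUW⟩, hmax⟩ := exists_maximal_of_wellFoundedGT
    (fun W : Subgroup G => W ≤ V ∧ A ≤ normalizer (W : Set G) ∧ U ⊓ W = ⊥)
    ⟨⊥, bot_le, le_top.trans (normalizer_eq_top _).ge, inf_bot_eq _⟩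
  refine ⟨W, hWV, hAW, hUW, le_antisymm (sup_le hUV hWV) (h2.ge.trans (sup_le (sSup_le fun N hN => ?_) bot_le))⟩
  rcases hN.2.2 (N ⊓ (U ⊔ W)) (Core.le_normalizer_inf hN.2.1 (Core.le_normalizer_sup hAU hAW)) inf_le_left with e | e
  · refine le_sup_of_le_right (le_sup_right.trans (hmax (y := W ⊔ N) ⟨sup_le hWV hN.1,
      Core.le_normalizer_sup hAW hN.2.1, eq_bot_iff.mpr fun u hu => ?_⟩ le_sup_left))
    obtain ⟨w, hw, n, hn', rfl⟩ := (Core.mem_sup_of_le_normalizer (hn hN.1 hWV)).mp hu.2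
    obtain rfl : n = 1 := e.le (mem_inf.mpr ⟨hn', (mul_mem_cancel_left (mem_sup_right hw)).mp (mem_sup_left hu.1)⟩)
    exact hUW.le ⟨hu.1, mul_mem hw (one_mem _)⟩
  · exact e.ge.trans inf_le_right

end Cfsg.Agent.S3735
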