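import Mathlib
import Cfsg.Statements.S3738
import Cfsg.Agent.H23.Ord3
-- import your own Cfsg.Agent.* helpers here

set_option autoImplicit false
open Cfsg

namespace Cfsg.Agent.S3738

/-- Let d be a non-identity 3-element of a finite group and P a 2-subgroup normalized by d on which ⟨d⟩ acts faithfully (no non-identity power of d centralizes P) and without non-identity fixed points (C_P(d) = 1). If every abelian subgroup of P has 2-rank at most 2, then d has order 3. -/
theorem result {X : Type*} [Group X] [Finite X] (d : X) (n : ℕ) (hn : 1 ≤ n) (hd : orderOf d = 3 ^ n) (P : Subgroup X) (hP : IsPGroup 2 P) (hdP : d ∈ Subgroup.normalizer (P : Set X)) (hfaith : Subgroup.zpowers d ⊓ Subgroup.centralizer (P : Set X) = ⊥) (hfpf : P ⊓ Subgroup.centralizer {d} = ⊥) (hrank : ∀ V : Subgroup X, V ≤ P → IsMulCommutative V → Cfsg.PRankLE 2 2 V) : orderOf d = 3 := by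

  by_contra hne
  obtain ⟨m, rfl⟩ : ∃ m, n = m + 1 := ⟨n - 1, by omega⟩
  have hm : 1 ≤ m := by
    by_contra h
    have : m = 0 := by omega
    subst this
    exact hne (by simpa using hd)
  have hf : d ^ 3 ^ m ∉ Subgroup.centralizer (P : Set X) := by
    intro h
    have h1 : d ^ 3 ^ m ∈ Subgroup.zpowers d ⊓ Subgroup.centralizer (P : Set X) :=
      ⟨pow_mem (Subgroup.mem_zpowers d) _, h⟩
    rw [hfaith, Subgroup.mem_bot, ← orderOf_dvd_iff_pow_eq_one, hd] at h1
    have := (Nat.pow_dvd_pow_iff_le_right (by norm_num : 1 < 3)).mp h1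
    omega
  obtain ⟨E, hEP, hE, h8⟩ := H23.Ord3.main hm hd hP hdP hf hfpf
  have h1 := hrank E hEP hE.1 ⊤ ⟨⟨fun a b => Subtype.ext (hE.1.is_comm.comm a.1 b.1)⟩⟩
    (fun a _ => Subtype.ext (by simpa using hE.2 a a.2))
  rw [Subgroup.card_top] at h1
  omega

end Cfsg.Agent.S3738
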