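import Mathlib
import Cfsg.Statements.S3740
import Cfsg.Agent.Classical.DicksonSL
import Cfsg.Agent.PLocal.SL2
import Cfsg.Agent.PGrp.Aut
import Cfsg.Agent.FGS.Basic
import Cfsg.Agent.Core.Coprime

set_option autoImplicit false
open Cfsg

namespace Cfsg.Agent.S3740

open Subgroup Matrix
open scoped MatrixGroups commutatorElement

theorem disc {F : Type*} [Field F] {a r : SL(2, F)} (ha : a 0 0 + a 1 1 = 2) (h1 : a ≠ 1) (h : r * a = a * r) :
    (r 0 0 + r 1 1) ^ 2 = 4 := by
  have e : ∀ i j, r i 0 * a 0 j + r i 1 * a 1 j = a i 0 * r 0 j + a i 1 * r 1 j := fun i j => by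
    simpa [mul_apply, Fin.sum_univ_two] using congrArg (fun g : SL(2, F) => g.1 i j) h
  have d1 := PLocal.SL_det a
  have d2 := PLocal.SL_det r
  by_contra hne
  have hb : a 0 1 = 0 := pow_eq_zero_iff two_ne_zero |>.mp ((mul_eq_zero.mp (show a 0 1 ^ 2 *
    ((r 0 0 + r 1 1) ^ 2 - 4) = 0 by
      linear_combination (4 * a 0 1 ^ 2) * d2 + (a 0 1 * (r 0 0 - r 1 1) + r 0 1 * (a 0 0 - a 1 1)) * e 0 1 -
        (4 * a 0 1 * r 0 1) * e 0 0 + r 0 1 ^ 2 * (a 0 0 + a 1 1 + 2) * ha - 4 * r 0 1 ^ 2 * d1)).resolve_right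
        (sub_ne_zero.mpr hne))
  have hc : a 1 0 = 0 := pow_eq_zero_iff two_ne_zero |>.mp ((mul_eq_zero.mp (show a 1 0 ^ 2 *
    ((r 0 0 + r 1 1) ^ 2 - 4) = 0 by
      linear_combination (4 * a 1 0 ^ 2) * d2 - (a 1 0 * (r 0 0 - r 1 1) + r 1 0 * (a 0 0 - a 1 1)) * e 1 0 +
        (4 * a 1 0 * r 1 0) * e 0 0 + r 1 0 ^ 2 * (a 0 0 + a 1 1 + 2) * ha - 4 * r 1 0 ^ 2 * d1)).resolve_right
        (sub_ne_zero.mpr hne))
  have h0 : a 0 0 = 1 := sub_eq_zero.mp (pow_eq_zero_iff two_ne_zero |>.mp (by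
    linear_combination a 0 0 * ha - d1 - a 0 1 * hc))
  refine h1 (Matrix.SpecialLinearGroup.ext _ _ fun i j => ?_)
  fin_cases i <;> fin_cases j <;> simp [hb, hc, h0]
  linear_combination ha - h0

/-- Let F be a finite field of odd characteristic p and let a be a p-element of SL₂(F) normalizing a subgroup R of order prime to p with [R, a] ≠ 1. Then p = 3, R is a quaternion group of order 8, and R⟨a⟩ is isomorphic to SL₂(3). -/
theorem result (F : Type) [Field F] [Fintype F] {p : ℕ} [Fact p.Prime] [CharP F p] (hp : p ≠ 2) (a : Matrix.SpecialLinearGroup (Fin 2) F) (ha : IsPGroup p ↥(Subgroup.zpowers a)) (R : Subgroup (Matrix.SpecialLinearGroup (Fin 2) F)) (hR : (Nat.card R).Coprime p) (haR : a ∈ Subgroup.normalizer (R : Set (Matrix.SpecialLinearGroup (Fin 2) F))) (hnt : ⁅R, Subgroup.zpowers a⁆ ≠ ⊥) : p = 3 ∧ Nonempty (↥R ≃* QuaternionGroup 2) ∧ Nonempty (↥(R ⊔ Subgroup.zpowers a) ≃* Matrix.SpecialLinearGroup (Fin 2) (ZMod 3)) := by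
  have hp' : p.Prime := Fact.out
  have h2 := PLocal.two_ne_zero_of_charP F p hp
  have ha1 : a ≠ 1 := by rintro rfl; simp at hnt
  obtain ⟨k, hk⟩ := ha ⟨a, mem_zpowers a⟩
  have hk' : a ^ p ^ k = 1 := congrArg Subtype.val hk
  have htr := PLocal.SL_trace_eq_two_of_pow p a k hk'
  have hap : a ^ p = 1 := by
    have hW : (a.1 - 1) * (a.1 - 1) = 0 := by
      have := PLocal.SL_det a
      ext i j
      fin_cases i <;> fin_cases j <;> simp [mul_apply, Fin.sum_univ_two]
      · linear_combination a 0 0 * htr - this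
      · linear_combination a 0 1 * htr
      · linear_combination a 1 0 * htr
      · linear_combination a 1 1 * htr - this
    have := PLocal.add_pow_of_sq_zero hW 1 (p - 1)
    rw [← Nat.cast_succ, Nat.succ_eq_add_one, Nat.sub_add_cancel hp'.pos] at this
    exact Subtype.ext (by simpa using this)
  have ho : Nat.card (zpowers a) = p := by rw [Nat.card_zpowers, orderOf_eq_prime hap ha1]
  have hn : zpowers a ≤ normalizer (R : Set SL(2, F)) := zpowers_le.mpr haR
  have hcH : Nat.card (R ⊔ zpowers a : Subgroup _) = Nat.card R * p := by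
    rw [Core.card_sup_of_disjoint hn (disjoint_of_coprime_natCard (ho ▸ hR)), ho]
  let π : SL(2, F) →* PGL(2, F) := SpecialLinearGroup.toPGL
  have hs : Nat.card (Sylow p (R ⊔ zpowers a : Subgroup _)) ≠ 1 := fun h => hnt (by
    obtain ⟨P⟩ : Nonempty (Sylow p (R ⊔ zpowers a : Subgroup _)) := inferInstance
    haveI := (Nat.card_eq_one_iff_unique.mp h).1
    haveI := P.normal_of_subsingleton
    rw [commutator_eq_bot_iff_le_centralizer]
    intro r hr x hx
    have h3 : (⟨x, mem_sup_right hx⟩ : (R ⊔ zpowers a : Subgroup _)) ∈ P :=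
      (by
      obtain ⟨Q, hQ⟩ := (ha.comap_subtype (K := R ⊔ zpowers a)).exists_le_sylow
      exact Subsingleton.elim Q P ▸ hQ hx)
    have h4 := commute_of_normal_of_disjoint (P : Subgroup _) (R.subgroupOf (R ⊔ zpowers a)) inferInstance
      ((normal_subgroupOf_iff_le_normalizer le_sup_left).mpr (sup_le le_normalizer hn)) (by
        obtain ⟨n, hn⟩ := P.isPGroup'.exists_card_eq
        refine disjoint_of_coprime_natCard ?_
        rw [hn, Core.card_subgroupOf_of_le le_sup_left]
        exact hR.symm.pow_left n) _ ⟨r, mem_sup_left hr⟩ h3 hr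
    exact congrArg Subtype.val h4)
  have hs' := Classical.DicksonSL.card_sylow_map_ne_one _ hs
  set H := (R ⊔ zpowers a).map π with hH
  have hA : (zpowers a).map π ≤ H := map_mono le_sup_right
  have hπ : ∀ z : SL(2, F), π z = 1 → z ^ p = 1 → z = 1 := fun z hz h => by
    rcases Classical.SL2Basic.toPGL_eq_one_iff.mp hz with rfl | rfl
    · rfl
    · rwa [(hp'.odd_of_ne_two hp).neg_one_pow] at h
  have hcA : Nat.card ((zpowers a).map π) = p := by
    rw [MonoidHom.map_zpowers, Nat.card_zpowers]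
    exact orderOf_eq_prime (by rw [← map_pow, hap, map_one]) fun h => ha1 (hπ a h hap)
  have hcR := hR.coprime_dvd_left (Core.card_map_dvd R π)
  let P : Sylow p H := (IsPGroup.of_card (n := 1) (by rw [Core.card_subgroupOf_of_le hA, hcA, pow_one])).toSylow
    (P := ((zpowers a).map π).subgroupOf H) fun h => by
      have h3 := (Core.card_mul_relIndex hA).dvd.trans (Core.card_map_dvd _ π)
      rw [hcA, hcH, mul_comm _ p, Nat.mul_dvd_mul_iff_left hp'.pos] at h3
      exact hp'.one_lt.ne' (Nat.eq_one_of_dvd_coprimes hR (h.trans h3) dvd_rfl)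
  have hcP : Nat.card P = p := (Core.card_subgroupOf_of_le hA).trans hcA
  have hN : normalizer ((P : Subgroup H) : Set H) = P := by
    refine le_antisymm ?_ le_normalizer
    rintro ⟨_, x, hx, rfl⟩ hxN
    obtain ⟨r, hr, y, hy, rfl⟩ := (Core.mem_sup_of_le_normalizer hn).mp hx
    have h3 : π (r * y) ∈ normalizer ((zpowers a).map π : Subgroup _) := (subgroupOf_normalizer_eq hA).ge hxN
    rw [map_mul, mul_mem_cancel_right (le_normalizer (mem_map_of_mem π hy))] at h3
    have h4 : π ⁅r, a⁆ = 1 := by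
      refine disjoint_def.mp (disjoint_of_coprime_natCard (hcA ▸ hcR)) (mem_map_of_mem π ?_) ?_
      · exact Core.commutator_le_of_le_normalizer hn (commutator_mem_commutator hr (mem_zpowers a))
      · rw [map_commutatorElement]
        exact mul_mem ((mem_normalizer_iff.mp h3 _).mp (mem_map_of_mem π (mem_zpowers a)))
          (inv_mem (mem_map_of_mem π (mem_zpowers a)))
    have h5 : ⁅r, a⁆ = 1 := hπ _ h4 (by
      have h5 := mem_center_iff.mp (SpecialLinearGroup.toPGL_ker.le h4) a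
      have h6 : (⁅r, a⁆ * a) ^ p = 1 := by rw [commutatorElement_def, inv_mul_cancel_right, conj_pow, hap]; simp
      rwa [(show Commute a ⁅r, a⁆ from h5).symm.mul_pow, hap, mul_one] at h6)
    have h6 := PLocal.scalar_of_disc h2 r (k := Nat.card R)
      (fun h => hp'.one_lt.ne' (Nat.eq_one_of_dvd_coprimes hR ((CharP.cast_eq_zero_iff F p _).mp h) dvd_rfl))
      (congrArg Subtype.val (pow_card_eq_one' (x := (⟨r, hr⟩ : R))))
      (disc htr ha1 (commutatorElement_eq_one_iff_mul_comm.mp h5))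
    have h7 : π r = 1 := SpecialLinearGroup.toPGL_ker.ge (mem_center_iff.mpr fun n => PLocal.commute_of_scalar r n h6)
    change π (r * y) ∈ (zpowers a).map π
    rw [map_mul, h7, one_mul]
    exact mem_map_of_mem π hy
  have h3 : Nat.card H = p * Nat.card (Sylow p H) := by
    rw [P.card_eq_index_normalizer, ← P.coe_coe, hN, ← (P : Subgroup H).card_mul_index, hcP]
  obtain ⟨rfl, h12⟩ : p = 3 ∧ Nat.card H = 12 := by
    rcases Classical.P1Inst.wild_of_injective H.subtype H.subtype_injective (h3 ▸ dvd_mul_right _ _) with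
      h | h | ⟨rfl, ⟨e⟩⟩ | h
    · exact absurd h hs'
    · exact absurd h.1 hp
    · have := card_sylow_modEq_one 3 H
      rw [Nat.card_congr e.toEquiv, Classical.DicksonSL.card_A5] at h3
      rw [show Nat.card (Sylow 3 H) = 20 by omega] at this
      exact absurd this (by decide)
    · obtain ⟨h4, h5, h6⟩ := h P
      rw [hcP] at h4 h5 h6
      rw [h5] at h3
      obtain ⟨m, rfl⟩ := Nat.exists_eq_add_of_le' h4
      rw [h3, show (m + 3) ^ 2 - 1 = (m + 3 + 1) * (m + 2) from Nat.sq_sub_sq (m + 3) 1, ← mul_assoc] at h6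
      obtain rfl : m = 0 := by rcases h6 with h6 | h6 <;> nlinarith
      exact ⟨rfl, h3⟩
  obtain ⟨f, hf, hfH⟩ := Classical.DicksonSL.exists_SL2_zmod hp _ hs
  have h24 : Nat.card f.range = 24 := by
    rw [← Nat.card_congr (MonoidHom.ofInjective hf).toEquiv]; simp [Nat.card_eq_fintype_card]; decide +kernel
  have h4 : Nat.card (R ⊔ zpowers a : Subgroup _) ≤ 24 := by
    rw [← Core.card_mul_relIndex (inf_le_right : π.ker ⊓ (R ⊔ zpowers a) ≤ _), inf_relIndex_right, relIndex_ker, ← hH, h12]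
    refine Nat.mul_le_mul_right 12 ((card_le_of_le inf_le_left).trans (?_ : _ ≤ 2))
    rw [SpecialLinearGroup.toPGL_ker, Classical.SLBasic.card_center_SL, Fintype.card_fin]
    exact Nat.gcd_le_left _ two_pos
  have h5 := eq_of_le_of_card_ge hfH (h24 ▸ h4)
  refine ⟨rfl, ?_, ⟨(MulEquiv.subgroupCongr h5.symm).trans (MonoidHom.ofInjective hf).symm⟩⟩
  have h8 : Nat.card R = 8 := by rw [← h5, h24] at hcH; omega
  rcases Classical.DicksonSL.cyclic_or_quaternion hp (IsPGroup.of_card (n := 3) h8) R.subtype R.subtype_injective with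
    h | ⟨k, -, ⟨e⟩⟩
  · have h6 := PGrp.relIndex_centralizer_dvd_card_mulAut hn
    rw [IsCyclic.card_mulAut, h8] at h6
    have h7 := Nat.eq_one_of_dvd_coprimes (by decide) h6 (ho ▸ Core.relIndex_dvd_card' _ _)
    exact (hnt (by rw [commutator_comm, commutator_eq_bot_iff_le_centralizer]; exact relIndex_eq_one.mp h7)).elim
  · have h6 := Nat.card_congr e.toEquiv
    rw [h8, Nat.card_eq_fintype_card, QuaternionGroup.card] at h6
    rw [show 2 ^ k = 2 by omega] at e
    exact ⟨e⟩

end Cfsg.Agent.S3740
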