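import Mathlib
import Cfsg.Statements.S3741
import Cfsg.Agent.PGrp.Special
-- import your own Cfsg.Agent.* helpers here

set_option autoImplicit false
open Cfsg

namespace Cfsg.Agent.S3741

/-- Let A and B be subgroups of a finite p-group with [A, B] ≤ A ∩ B and [A, B] of order at most p. Then |A : C_A(B)| = |B : C_B(A)|. -/
theorem result {G : Type*} [Group G] [Finite G] {p : ℕ} [Fact p.Prime] (hG : IsPGroup p G) (A B : Subgroup G) (hAB : ⁅A, B⁆ ≤ A ⊓ B) (hcard : Nat.card ↥⁅A, B⁆ ≤ p) : (A ⊓ Subgroup.centralizer (B : Set G)).relIndex A = (B ⊓ Subgroup.centralizer (A : Set G)).relIndex B := by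
  rw [Subgroup.inf_relIndex_left, Subgroup.inf_relIndex_left]
  apply le_antisymm
  · have := PGrp.relIndex_centralizer_le_relIndex (H := A)
      (Z := B ⊓ Subgroup.centralizer (A : Set G)) hcard
      (Subgroup.le_centralizer_iff.mp inf_le_right) _ B (hG.to_subgroup B) inf_le_left le_rfl rfl
    rwa [Subgroup.inf_relIndex_left] at this
  · have := PGrp.relIndex_centralizer_le_relIndex (H := B)
      (Z := A ⊓ Subgroup.centralizer (B : Set G)) hcard
      (Subgroup.le_centralizer_iff.mp inf_le_right) _ A (hG.to_subgroup A) inf_le_left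
      (Subgroup.commutator_comm B A).le rfl
    rwa [Subgroup.inf_relIndex_left] at this

end Cfsg.Agent.S3741
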