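import Mathlib
import Cfsg.Agent.Core.PHall
import Cfsg.Statements.S3744
-- import your own Cfsg.Agent.* helpers here

set_option autoImplicit false
open Cfsg

namespace Cfsg.Agent.S3744

/-- A finite p-soluble group has a p-complement, all its p-complements are conjugate, and every subgroup of order prime to p lies in one of them. Here a p-complement is a subgroup of order prime to p whose index is a power of p. -/
theorem result {G : Type*} [Group G] [Finite G] {p : ℕ} [Fact p.Prime] (hG : Cfsg.IsPSolvable p G) : (∃ H : Subgroup G, (Nat.card H).Coprime p ∧ ∃ n : ℕ, H.index = p ^ n) ∧ (∀ H₁ H₂ : Subgroup G, (Nat.card H₁).Coprime p → (∃ n : ℕ, H₁.index = p ^ n) → (Nat.card H₂).Coprime p → (∃ n : ℕ, H₂.index = p ^ n) → ∃ g : G, H₂ = H₁.map (MulAut.conj g).toMonoidHom) ∧ (∀ U : Subgroup G, (Nat.card U).Coprime p → ∃ H : Subgroup G, (Nat.card H).Coprime p ∧ (∃ n : ℕ, H.index = p ^ n) ∧ ∃ g : G, U.map (MulAut.conj g).toMonoidHom ≤ H) := by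
  refine ⟨Core.psolv_exists_compl hG, ?_, ?_⟩
  · rintro H₁ H₂ h1 ⟨n, hn⟩ h2 ⟨m, hm⟩
    obtain ⟨g, hg⟩ := Core.psolv_exists_conj_le hG H₁ H₂ h1 ⟨m, hm⟩
    obtain ⟨g', hg'⟩ := Core.psolv_exists_conj_le hG H₂ H₁ h2 ⟨n, hn⟩
    refine ⟨g, ?_⟩
    rw [← Core.conj_smul_eq_map]
    refine (Subgroup.eq_of_le_of_card_ge hg ?_).symm
    have := Subgroup.card_le_of_le hg'
    rwa [Core.card_conj_smul] at this ⊢
  · intro U hU
    obtain ⟨H, h1, h2⟩ := Core.psolv_exists_compl hG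
    obtain ⟨g, hg⟩ := Core.psolv_exists_conj_le hG U H hU h2
    exact ⟨H, h1, h2, g, by rwa [← Core.conj_smul_eq_map]⟩

end Cfsg.Agent.S3744
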