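import Mathlib
import Cfsg.Statements.S3745
import Cfsg.Agent.BG.AmbHall2
import Cfsg.Agent.BG.Quo
import Cfsg.Agent.Core.MinNormal

set_option autoImplicit false
open Cfsg

namespace Cfsg.Agent.S3745

open Subgroup Cfsg.Agent.BG Cfsg.Agent.BG.Amb Cfsg.Agent.BG.QuoApi
open scoped Pointwise

theorem aux.{u} (π : Set ℕ) (n : ℕ) : ∀ (X : Type u) [Group X] [Finite X] (A G U : Subgroup X),
    Nat.card G = n → A ≤ 𝐍(G) → (Nat.card G).Coprime (Nat.card A) → Group.IsSolvable G → U ≤ G →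
    A ≤ 𝐍(U) → IsPiSubgroup π U → ∃ H, IsPiHallOf π H G ∧ A ≤ 𝐍(H) ∧ U ≤ H := by
  induction n using Nat.strong_induction_on with | _ n ih
  intro X _ _ A G U hn hA hc hs hU hAU hπ
  by_cases h0 : G = ⊥
  · exact ⟨G, hall_self (h0 ▸ pi_bot), hA, hU⟩
  obtain ⟨N, p, hN, hne, hNG, hp, hE, -⟩ := Core.exists_minimal_invariant_elementary_le (A ⊔ G) G
    (sup_le hA le_normalizer) hs h0
  have := Fact.mk hp
  have hAN : A ≤ 𝐍(N) := le_sup_left.trans hN
  have hGN : G ≤ 𝐍(N) := le_sup_right.trans hN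
  have hNp := Core.IsElementaryAbelian.isPGroup hE
  obtain ⟨Q, hQ, hAQ, hUQ⟩ := ih (Nat.card (quo N G)) (by
      rw [← hn, ← card_quo_mul_of_normalIn ⟨hNG, hGN⟩]
      exact (Nat.lt_mul_iff_one_lt_right Nat.card_pos).mpr ((one_lt_card_iff_ne_bot N).mpr hne))
    (Quo N) (quo N A) (quo N G) (quo N U) rfl (quo_le_normalizer hA) (coprime_quo hc N)
    (isSolvable_quo (h := hs) N) (quo_mono hU) (quo_le_normalizer hAU) (isPiSubgroup_quo hπ N)
  have hAH := (le_normalizer_coquo_iff hAN).mpr hAQ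
  have hUH := (le_coquo_iff (hU.trans hGN)).mpr hUQ
  have hHG := (coquo_le_iff hNG).mpr (hall_le hQ)
  by_cases hpπ : p ∈ π
  · exact ⟨_, hall_coquo ⟨hNG, hGN⟩ (pi_of_isPGroup hNp hpπ) hQ, hAH, hUH⟩
  have hNπ : IsPiSubgroup πᶜ N := pi_of_isPGroup hNp hpπ
  obtain ⟨K, hK, hAK⟩ := coprime_hall_exists π hAH (hc.coprime_dvd_left (card_dvd_of_le hHG))
    (solvable_mono hs hHG)
  have hKG : IsPiHallOf π K G :=
    hall_of_index hK hHG (by rw [relIndex_coquo _ hGN]; exact hall_index hQ)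
  have hKN : K ≤ 𝐍(N) := (hall_le hKG).trans hGN
  have h1 : N ⊔ K = coquo N Q := by
    have := hall_quo hK (coquo_le_normalizer Q)
    rw [quo_coquo] at this
    rw [sup_comm, ← coquo_quo hKN, hall_eq_self this (hall_pi hQ)]
  have h2 : N ⊔ (K ⊓ (N ⊔ U)) = N ⊔ U := by
    rw [← sup_inf_assoc_of_le le_sup_left hKN, h1, inf_eq_right.mpr (sup_le (le_coquo Q) hUH)]
  have hL : N ⊔ U ≤ G := sup_le hNG hU
  have h3 : IsPiHallOf π (K ⊓ (N ⊔ U)) (N ⊔ U) := by
    have := hall_right_of_sup hNπ (pi_mono (hall_pi hK) (inf_le_left : K ⊓ (N ⊔ U) ≤ K))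
      (inf_le_left.trans hKN)
    rwa [h2] at this
  obtain ⟨c, hc', e⟩ := coprime_hall_trans (le_norm_sup hAN hAU)
    (hc.coprime_dvd_left (card_dvd_of_le hL)) (solvable_mono hs hL)
    h3
    (le_norm_inf hAK (le_norm_sup hAN hAU)) (hall_right_of_sup hNπ hπ (hU.trans hGN)) hAU
  refine ⟨_, hall_conj_of_mem hKG (hL hc'.1), ?_, e.le.trans (conj_mono c inf_le_left)⟩
  have := conj_le_normalizer_conj (g := c) hAK
  rwa [conj_eq_of_mem_centralizer hc'.2] at this

/-- Coprime action on a solvable group and Hall subgroups. Let A and G be subgroups of a finite group with A normalizing G, the orders of A and G coprime, and G solvable, and let π be a set of primes. Then (a) G has an A-invariant Hall π-subgroup; (b) any two A-invariant Hall π-subgroups of G are conjugate by an element of C_G(A); (c) every A-invariant π-subgroup of G lies in an A-invariant Hall π-subgroup of G. -/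
theorem result {X : Type*} [Group X] [Finite X] (A G : Subgroup X) (hAG : A ≤ Subgroup.normalizer (G : Set X)) (hcop : (Nat.card A).Coprime (Nat.card G)) (hsolv : Group.IsSolvable G) (π : Set ℕ) : (∃ H : Subgroup X, Cfsg.IsPiHallOf π H G ∧ A ≤ Subgroup.normalizer (H : Set X)) ∧ (∀ H₁ H₂ : Subgroup X, Cfsg.IsPiHallOf π H₁ G → A ≤ Subgroup.normalizer (H₁ : Set X) → Cfsg.IsPiHallOf π H₂ G → A ≤ Subgroup.normalizer (H₂ : Set X) → ∃ c ∈ G ⊓ Subgroup.centralizer (A : Set X), H₂ = H₁.map (MulAut.conj c).toMonoidHom) ∧ (∀ U : Subgroup X, U ≤ G → A ≤ Subgroup.normalizer (U : Set X) → (∀ p : ℕ, p.Prime → p ∣ Nat.card U → p ∈ π) → ∃ H : Subgroup X, Cfsg.IsPiHallOf π H G ∧ A ≤ Subgroup.normalizer (H : Set X) ∧ U ≤ H) := by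
  exact ⟨coprime_hall_exists π hAG hcop.symm hsolv,
    fun H₁ H₂ h₁ a₁ h₂ a₂ => coprime_hall_trans hAG hcop.symm hsolv h₁ a₁ h₂ a₂,
    fun U hU hA hπ => aux π _ X A G U rfl hAG hcop.symm hsolv hU hA hπ⟩

end Cfsg.Agent.S3745
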