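import Mathlib
import Cfsg.Statements.S3746
import Cfsg.Agent.Comp2.PLayer

set_option autoImplicit false
open Cfsg

namespace Cfsg.Agent.S3746

open Cfsg.Agent.Comp2
open scoped commutatorElement


/-- Let Z ≤ Z(G) be a central subgroup of a finite group G and E a subgroup of G containing Z whose image E/Z is a component of G/Z (subnormal and quasisimple). Then the derived subgroup [E, E] is a component of G. -/
theorem result {G : Type*} [Group G] [Finite G] (Z : Subgroup G) (hZ : Z ≤ Subgroup.center G) [Z.Normal] (E : Subgroup G) (hZE : Z ≤ E) (hE : Cfsg.IsComponent (E.map (QuotientGroup.mk' Z))) : Cfsg.IsComponent ⁅E, E⁆ := by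
  have hEs : E.IsSubnormal := by
    have := hE.1.comap (QuotientGroup.mk' Z)
    rwa [Subgroup.comap_map_eq, QuotientGroup.ker_mk', sup_eq_left.mpr hZE] at this
  have hmap : (⁅E, E⁆ : Subgroup G).map (QuotientGroup.mk' Z) = E.map (QuotientGroup.mk' Z) := by
    rw [Subgroup.map_commutator, component_commutator_self hE]
  have hE' : E ≤ ⁅E, E⁆ ⊔ Z := by
    have := congrArg (Subgroup.comap (QuotientGroup.mk' Z)) hmap
    rw [Subgroup.comap_map_eq, Subgroup.comap_map_eq, QuotientGroup.ker_mk'] at this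
    rw [this]; exact le_sup_left
  have hZc : ∀ z ∈ Z, ∀ g : G, g * z = z * g := fun z hz g => Subgroup.mem_center_iff.mp (hZ hz) g
  have hperf : ⁅(⁅E, E⁆ : Subgroup G), ⁅E, E⁆⁆ = ⁅E, E⁆ := by
    refine le_antisymm (Subgroup.commutator_mono (Subgroup.commutator_le_self E)
      (Subgroup.commutator_le_self E)) ?_
    rw [Subgroup.commutator_le]
    intro x hx y hy
    obtain ⟨a, ha, z, hz, rfl⟩ := mem_sup_of_le_normalizer Subgroup.le_normalizer_of_normal (hE' hx)
    obtain ⟨b, hb, w, hw, rfl⟩ := mem_sup_of_le_normalizer Subgroup.le_normalizer_of_normal (hE' hy)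
    have : ⁅a * z, b * w⁆ = ⁅a, b⁆ := by
      have h1 : ∀ g : G, z * g = g * z := fun g => (hZc z hz g).symm
      have h2 : ∀ g : G, w * g = g * w := fun g => (hZc w hw g).symm
      simp only [commutatorElement_def, mul_inv_rev]
      calc a * z * (b * w) * (z⁻¹ * a⁻¹) * (w⁻¹ * b⁻¹)
          = a * (z * (b * w) * z⁻¹) * a⁻¹ * w⁻¹ * b⁻¹ := by group
        _ = a * b * (w * a⁻¹) * w⁻¹ * b⁻¹ := by rw [h1]; group
        _ = a * b * a⁻¹ * b⁻¹ := by rw [h2]; group
    rw [this]
    exact Subgroup.commutator_mem_commutator ha hb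
  refine ⟨isSubnormal_of_le_normalizer (Subgroup.commutator_le_self E) ?_ hEs, ?_⟩
  · exact Core.le_normalizer_commutator Subgroup.le_normalizer Subgroup.le_normalizer
  · refine quasisimple_of_map (QuotientGroup.mk' Z) hperf ?_ (hmap ▸ hE.2)
    rw [QuotientGroup.ker_mk']
    intro z hz g _
    exact hZc z hz.1 g

end Cfsg.Agent.S3746
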