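import Mathlib
import Cfsg.Statements.S3747
import Cfsg.Agent.Comp2.MinNormal

set_option autoImplicit false
open Cfsg

namespace Cfsg.Agent.S3747

open Cfsg.Agent.Comp2


/-- Let G be a finite group. (a) If K is a component of G with trivial centre, then the normal closure of K in G is a minimal normal subgroup of G. (b) If the Fitting subgroup of G is trivial, then the layer E(G) is generated by the minimal normal subgroups of G. -/
theorem result {G : Type*} [Group G] [Finite G] : (∀ K : Subgroup G, Cfsg.IsComponent K → Subgroup.center ↥K = ⊥ → (Subgroup.normalClosure (K : Set G) ≠ ⊥ ∧ ∀ N : Subgroup G, N.Normal → N ≤ Subgroup.normalClosure (K : Set G) → N = ⊥ ∨ N = Subgroup.normalClosure (K : Set G))) ∧ (Cfsg.fittingSubgroup G = ⊥ → sSup {N : Subgroup G | N ≠ ⊥ ∧ N.Normal ∧ ∀ N' : Subgroup G, N'.Normal → N' ≤ N → N' = ⊥ ∨ N' = N} = Cfsg.layer G) := by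
  have ha : ∀ K : Subgroup G, Cfsg.IsComponent K → K ⊓ Subgroup.centralizer (K : Set G) = ⊥ →
      (Subgroup.normalClosure (K : Set G) ≠ ⊥ ∧ ∀ N : Subgroup G, N.Normal →
        N ≤ Subgroup.normalClosure (K : Set G) → N = ⊥ ∨ N = Subgroup.normalClosure (K : Set G)) := by
    intro K hK hZ
    refine ⟨fun h => component_ne_bot hK (le_bot_iff.mp (h ▸ Subgroup.le_normalClosure)),
      fun N hN hle => component_normalClosure_minimal hK hZ N hle⟩
  refine ⟨fun K hK hZ => ha K hK (by rw [← map_center_subtype, hZ, Subgroup.map_bot]), fun hF => ?_⟩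
  refine le_antisymm (sSup_le ?_) (layer_le_iff.mpr fun K hK => ?_)
  · rintro N ⟨hne, hN, hmin⟩
    rw [← genFitting_eq_layer_of_fitting_eq_bot hF]
    exact minimal_normal_le_genFitting hne hmin
  · have := ha K hK (le_bot_iff.mp (hF ▸ component_inf_centralizer_le_fitting hK))
    exact Subgroup.le_normalClosure.trans (le_sSup ⟨this.1, inferInstance, this.2⟩)

end Cfsg.Agent.S3747
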