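import Mathlib
import Cfsg.Statements.S3748
import Cfsg.Agent.H2.SubnormalFam
import Cfsg.Agent.Core.Fitting

set_option autoImplicit false
open scoped Pointwise commutatorElement
open Cfsg

namespace Cfsg.Agent.S3748

/-- Call a proper subgroup M of G primitive when M = N_G(N) for every non-trivial normal subgroup N of M. If M is a primitive subgroup of the finite group G, then no non-trivial subnormal subgroup of G is contained in M; in particular M ∩ F(G) = 1. -/
theorem result {G : Type*} [Group G] [Finite G] (M : Subgroup G) (hM : M ≠ ⊤) (hprim : ∀ N : Subgroup G, N ≤ M → M ≤ Subgroup.normalizer (N : Set G) → N ≠ ⊥ → Subgroup.normalizer (N : Set G) = M) : (∀ L : Subgroup G, L.IsSubnormal → L ≤ M → L = ⊥) ∧ M ⊓ Cfsg.fittingSubgroup G = ⊥ := by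
  have key : ∀ L : Subgroup G, L.IsSubnormal → L ≤ M → L = ⊥ := by
    obtain ⟨J, h1, h2, h3, h4⟩ := H2.exists_normal_or_normalizer_ne M
    have h5 : J = ⊥ := by
      by_contra h
      exact hM (h4 (hprim J h1 h2 h))
    intro L hL hLM
    exact le_bot_iff.1 (h5 ▸ h3 L hL hLM)
  refine ⟨key, key _ ?_ inf_le_left⟩
  have := Core.fitting_nilpotent (G := G)
  exact H2.SN.top_iff.1 ((H2.SN.top_iff.2 (Core.fitting_normal (G := G)).isSubnormal).trans
    (H2.SN.of_isNilpotent inf_le_right))

end Cfsg.Agent.S3748
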