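import Mathlib
import Cfsg.Statements.S3749
import Cfsg.Agent.FGS.Basic2
import Cfsg.Agent.Core.SylowOf
import Cfsg.Agent.Core.Coprime2
import Cfsg.Agent.Core.Cores
import Cfsg.Agent.Core.Product
import Cfsg.Agent.Transfer.Wielandt

set_option autoImplicit false
open Cfsg

namespace Cfsg.Agent.S3749

open Subgroup Cfsg.Agent.FGS
open scoped Pointwise

/-- Call a proper subgroup M of G primitive when M = N_G(N) for every non-trivial normal subgroup N of M. Let M be a primitive subgroup of the finite group G, p a prime with O_p(M) ≠ 1, and N a normal subgroup of G with M ∩ N = 1. Then p does not divide the order of N; for every prime q there is exactly one Sylow q-subgroup of N normalized by M; and if the order of N has at least two prime divisors then M is not a maximal subgroup of G. -/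
theorem result {G : Type*} [Group G] [Finite G] (M : Subgroup G) (hM : M ≠ ⊤) (hprim : ∀ N : Subgroup G, N ≤ M → M ≤ Subgroup.normalizer (N : Set G) → N ≠ ⊥ → Subgroup.normalizer (N : Set G) = M) {p : ℕ} [Fact p.Prime] (hOp : Cfsg.pCore p ↥M ≠ ⊥) (N : Subgroup G) [N.Normal] (hMN : M ⊓ N = ⊥) : ¬ p ∣ Nat.card N ∧ (∀ q : ℕ, [Fact q.Prime] → ∃! Q : Sylow q ↥N, M ≤ Subgroup.normalizer ((Q : Subgroup ↥N).map N.subtype : Set G)) ∧ ((∃ q r : ℕ, q.Prime ∧ r.Prime ∧ q ≠ r ∧ q ∣ Nat.card N ∧ r ∣ Nat.card N) → ¬ IsCoatom M) := by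
  have hp : p.Prime := Fact.out
  set P := (pCore p M).map M.subtype with hP
  have hPM : P ≤ M := map_subtype_le _
  have hMP : M ≤ normalizer (P : Set G) := fun m hm => mem_normalizer_fintype (by
    rintro _ ⟨y, hy, rfl⟩
    exact ⟨_, (inferInstance : (pCore p M).Normal).conj_mem y hy ⟨m, hm⟩, rfl⟩)
  have hP0 : P ≠ ⊥ := fun h => hOp ((Subgroup.map_eq_bot_iff_of_injective _ M.subtype_injective).mp h)
  have hPp : IsPGroup p P := (Core.pCore_isPGroup p).map _
  have hC : N ⊓ centralizer (P : Set G) = ⊥ := by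
    rw [eq_bot_iff, ← hMN, ← hprim P hPM hMP hP0, inf_comm]
    exact inf_le_inf_right _ (centralizer_le_normalizer _)
  have h1 : ¬ p ∣ Nat.card N := by
    intro hd
    obtain ⟨S, hS⟩ := hPp.exists_le_sylow
    have h2 := Core.isSylowOf_sylow_inf_normal S N
    refine Core.inf_centralizer_ne_bot_of_isPGroup h2.isPGroup hPp (fun x hx => mem_normalizer_fintype fun y hy =>
      ⟨(S : Subgroup G).mul_mem ((S : Subgroup G).mul_mem (hS hx) hy.1) ((S : Subgroup G).inv_mem (hS hx)),
        Normal.conj_mem inferInstance y hy.2 x⟩) (h2.ne_bot hd) ?_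
    rw [eq_bot_iff, ← hC]
    exact inf_le_inf_right _ inf_le_right
  have hcop : (Nat.card P).Coprime (Nat.card N) :=
    (Core.coprime_of_isPGroup hPp ((Nat.Prime.coprime_iff_not_dvd hp).mpr h1).symm).symm
  have hPN : P ≤ normalizer (N : Set G) := by rw [normalizer_eq_top]; exact le_top
  haveI := hPp.isNilpotent
  have huniq : ∀ (q : ℕ) [Fact q.Prime] (Q R : Subgroup G), Core.IsSylowOf q Q N → Core.IsSylowOf q R N →
      P ≤ normalizer (Q : Set G) → P ≤ normalizer (R : Set G) → Q = R := by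
    intro q _ Q R hQ hR h1 h2
    obtain ⟨c, hc, rfl⟩ := Core.IsSylowOf.exists_centralizer_conj_eq P N hPN hcop (Or.inl inferInstance) hQ hR h1 h2
    rw [hC, mem_bot] at hc
    simp [hc]
  have hex : ∀ (q : ℕ) [Fact q.Prime], ∃ Q : Subgroup G, Core.IsSylowOf q Q N ∧ M ≤ normalizer (Q : Set G) := by
    intro q _
    obtain ⟨Q, hQ, hQn⟩ := Core.exists_invariant_isSylowOf P N hPN hcop (Or.inl inferInstance) q
    refine ⟨Q, hQ, fun m hm => Core.conj_smul_eq_iff_mem_normalizer.mp ?_⟩
    refine huniq q _ _ (hQ.conj_of_mem_normalizer ((normalizer_eq_top N).ge (mem_top m))) hQ ?_ hQn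
    intro x hx
    refine mem_normalizer_fintype fun y hy => ?_
    have hy' := Core.mem_conj_smul_iff.mp hy
    have hx' : m⁻¹ * x * m ∈ P := by simpa using (mem_normalizer_iff.mp (hMP (inv_mem hm)) x).mp hx
    have := (mem_normalizer_iff.mp (hQn hx') _).mp hy'
    refine Core.mem_conj_smul_iff.mpr ?_
    convert this using 1
    group
  refine ⟨h1, fun q _ => ?_, ?_⟩
  · obtain ⟨Q, hQ, hQn⟩ := hex q
    obtain ⟨S, rfl⟩ := hQ.exists_sylow
    refine ⟨S, hQn, fun T hT => Sylow.ext (map_injective N.subtype_injective ?_)⟩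
    exact huniq q _ _ (Core.isSylowOf_map_subtype T) hQ (hPM.trans hT) (hPM.trans hQn)
  · rintro ⟨q, r, hq, hr, hqr, hqN, hrN⟩ hco
    haveI := Fact.mk hq
    obtain ⟨Q, hQ, hQn⟩ := hex q
    have h2 : ¬ Q ≤ M := fun h => hQ.ne_bot hqN (eq_bot_iff.mpr (hMN ▸ le_inf h hQ.le))
    have h3 := Core.sup_inf_of_le_left hQn hQ.le
    rw [sup_comm, sup_eq_top_of_isCoatom hco h2, top_inf_eq, hMN, sup_bot_eq] at h3
    exact Transfer.not_dvd_card_of_isPGroup hr hqr.symm (h3 ▸ hQ.isPGroup) hrN

end Cfsg.Agent.S3749
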