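import Mathlib
import Cfsg.Statements.S3750
import Cfsg.Agent.Comp2.MinNormal

set_option autoImplicit false
open Cfsg

namespace Cfsg.Agent.S3750

open Cfsg.Agent.Comp2


/-- Call a proper subgroup M of G primitive when M = N_G(N) for every non-trivial normal subgroup N of M. Let M be a primitive subgroup of the finite group G and N a normal subgroup of G with M ∩ F*(N) ≠ 1. Then F(G) = 1 and F*(N) = F*(G) = E(G); in particular every minimal normal subgroup of G is contained in N. -/
theorem result {G : Type*} [Group G] [Finite G] (M : Subgroup G) (hM : M ≠ ⊤) (hprim : ∀ N : Subgroup G, N ≤ M → M ≤ Subgroup.normalizer (N : Set G) → N ≠ ⊥ → Subgroup.normalizer (N : Set G) = M) (N : Subgroup G) [N.Normal] (hMF : M ⊓ (Cfsg.generalizedFittingSubgroup ↥N).map N.subtype ≠ ⊥) : Cfsg.fittingSubgroup G = ⊥ ∧ (Cfsg.generalizedFittingSubgroup ↥N).map N.subtype = Cfsg.generalizedFittingSubgroup G ∧ Cfsg.generalizedFittingSubgroup G = Cfsg.layer G ∧ ∀ K : Subgroup G, K.Normal → K ≠ ⊥ → (∀ K' : Subgroup G, K'.Normal → K' ≤ K → K' = ⊥ ∨ K' = K) → K ≤ N := by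
  set F := (Cfsg.generalizedFittingSubgroup ↥N).map N.subtype with hF
  haveI : F.Normal := inferInstance
  have hNs : N.IsSubnormal := Subgroup.Normal.isSubnormal inferInstance
  have hC : Subgroup.centralizer (F : Set G) = ⊥ := by
    by_contra hne
    have h1 := hprim (M ⊓ F) inf_le_left
      (Core.le_normalizer_inf Subgroup.le_normalizer Subgroup.le_normalizer_of_normal) hMF
    have h2 : Subgroup.centralizer (F : Set G) ≤ M := by
      rw [← h1]
      exact (Subgroup.centralizer_le (SetLike.coe_subset_coe.mpr inf_le_right)).trans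
        (Subgroup.centralizer_le_normalizer _)
    have h3 := hprim _ h2 Subgroup.le_normalizer_of_normal hne
    exact hM (h3 ▸ Subgroup.normalizer_eq_top _)
  have hFN : (fittingSubgroup N).map N.subtype = ⊥ := by
    by_contra hne
    set E := (fittingSubgroup N).map N.subtype with hE
    haveI : Group.IsNilpotent E := fitting_map_subtype_isNilpotent N
    haveI : Nontrivial E := (Subgroup.nontrivial_iff_ne_bot E).mpr hne
    have h1 : E ⊓ Subgroup.centralizer (E : Set G) ≠ ⊥ := by
      rw [← map_center_subtype, Ne, Subgroup.map_eq_bot_iff_of_injective _ E.subtype_injective]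
      exact Group.IsNilpotent.center_ne_bot E
    apply h1
    rw [eq_bot_iff, ← hC, Subgroup.le_centralizer_iff, hF, genFitting_map_subtype]
    refine sup_le ?_ ?_
    · rw [← Subgroup.commutator_eq_bot_iff_le_centralizer]
      refine commutator_eq_bot_mono (K := E) ?_ le_rfl inf_le_left
      rw [hE, ← Subgroup.map_commutator, layer_commutator_fitting, Subgroup.map_bot]
    · exact Subgroup.le_centralizer_iff.mp inf_le_right
  have hFE : F ≤ layer G := by
    rw [hF, genFitting_map_subtype, hFN, sup_bot_eq]
    exact layer_map_subtype_le_of_subnormal hNs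
  have hFG : fittingSubgroup G = ⊥ := by
    rw [eq_bot_iff, ← hC]
    exact fitting_le_centralizer_layer.trans (Subgroup.centralizer_le (SetLike.coe_subset_coe.mpr hFE))
  have hE := genFitting_eq_layer_of_fitting_eq_bot hFG
  have hEF : layer G ≤ F := layer_le_iff.mpr fun K hK => by
    rcases component_le_or_commutator_eq_bot_of_normal hK F with h | h
    · exact h
    · rw [Subgroup.commutator_eq_bot_iff_le_centralizer, hC] at h
      exact absurd (le_bot_iff.mp h) (component_ne_bot hK)
  refine ⟨hFG, by rw [hE]; exact le_antisymm hFE hEF, hE, fun K hK hne hmin => ?_⟩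
  exact (minimal_normal_le_genFitting hne hmin).trans (hE.le.trans (hEF.trans (Subgroup.map_subtype_le _)))

end Cfsg.Agent.S3750
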