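import Mathlib
import Cfsg.Statements.S3754
import Cfsg.Agent.PLocal.PP4

set_option autoImplicit false
open Cfsg

namespace Cfsg.Agent.S3754

/-- Let M be a finite p-soluble group and A a p-subgroup of M with Φ(A) ≤ O_p(M) but A ≰ O_p(M). Then there is x ∈ O_{p,p'}(M) such that L = ⟨A, xAx⁻¹⟩ satisfies: x ∈ O^p(L) and O^p(L) ≤ O_{p,p'}(M); [O^p(L), A] = O^p(L); A ∩ O_p(L) has index p in A; and [A ∩ O_p(L), L] ≤ O_p(M). Here O^p(L) is the subgroup generated by the p'-elements of L and O_{p,p'}(M) the preimage of O_{p'}(M/O_p(M)). -/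
theorem result {M : Type*} [Group M] [Finite M] {p : ℕ} [Fact p.Prime] (hM : Cfsg.IsPSolvable p M) (A : Subgroup M) (hA : IsPGroup p A) (hΦ : (frattini ↥A).map A.subtype ≤ Cfsg.pCore p M) (hnot : ¬ A ≤ Cfsg.pCore p M) : ∃ x ∈ (Cfsg.pPrimeCore p (M ⧸ Cfsg.pCore p M)).comap (QuotientGroup.mk' (Cfsg.pCore p M)), x ∈ (Cfsg.pResidual p ↥(A ⊔ A.map (MulAut.conj x).toMonoidHom)).map (A ⊔ A.map (MulAut.conj x).toMonoidHom).subtype ∧ (Cfsg.pResidual p ↥(A ⊔ A.map (MulAut.conj x).toMonoidHom)).map (A ⊔ A.map (MulAut.conj x).toMonoidHom).subtype ≤ (Cfsg.pPrimeCore p (M ⧸ Cfsg.pCore p M)).comap (QuotientGroup.mk' (Cfsg.pCore p M)) ∧ ⁅(Cfsg.pResidual p ↥(A ⊔ A.map (MulAut.conj x).toMonoidHom)).map (A ⊔ A.map (MulAut.conj x).toMonoidHom).subtype, A⁆ = (Cfsg.pResidual p ↥(A ⊔ A.map (MulAut.conj x).toMonoidHom)).map (A ⊔ A.map (MulAut.conj x).toMonoidHom).subtype ∧ (A ⊓ (Cfsg.pCore p ↥(A ⊔ A.map (MulAut.conj x).toMonoidHom)).map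 (A ⊔ A.map (MulAut.conj x).toMonoidHom).subtype).relIndex A = p ∧ ⁅A ⊓ (Cfsg.pCore p ↥(A ⊔ A.map (MulAut.conj x).toMonoidHom)).map (A ⊔ A.map (MulAut.conj x).toMonoidHom).subtype, A ⊔ A.map (MulAut.conj x).toMonoidHom⁆ ≤ Cfsg.pCore p M := by
  set f := QuotientGroup.mk' (Cfsg.pCore p M)
  have hk : f.ker = Cfsg.pCore p M := QuotientGroup.ker_mk' _
  obtain ⟨h1, h2⟩ := (PGrp.map_frattini_le_iff hA).1 hΦ
  have hE : IsElementaryAbelian p (A.map f) := Transfer.ea_mk (by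
    rintro _ ⟨a, ha, rfl⟩ _ ⟨b, hb, rfl⟩
    rw [← commutatorElement_eq_one_iff_mul_comm, ← map_commutatorElement, ← MonoidHom.mem_ker, hk]
    exact h1 (Subgroup.commutator_mem_commutator ha hb)) (by
    rintro _ ⟨a, ha, rfl⟩
    rw [← map_pow, ← MonoidHom.mem_ker, hk]
    exact h2 a ha)
  have hc := Core.pPrimeCore_coprime (G := M ⧸ Cfsg.pCore p M) p
  have h3 : ¬ Cfsg.pPrimeCore p (M ⧸ Cfsg.pCore p M) ≤ Subgroup.centralizer (A.map f : Set _) := fun e =>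
    hnot (hk ▸ (Subgroup.map_eq_bot_iff _).1 (LocalEven.eq_bot_of_not_dvd (hA.map f)
      ((Subgroup.le_centralizer_iff.1 e).trans (PLocal.centralizer_pPrimeCore_le
        (Core.IsPSolvable.quotient hM _) LocalEven.pCore_quotient_pCore))
      ((Fact.out : p.Prime).coprime_iff_not_dvd.1 hc.symm)))
  obtain ⟨n, hn⟩ := (hA.map f).exists_card_eq
  have h4 := mt (Core.le_of_centralizers_cocyclic hE.1 Subgroup.le_normalizer_of_normal
    (hn ▸ hc.symm.pow_left n)) h3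
  push Not at h4
  obtain ⟨B, b1, ⟨a, a1, a2⟩, b2⟩ := h4
  obtain ⟨x, x1, x2, x3, x4, x5⟩ := PLocal.two_conj f (by rw [hk]; exact LocalEven.isPGroup_pCore) hA hE
    (hc.coprime_dvd_left (Subgroup.card_dvd_of_le inf_le_left))
    (LocalEven.le_normalizer_inf Subgroup.le_normalizer_of_normal (LocalEven.le_normalizer_centralizer
      (((Transfer.ea_le_centralizer hE).trans (Subgroup.centralizer_le b1)).trans
        (Subgroup.centralizer_le_normalizer _)))) b1 a1 a2 inf_le_right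
    (by rw [MonoidHom.range_eq_top.2 (QuotientGroup.mk'_surjective _)]; exact le_top) b2
  have x6 := x2.trans (Subgroup.comap_mono inf_le_left)
  exact ⟨x, x6 x1, x1, x6, x3, x4, hk ▸ x5⟩

end Cfsg.Agent.S3754
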