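import Mathlib
import Cfsg.Statements.S3755
import Cfsg.Agent.PLocal.PP1

set_option autoImplicit false
open Cfsg

namespace Cfsg.Agent.S3755

/-- Let M and V be subgroups of a finite group with V an elementary abelian 2-group, M normalizing V and acting faithfully on it (M ∩ C(V) = 1), and C_M(O_{2'}(M)) ≤ O_{2'}(M). If some elementary abelian 2-subgroup A of M satisfies |V : C_V(A)| < |A|², then M has a section isomorphic to the symmetric group of degree 3. -/
theorem result {X : Type*} [Group X] [Finite X] (M V : Subgroup X) (hV : Cfsg.IsElementaryAbelian 2 V) (hMV : M ≤ Subgroup.normalizer (V : Set X)) (hfaith : M ⊓ Subgroup.centralizer (V : Set X) = ⊥) (hcon : Subgroup.centralizer (Cfsg.pPrimeCore 2 ↥M : Set ↥M) ≤ Cfsg.pPrimeCore 2 ↥M) (A : Subgroup X) (hAM : A ≤ M) (hA : Cfsg.IsElementaryAbelian 2 A) (hsmall : (V ⊓ Subgroup.centralizer (A : Set X)).relIndex V < Nat.card A ^ 2) : Cfsg.Involves (Equiv.Perm (Fin 3)) ↥M := by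
  have : Fact (Nat.Prime 2) := ⟨Nat.prime_two⟩
  have hF : ¬ 2 ∣ Nat.card ((Cfsg.pPrimeCore 2 ↥M).map M.subtype) := by
    rw [LocalEven.card_map_subtype]
    exact Nat.prime_two.coprime_iff_not_dvd.1 (Core.pPrimeCore_coprime 2).symm
  obtain ⟨_, ⟨x, -, rfl⟩, z, z1, x2, x3⟩ := PLocal.two_f hV hF ((Subgroup.map_subtype_le _).trans hMV)
    (le_bot_iff.1 (hfaith ▸ inf_le_inf_right _ (Subgroup.map_subtype_le _))) hA
    (hAM.trans (LocalEven.le_normalizer_map_subtype _)) (hAM.trans hMV)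
    (LocalEven.eq_bot_of_not_dvd ((Transfer.ea_isPGroup hA).to_le inf_le_left) (fun a ha =>
      Subgroup.mem_map.2 ⟨⟨a, hAM ha.1⟩, hcon fun y hy => Subtype.ext (ha.2 y ⟨y, hy, rfl⟩), rfl⟩) hF) hsmall
  exact Transfer.involves_iff_isSectionOf.2 (PLocal.sec_s3 (x := x) (z := ⟨z, hAM z1⟩)
    ((Subgroup.orderOf_coe x).symm.trans x2) (Subtype.ext (by rw [← pow_two]; exact hA.2 z z1))
    (Subtype.ext x3))

end Cfsg.Agent.S3755
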