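import Mathlib
import Cfsg.Statements.S3756
import Cfsg.Agent.PLocal.PP3

set_option autoImplicit false
open Cfsg

namespace Cfsg.Agent.S3756

/-- Let G be a finite group of even order with O₂(G) = 1 such that every 2-local subgroup of G is solvable, of characteristic 2, and has no section isomorphic to the symmetric group of degree 4. Then every maximal 2-local subgroup of G is strongly embedded in G. -/
theorem result {G : Type*} [Group G] [Finite G] (heven : Even (Nat.card G)) (hO : Cfsg.pCore 2 G = ⊥) (hloc : ∀ M : Subgroup G, Cfsg.IsTwoLocal M → Group.IsSolvable M ∧ Cfsg.IsOfCharacteristicTwo ↥M ∧ ¬ Cfsg.Involves (Equiv.Perm (Fin 4)) ↥M) (M : Subgroup G) (hM : Cfsg.IsMaximalTwoLocal M) : Cfsg.IsStronglyEmbedded M := by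
  have : Fact (Nat.Prime 2) := ⟨Nat.prime_two⟩
  refine ⟨PLocal.PLoc.ne_top hM.1 hO, even_iff_two_dvd.2 (PLocal.PLoc.dvd hM.1), fun g hg =>
    Nat.not_even_iff_odd.1 fun hd => ?_⟩
  obtain ⟨M₁, M₂, m1, m2, h1⟩ := PLocal.exists_pp (p := 2)
    (fun L hL => LocalEven.charP_iff.2 (hloc L hL).2.1) hM hg (even_iff_two_dvd.1 hd)
  have k : ∀ L : Subgroup G, PLocal.MLoc 2 L → PLocal.SF L := fun L hL =>
    ⟨(hloc L hL.1).1, fun e => (hloc L hL.1).2.2 (Transfer.involves_iff_isSectionOf.2 e)⟩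
  exact h1.false_of_two (k _ m1) (k _ m2)

end Cfsg.Agent.S3756
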