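import Mathlib
import Cfsg.Statements.S3760

set_option autoImplicit false
open Cfsg

namespace Cfsg.Agent.S3760


/-- Let the group G act transitively on a set X, let x ∈ X with stabilizer H = G_x, and let K ≤ H. Then N_G(K) acts transitively on the set of fixed points of K if and only if every G-conjugate of K contained in H is already an H-conjugate of K. -/
theorem result {G : Type*} [Group G] {X : Type*} [MulAction G X] (htrans : ∀ a b : X, ∃ g : G, g • a = b) (x : X) (K : Subgroup G) (hK : K ≤ MulAction.stabilizer G x) : (∀ a b : X, (∀ k ∈ K, k • a = a) → (∀ k ∈ K, k • b = b) → ∃ g ∈ Subgroup.normalizer (K : Set G), g • a = b) ↔ ∀ g : G, K.map (MulAut.conj g).toMonoidHom ≤ MulAction.stabilizer G x → ∃ h ∈ MulAction.stabilizer G x, K.map (MulAut.conj g).toMonoidHom = K.map (MulAut.conj h).toMonoidHom := by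
  have key : ∀ g : G, K.map (MulAut.conj g).toMonoidHom ≤ MulAction.stabilizer G x ↔
      ∀ k ∈ K, k • g⁻¹ • x = g⁻¹ • x := fun g => by
    constructor
    · intro h k hk
      have : (g * k * g⁻¹) • x = x := h ⟨k, hk, rfl⟩
      rwa [mul_smul, mul_smul, ← eq_inv_smul_iff] at this
    · rintro h _ ⟨k, hk, rfl⟩
      change (g * k * g⁻¹) • x = x
      rw [mul_smul, mul_smul, h k hk, smul_inv_smul]
  have hnorm : ∀ g h : G, K.map (MulAut.conj g).toMonoidHom = K.map (MulAut.conj h).toMonoidHom ↔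
      h⁻¹ * g ∈ Subgroup.normalizer (K : Set G) := fun g h => by
    rw [Subgroup.mem_normalizer_iff]
    constructor
    · intro e k
      constructor
      · intro hk
        obtain ⟨k', hk', e'⟩ : g * k * g⁻¹ ∈ K.map (MulAut.conj h).toMonoidHom := e ▸ ⟨k, hk, rfl⟩
        have : h⁻¹ * g * k * (h⁻¹ * g)⁻¹ = k' := by
          rw [show h⁻¹ * g * k * (h⁻¹ * g)⁻¹ = h⁻¹ * (g * k * g⁻¹) * h by group, ← e']; simp [mul_assoc]
        exact this ▸ hk'
      · intro hk
        obtain ⟨k', hk', e'⟩ : g * k * g⁻¹ ∈ K.map (MulAut.conj g).toMonoidHom :=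
          e ▸ ⟨_, hk, by simp [mul_assoc]⟩
        have : k' = k := by simpa using e'
        exact this ▸ hk'
    · intro hn
      ext y
      constructor
      · rintro ⟨k, hk, rfl⟩
        exact ⟨_, (hn k).mp hk, by simp [mul_assoc]⟩
      · rintro ⟨k, hk, rfl⟩
        exact ⟨g⁻¹ * h * k * h⁻¹ * g, (hn _).mpr (by simpa [mul_assoc] using hk), by simp [mul_assoc]⟩
  constructor
  · intro h g hg
    obtain ⟨n, hn, e⟩ := h x (g⁻¹ • x) (fun k hk => hK hk) ((key g).mp hg)
    refine ⟨g * n, by rw [MulAction.mem_stabilizer_iff, mul_smul, e, smul_inv_smul], (hnorm _ _).mpr ?_⟩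
    simpa using hn
  · intro h
    have aux : ∀ a : X, (∀ k ∈ K, k • a = a) → ∃ g ∈ Subgroup.normalizer (K : Set G), g • a = x := by
      intro a ha
      obtain ⟨g, hg⟩ := htrans a x
      obtain ⟨u, hu, e⟩ := h g ((key g).mpr (by rwa [← hg, inv_smul_smul]))
      exact ⟨u⁻¹ * g, (hnorm _ _).mp e, by rw [mul_smul, hg, inv_smul_eq_iff]; exact hu.symm⟩
    intro a b ha hb
    obtain ⟨g, hg, e⟩ := aux a ha
    obtain ⟨g', hg', e'⟩ := aux b hb
    exact ⟨g'⁻¹ * g, mul_mem (inv_mem hg') hg, by rw [mul_smul, e, inv_smul_eq_iff, e']⟩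

end Cfsg.Agent.S3760
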