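import Mathlib
import Cfsg.Statements.S3761
import Cfsg.Agent.PGrp.Sect2
-- import your own Cfsg.Agent.* helpers here

set_option autoImplicit false
open Cfsg
open scoped commutatorElement

namespace Cfsg.Agent.S3761

/-- Let G be a finite non-abelian p-group with a cyclic normal subgroup U of order p^n such that C_G(U) = U. Then either p = 2 and G is dihedral, generalized quaternion or semidihedral of order 2^(n+1); or, writing U₁ for the subgroup generated by the p-th powers of elements of U and M = C_G(U₁), the subgroup U has index p in M and the subgroup Ω₁(M) generated by the elements of M of order dividing p is elementary abelian of order p² and characteristic in G. -/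
theorem result {G : Type*} [Group G] [Finite G] {p : ℕ} [Fact p.Prime] (hG : IsPGroup p G) (hna : ¬ IsMulCommutative G) (U : Subgroup G) [U.Normal] (hU : IsCyclic U) (n : ℕ) (hUn : Nat.card U = p ^ n) (hC : Subgroup.centralizer (U : Set G) = U) : (p = 2 ∧ Nat.card G = 2 ^ (n + 1) ∧ ((∃ m : ℕ, Nonempty (G ≃* DihedralGroup m)) ∨ (∃ m : ℕ, Nonempty (G ≃* QuaternionGroup m)) ∨ Cfsg.IsQuasiDihedral G)) ∨ (U.relIndex (Subgroup.centralizer (Cfsg.powerClosure p 1 U : Set G)) = p ∧ Cfsg.IsElementaryAbelian p (Cfsg.omegaOne p (Subgroup.centralizer (Cfsg.powerClosure p 1 U : Set G))) ∧ Nat.card ↥(Cfsg.omegaOne p (Subgroup.centralizer (Cfsg.powerClosure p 1 U : Set G))) = p ^ 2 ∧ (Cfsg.omegaOne p (Subgroup.centralizer (Cfsg.powerClosure p 1 U : Set G))).Characteristic) := by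
  have hp : p.Prime := Fact.out
  obtain ⟨a, rfl⟩ := PGrp.exists_zpowers_eq_of_isCyclic hU
  have hcomm : ∀ g, Commute a g → g ∈ Subgroup.zpowers a := by
    intro g hg
    rw [← hC, Subgroup.mem_centralizer_iff]
    intro x hx
    obtain ⟨k, rfl⟩ := Subgroup.mem_zpowers_iff.mp hx
    exact (hg.zpow_left k).eq
  obtain ⟨g₀, hg₀⟩ : ∃ g, g ∉ Subgroup.zpowers a := by
    by_contra hcon
    push Not at hcon
    exact hna (PGrp.isMulCommutative_of_isCyclic
      (PGrp.isCyclic_of_zpowers_eq_top (eq_top_iff.mpr fun g _ => hcon g)))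
  rw [Nat.card_zpowers] at hUn
  obtain ⟨m, rfl⟩ : ∃ m, n = m + 1 := by
    rcases n with _ | m
    · rw [pow_zero, orderOf_eq_one_iff] at hUn
      exact absurd (hcomm g₀ (hUn ▸ Commute.one_left g₀)) hg₀
    · exact ⟨m, rfl⟩
  have hnorm : ∀ g : G, g ∈ Subgroup.normalizer ((Subgroup.zpowers a : Subgroup G) : Set G) :=
    fun g => PGrp.mem_normalizer_of_normal _ g
  have hpc : Cfsg.powerClosure p 1 (Subgroup.zpowers a) = Subgroup.zpowers (a ^ p) := by
    refine le_antisymm ((Subgroup.closure_le _).mpr ?_) (Subgroup.zpowers_le.mpr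
      (Subgroup.subset_closure ⟨a, Subgroup.mem_zpowers a, by rw [pow_one]⟩))
    rintro _ ⟨x, hx, rfl⟩
    obtain ⟨k, rfl⟩ := Subgroup.mem_zpowers_iff.mp hx
    rw [pow_one, ← zpow_natCast (a ^ k), zpow_comm, zpow_natCast]
    exact Subgroup.zpow_mem_zpowers _ _
  rw [hpc]
  set M := Subgroup.centralizer ((Subgroup.zpowers (a ^ p) : Subgroup G) : Set G) with hM
  have hMmem : ∀ g, g ∈ M ↔ Commute (a ^ p) g := by
    intro g
    rw [hM, Subgroup.mem_centralizer_iff]
    refine ⟨fun h => h _ (Subgroup.mem_zpowers _), fun h x hx => ?_⟩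
    obtain ⟨k, rfl⟩ := Subgroup.mem_zpowers_iff.mp hx
    exact (h.zpow_left k).eq
  have hcc : ∀ x ∈ Subgroup.zpowers a, ∀ y ∈ Subgroup.zpowers a, Commute x y :=
    fun x hx y hy => Inv.commute_of_mem_zpowers₂ hx hy
  have hcm : ∀ g, ∀ u ∈ Subgroup.zpowers a, ⁅g, u⁆ ∈ Subgroup.zpowers a := fun g u hu =>
    Subgroup.mul_mem _ (PGrp.conj_mem_of_mem_normalizer (hnorm g) hu) (Subgroup.inv_mem _ hu)
  have hMmem' : ∀ g, g ∈ M ↔ ⁅g, a⁆ ^ p = 1 := by
    intro g
    rw [hMmem, ← PGrp.commutator_pow_right_of_commute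
      (hcc _ (Subgroup.mem_zpowers a) _ (hcm g a (Subgroup.mem_zpowers a))),
      commutatorElement_eq_one_iff_commute]
    exact ⟨Commute.symm, Commute.symm⟩
  have hUM : Subgroup.zpowers a ≤ M :=
    Subgroup.zpowers_le.mpr ((hMmem a).mpr ((Commute.refl a).pow_left p))
  have hpn : (Subgroup.zpowers (a ^ p)).Normal := by
    refine ⟨fun x hx g => ?_⟩
    obtain ⟨k, rfl⟩ := Subgroup.mem_zpowers_iff.mp hx
    obtain ⟨l, hl⟩ := PGrp.exists_conj_eq_zpow (hnorm g)
    rw [← conj_zpow, ← conj_pow, hl, ← zpow_natCast (a ^ l), zpow_comm a l, zpow_natCast]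
    exact Subgroup.zpow_mem _ (Subgroup.zpow_mem_zpowers _ _) _
  have hMn : M.Normal := inferInstance
  -- the index
  have hidx : ∀ g ∈ M, g ∉ Subgroup.zpowers a → (Subgroup.zpowers a).relIndex M = p := by
    intro g hgM hg
    have h1 := PGrp.relIndex_centralizer_le_relIndex (p := p) (H := M)
      (Z := Subgroup.zpowers (a ^ p)) (Z₀ := Subgroup.zpowers (a ^ p ^ m))
      (by rw [Nat.card_zpowers, PGrp.orderOf_pow_pow_eq_prime hp hUn]) le_rfl _
      (Subgroup.zpowers a) (hG.to_subgroup _)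
      (Subgroup.zpowers_le.mpr (Subgroup.npow_mem_zpowers a p)) (by
        rw [Subgroup.commutator_le]
        intro x hx u hu
        refine PGrp.mem_zpowers_pow_of_pow_eq_one hp hUn (hcm x u hu) ?_
        obtain ⟨k, rfl⟩ := Subgroup.mem_zpowers_iff.mp hu
        rw [PGrp.commutator_zpow_right_of_commute
          (hcc _ (Subgroup.mem_zpowers a) _ (hcm x a (Subgroup.mem_zpowers a))), ← zpow_natCast,
          ← zpow_mul, mul_comm, zpow_mul, zpow_natCast, (hMmem' x).mp hx, one_zpow]) rfl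
    rw [hC] at h1
    have h2 := h1.trans (Nat.le_of_dvd hp.pos
      (PGrp.relIndex_zpowers_dvd (Subgroup.mem_zpowers (a ^ p))))
    obtain ⟨k, hk⟩ := (hG.to_subgroup M).index ((Subgroup.zpowers a).subgroupOf M)
    change (Subgroup.zpowers a).relIndex M = p ^ k at hk
    rw [hk] at h2 ⊢
    have h3 : k ≤ 1 := (Nat.pow_le_pow_iff_right hp.one_lt).mp (by rwa [pow_one])
    have h4 : k ≠ 0 := by
      rintro rfl
      rw [pow_zero, Subgroup.relIndex_eq_one] at hk
      exact hg (hk hgM)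
    rw [show k = 1 by omega, pow_one]
  have hchar : Cfsg.IsElementaryAbelian p (Cfsg.omegaOne p M) →
      (Cfsg.omegaOne p M).Characteristic := by
    intro hE
    have hEn := PGrp.omegaOne_normal (p := p) M
    refine PGrp.characteristic_of_forall_mem fun φ x hx => ?_
    have h1 : ∀ y ∈ Cfsg.omegaOne p M, φ y ^ p = 1 := fun y hy => by
      rw [← map_pow, hE.2 y hy, map_one]
    refine PGrp.mem_omegaOne ((hMmem' _).mpr ?_) (h1 x hx)
    have h2 : ⁅φ x, a⁆ = φ ⁅x, φ.symm a⁆ := by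
      rw [map_commutatorElement, MulEquiv.apply_symm_apply]
    rw [h2]
    apply h1
    rw [commutatorElement_def, mul_assoc, mul_assoc]
    refine Subgroup.mul_mem _ hx ?_
    rw [← mul_assoc]
    exact hEn.conj_mem _ (Subgroup.inv_mem _ hx) _
  have hnc : ∀ g ∈ M, g ∉ Subgroup.zpowers a → ¬ IsCyclic M := by
    intro g hgM hg hc
    exact hg (hcomm g (congrArg Subtype.val ((PGrp.isMulCommutative_of_isCyclic hc).1.1
      ⟨a, hUM (Subgroup.mem_zpowers a)⟩ ⟨g, hgM⟩)))
  by_cases hp2 : p = 2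
  · subst hp2
    by_cases hmod : ∀ g : G, 2 ≤ m → g * a * g⁻¹ ≠ a ^ (1 + 2 ^ m : ℤ)
    · obtain ⟨-, h⟩ := PGrp.mc_of_scn_cyclic hG hUn hcomm hg₀ hmod
      exact Or.inl ⟨rfl, PGrp.mc_card h, PGrp.mc_cases'' h⟩
    · right
      push Not at hmod
      obtain ⟨g, hm, hg⟩ := hmod
      have hz := PGrp.orderOf_pow_pow_eq_prime hp hUn
      have hz2 : (a ^ 2 ^ m) ^ 2 = 1 := by
        have := pow_orderOf_eq_one (a ^ 2 ^ m)
        rwa [hz] at this
      have e0 : a ^ (1 + 2 ^ m : ℤ) = a ^ 2 ^ m * a := by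
        rw [add_comm, zpow_add, zpow_one, ← zpow_natCast]; push_cast; rfl
      have hga : ⁅g, a⁆ = a ^ 2 ^ m := by
        rw [commutatorElement_def, hg, e0, mul_inv_cancel_right]
      have hgM : g ∈ M := (hMmem' g).mpr (by rw [hga, hz2])
      have hag : ¬ Commute a g := by
        intro h
        rw [h.symm.commutator_eq] at hga
        rw [← hga, orderOf_one] at hz
        omega
      have hgU : g ∉ Subgroup.zpowers a := fun h => hag (hcc _ (Subgroup.mem_zpowers a) _ h)
      have hi := hidx g hgM hgU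
      have hg2 : g ^ 2 ∈ Subgroup.zpowers a :=
        PGrp.pow_mem_of_relIndex_eq Subgroup.le_normalizer_of_normal hi hgM
      obtain ⟨b, hbM, hbU, hb2, hb⟩ : ∃ b ∈ M, b ∉ Subgroup.zpowers a ∧ b ^ 2 = 1 ∧
          b * a * b⁻¹ = a ^ (1 + 2 ^ m : ℤ) := by
        obtain ⟨k, rfl⟩ : ∃ k, m = k + 2 := ⟨m - 2, by omega⟩
        obtain ⟨-, t, h | h | h | h⟩ := PGrp.exists_normal_form_two hUn (hnorm g) hg2 hag
        · exfalso
          rw [hg, ← zpow_neg_one] at h
          obtain ⟨c, hc⟩ := PGrp.dvd_of_zpow_eq_zpow hUn h.2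
          have : (4 : ℤ) * (-2 ^ k - 2 ^ (k + 1) * c) = 2 := by
            push_cast at hc; linear_combination hc
          omega
        · exfalso
          rw [hg, ← zpow_neg_one] at h
          obtain ⟨c, hc⟩ := PGrp.dvd_of_zpow_eq_zpow hUn h.2
          have : (4 : ℤ) * (-2 ^ k - 2 ^ (k + 1) * c) = 2 := by
            push_cast at hc; linear_combination hc
          omega
        · exact ⟨a ^ t * g, M.mul_mem (hUM (Subgroup.zpow_mem_zpowers a t)) hgM,
            PGrp.zpow_mul_notMem hgU t, h.2.1, PGrp.conj_zpow_mul_of_conj_eq hg t⟩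
        · exfalso
          rw [hg] at h
          obtain ⟨c, hc⟩ := PGrp.dvd_of_zpow_eq_zpow hUn h.2.2
          have : (4 : ℤ) * (-2 ^ (k + 1) * c) = 2 := by
            push_cast at hc; linear_combination hc
          omega
      have hzc := PGrp.pow_two_pow_mem_center hUn
      have hzn : (Subgroup.zpowers (a ^ 2 ^ m)).Normal :=
        PGrp.normal_of_le_center (Subgroup.zpowers_le.mpr hzc)
      have hzU : Subgroup.zpowers (a ^ 2 ^ m) ≤ Subgroup.zpowers a :=
        Subgroup.zpowers_le.mpr (Subgroup.npow_mem_zpowers _ _)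
      have hO : Cfsg.omegaOne 2 M = Subgroup.zpowers (a ^ 2 ^ m) ⊔ Subgroup.zpowers b := by
        refine le_antisymm (PGrp.omegaOne_le_iff.mpr fun x hx hx2 => ?_) (sup_le
          (Subgroup.zpowers_le.mpr (PGrp.mem_omegaOne (hUM (Subgroup.npow_mem_zpowers _ _)) hz2))
          (Subgroup.zpowers_le.mpr (PGrp.mem_omegaOne hbM hb2)))
        by_cases hxU : x ∈ Subgroup.zpowers a
        · exact Subgroup.mem_sup_left (PGrp.mem_zpowers_pow_of_pow_eq_one hp hUn hxU hx2)
        · have h1 : x * b⁻¹ ∈ Subgroup.zpowers a := by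
            have h2 := (Subgroup.mul_mem_iff_of_index_two hi (a := ⟨x, hx⟩)
              (b := ⟨b⁻¹, M.inv_mem hbM⟩)).mpr (by simp [Subgroup.mem_subgroupOf, hxU, hbU])
            exact Subgroup.mem_subgroupOf.mp h2
          obtain ⟨s, hs⟩ := Subgroup.mem_zpowers_iff.mp h1
          have h3 : x = a ^ s * b := by rw [hs, inv_mul_cancel_right]
          rw [h3] at hx2 ⊢
          exact Subgroup.mul_mem_sup (PGrp.mem_zpowers_pow_of_pow_eq_one hp hUn
            (Subgroup.zpow_mem_zpowers a s) (PGrp.sq_eq_one_of_modular hm hUn hb2 hb hx2))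
            (Subgroup.mem_zpowers b)
      have hcard : Nat.card (Cfsg.omegaOne 2 M) = 2 ^ 2 := by
        rw [hO, PGrp.card_sup_zpowers hp (PGrp.mem_normalizer_of_normal _ _)
          (by rw [hb2]; exact Subgroup.one_mem _) (fun h => hbU (hzU h)), Nat.card_zpowers, hz]
        norm_num
      have hE : Cfsg.IsElementaryAbelian 2 (Cfsg.omegaOne 2 M) := by
        have hc := IsPGroup.isMulCommutative_of_card_eq_prime_sq hcard
        refine ⟨hc, fun x hx => ?_⟩
        have h1 : Cfsg.omegaOne 2 M ≤ Cfsg.omegaOne 2 (Cfsg.omegaOne 2 M) :=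
          PGrp.omegaOne_le_iff.mpr fun y hy hy2 => PGrp.mem_omegaOne (PGrp.mem_omegaOne hy hy2) hy2
        exact PGrp.pow_eq_one_of_mem_omegaOne_of_comm hc (h1 hx)
      exact ⟨hi, hE, hcard, hchar hE⟩
  · right
    obtain ⟨j, hj1, hj2⟩ := PGrp.exists_pow_notMem_pow_mem (p := p) hg₀ (hG g₀)
    generalize g₀ ^ p ^ j = g at hj1 hj2
    obtain ⟨c, -, -, h1, -⟩ := PGrp.commutator_of_cyclic_odd hp hp2 hUn (hnorm g)
      (hcc _ hj2 _ (Subgroup.mem_zpowers a))
    have hgM := (hMmem' g).mpr h1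
    have hi := hidx g hgM hj1
    obtain ⟨hE, hcard⟩ := PGrp.card_omegaOne_of_cyclic_relIndex hp2 (hG.to_subgroup M)
      (Subgroup.isCyclic_zpowers a) hUM hi (hnc g hgM hj1)
    exact ⟨hi, hE, hcard, hchar hE⟩

end Cfsg.Agent.S3761
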