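import Mathlib
import Cfsg.Statements.S3763
import Cfsg.Agent.PGrp.Extra2
-- import your own Cfsg.Agent.* helpers here

set_option autoImplicit false
open Cfsg

namespace Cfsg.Agent.S3763

/-- Let E be an extraspecial 2-group of order 2^(2n+1). Then the largest elementary abelian subgroups of E have order 2^n or 2^(n+1); and two extraspecial 2-groups of the same order whose largest elementary abelian subgroups have the same order are isomorphic. -/
theorem result {E : Type*} [Group E] [Finite E] (hE : Cfsg.IsExtraspecial 2 E) (n : ℕ) (hn : Nat.card E = 2 ^ (2 * n + 1)) : ((Cfsg.PRankLE 2 n E ∧ ¬ Cfsg.PRankLE 2 (n - 1) E) ∨ (Cfsg.PRankLE 2 (n + 1) E ∧ ¬ Cfsg.PRankLE 2 n E)) ∧ ∀ (E' : Type*) [Group E'] [Finite E'], Cfsg.IsExtraspecial 2 E' → Nat.card E' = Nat.card E → (∀ k : ℕ, Cfsg.PRankLE 2 k E ↔ Cfsg.PRankLE 2 k E') → Nonempty (E ≃* E') := by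
  have : Fact (Nat.Prime 2) := ⟨Nat.prime_two⟩
  obtain ⟨m, D, a, -, c⟩ := PGrp.exists_cext_two hE
  have hd := PGrp.finrank_fin_fun_zmod 2 (2 * (m + 1))
  obtain rfl : n = m + 1 := by
    rw [c] at hn
    have := Nat.pow_right_injective le_rfl hn
    omega
  refine ⟨?_, fun E' _ _ hE' hc h => ?_⟩
  · by_cases h : Cfsg.PRankLE 2 (m + 1) E
    · exact Or.inl ⟨h, D.not_pRankLE_of_nd a hd⟩
    · exact Or.inr ⟨D.pRankLE_of_nd a hd, h⟩
  · obtain ⟨m', D', a', -, c'⟩ := PGrp.exists_cext_two hE'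
    obtain rfl : m = m' := by
      rw [c, c'] at hc
      have := Nat.pow_right_injective le_rfl hc
      omega
    refine D.nonempty_equiv_of_isPlus_iff D' a a' rfl ?_
    rw [D.isPlus_iff_not_pRankLE a hd, D'.isPlus_iff_not_pRankLE a' hd, h]

end Cfsg.Agent.S3763
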