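import Cfsg.Statements.S3764
import Cfsg.Agent.H23.HHApp
-- import your own Cfsg.Agent.* helpers here

set_option autoImplicit false
open Cfsg

namespace Cfsg.Agent.S3764

/-- Let p, q, r be distinct primes and let X, Q, V be subgroups of a finite group with X of order r, Q an extraspecial q-group normalized by X with C_Q(X) = Z(Q), and V an elementary abelian p-group normalized by X and Q on which XQ acts faithfully ((X ⊔ Q) ∩ C(V) = 1). If C_V(X) = 1, then q = 2, r = 2^n + 1 for some n, and Q has order 2^(2n+1). -/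
theorem result {G : Type*} [Group G] [Finite G] {p q r : ℕ} (hp : p.Prime) (hq : q.Prime) (hr : r.Prime) (hpq : p ≠ q) (hpr : p ≠ r) (hqr : q ≠ r) (X Q V : Subgroup G) (hX : Nat.card X = r) (hQ : Cfsg.IsExtraspecial q ↥Q) (hXQ : X ≤ Subgroup.normalizer (Q : Set G)) (hCQ : Q ⊓ Subgroup.centralizer (X : Set G) = (Subgroup.center ↥Q).map Q.subtype) (hV : Cfsg.IsElementaryAbelian p V) (hXV : X ≤ Subgroup.normalizer (V : Set G)) (hQV : Q ≤ Subgroup.normalizer (V : Set G)) (hfaith : (X ⊔ Q) ⊓ Subgroup.centralizer (V : Set G) = ⊥) (hCV : V ⊓ Subgroup.centralizer (X : Set G) = ⊥) : q = 2 ∧ ∃ n : ℕ, r = 2 ^ n + 1 ∧ Nat.card Q = 2 ^ (2 * n + 1) := by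

  open BG BG.Amb H23.HH in
  obtain ⟨k, _, _, n, ρ, -, h2, h3, h4⟩ := Sec3Rep.exists_rep_in hp hV (sup_le hXV hQV)
  have := Fact.mk hq
  obtain ⟨hQp, hZ, hder, -⟩ := PGrp.isExtraspecial_iff.1 hQ
  rw [Rank.map_center_subtype] at hCQ
  have hL1 : X ≤ X ⊔ Q := le_sup_left
  have hL2 : Q ≤ X ⊔ Q := le_sup_right
  have e1 := Core.card_subgroupOf_of_le hL1
  have e2 := Core.card_subgroupOf_of_le hL2
  have e3 := Core.card_subgroupOf_of_le (inf_le_left.trans hL2 : Q ⊓ 𝐂(Q) ≤ X ⊔ Q)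
  obtain ⟨a, ha⟩ := IsPGroup.iff_card.1 hQp
  have hcop : (Nat.card (Q.subgroupOf (X ⊔ Q))).Coprime (Nat.card (X.subgroupOf (X ⊔ Q))) := by
    rw [e1, e2, ha, hX]
    exact ((Nat.coprime_primes hq hr).2 hqr).pow_left a
  have hn := Core.subgroupOf_le_normalizer_subgroupOf hXQ (X ⊔ Q)
  have hXp : (Nat.card (X.subgroupOf (X ⊔ Q))).Prime := by rw [e1, hX]; exact hr
  have hCQ' : Q.subgroupOf (X ⊔ Q) ⊓ 𝐂(X.subgroupOf (X ⊔ Q)) =
      Q.subgroupOf (X ⊔ Q) ⊓ 𝐂(Q.subgroupOf (X ⊔ Q)) := by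
    rw [inf_cent_subgroupOf hL1, inf_cent_subgroupOf hL2, hCQ]
  have := hQp.isNilpotent
  obtain ⟨U, hU⟩ := es_faithful (ρ := ρ) (Q := Q.subgroupOf (X ⊔ Q)) (B := X.subgroupOf (X ⊔ Q))
    (by rw [inf_cent_subgroupOf hL2, e3, hZ]; exact hq)
    (by rw [inf_cent_subgroupOf hL2, ← QuoApi.subgroupOf_commutator hL2 hL2, hder])
    (h4 Q hL2 (by
      rw [ha]
      exact fun h => hpq ((Nat.prime_dvd_prime_iff_eq hp hq).1 (hp.dvd_of_dvd_pow h)))) hn
    (by rw [← hCQ']; exact le_cent_symm inf_le_right)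
    (fun e he he1 => by
      rw [← hCQ']
      exact (coprime_comm_sup_cent hn hcop
        (Or.inr (Core.solvable_subgroupOf inferInstance))).ge.trans
          (sup_le_sup_right (Subgroup.commutator_mono le_rfl (le_zpowers_of_prime hXp e he he1)) _))
    (fun g _ hg => Subtype.ext (Subgroup.mem_bot.1 (hfaith.le ⟨g.2, (h3 g).1 hg⟩)))
  have := Fact.mk hXp
  have : IsMulCommutative (X.subgroupOf (X ⊔ Q)) := comm_of_cyclic (isCyclic_of_prime_card rfl)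
  obtain ⟨h5, h6⟩ := hU.cop'
    (h4 X hL1 (by rw [hX]; exact fun h => hpr ((Nat.prime_dvd_prime_iff_eq hp hr).1 h))) hcop
    (fun v _ => nm_eq_zero (Sec3Rep.fixSub_eq_bot hp hCV (h2 X hL1)) v)
  obtain ⟨m, hm, h7⟩ := eq_pow_of_sq hq
    (hQp.of_equiv (Subgroup.subgroupOfEquivOfLe hL2).symm) h5 hU.two_le
  rw [h7, e1, hX] at h6
  obtain rfl := eq_two_of_prime_eq hq hr hm h6
  refine ⟨rfl, m, h6, ?_⟩
  rw [h7, inf_cent_subgroupOf hL2, Subgroup.relIndex_subgroupOf hL2] at h5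
  rw [← Core.card_mul_relIndex (inf_le_left : Q ⊓ 𝐂(Q) ≤ Q), ← h5, hZ]
  ring

end Cfsg.Agent.S3764
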