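import Cfsg.Statements.S3765
import Cfsg.Agent.H23.HHApp
-- import your own Cfsg.Agent.* helpers here

set_option autoImplicit false
open Cfsg

namespace Cfsg.Agent.S3765

/-- Let p, q, r be distinct primes and let X, Q, V be subgroups of a finite group with X of order r normalizing the q-group Q and acting faithfully on it (X ∩ C(Q) = 1), and V a nontrivial elementary abelian p-group normalized by X and Q on which XQ acts faithfully. If q = 2 and r has the form 2^n + 1, assume in addition that Q is abelian. Then C_V(X) ≠ 1. -/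
theorem result {G : Type*} [Group G] [Finite G] {p q r : ℕ} (hp : p.Prime) (hq : q.Prime) (hr : r.Prime) (hpq : p ≠ q) (hpr : p ≠ r) (hqr : q ≠ r) (X Q V : Subgroup G) (hX : Nat.card X = r) (hQ : IsPGroup q Q) (hXQ : X ≤ Subgroup.normalizer (Q : Set G)) (hXfaith : X ⊓ Subgroup.centralizer (Q : Set G) = ⊥) (hV : Cfsg.IsElementaryAbelian p V) (hV1 : V ≠ ⊥) (hXV : X ≤ Subgroup.normalizer (V : Set G)) (hQV : Q ≤ Subgroup.normalizer (V : Set G)) (hfaith : (X ⊔ Q) ⊓ Subgroup.centralizer (V : Set G) = ⊥) (hexc : q = 2 → (∃ n : ℕ, r = 2 ^ n + 1) → IsMulCommutative Q) : V ⊓ Subgroup.centralizer (X : Set G) ≠ ⊥ := by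

  open BG BG.Amb H23.HH in
  intro hCV
  obtain ⟨k, _, _, n, ρ, -, h2, h3, h4⟩ := Sec3Rep.exists_rep_in hp hV (sup_le hXV hQV)
  have := Fact.mk hq
  have e1 := Core.card_subgroupOf_of_le (le_sup_left : X ≤ X ⊔ Q)
  have hX1 : X ≠ ⊥ := fun h => by
    rw [h, Subgroup.card_bot] at hX
    exact hr.one_lt.ne hX
  obtain ⟨a, ha⟩ := IsPGroup.iff_card.1 hQ
  obtain ⟨h5, h6, h7⟩ := prime_fpf (ρ := ρ) (Q := Q.subgroupOf (X ⊔ Q)) (X := X.subgroupOf (X ⊔ Q)) hq
    (hQ.of_equiv (Subgroup.subgroupOfEquivOfLe le_sup_right).symm) (by rw [e1, hX]; exact hr)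
    (by rw [e1, hX]; exact hqr) (Core.subgroupOf_le_normalizer_subgroupOf hXQ _)
    (fun h => hX1 (by
      rw [← hXfaith, eq_comm, inf_eq_left]
      rw [T1_15_cent_subgroupOf le_sup_left] at h
      exact le_cent_symm fun g hg => h (x := ⟨g, le_sup_right (a := X) hg⟩) hg))
    (h4 Q le_sup_right (by
      rw [ha]
      exact fun h => hpq ((Nat.prime_dvd_prime_iff_eq hp hq).1 (hp.dvd_of_dvd_pow h))))
    (h4 X le_sup_left (by rw [hX]; exact fun h => hpr ((Nat.prime_dvd_prime_iff_eq hp hr).1 h)))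
    (fun g _ hg => Subtype.ext (Subgroup.mem_bot.1 (hfaith.le ⟨g.2, (h3 g).1 hg⟩)))
    (Sec3Rep.fixSub_eq_bot hp hCV (h2 X le_sup_left))
  rw [e1, hX] at h6
  have := hexc h5 h6
  exact h7 inferInstance

end Cfsg.Agent.S3765
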