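import Mathlib
import Cfsg.Statements.S3766
import Cfsg.Agent.FGS.FitCrit
import Cfsg.Agent.Glaub.Chief

set_option autoImplicit false
open Cfsg

namespace Cfsg.Agent.S3766

open Subgroup Cfsg.Agent.FGS
open scoped commutatorElement

/-- Let G be a finite solvable group and N a normal subgroup of G. Call a pair V < U of normal subgroups of G a chief factor of G when no normal subgroup of G lies strictly between them; an element g centralizes the chief factor U/V when u g u⁻¹ g⁻¹ ∈ V for all u ∈ U. Then an element of G lies in the Fitting subgroup F(N) if and only if it lies in N and centralizes every chief factor of G; and also if and only if it lies in N and centralizes every chief factor U/V of G with U ≤ F(N). -/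
theorem result {G : Type*} [Group G] [Finite G] (hG : Group.IsSolvable G) (N : Subgroup G) [N.Normal] (g : G) : (g ∈ (Cfsg.fittingSubgroup ↥N).map N.subtype ↔ g ∈ N ∧ ∀ U V : Subgroup G, (U.Normal ∧ V.Normal ∧ V < U ∧ ∀ W : Subgroup G, W.Normal → V ≤ W → W ≤ U → W = V ∨ W = U) → ∀ u ∈ U, u * g * u⁻¹ * g⁻¹ ∈ V) ∧ (g ∈ (Cfsg.fittingSubgroup ↥N).map N.subtype ↔ g ∈ N ∧ ∀ U V : Subgroup G, (U.Normal ∧ V.Normal ∧ V < U ∧ ∀ W : Subgroup G, W.Normal → V ≤ W → W ≤ U → W = V ∨ W = U) → U ≤ (Cfsg.fittingSubgroup ↥N).map N.subtype → ∀ u ∈ U, u * g * u⁻¹ * g⁻¹ ∈ V) := by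
  haveI := Core.fitting_normal (G := G)
  rw [Core.map_fitting_subtype]
  have h1 : g ∈ fittingSubgroup G ⊓ N → g ∈ N ∧ ∀ U V : Subgroup G, (U.Normal ∧ V.Normal ∧ V < U ∧ ∀ W : Subgroup G, W.Normal → V ≤ W → W ≤ U → W = V ∨ W = U) → ∀ u ∈ U, u * g * u⁻¹ * g⁻¹ ∈ V := by
    rintro ⟨hF, hN⟩
    refine ⟨hN, fun U V ⟨hU, hV, hVU, hc⟩ u hu => ?_⟩
    exact commutator_le_of_chief Core.fitting_nilpotent hVU hc (commutator_mem_commutator hu hF)
  have h2 : (g ∈ N ∧ ∀ U V : Subgroup G, (U.Normal ∧ V.Normal ∧ V < U ∧ ∀ W : Subgroup G, W.Normal → V ≤ W → W ≤ U → W = V ∨ W = U) → U ≤ fittingSubgroup G ⊓ N → ∀ u ∈ U, u * g * u⁻¹ * g⁻¹ ∈ V) → g ∈ fittingSubgroup G ⊓ N := by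
    rintro ⟨hN, h⟩
    refine ⟨?_, hN⟩
    have hgC : g ∈ Glaub.chiefCent (fittingSubgroup G ⊓ N) ⊓ N := by
      refine mem_inf.mpr ⟨?_, hN⟩
      simp only [Glaub.chiefCent, mem_iInf]
      intro U V hc hU
      haveI := hc.2.2.1
      refine ⟨by rw [normalizer_eq_top]; trivial, fun u hu => ?_⟩
      exact h U V ⟨hc.2.1, hc.2.2.1, hc.1, hc.2.2.2⟩ hU u hu
    refine le_fitting_of_cent _ inferInstance ?_ hgC
    intro p q hp hq hpq x hx ⟨k, hk⟩ y hy
    haveI := Fact.mk hp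
    have hgood : Glaub.Good (zpowers x) 1 (pCore p G ⊓ N) := by
      refine (Glaub.le_chiefCent.mp (zpowers_le.mpr hx.1)).mono le_rfl le_rfl ?_
      exact inf_le_inf_right N (Core.pCore_le_fitting p)
    have := Glaub.mem_cent_of_good (p := p) (A := pCore p G ⊓ N) ((Core.pCore_isPGroup p).to_le inf_le_left)
      (x := x) (by rw [hk]; exact Nat.Coprime.pow_left _ ((Nat.coprime_primes hq hp).mpr hpq.symm)) hgood
    exact (mem_centralizer_iff.mp this y ⟨hy.1, hy.2.2⟩).symm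
  refine ⟨⟨h1, fun h => h2 ⟨h.1, fun U V hc _ => h.2 U V hc⟩⟩, ⟨fun h => ⟨h.2, fun U V hc _ => (h1 h).2 U V hc⟩, h2⟩⟩

end Cfsg.Agent.S3766
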