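import Cfsg.Statements.S3767
import Cfsg.Agent.H23.HHApp
-- import your own Cfsg.Agent.* helpers here

set_option autoImplicit false
open Cfsg

namespace Cfsg.Agent.S3767

/-- Let P be an extraspecial p-group of order p^(2n+1) and H a cyclic group of order h prime to p acting on P (inside a common finite group: H normalizes P) so that C_P(x) = Z(P) for every non-identity x ∈ H. Then h divides p^n + 1 or h divides p^n − 1. -/
theorem result {G : Type*} [Group G] [Finite G] {p : ℕ} [Fact p.Prime] (P H : Subgroup G) (hP : Cfsg.IsExtraspecial p ↥P) (n : ℕ) (hn : Nat.card P = p ^ (2 * n + 1)) (hH : IsCyclic H) (hcop : (Nat.card H).Coprime p) (hHP : H ≤ Subgroup.normalizer (P : Set G)) (hfix : ∀ x ∈ H, x ≠ 1 → P ⊓ Subgroup.centralizer {x} = (Subgroup.center ↥P).map P.subtype) : Nat.card H ∣ p ^ n + 1 ∨ Nat.card H ∣ p ^ n - 1 := by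

  open BG BG.Amb H23.HH in
  have hp : p.Prime := Fact.out
  obtain ⟨hQp, hZ, hder, -⟩ := PGrp.isExtraspecial_iff.1 hP
  rw [Rank.map_center_subtype] at hfix
  have hcop' : (Nat.card P).Coprime (Nat.card H) := by rw [hn]; exact hcop.symm.pow_left _
  have := hQp.isNilpotent
  obtain ⟨U, hU⟩ := es_faithful (ρ := Representation.leftRegular ℂ G) (Q := P) (B := H)
    (by rw [hZ]; exact hp) hder (Nat.cast_ne_zero.2 Nat.card_pos.ne') hHP
    (fun x hx => by
      by_cases h1 : x = 1
      · rw [h1]; exact Subgroup.one_mem _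
      · rw [← hfix x hx h1]
        exact le_cent1_iff.1 inf_le_right)
    (fun e he he1 => by
      have h1 : Subgroup.zpowers e ≤ H := Subgroup.zpowers_le.2 he
      rw [← hfix e he he1, ← cent_zpowers]
      exact (coprime_comm_sup_cent (h1.trans hHP) (Core.coprime_of_le_right hcop' h1)
        (Or.inr inferInstance)).ge)
    (fun g _ hg => by
      have h1 := LinearMap.congr_fun hg (MonoidAlgebra.single 1 1)
      rw [Representation.ofMulAction_single] at h1
      simpa using MonoidAlgebra.single_left_injective (one_ne_zero (α := ℂ)) h1)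
  have := comm_of_cyclic hH
  obtain ⟨h1, h2, -⟩ := hU.cop (Nat.cast_ne_zero.2 Nat.card_pos.ne')
    (hcop'.symm.coprime_dvd_right (Core.relIndex_dvd_card' _ _))
  have h3 := Core.card_mul_relIndex (inf_le_left : P ⊓ 𝐂(P) ≤ P)
  rw [hZ, hn, ← h1, pow_succ' p, mul_comm 2 n, pow_mul] at h3
  rwa [Nat.pow_left_injective two_ne_zero (Nat.eq_of_mul_eq_mul_left hp.pos h3)] at h2

end Cfsg.Agent.S3767
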