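import Mathlib
import Cfsg.Statements.S3768
import Cfsg.Agent.H2.FrobQuot
import Cfsg.Agent.S0035

set_option autoImplicit false
open scoped Pointwise commutatorElement
open Cfsg

namespace Cfsg.Agent.S3768

/-- Let G be a finite Frobenius group with Frobenius complement R and Frobenius kernel K (the identity together with the elements in no conjugate of R), and let N be a normal subgroup of G not containing K. Then G/N is a Frobenius group with Frobenius complement RN/N whose Frobenius kernel is the image of K. -/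
theorem result {G : Type*} [Group G] [Finite G] (R : Subgroup G) (hR : Cfsg.IsFrobeniusComplement R) (N : Subgroup G) [N.Normal] (hKN : ¬ Cfsg.frobeniusKernel R ⊆ N) : Cfsg.IsFrobeniusComplement (R.map (QuotientGroup.mk' N)) ∧ Cfsg.frobeniusKernel (R.map (QuotientGroup.mk' N)) = QuotientGroup.mk' N '' Cfsg.frobeniusKernel R := by
  obtain ⟨K, hK, hKn, hc⟩ := S0035.result R hR
  have hNK : N ≤ K := (H2.Frob.le_or_le_of_normal hR hK N).resolve_left (fun h => hKN (hK ▸ h))
  have hsurj := QuotientGroup.mk'_surjective N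
  have : (K.map (QuotientGroup.mk' N)).Normal := hKn.map _ hsurj
  have hc' : Subgroup.IsComplement' (K.map (QuotientGroup.mk' N)) (R.map (QuotientGroup.mk' N)) := by
    refine Subgroup.isComplement'_of_disjoint_and_mul_eq_univ ?_ ?_
    · rw [Subgroup.disjoint_def]
      rintro _ ⟨k, hk, rfl⟩ ⟨r, hr, h⟩
      have h1 : r⁻¹ * k ∈ N := QuotientGroup.eq.1 h
      have h2 : r ∈ K := by
        have := K.mul_mem hk (K.inv_mem (hNK h1))
        simpa using this
      rw [← h, Subgroup.disjoint_def.1 hc.disjoint h2 hr, map_one]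
    · rw [← Subgroup.normal_mul, ← Subgroup.map_sup, hc.sup_eq_top,
        Subgroup.map_top_of_surjective _ hsurj]
      rfl
  have hF : Cfsg.IsFrobeniusComplement (R.map (QuotientGroup.mk' N)) := by
    refine (H2.Frob.iff_semiregular hc' ?_ ?_).2 ?_
    · rw [Ne, Subgroup.map_eq_bot_iff, QuotientGroup.ker_mk']
      exact fun h => hKN (hK ▸ h)
    · rw [Ne, Subgroup.map_eq_bot_iff, QuotientGroup.ker_mk']
      intro h
      exact hR.1 (hc.disjoint.symm.eq_bot_of_le (h.trans hNK))
    · rintro _ ⟨r, hr, rfl⟩ h1
      exact H2.fpf_map_mk' hNK (H2.Frob.semiregular_of_coe_eq hR hK r hr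
        (by rintro rfl; exact h1 (map_one _)))
  refine ⟨hF, ?_⟩
  rw [H2.Frob.kernel_eq hc' hF, ← hK, Subgroup.coe_map]

end Cfsg.Agent.S3768
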