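import Mathlib
import Cfsg.Statements.S3772
import Cfsg.Agent.PGrp.Extra2
-- import your own Cfsg.Agent.* helpers here

set_option autoImplicit false
open Cfsg

namespace Cfsg.Agent.S3772

/-- Let G be a finite 2-group whose Frattini subgroup Φ(G) has order 2, with |G : Φ(G)| = 2^d, and let j be the number of elements x of G with x² = 1. Then j = 2^d, or j = 2^d + 2^(d−r) or j = 2^d − 2^(d−r) for some positive integer r with 2r ≤ d. Moreover if d = 2r and j is 2^d + 2^r or 2^d − 2^r, then G is extraspecial. -/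
theorem result {G : Type*} [Group G] [Finite G] (hG : IsPGroup 2 G) (hΦ : Nat.card (frattini G) = 2) (d : ℕ) (hd : (frattini G).index = 2 ^ d) : (Nat.card {x : G // x ^ 2 = 1} = 2 ^ d ∨ ∃ r : ℕ, 1 ≤ r ∧ 2 * r ≤ d ∧ (Nat.card {x : G // x ^ 2 = 1} = 2 ^ d + 2 ^ (d - r) ∨ Nat.card {x : G // x ^ 2 = 1} + 2 ^ (d - r) = 2 ^ d)) ∧ (∀ r : ℕ, d = 2 * r → (Nat.card {x : G // x ^ 2 = 1} = 2 ^ d + 2 ^ r ∨ Nat.card {x : G // x ^ 2 = 1} + 2 ^ r = 2 ^ d) → Cfsg.IsExtraspecial 2 G) := by
  have hz : ∀ a b : ZMod 2, b ≠ 0 → (a = 0 ↔ ¬ a + b = 0) := by decide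
  obtain ⟨n, D, hD⟩ := PGrp.exists_cext hΦ (PGrp.le_center_of_card_eq_prime hG _ hΦ)
    (PGrp.commutator_le_frattini hG) (PGrp.pow_mem_frattini hG)
  have hd' := PGrp.finrank_fin_fun_zmod 2 n
  obtain rfl : n = d := by
    have h1 := (frattini G).card_mul_index
    rw [hΦ, hd, D.card_eq, Nat.card_fun, Nat.card_zmod, Nat.card_fin] at h1
    exact (Nat.pow_right_injective le_rfl (Nat.eq_of_mul_eq_mul_left two_pos h1)).symm
  rw [D.card_sq_eq_one]
  set R := Orth.perp D.Q ⊤ with hR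
  have hRadd : ∀ v, ∀ r ∈ R, D.Q (v + r) = D.Q v + D.Q r := fun v r hr => by
    rw [Orth.q_add, Orth.mem_perp.mp hr v Submodule.mem_top, add_zero]
  by_cases h0 : ∀ r ∈ R, D.Q r = 0
  · obtain ⟨W, hW⟩ := Submodule.exists_isCompl R
    have hnd : Orth.ND (D.Q.restrict W) := by
      rw [Orth.nd_restrict_iff, eq_bot_iff, ← hW.symm.inf_eq_bot]
      refine le_inf inf_le_left fun x hx => Orth.mem_perp.mpr fun v _ => ?_
      obtain ⟨r, hr, w, hw, rfl⟩ := Submodule.mem_sup.mp
        (show v ∈ R ⊔ W from hW.sup_eq_top ▸ Submodule.mem_top)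
      rw [QuadraticMap.polar_add_left, Orth.mem_perp.mp hx.2 w hw,
        Orth.mem_perp'.mp hr x Submodule.mem_top, add_zero]
    obtain ⟨r, hr⟩ := hnd.even_finrank_of_char_two rfl
    have hsum := Submodule.finrank_add_eq_of_isCompl hW
    have hnv : Orth.nv D.Q 0 = 2 ^ (n - 2 * r) * Orth.nv (D.Q.restrict W) 0 := by
      have e : {x : W × R // D.Q.restrict W x.1 = 0} ≃ {v // D.Q v = 0} :=
        (Submodule.prodEquivOfIsCompl W R hW.symm).toEquiv.subtypeEquiv fun x => by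
          change _ ↔ D.Q (x.1 + x.2) = 0
          rw [hRadd _ _ x.2.2, h0 _ x.2.2, add_zero]
          rfl
      rw [Orth.nv, Orth.nv, ← Nat.card_congr e, Nat.card_congr (Equiv.prodSubtypeFstEquivSubtypeProd
        (p := fun w : W => D.Q.restrict W w = 0)), Nat.card_prod, mul_comm,
        Module.natCard_eq_pow_finrank (K := ZMod 2) (V := R), Nat.card_zmod]
      congr 2
      omega
    obtain ⟨s, rfl⟩ : ∃ s, r = s + 1 := by
      refine ⟨r - 1, ?_⟩
      by_contra hcon
      obtain rfl : r = 0 := by omega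
      have h1 : R = ⊤ := Submodule.eq_top_of_finrank_eq (by omega)
      have h2 : ∀ x : G, x ^ 2 = 1 := fun x =>
        (D.sq_eq_one_iff x).mpr (h0 _ (h1 ▸ Submodule.mem_top))
      rw [(PGrp.frattini_eq_bot_iff hG).mpr ⟨PGrp.isMulCommutative_of_sq_eq_one h2, h2⟩,
        Subgroup.card_bot] at hΦ
      omega
    obtain ⟨t, rfl⟩ : ∃ t, n = 2 * (s + 1) + t := ⟨n - 2 * (s + 1), by omega⟩
    have e1 : 2 * (s + 1) + t - 2 * (s + 1) = t := by omega
    have e2 : 2 * (s + 1) + t - (s + 1) = s + 1 + t := by omega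
    rw [e1] at hnv
    have hcases : 2 * Orth.nv D.Q 0 = 2 ^ (2 * (s + 1) + t) + 2 ^ (s + 1 + t) ∨
        2 * Orth.nv D.Q 0 + 2 ^ (s + 1 + t) = 2 ^ (2 * (s + 1) + t) := by
      rw [hnv, pow_add 2 _ t, pow_add 2 _ t, mul_left_comm]
      by_cases hp : Orth.IsPlus (D.Q.restrict W)
      · left
        rw [PGrp.nv_of_isPlus hnd hp (m := s) (by omega)]
        ring
      · right
        rw [← PGrp.nv_of_not_isPlus hnd hp (m := s) (by omega)]
        ring
    refine ⟨Or.inr ⟨s + 1, by omega, by omega, by rwa [e2]⟩, fun r' hr' h => ?_⟩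
    have ht : t = 0 := by
      have h1 : 0 < 2 ^ r' := pow_pos two_pos _
      have h2 : 0 < 2 ^ (s + 1 + t) := pow_pos two_pos _
      have h3 : 2 ^ r' = 2 ^ (s + 1 + t) := by omega
      have := Nat.pow_right_injective le_rfl h3
      omega
    subst ht
    have h1 : R = ⊥ := Submodule.finrank_eq_zero.mp (by omega)
    have : Nontrivial (Fin (2 * (s + 1) + 0) → ZMod 2) := PGrp.nontrivial_fin_fun (by omega)
    refine D.isExtraspecial (D.nd_iff.mp fun x hx => ?_)
    rw [← Submodule.mem_bot (ZMod 2), ← h1]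
    exact Orth.mem_perp'.mpr fun w _ => hx w
  · push Not at h0
    obtain ⟨r, hr, hr0⟩ := h0
    have hcount : 2 * Orth.nv D.Q 0 = 2 ^ n := by
      have e : {v // D.Q v = 0} ≃ {v // ¬ D.Q v = 0} :=
        (Equiv.addRight r).subtypeEquiv fun v => by
          change _ ↔ ¬ D.Q (v + r) = 0
          rw [hRadd v r hr]
          exact hz _ _ hr0
      classical
      have h1 := Nat.card_congr (Equiv.sumCompl fun v => D.Q v = 0)
      rw [Nat.card_sum, ← Nat.card_congr e, Nat.card_fun, Nat.card_zmod, Nat.card_fin] at h1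
      rw [two_mul]
      exact h1
    refine ⟨Or.inl hcount, fun r' _ h => ?_⟩
    have h1 : 0 < 2 ^ r' := pow_pos two_pos _
    omega

end Cfsg.Agent.S3772
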