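import Cfsg.Statements.S3779
import Cfsg.Agent.H23.Lie2
import Cfsg.Agent.S0033
-- import your own Cfsg.Agent.* helpers here

set_option autoImplicit false
open Cfsg

namespace Cfsg.Agent.S3779

/-- Let G be a finite group with an automorphism of prime order p fixing only the identity. Then G is nilpotent; if p = 2 then G is abelian, if p = 3 then G has class at most 2, and in general the class of G is at most ξ = 1 + (p−1) + (p−1)² + ⋯ + (p−1)^(n−1) with n = 2^(p−1) − 1 (the Higman–Kreknin–Kostrikin bound). -/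
theorem result {G : Type*} [Group G] [Finite G] {p : ℕ} (hp : p.Prime) (α : MulAut G) (hα : orderOf α = p) (hfpf : ∀ g : G, α g = g → g = 1) : (p = 2 → (⊤ : Subgroup G).lowerCentralSeries 1 = ⊥) ∧ (p = 3 → (⊤ : Subgroup G).lowerCentralSeries 2 = ⊥) ∧ (⊤ : Subgroup G).lowerCentralSeries (Finset.sum (Finset.range (2 ^ (p - 1) - 1)) (fun i => (p - 1) ^ i)) = ⊥ := by

  have := Fact.mk hp
  have := S0033.result α hfpf p hp hα
  have h0 : α ^ p = 1 := hα ▸ pow_orderOf_eq_one α
  have h1 := H23.Kr.lcs_eq_bot_of_fpf (fun _ _ _ hF h0 => H23.Kr.hkk hF h0) α h0 hfpf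
  refine ⟨?_, ?_, h1⟩
  · rintro rfl
    simpa using h1
  · rintro rfl
    exact H23.Kr.lcs_eq_bot_of_fpf (p := 3) (fun _ _ _ hF h0 => H23.Kr.hkk_three hF h0) α h0 hfpf

end Cfsg.Agent.S3779
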