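import Cfsg.Statements.S3780
import Cfsg.Agent.H23.Alp
-- import your own Cfsg.Agent.* helpers here

set_option autoImplicit false
open Cfsg

namespace Cfsg.Agent.S3780

/-- Let V be a finite abelian p-group and α an automorphism of V of order p whose fixed-point subgroup has order p^n. Then V can be generated by pn elements: some subset of V with at most pn elements generates V. -/
theorem result {V : Type*} [CommGroup V] [Finite V] {p : ℕ} [Fact p.Prime] (hV : IsPGroup p V) (α : MulAut V) (hα : orderOf α = p) (n : ℕ) (hfix : Nat.card {v : V // α v = v} = p ^ n) : ∃ S : Finset V, S.card ≤ p * n ∧ Subgroup.closure (S : Set V) = ⊤ := by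

  have hp : p.Prime := Fact.out
  have h : H23.Kr.FP p (p ^ n) α := ⟨hα ▸ pow_orderOf_eq_one α, hfix.le⟩
  have h3 := h.relIndex_le hp ⊤ (frattini V) (PGrp.commutator_le_frattini hV) (k := 1)
    fun g _ => by rw [pow_one]; exact PGrp.pow_mem_frattini hV g
  obtain ⟨k, hk⟩ := hV.index (frattini V)
  obtain ⟨T, -, h1, h2⟩ := PGrp.exists_subset_card_closure_eq_top hV hk Set.univ
    Subgroup.closure_univ
  rw [Subgroup.relIndex_top_right, hk, ← pow_mul, Nat.pow_le_pow_iff_right hp.one_lt] at h3
  exact ⟨T, by rw [h1, mul_comm]; simpa using h3, h2⟩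

end Cfsg.Agent.S3780
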