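import Mathlib
import Cfsg.Statements.S3785
import Cfsg.Agent.FGS.FitCrit
import Cfsg.Agent.Core.OddOmega

set_option autoImplicit false
open Cfsg

namespace Cfsg.Agent.S3785

open Subgroup Cfsg.Agent.FGS

/-- Let G be a finite solvable group whose Fitting subgroup F(G) has odd order. If an element g of G commutes with every element of prime order of F(G), then g ∈ F(G). -/
theorem result {G : Type*} [Group G] [Finite G] (hG : Group.IsSolvable G) (hodd : Odd (Nat.card (Cfsg.fittingSubgroup G))) (g : G) (hg : ∀ x ∈ Cfsg.fittingSubgroup G, (orderOf x).Prime → g * x = x * g) : g ∈ Cfsg.fittingSubgroup G := by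
  haveI := Core.fitting_normal (G := G)
  let S : Set G := {x | x ∈ fittingSubgroup G ∧ (orderOf x).Prime}
  have hCn : (centralizer S).Normal := by
    refine ⟨fun c hc a => ?_⟩
    rw [mem_centralizer_iff] at hc ⊢
    intro x hx
    have h1 : a⁻¹ * x * a ∈ S := by
      refine ⟨by simpa using (inferInstance : (fittingSubgroup G).Normal).conj_mem x hx.1 a⁻¹, ?_⟩
      have : orderOf (a⁻¹ * x * a) = orderOf x := by
        simpa using (MulAut.conj a⁻¹).orderOf_eq x
      rw [this]; exact hx.2
    have h2 := hc _ h1
    calc x * (a * c * a⁻¹) = a * (a⁻¹ * x * a * c) * a⁻¹ := by group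
      _ = a * (c * (a⁻¹ * x * a)) * a⁻¹ := by rw [h2]
      _ = a * c * a⁻¹ * x := by group
  have hgC : g ∈ centralizer S := by
    rw [mem_centralizer_iff]
    intro x hx
    exact (hg x hx.1 hx.2).symm
  refine le_fitting_of_cent (centralizer S) inferInstance ?_ hgC
  intro p q hp hq hpq x hx ⟨k, hk⟩ y hy
  haveI := Fact.mk hp
  by_cases hy1 : y = 1
  · simp [hy1]
  have hp2 : p ≠ 2 := by
    rintro rfl
    have h0 : pCore 2 G ≠ ⊥ := fun h => hy1 (by have := hy.1; rw [h] at this; exact this)
    have h1 := Core.prime_dvd_card_of_isPGroup (Core.pCore_isPGroup 2) h0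
    have h2 := h1.trans (card_dvd_of_le (Core.pCore_le_fitting (G := G) 2))
    exact (Nat.not_even_iff_odd.mpr hodd) (even_iff_two_dvd.mpr h2)
  have := Core.le_centralizer_of_pow_eq_one hp2 (P := pCore p G) (A := zpowers x) (Core.pCore_isPGroup p)
    (by rw [normalizer_eq_top]; exact le_top)
    (by rw [Nat.card_zpowers, hk]; exact Nat.Coprime.pow_left _ ((Nat.coprime_primes hq hp).mpr hpq.symm))
    (by
      intro z hz hzp
      by_cases hz1 : z = 1
      · rw [hz1]; exact one_mem _
      have hzS : z ∈ S := ⟨Core.pCore_le_fitting p hz, by rw [orderOf_eq_prime hzp hz1]; exact hp⟩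
      have : zpowers x ≤ centralizer {z} := by
        rw [zpowers_le, mem_centralizer_singleton_iff]
        exact (mem_centralizer_iff.mp hx z hzS).symm
      rw [mem_centralizer_iff]
      intro w hw
      exact mem_centralizer_singleton_iff.mp (this hw))
  exact (mem_centralizer_iff.mp (this (mem_zpowers x)) y hy.1).symm

end Cfsg.Agent.S3785
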