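import Cfsg.Statements.S3788
import Cfsg.Agent.H23.PL3
-- import your own Cfsg.Agent.* helpers here

set_option autoImplicit false
open Cfsg

namespace Cfsg.Agent.S3788

/-- Let G be a finite p-soluble group, P a Sylow p-subgroup of G and A a cyclic normal subgroup of P. If p is odd, or if no section of G is isomorphic to the symmetric group of degree 4, then A ≤ O_{p',p}(G). -/
theorem result {G : Type*} [Group G] [Finite G] {p : ℕ} [Fact p.Prime] (hG : Cfsg.IsPSolvable p G) (P : Sylow p G) (A : Subgroup G) (hAP : A ≤ (P : Subgroup G)) (hAn : (P : Subgroup G) ≤ Subgroup.normalizer (A : Set G)) (hA : IsCyclic A) (h : p ≠ 2 ∨ ¬ Cfsg.Involves (Equiv.Perm (Fin 4)) G) : A ≤ Cfsg.pPrimePCore p G := by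

  obtain ⟨G', _, _, π, hπ, hr, hc⟩ := H23.HH.exists_red hG
  obtain ⟨a, rfl⟩ := (Subgroup.isCyclic_iff_exists_zpowers_eq_top A).1 hA
  rw [← hc, Subgroup.zpowers_le]
  refine hr.cyc ?_ (h.imp_right fun h1 h2 => h1 (Transfer.involves_iff_isSectionOf.2
    (((Transfer.isSectionOf_self G).of_surjective π hπ).trans h2)))
  refine ((Core.pCore_isPGroup p).le_sylow_of_normal (P.mapSurjective hπ)).trans ?_
  rw [← MonoidHom.map_zpowers]
  exact (Subgroup.map_mono hAn).trans (Subgroup.le_normalizer_map π)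

end Cfsg.Agent.S3788
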