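import Cfsg.Statements.S3794
import Cfsg.Agent.H23.Fpf1
-- import your own Cfsg.Agent.* helpers here

set_option autoImplicit false
open Cfsg

namespace Cfsg.Agent.S3794

/-- Let G be a finite solvable group with an automorphism σ satisfying σ⁴ = 1 and fixing only the identity. Then the derived subgroup G' is nilpotent. -/
theorem result {G : Type*} [Group G] [Finite G] (hG : Group.IsSolvable G) (σ : MulAut G) (hσ : σ ^ 4 = 1) (hfpf : ∀ g : G, σ g = g → g = 1) : Group.IsNilpotent (commutator G) := by

  open H23.HH in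
  have h1 : extx σ ^ 4 = 1 := by
    rw [← orderOf_dvd_iff_pow_eq_one, orderOf_extx, orderOf_dvd_iff_pow_eq_one, hσ]
  obtain ⟨i, -, hi⟩ := (Nat.dvd_prime_pow Nat.prime_two (m := 2)).1 (orderOf_dvd_of_pow_eq_one h1)
  refine nilpotent_commutator_of_sd _ (nilpotent_der_four (solvable_sdG _ hG) (ext_sup σ)
    (IsPGroup.of_card (by rw [Nat.card_zpowers, hi])) ?_ (ext_fpf σ hfpf))
  rw [h1]
  exact Subgroup.one_mem _

end Cfsg.Agent.S3794
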