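import Cfsg.Statements.S3796
import Cfsg.Agent.H23.Fpf2
-- import your own Cfsg.Agent.* helpers here

set_option autoImplicit false
open Cfsg

namespace Cfsg.Agent.S3796

/-- Ward's Theorem: let G be a finite solvable group and A an elementary abelian group of automorphisms of G of order p² (p a prime) with no non-identity common fixed point. Then G has Fitting height at most 2: G has Fitting height at most m when there is a chain of normal subgroups 1 = F₀ ≤ F₁ ≤ ⋯ ≤ F_m = G with each F_{i+1}/F_i nilpotent. -/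
theorem result {G : Type*} [Group G] [Finite G] (hG : Group.IsSolvable G) {p : ℕ} (hp : p.Prime) (A : Subgroup (MulAut G)) (hA : Cfsg.IsElementaryAbelian p A) (hcard : Nat.card A = p ^ 2) (hfpf : ∀ g : G, (∀ a ∈ A, a g = g) → g = 1) : ∃ F : Fin (2 + 1) → Subgroup G, F 0 = ⊥ ∧ F (Fin.last 2) = ⊤ ∧ Monotone F ∧ (∀ i, (F i).Normal) ∧ ∀ i : Fin 2, ∃ k : ℕ, (F i.succ).lowerCentralSeries k ≤ F i.castSucc := by

  open H23.HH in
  refine chain_of_nres (nres_top_of_injective SemidirectProduct.inl_injective
    (ward (A := FGS.sdA A.subtype) (solvable_sdG _ hG) hp ?_ ((FGS.card_sdA _).trans hcard)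
      (sd_fpf _ fun g hg => hfpf g fun a ha => hg ⟨a, ha⟩)))
  rw [FGS.sdA, MonoidHom.range_eq_map]
  refine Core.IsElementaryAbelian.map ⟨?_, fun a _ => Subtype.ext (hA.2 a a.2)⟩ _
  have := hA.1
  infer_instance

end Cfsg.Agent.S3796
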