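import Mathlib
import Cfsg.Statements.S3797
import Cfsg.Agent.PGrp.OneCl4
-- import your own Cfsg.Agent.* helpers here

set_option autoImplicit false
open Cfsg

namespace Cfsg.Agent.S3797

open Subgroup Cfsg.Agent.Core Cfsg.Agent.PGrp.OneCl

theorem homocyclic {A : Type*} [CommGroup A] [Finite A] (hA : IsPGroup 2 A)
    (h : ∀ x y : A, orderOf x = 2 → orderOf y = 2 → ∃ a : MulAut A, a x = y) :
    ∃ m r : ℕ, Nonempty (A ≃* (Fin r → Multiplicative (ZMod (2 ^ m)))) := by
  classical
  obtain ⟨ι, _, n, hn, ⟨e⟩⟩ := CommGroup.equiv_prod_multiplicative_zmod_of_finite A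
  let g : ι → A := fun i => e.symm (Pi.mulSingle i (Multiplicative.ofAdd 1))
  have hg : ∀ i, orderOf (g i) = n i := fun i => by
    simp only [g, MulEquiv.orderOf_eq]
    rw [show Pi.mulSingle i (Multiplicative.ofAdd (1 : ZMod (n i))) =
      MonoidHom.mulSingle (fun i => Multiplicative (ZMod (n i))) i (Multiplicative.ofAdd 1) from rfl,
      orderOf_injective _ (fun a b e => Pi.mulSingle_injective (M := fun i => Multiplicative (ZMod (n i))) i e), orderOf_ofAdd_eq_addOrderOf, ZMod.addOrderOf_one]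
  have hk : ∀ i, ∃ k, n i = 2 ^ (k + 1) := fun i => by
    obtain ⟨k, hk⟩ := IsPGroup.iff_orderOf.1 hA (g i)
    rw [hg] at hk
    rcases k with _ | k
    · have := hn i; simp at hk; omega
    · exact ⟨k, hk⟩
  choose k hk using hk
  have h2 : ∀ i, orderOf (g i ^ 2 ^ k i) = 2 := fun i => by
    have := orderOf_pow_orderOf_div (x := g i) (n := 2) (orderOf_pos _).ne' (by rw [hg, hk]; exact dvd_pow_self 2 (k i).succ_ne_zero)
    rwa [hg, hk, pow_succ, Nat.mul_div_cancel _ two_pos] at this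
  have h3 : ∀ i j, k j ≤ k i := fun i j => by
    by_contra l
    obtain ⟨a, ha⟩ := h _ _ (h2 j) (h2 i)
    have e1 : e (g i ^ 2 ^ k i) i = 1 := by
      obtain ⟨c, hc⟩ := pow_dvd_pow 2 (show k i + 1 ≤ k j by omega)
      rw [← ha, map_pow, map_pow, Pi.pow_apply, hc, pow_mul, ← hk]
      haveI : NeZero (n i) := ⟨by have := hn i; omega⟩
      have : Nat.card (Multiplicative (ZMod (n i))) = n i := by simp
      rw [orderOf_dvd_iff_pow_eq_one.1 ((_root_.orderOf_dvd_natCard (e (a (g j)) i)).trans this.dvd), one_pow]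
    have e2 : g i ^ 2 ^ k i = 1 := by
      apply e.injective
      ext j
      by_cases hj : j = i
      · subst hj; rw [e1]; simp
      · simp [g, Pi.mulSingle_eq_of_ne hj]
    have := h2 i
    simp [e2] at this
  rcases isEmpty_or_nonempty ι with hι | ⟨⟨i⟩⟩
  · exact ⟨0, 0, ⟨e.trans MulEquiv.ofUnique⟩⟩
  obtain rfl : n = fun _ => 2 ^ (k i + 1) := funext fun j => by rw [hk, le_antisymm (h3 i j) (h3 j i)]
  exact ⟨_, Fintype.card ι, ⟨e.trans (MulEquiv.arrowCongr (Fintype.equivFin ι) (MulEquiv.refl _))⟩⟩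

/-- Let G be a finite solvable group of even order whose Sylow 2-subgroups contain more than one involution, and suppose all involutions of G are conjugate. Then G has 2-length at most 1, and a Sylow 2-subgroup S of G is either homocyclic (a direct product of cyclic groups of one common order) or a non-abelian 2-group with more than one involution admitting a solvable group of automorphisms transitive on its involutions. -/
theorem result {G : Type*} [Group G] [Finite G] (hG : Group.IsSolvable G) (heven : Even (Nat.card G)) (S : Sylow 2 G) (htwo : ∃ x y : G, x ∈ (S : Subgroup G) ∧ y ∈ (S : Subgroup G) ∧ x ≠ y ∧ x ≠ 1 ∧ x ^ 2 = 1 ∧ y ≠ 1 ∧ y ^ 2 = 1) (hconj : ∀ x y : G, x ≠ 1 → x ^ 2 = 1 → y ≠ 1 → y ^ 2 = 1 → IsConj x y) : Cfsg.PLengthLE 2 1 G ∧ ((∃ m r : ℕ, Nonempty (↥(S : Subgroup G) ≃* (Fin r → Multiplicative (ZMod (2 ^ m))))) ∨ (¬ IsMulCommutative (S : Subgroup G) ∧ ∃ Y : Subgroup (MulAut ↥(S : Subgroup G)), Group.IsSolvable Y ∧ ∀ x y : ↥(S : Subgroup G),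 x ≠ 1 → x ^ 2 = 1 → y ≠ 1 → y ^ 2 = 1 → ∃ a ∈ Y, a x = y)) := by
  obtain ⟨x, y, hxS, hyS, hxy, hx1, hx, hy1, hy⟩ := htwo
  have hc : ∀ x y : G, orderOf x = 2 → orderOf y = 2 → IsConj x y := fun x y hx hy =>
    hconj x y (by rintro rfl; simp at hx) (hx ▸ pow_orderOf_eq_one x) (by rintro rfl; simp at hy)
      (hy ▸ pow_orderOf_eq_one y)
  have hl := plength hG hc S.isPGroup' hxS hyS (orderOf_eq_prime hx hx1) (orderOf_eq_prime hy hy1) hxy
  have key : ∀ x y : (S : Subgroup G), orderOf x = 2 → orderOf y = 2 →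
      ∃ a ∈ (S : Subgroup G).normalizerMonoidHom.range, a x = y := fun x y hx hy => by
    obtain ⟨n, hn, e⟩ := fusion hl S x.2 y.2 (hc x y (by simpa using hx) (by simpa using hy))
    exact ⟨_, ⟨⟨n, hn⟩, rfl⟩, Subtype.ext e⟩
  refine ⟨hl, ?_⟩
  by_cases h : IsMulCommutative (S : Subgroup G)
  · left
    letI : CommGroup (S : Subgroup G) := { mul_comm := h.is_comm.comm }
    exact homocyclic S.isPGroup' fun x y hx hy => (key x y hx hy).imp fun a ha => ha.2
  · exact Or.inr ⟨h, _, solvable_of_surjective (MonoidHom.rangeRestrict_surjective _), fun x y hx1 hx hy1 hy =>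
      key x y (orderOf_eq_prime hx hx1) (orderOf_eq_prime hy hy1)⟩

end Cfsg.Agent.S3797
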