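import Mathlib
import Cfsg.Statements.S3798
import Cfsg.Agent.PGrp.OneCl
-- import your own Cfsg.Agent.* helpers here

set_option autoImplicit false
open Cfsg

namespace Cfsg.Agent.S3798

open Subgroup Cfsg.Agent.Core Cfsg.Agent.PGrp.OneCl

theorem core {G : Type*} [Group G] [Finite G] {p : ℕ} [Fact p.Prime] (hp : p ≠ 2) (hG : IsPSolvable p G)
    (h0 : pPrimeCore p G = ⊥)
    (htr : ∀ v w : G, orderOf v = p → orderOf w = p → ∃ a : MulAut G, w ∈ zpowers (a v)) :
    ¬ p ∣ (pCore p G).index := fun h => by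
  have pp := (Fact.out : p.Prime)
  have hC := Core.IsPSolvable.centralizer_pCore_le hG h0
  set N := pCore p G
  have hN : IsPGroup p N := pCore_isPGroup p
  have hN1 : N ≠ ⊥ := fun e => by
    have : N = ⊤ := top_le_iff.1 fun x _ => hC (by rw [e]; simp [mem_centralizer_iff])
    rw [this, index_top] at h
    exact pp.one_lt.ne' (Nat.dvd_one.1 h)
  obtain ⟨⟨v0, hv0⟩, h1⟩ := exists_prime_orderOf_dvd_card' p (prime_dvd_card_of_isPGroup (hN.to_le inf_le_left)
    (inf_centralizer_ne_bot_of_isPGroup hN hN le_normalizer hN1))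
  rw [Subgroup.orderOf_mk] at h1
  have hV : ∀ v : G, orderOf v = p → v ∈ N ∧ N ≤ centralizer {v} := fun v hv => by
    obtain ⟨a, ha⟩ := htr v0 v h1 hv
    have : v ∈ N ⊓ centralizer (N : Set G) := by
      refine zpowers_le.2 ?_ ha
      have e := (characteristic_iff_map_eq.1 (inferInstance : (N ⊓ centralizer (N : Set G)).Characteristic)) a
      rw [← e]; exact ⟨v0, hv0, rfl⟩
    exact ⟨this.1, fun x hx => mem_centralizer_singleton_iff.2 (this.2 x hx)⟩
  have h2 : ¬ p ∣ N.relIndex (piMod {p}ᶜ N) := (pi_compl_iff_not_dvd pp).1 (pi_relIndex_piMod _ _)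
  have h3 : p ∣ (piMod {p}ᶜ N).index := by
    rw [← relIndex_mul_index (le_piMod_self {p}ᶜ N)] at h
    exact (pp.dvd_mul.1 h).resolve_left h2
  have h4 := fun w hw => le_cent hN (le_piMod_self {p}ᶜ N) hV h2 h3 (fun v w hv hw => by
    obtain ⟨a, ha⟩ := htr v w hv hw
    exact ⟨a, characteristic_iff_map_eq.1 inferInstance a, ha⟩) (w := w) hw
  have h5 : IsPGroup p (piMod {p}ᶜ N) := isPGroup_of_forall_coprime_eq_bot fun Y hY hc _ =>
    eq_bot_of_le_centralizer_pCore hC hc (le_centralizer_of_pow_eq_one hp hN le_normalizer_of_normal hc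
      fun x _ hx y hy => by
        by_cases e : x = 1
        · simp [e]
        · exact mem_centralizer_singleton_iff.1 (h4 x (orderOf_eq_prime hx e) (hY hy)))
  have h6 : pPrimeCore p (G ⧸ N) = ⊥ := by
    rw [pPrimeCore_eq_piCore_compl pp, ← map_piMod_mk', Subgroup.map_eq_bot_iff, QuotientGroup.ker_mk']
    exact le_pCore inferInstance h5
  have := Core.IsPSolvable.subsingleton (Core.IsPSolvable.quotient hG N) (pCore_quotient_pCore p) h6
  rw [index_eq_card, Nat.card_unique] at h
  exact pp.one_lt.ne' (Nat.dvd_one.1 h)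

/-- The Gaschütz–Yen Theorem: let G be a finite p-soluble group, p an odd prime dividing its order, such that the automorphism group of G permutes the subgroups of G of order p transitively. Then G has p-length at most 1. -/
theorem result {G : Type*} [Group G] [Finite G] {p : ℕ} [Fact p.Prime] (hp : p ≠ 2) (hdvd : p ∣ Nat.card G) (hG : Cfsg.IsPSolvable p G) (htrans : ∀ U V : Subgroup G, Nat.card U = p → Nat.card V = p → ∃ a : MulAut G, U.map a.toMonoidHom = V) : Cfsg.PLengthLE p 1 G := by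
  have hK := pPrimeCore_coprime (G := G) p
  refine PLengthLE.of_quotient_pPrime _ hK (pLengthLE_one_iff.2 ?_)
  rw [pPrimePCore_eq_pCore (pPrimeCore_quotient_pPrimeCore p)]
  refine core hp (Core.IsPSolvable.quotient hG _) (pPrimeCore_quotient_pPrimeCore p) fun v w hv hw => ?_
  obtain ⟨x, hx, ⟨j, h1⟩, -⟩ := exists_lift _ hv hK
  obtain ⟨y, hy, -, h2⟩ := exists_lift _ hw hK
  obtain ⟨a, ha⟩ := htrans (zpowers x) (zpowers y) (by rw [Nat.card_zpowers, hx]) (by rw [Nat.card_zpowers, hy])
  have hc := characteristic_iff_map_eq.1 (inferInstance : (pPrimeCore p G).Characteristic) a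
  refine ⟨QuotientGroup.congr _ _ a hc, zpowers_le.2 ?_ h2⟩
  have h3 : y ∈ zpowers (a x) := by
    have := mem_zpowers y
    rwa [← ha, MonoidHom.map_zpowers] at this
  obtain ⟨k, rfl⟩ := h3
  refine ⟨j * k, ?_⟩
  simp only at h1 ⊢
  rw [zpow_mul, ← map_zpow, h1, QuotientGroup.mk_zpow]
  rfl

end Cfsg.Agent.S3798
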