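import Mathlib
import Cfsg.Statements.S3799
import Cfsg.Agent.PGrp.Extra2
-- import your own Cfsg.Agent.* helpers here

set_option autoImplicit false
open Cfsg

namespace Cfsg.Agent.S3799

open Cfsg.Agent.PGrp

/-- The bilinear form `((x, y), (x', y')) ↦ x ⬝ y'`. -/
def bet (p n : ℕ) : LinearMap.BilinForm (ZMod p) ((Fin n → ZMod p) × (Fin n → ZMod p)) :=
  LinearMap.mk₂ (ZMod p) (fun u v => u.1 ⬝ᵥ v.2) (by simp) (by simp) (by simp [dotProduct_add])
    (by simp)

/-- The natural representation of the Heisenberg group. -/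
def rho (p n : ℕ) : Heis (bet p n) →*
    Module.End (ZMod p) (ZMod p × (Fin n → ZMod p) × ZMod p) where
  toFun g :=
    { toFun := fun w => (w.1 + g.v.1 ⬝ᵥ w.2.1 + g.a * w.2.2, w.2.1 + w.2.2 • g.v.2, w.2.2)
      map_add' := fun u w => by
        ext <;> simp [dotProduct_add] <;> ring
      map_smul' := fun c w => by
        ext <;> simp <;> ring }
  map_one' := by ext <;> simp
  map_mul' g h := by
    refine LinearMap.ext fun w => ?_
    refine Prod.ext ?_ (Prod.ext ?_ rfl)
    · have : bet p n g.v h.v = g.v.1 ⬝ᵥ h.v.2 := rfl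
      simp [this, dotProduct_add]; ring
    · simp only [Heis.mul_v, Prod.snd_add, smul_add, LinearMap.coe_mk, AddHom.coe_mk,
        Module.End.mul_apply]
      abel

theorem rho_inj (p n : ℕ) : Function.Injective (rho p n) := by
  rw [injective_iff_map_eq_one]
  intro g hg
  have h1 := LinearMap.congr_fun hg (0, 0, 1)
  have h2 : ∀ w, g.v.1 ⬝ᵥ w = 0 := fun w => by
    have := congrArg Prod.fst (LinearMap.congr_fun hg (0, w, 0))
    simpa [rho] using this
  simp only [rho, MonoidHom.coe_mk, OneHom.coe_mk, LinearMap.coe_mk, AddHom.coe_mk,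
    dotProduct_zero, add_zero, mul_one, zero_add, one_smul, Module.End.one_apply,
    Prod.mk.injEq, and_true] at h1
  refine Heis.ext (Prod.ext ?_ h1.2) h1.1
  funext i
  simpa using h2 (Pi.single i 1)


/-- For every odd prime p and every n ≥ 1 there is an extraspecial p-group of order p^(1+2n) and exponent p; concretely, the general linear group of degree n + 2 over the field with p elements contains such a subgroup. -/
theorem result (p : ℕ) [Fact p.Prime] (hp : p ≠ 2) (n : ℕ) (hn : 1 ≤ n) : ∃ E : Subgroup (Matrix.GeneralLinearGroup (Fin (n + 2)) (ZMod p)), Cfsg.IsExtraspecial p ↥E ∧ Nat.card E = p ^ (1 + 2 * n) ∧ ∀ x ∈ E, x ^ p = 1 := by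
  have hp' : p.Prime := Fact.out
  have hd : Module.finrank (ZMod p) (ZMod p × (Fin n → ZMod p) × ZMod p) = n + 2 := by
    simp; ring
  let b := Module.finBasisOfFinrankEq (ZMod p) _ hd
  let φ : Heis (bet p n) →* Matrix.GeneralLinearGroup (Fin (n + 2)) (ZMod p) :=
    (((LinearMap.toMatrixAlgEquiv b).toMulEquiv.toMonoidHom).comp (rho p n)).toHomUnits
  have hφ : Function.Injective φ := fun x y h =>
    rho_inj p n ((LinearMap.toMatrixAlgEquiv b).injective (congrArg Units.val h))
  have : Nontrivial (Fin n → ZMod p) := nontrivial_fin_fun hn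
  have hB : (Heis.cext (bet p n)).B.Nondegenerate := by
    rw [CExt.nondegenerate_iff, CExt.center_eq_iff]
    intro u hu
    refine Prod.ext (funext fun i => ?_) (funext fun i => ?_)
    · have := hu (0, Pi.single i 1)
      rw [Heis.cext_B] at this
      simpa [bet] using this
    · have := hu (Pi.single i 1, 0)
      rw [Heis.cext_B] at this
      simpa [bet] using this
  refine ⟨φ.range, isExtraspecial_of_equiv (MonoidHom.ofInjective hφ)
    ((Heis.cext (bet p n)).isExtraspecial hB), ?_, ?_⟩
  · rw [← Nat.card_congr (MonoidHom.ofInjective hφ).toEquiv, (Heis.cext (bet p n)).card_eq]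
    simp [Nat.card_prod]; ring
  · rintro _ ⟨x, rfl⟩
    rw [← map_pow, Heis.pow_eq_one_of_odd (hp'.odd_of_ne_two hp), map_one]

end Cfsg.Agent.S3799
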