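import Mathlib
import Cfsg.Statements.S3951
import Cfsg.Agent.H2.Schur4

set_option autoImplicit false
open scoped Pointwise commutatorElement
open Cfsg

namespace Cfsg.Agent.S3951

/-- For positive integers `m` and `n` with `n` dividing `m`, the Schur multiplier of the abelian group `ZMod m × ZMod n` (written multiplicatively) is cyclic of order `n`. In particular the elementary abelian group of order `p ^ 2` has multiplier of order `p`. -/
theorem result (m n : ℕ) [NeZero m] [NeZero n] (hnm : n ∣ m) : Cfsg.HasCyclicSchurMultiplier (Multiplicative (ZMod m × ZMod n)) n := by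
  let φ : Multiplicative (ZMod m × ZMod n) →* Multiplicative (ZMod n) :=
    AddMonoidHom.toMultiplicative ((ZMod.castHom hnm (ZMod n)).toAddMonoidHom.comp
      (AddMonoidHom.fst _ _))
  let ψ : Multiplicative (ZMod m × ZMod n) →* Multiplicative (ZMod n) :=
    AddMonoidHom.toMultiplicative (AddMonoidHom.snd _ _)
  have h1 := H2.Schur.mulBil_mem_skr φ ψ (g := Multiplicative.ofAdd (1, 0))
    (h := Multiplicative.ofAdd (0, 1)) (Commute.all _ _) (by simp [φ, ZMod.cast_one hnm])
    (by simp [ψ]) (by simp [φ])
  refine H2.Schur.has_cyclic H2.Schur.cext_bil h1 ?_ fun Γ _ _ σ hσ => ?_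
  · rw [orderOf_injective _ H2.Schur.bilInl_injective, orderOf_ofAdd_eq_addOrderOf,
      ZMod.addOrderOf_one]
  · refine Nat.le_of_dvd (NeZero.pos n) (H2.Schur.card_ker_dvd_of_comm
      (a := Multiplicative.ofAdd (1, 0)) (b := Multiplicative.ofAdd (0, 1)) ?_ (Commute.all _ _) hσ ?_)
    · refine eq_top_iff.2 fun x _ => ?_
      obtain ⟨i, hi⟩ := ZMod.intCast_surjective x.toAdd.1
      obtain ⟨j, hj⟩ := ZMod.intCast_surjective x.toAdd.2
      have e : x = Multiplicative.ofAdd (1, 0) ^ i * Multiplicative.ofAdd (0, 1) ^ j := by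
        simp [← ofAdd_zsmul, ← ofAdd_add, hi, hj]
      rw [e]
      exact mul_mem (zpow_mem (Subgroup.subset_closure (by simp)) _)
        (zpow_mem (Subgroup.subset_closure (by simp)) _)
    · rw [show Multiplicative.ofAdd ((0, 1) : ZMod m × ZMod n) ^ n = 1 by simp [← ofAdd_nsmul]]
      exact one_mem _

end Cfsg.Agent.S3951
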