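import Mathlib
import Cfsg.Statements.S3953
import Cfsg.Agent.H2.Schur5

set_option autoImplicit false
open scoped Pointwise commutatorElement
open Cfsg

namespace Cfsg.Agent.S3953

/-- Let `P` be a Sylow `p`-subgroup of the finite group `G`, let `A` be the Schur multiplier of `G` and `B` that of `P`. Then the `p`-primary component of `A` is isomorphic to a direct factor of `B`: there are subgroups `C` and `D` of `B` meeting trivially and generating `B`, with `C` isomorphic to the `p`-primary component of `A`. -/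
theorem result {G : Type*} [Group G] [Finite G] (p : ℕ) [Fact p.Prime] (P : Sylow p G) {A B : Type*} [CommGroup A] [CommGroup B] (hA : Cfsg.HasSchurMultiplier G A) (hB : Cfsg.HasSchurMultiplier P B) : ∃ C D : Subgroup B, C ⊓ D = ⊥ ∧ C ⊔ D = ⊤ ∧ Nonempty (CommGroup.primaryComponent A p ≃* C) := by
  obtain ⟨i, t, h⟩ := H2.Schur.exists_cor_tr (P : Subgroup G) hA hB
  have := H2.Schur.finite_of_has hA
  obtain ⟨k, e, he, hke⟩ := Nat.exists_eq_pow_mul_and_not_dvd (Nat.card_pos (α := A)).ne' p
    (Fact.out : p.Prime).ne_one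
  let Ap := CommGroup.primaryComponent A p
  let ψ : B →* Ap := ((powMonoidHom e).comp i).codRestrict _ fun b =>
    CommGroup.mem_primaryComponent.2 ⟨k, by
      rw [MonoidHom.comp_apply, powMonoidHom_apply, ← pow_mul, mul_comm, ← hke, pow_card_eq_one']⟩
  let τ : Ap →* B := t.comp Ap.subtype
  have h1 : ∀ a, ψ (τ a) = a ^ ((P : Subgroup G).index * e) := fun a => Subtype.ext (by
    change i (t a) ^ e = _
    rw [h, ← pow_mul]
    rfl)
  obtain ⟨n, hn⟩ := IsPGroup.iff_card.1 (CommGroup.primaryComponent.isPGroup (G := A) (p := p))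
  have h2 : Function.Bijective fun a : Ap => a ^ ((P : Subgroup G).index * e) :=
    (powCoprime (hn ▸ Nat.Coprime.pow_left n (((Fact.out : p.Prime).coprime_iff_not_dvd).2
      ((Fact.out : p.Prime).not_dvd_mul P.not_dvd_index he)))).bijective
  have h3 : Function.Injective τ := fun a b hab => h2.1 (by simp only [← h1, hab])
  refine ⟨τ.range, ψ.ker, eq_bot_iff.2 ?_, eq_top_iff.2 fun b _ => ?_, ⟨MonoidHom.ofInjective h3⟩⟩
  · rintro _ ⟨⟨a, rfl⟩, ha⟩
    have : a = 1 := h2.1 (by simpa [← h1] using ha)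
    simp [this]
  · obtain ⟨a, ha⟩ := h2.2 (ψ b)
    rw [← mul_inv_cancel_left (τ a) b]
    refine Subgroup.mul_mem_sup ⟨a, rfl⟩ ?_
    rw [MonoidHom.mem_ker, map_mul, map_inv, h1, inv_mul_eq_one]
    exact ha

end Cfsg.Agent.S3953
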