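import Mathlib
import Cfsg.Statements.S3960
import Cfsg.Agent.H2.Schur2

set_option autoImplicit false
open scoped Pointwise commutatorElement
universe u
open Cfsg

namespace Cfsg.Agent.S3960

/-- A finite perfect group `Q` has a universal central extension: a finite perfect group `G` in the universe of `Q` and a surjective homomorphism `π : G →* Q` with central kernel such that for every group `X` in that universe and every surjective homomorphism `ξ : X →* Q` with central kernel there is exactly one homomorphism `η : G →* X` with `ξ ∘ η = π`. -/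
theorem result {Q : Type u} [Group Q] [Finite Q] (hQ : Group.IsPerfect Q) : ∃ (G : Type u) (_ : Group G) (_ : Finite G) (π : G →* Q), Group.IsPerfect G ∧ Function.Surjective π ∧ π.ker ≤ Subgroup.center G ∧ ∀ (X : Type u) [Group X] (ξ : X →* Q), Function.Surjective ξ → ξ.ker ≤ Subgroup.center X → ∃! η : G →* X, ξ.comp η = π := by
  refine ⟨H2.Schur.Univ Q, inferInstance, inferInstance, H2.Schur.univMap Q, inferInstance,
    H2.Schur.stem_univ.1, H2.Schur.stem_univ.2.1, fun X _ ξ h1 h2 => ?_⟩
  obtain ⟨η, hη⟩ := H2.Schur.exists_lift_univ ⟨h1, h2⟩ (MonoidHom.id Q)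
  exact ⟨η, hη, fun η' hη' => H2.Schur.hom_eq_of_perfect h2 (hη'.trans hη.symm)⟩

end Cfsg.Agent.S3960
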