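import Mathlib
import Cfsg.Statements.S3962
import Cfsg.Agent.H2.Schur2

set_option autoImplicit false
open scoped Pointwise commutatorElement
open Cfsg

namespace Cfsg.Agent.S3962

/-- Let `G` be a perfect group and `π : G →* Q` a surjective homomorphism whose kernel is central. Then `π` maps the centre of `G` onto the centre of `Q`. Taking `π` to be the map to `G ⧸ Z(G)` shows that the central quotient of a perfect group has trivial centre. -/
theorem result {G Q : Type*} [Group G] [Group Q] (hG : Group.IsPerfect G) (π : G →* Q) (hπ : Function.Surjective π) (hker : π.ker ≤ Subgroup.center G) : (Subgroup.center G).map π = Subgroup.center Q := by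
  refine le_antisymm ?_ fun q hq => ?_
  · rintro _ ⟨x, hx, rfl⟩
    refine Subgroup.mem_center_iff.2 fun q => ?_
    obtain ⟨y, rfl⟩ := hπ q
    rw [← map_mul, ← map_mul, Subgroup.mem_center_iff.1 hx]
  · obtain ⟨x, rfl⟩ := hπ q
    exact ⟨x, H2.Schur.comap_center hker hq, rfl⟩

end Cfsg.Agent.S3962
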