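import Mathlib
import Cfsg.Statements.S3966
import Cfsg.Agent.H2.Schur4

set_option autoImplicit false
open scoped Pointwise commutatorElement
open Cfsg

namespace Cfsg.Agent.S3966

/-- For even `n ≥ 2` the dicyclic group of order `4 n` is a stem extension of the dihedral group of order `2 n` with kernel of order `2`: there is a surjective homomorphism `QuaternionGroup n →* DihedralGroup n` whose kernel is central, lies in the commutator subgroup and has two elements. Together with the order of the multiplier this exhibits the dicyclic group as a Schur covering group of the dihedral group. -/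
theorem result (n : ℕ) [NeZero n] (hn : Even n) : ∃ σ : QuaternionGroup n →* DihedralGroup n, Cfsg.IsStemExtension σ ∧ Nat.card σ.ker = 2 := by
  obtain ⟨k, hk⟩ := hn
  let c := ZMod.castHom (dvd_mul_left n 2) (ZMod n)
  let σ : QuaternionGroup n →* DihedralGroup n := MonoidHom.mk' (fun x => match x with
    | .a i => .r (c i)
    | .xa i => .sr (c i)) (by rintro (i | i) (j | j) <;> simp [-ZMod.castHom_apply])
  have hc : Function.Surjective c := ZMod.castHom_surjective _
  have hker : σ.ker = Subgroup.zpowers (.a n) := by
    refine le_antisymm ?_ (Subgroup.zpowers_le.2 ?_)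
    · rintro (i | i) hi
      · have h1 : c i = 0 := DihedralGroup.r.inj hi
        rw [← ZMod.natCast_zmod_val i, map_natCast, ZMod.natCast_eq_zero_iff] at h1
        obtain ⟨j, hj⟩ := h1
        rw [← ZMod.natCast_zmod_val i, hj, ← QuaternionGroup.a_one_pow (n * j), pow_mul,
          QuaternionGroup.a_one_pow]
        exact pow_mem (Subgroup.mem_zpowers _) _
      · cases hi
    · change DihedralGroup.r (c n) = 1
      rw [map_natCast, ZMod.natCast_self, DihedralGroup.r_zero]
  have h2 : (n : ZMod (2 * n)) + n = 0 := by
    rw [← two_mul]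
    exact_mod_cast ZMod.natCast_self (2 * n)
  have h3 : (n : ZMod (2 * n)) = k + k := by exact_mod_cast congrArg Nat.cast hk
  refine ⟨σ, ⟨?_, ?_, ?_⟩, ?_⟩
  · rintro (i | i) <;> obtain ⟨j, rfl⟩ := hc i
    exacts [⟨.a j, rfl⟩, ⟨.xa j, rfl⟩]
  · rw [hker, Subgroup.zpowers_le, Subgroup.mem_center_iff]
    rintro (i | i)
    · simp [add_comm]
    · simp [sub_eq_add_neg, neg_eq_of_add_eq_zero_left h2]
  · rw [hker, Subgroup.zpowers_le]
    have : ⁅(.a k : QuaternionGroup n), (.xa 0 : QuaternionGroup n)⁆ = (.a n : QuaternionGroup n) := by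
      rw [commutatorElement_def, mul_inv_eq_iff_eq_mul, mul_inv_eq_iff_eq_mul]
      simp [h3]
    exact this ▸ Subgroup.commutator_mem_commutator (Subgroup.mem_top _) (Subgroup.mem_top _)
  · rw [hker, Nat.card_zpowers, ← QuaternionGroup.a_one_pow, orderOf_pow' _ (NeZero.ne n),
      QuaternionGroup.orderOf_a_one, Nat.gcd_eq_right (dvd_mul_left n 2),
      Nat.mul_div_cancel _ (NeZero.pos n)]

end Cfsg.Agent.S3966
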