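import Mathlib
import Cfsg.Statements.S3965
import Cfsg.Agent.H2.Schur4
import Cfsg.Agent.S3964
import Cfsg.Agent.S3966

set_option autoImplicit false
open scoped Pointwise commutatorElement
open Cfsg

namespace Cfsg.Agent.S3965

/-- For even `n ≥ 2` the dihedral group of order `2 n` has Schur multiplier cyclic of order `2`. -/
theorem result (n : ℕ) [NeZero n] (hn : Even n) : Cfsg.HasCyclicSchurMultiplier (DihedralGroup n) 2 := by
  obtain ⟨σ, hσ, hc⟩ := S3966.result n hn
  have : Fact (Nat.Prime 2) := ⟨Nat.prime_two⟩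
  refine H2.Schur.has_of_stem hσ (mulEquivOfPrimeCardEq hc (by simp)) fun Γ _ _ τ hτ => ?_
  simpa using Nat.le_of_dvd two_pos ((S3964.card_ker_dvd n hτ).trans (Nat.gcd_dvd_right _ _))

end Cfsg.Agent.S3965
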