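import Mathlib
import Cfsg.Statements.S3967
import Cfsg.Agent.H2.Schur4

set_option autoImplicit false
open scoped Pointwise commutatorElement
open Cfsg

namespace Cfsg.Agent.S3967

theorem aux (d m₁ n u l s₁ : ℕ) (hd : 0 < d) (hm : 0 < m₁) (hn : 0 < n) (hu : u.Coprime m₁)
    (hs : ∑ i ∈ Finset.range n, (d * u + 1) ^ i = m₁ * s₁) :
    HasCyclicSchurMultiplier (PresentedGroup ({FreeGroup.of true ^ (d * m₁),
      (FreeGroup.of false) ^ n * (FreeGroup.of true ^ (m₁ * l))⁻¹,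
      FreeGroup.of false * FreeGroup.of true * (FreeGroup.of false)⁻¹ *
        (FreeGroup.of true ^ (d * u + 1))⁻¹} : Set (FreeGroup Bool))) (l.gcd (d.gcd s₁)) := by
  set rels : Set (FreeGroup Bool) := {_, _, _}
  obtain ⟨k, hk⟩ : ∃ k, k = l.gcd (d.gcd s₁) := ⟨_, rfl⟩
  have hkl : k ∣ l := hk ▸ Nat.gcd_dvd_left _ _
  have hkd : k ∣ d := hk ▸ (Nat.gcd_dvd_right _ _).trans (Nat.gcd_dvd_left _ _)
  have hks : k ∣ s₁ := hk ▸ (Nat.gcd_dvd_right _ _).trans (Nat.gcd_dvd_right _ _)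
  have hk0 : k ≠ 0 := fun h => hd.ne' (Nat.eq_zero_of_zero_dvd (h ▸ hkd))
  have : NeZero k := ⟨hk0⟩
  have hsz : ∑ i ∈ Finset.range n, ((d : ℤ) * u + 1) ^ i = m₁ * s₁ := by exact_mod_cast hs
  let a : PresentedGroup rels := PresentedGroup.of true
  let b : PresentedGroup rels := PresentedGroup.of false
  have hg : Subgroup.closure {a, b} = ⊤ := by
    rw [← PresentedGroup.closure_range_of]
    congr 1
    ext x
    simp [a, b, or_comm]
  have h1 : a ^ (d * m₁) = 1 := PresentedGroup.one_of_mem (rels := rels) (by simp [rels])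
  have h2 : b ^ n = a ^ (m₁ * l) := PresentedGroup.mk_eq_mk_of_mul_inv_mem (rels := rels)
    (x := _ ^ _) (y := _ ^ _) (by simp [rels])
  have h3 : b * a * b⁻¹ = a ^ (d * u + 1) := PresentedGroup.mk_eq_mk_of_mul_inv_mem (rels := rels)
    (x := _ * _ * _⁻¹) (y := _ ^ _) (by simp [rels])
  have h3' : b * a * b⁻¹ = a ^ ((d : ℤ) * u + 1) := by exact_mod_cast h3
  have : Finite (PresentedGroup rels) := H2.Schur.finite_of_meta hg h3'
    (isOfFinOrder_iff_pow_eq_one.2 ⟨_, Nat.mul_pos hd hm, h1⟩) hn.ne'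
    (h2 ▸ pow_mem (Subgroup.mem_zpowers a) _)
  have ha : orderOf a = d * m₁ := by
    obtain ⟨Y, _, x, y, -, e1, e2, e3⟩ := H2.Schur.exists_meta (d * m₁) n hn.ne' (d * u + 1)
      (m₁ * l) (by rw [← geom_sum_mul, hsz]; exact ⟨s₁ * u, by push_cast; ring⟩)
      ⟨l * u, by push_cast; ring⟩
    refine Nat.dvd_antisymm (orderOf_dvd_of_pow_eq_one h1) ?_
    have := orderOf_map_dvd (PresentedGroup.toGroup (rels := rels) (f := fun i => cond i x y) (by
      rintro _ (rfl | rfl | rfl)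
      · simp [← e1]
      · simpa [mul_inv_eq_one] using (by exact_mod_cast e3 : y ^ n = x ^ (m₁ * l))
      · simpa [mul_inv_eq_one] using (by exact_mod_cast e2 : y * x * y⁻¹ = x ^ (d * u + 1)))) a
    rwa [PresentedGroup.toGroup.of, cond_true, e1] at this
  obtain ⟨j, hj⟩ := H2.Schur.exists_add_mul_coprime hu (Nat.mul_ne_zero hm.ne' hk0)
    (dvd_mul_right m₁ k)
  obtain ⟨Y, _, x, y, hxy, e1, e2, e3⟩ := H2.Schur.exists_meta (d * m₁ * k) n hn.ne'
    (d * (u + j * m₁) + 1) (m₁ * l) (by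
      have e : ∑ i ∈ Finset.range n, ((d : ℤ) * (u + j * m₁) + 1) ^ i ≡ m₁ * s₁ [ZMOD m₁ * k] := by
        rw [← hsz]
        refine Int.ModEq.sum fun i _ => Int.ModEq.pow i (Int.modEq_iff_dvd.2 ?_)
        obtain ⟨c, rfl⟩ := hkd
        exact ⟨-(c * j), by push_cast; ring⟩
      obtain ⟨c, hc⟩ := e.dvd_iff.2
        (mul_dvd_mul_left _ (Int.natCast_dvd_natCast.2 hks))
      rw [← geom_sum_mul, hc]
      exact ⟨c * (u + j * m₁), by push_cast; ring⟩) (by
      obtain ⟨c, rfl⟩ := hkl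
      exact ⟨c * (u + j * m₁), by push_cast; ring⟩)
  have e2' : y * x * y⁻¹ = x ^ (d * (u + j * m₁) + 1) := by exact_mod_cast e2
  have e3' : y ^ n = x ^ (m₁ * l) := by exact_mod_cast e3
  have hc : x ^ (d * m₁) ∈ Subgroup.center Y := H2.Schur.mem_center_of_gen hxy <| by
    rintro _ (rfl | rfl)
    · exact (Commute.refl _).pow_right _
    · refine mul_inv_eq_iff_eq_mul.1 ?_
      rw [← conj_pow, e2', ← pow_mul, add_mul, pow_add, one_mul, orderOf_dvd_iff_pow_eq_one.1,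
        one_mul]
      obtain ⟨c, rfl⟩ := hkd
      exact e1 ▸ ⟨c * (u + j * m₁), by ring⟩
  rw [← hk]
  refine H2.Schur.has_cyclic_pres rels (FreeGroup.lift fun i => cond i x y) ?_
    (w := ⁅FreeGroup.of false, FreeGroup.of true⁆ ^ m₁) ?_ (pow_mem
      (Subgroup.commutator_mem_commutator (Subgroup.mem_top _) (Subgroup.mem_top _)) _) ?_
    fun Γ _ _ σ hσ => ?_
  · rintro _ (rfl | rfl | rfl)
    · simpa using hc
    · simp [e3']
    · have : x ^ (d * (u + j * m₁) + 1) * (x ^ (d * u + 1))⁻¹ = (x ^ (d * m₁)) ^ j := by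
        rw [mul_inv_eq_iff_eq_mul, ← pow_mul, ← pow_add]
        congr 1
        ring
      simpa [e2', this] using pow_mem hc j
  · change (b * a * b⁻¹ * a⁻¹) ^ m₁ = 1
    rw [h3, pow_succ, mul_inv_cancel_right, ← pow_mul, mul_right_comm, pow_mul, h1, one_pow]
  · have : (FreeGroup.lift fun i => cond i x y) (⁅FreeGroup.of false, FreeGroup.of true⁆ ^ m₁) =
        (x ^ (d * m₁)) ^ (u + j * m₁) := by
      simp only [map_pow, commutatorElement_def, map_mul, map_inv, FreeGroup.lift_apply_of,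
        cond_true, cond_false, e2']
      rw [pow_succ, mul_inv_cancel_right, ← pow_mul, ← pow_mul, mul_right_comm]
    have e4 : orderOf (x ^ (d * m₁)) = k := by
      rw [orderOf_pow' _ (Nat.mul_pos hd hm).ne', e1, Nat.gcd_eq_right (dvd_mul_right _ _),
        Nat.mul_div_cancel_left _ (Nat.mul_pos hd hm)]
    rw [this, Nat.Coprime.orderOf_pow (e4 ▸ (Nat.Coprime.coprime_mul_left_right hj).symm), e4]
  · obtain ⟨o, o1, o2, o3⟩ := H2.Schur.meta_bound hg h3' hσ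
    have e4 : orderOf (a ^ d) = m₁ := by
      rw [orderOf_pow' _ hd.ne', ha, Nat.gcd_eq_right (dvd_mul_right _ _),
        Nat.mul_div_cancel_left _ hd]
    rw [add_sub_cancel_right, ← Nat.cast_mul, zpow_natCast, pow_mul,
      Nat.Coprime.orderOf_pow (e4 ▸ hu.symm), e4] at o1
    have o4 := o2 (d * m₁ : ℕ) (by rw [zpow_natCast, h1]; exact one_mem _)
    have o5 := o2 (m₁ * l : ℕ) (by rw [zpow_natCast, ← h2]; exact pow_mem (Subgroup.mem_zpowers b) _)
    have o6 := o3 n (h2 ▸ pow_mem (Subgroup.mem_zpowers a) _)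
    rw [hsz, ← Nat.cast_mul] at o6
    rw [Int.natCast_dvd_natCast, ← o1] at o4 o5 o6
    rw [mul_comm m₁] at o5 o6
    refine Nat.le_of_dvd (Nat.pos_of_ne_zero hk0) (hk ▸ Nat.dvd_gcd ?_ (Nat.dvd_gcd ?_ ?_))
    exacts [Nat.dvd_of_mul_dvd_mul_right hm o5, Nat.dvd_of_mul_dvd_mul_right hm o4,
      Nat.dvd_of_mul_dvd_mul_right hm o6]

/-- Let `m, n ≥ 1`, `r ≥ 1` with `r ^ n ≡ 1 (mod m)`, and `l` a natural number; put `d = gcd(m, r - 1)`, `t = m l / d` and `h = d · gcd(m, 1 + r + ⋯ + r^(n-1)) / m`. The group presented by generators `a, b` and relations `a ^ m = 1`, `b ^ n = a ^ t`, `b a b⁻¹ = a ^ r` (a metacyclic group of order `m n`) has Schur multiplier cyclic of order `gcd(l, h)`. -/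
theorem result (m n r l : ℕ) (hm : 0 < m) (hn : 0 < n) (hr : 0 < r) (hrn : r ^ n ≡ 1 [MOD m]) : Cfsg.HasCyclicSchurMultiplier (PresentedGroup ({FreeGroup.of true ^ m, (FreeGroup.of false) ^ n * (FreeGroup.of true ^ (m * l / Nat.gcd m (r - 1)))⁻¹, FreeGroup.of false * FreeGroup.of true * (FreeGroup.of false)⁻¹ * (FreeGroup.of true ^ r)⁻¹} : Set (FreeGroup Bool))) (Nat.gcd l (Nat.gcd m (r - 1) * Nat.gcd m (∑ i ∈ Finset.range n, r ^ i) / m)) := by
  obtain ⟨r, rfl⟩ : ∃ r', r = r' + 1 := ⟨r - 1, by omega⟩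
  obtain ⟨m₁, u, hu, e1, e2⟩ := Nat.exists_coprime m r
  rw [Nat.add_sub_cancel]
  obtain ⟨d, hd⟩ : ∃ d, d = Nat.gcd m r := ⟨_, rfl⟩
  rw [← hd] at e1 e2 ⊢
  rw [mul_comm] at e1 e2
  subst e1 e2
  have hd0 : 0 < d := Nat.pos_of_mul_pos_right hm |>.trans_le le_rfl
  have hm0 : 0 < m₁ := Nat.pos_of_mul_pos_left hm |>.trans_le le_rfl
  obtain ⟨s₁, hs⟩ : m₁ ∣ ∑ i ∈ Finset.range n, (d * u + 1) ^ i := by
    have h1 := (Nat.modEq_iff_dvd' (Nat.one_le_pow _ _ hr)).1 hrn.symm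
    rw [← geom_sum_mul_add, Nat.add_sub_cancel, mul_left_comm] at h1
    exact hu.dvd_of_dvd_mul_right (Nat.dvd_of_mul_dvd_mul_left hd0 h1)
  have e1 : d * m₁ * l / d = m₁ * l := by rw [mul_assoc, Nat.mul_div_cancel_left _ hd0]
  have e2 : d * (d * m₁).gcd (m₁ * s₁) / (d * m₁) = d.gcd s₁ := by
    rw [mul_comm d m₁, Nat.gcd_mul_left, ← mul_assoc, mul_comm d m₁,
      Nat.mul_div_cancel_left _ (Nat.mul_pos hm0 hd0)]
  rw [hs, e1, e2]
  exact aux d m₁ n u l s₁ hd0 hm0 hn hu.symm hs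

end Cfsg.Agent.S3967
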