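import Mathlib
import Cfsg.Statements.S3969
import Cfsg.Agent.Transfer.Wielandt
import Cfsg.Agent.Core.Coprime2
import Cfsg.Agent.PGrp.Frattini
-- import your own Cfsg.Agent.* helpers here

set_option autoImplicit false
open Cfsg

namespace Cfsg.Agent.S3969

open Cfsg.Agent.Transfer

open scoped IsMulCommutative

/-- Let `P` be an abelian Sylow `p`-subgroup of the finite group `G`, generated by `d` elements (`d` its minimal number of generators). If the order of `G` is coprime to `(p - 1)(p ^ 2 - 1) ⋯ (p ^ d - 1)`, then `G` has a normal `p`-complement. (The classical statement needs only the largest number of cyclic factors of `P` of equal order in place of `d`; the form here follows from it.) -/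
theorem result {G : Type*} [Group G] [Finite G] (p : ℕ) [Fact p.Prime] (P : Sylow p G) (hab : IsMulCommutative (P : Subgroup G)) (hcop : Nat.Coprime (Nat.card G) (∏ i ∈ Finset.Icc 1 (Group.rank (P : Subgroup G)), (p ^ i - 1))) : Cfsg.HasNormalPComplement p G := by
  have hp : p.Prime := Fact.out
  set U := Core.powKer (P : Subgroup G) hab p with hU
  have hUP : U ≤ P := fun _ h => h.1
  have hcard : Nat.card U ∣ p ^ Group.rank (P : Subgroup G) := by
    obtain ⟨T, hT, hT'⟩ := Group.rank_spec (P : Subgroup G)
    have h1 := PGrp.index_frattini_le_pow_card P.2 T hT'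
    let f : (P : Subgroup G) →* (P : Subgroup G) := powMonoidHom p
    have h2 : Nat.card f.ker = f.range.index := by
      have h3 := f.ker.card_mul_index
      rw [Subgroup.index_ker, ← f.range.card_mul_index, mul_comm] at h3
      exact Nat.eq_of_mul_eq_mul_left Nat.card_pos h3
    have h3 : f.range = frattini (P : Subgroup G) := le_antisymm
      (by rintro _ ⟨x, rfl⟩; exact PGrp.pow_mem_frattini P.2 x)
      ((PGrp.frattini_le_iff P.2).2 ⟨by
        rw [commutator_def, Subgroup.commutator_le]
        intro a _ b _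
        rw [commutatorElement_eq_one_iff_mul_comm.2 (mul_comm a b)]
        exact one_mem _, fun x => ⟨x, rfl⟩⟩)
    have h4 : U.subgroupOf P = f.ker := by
      ext x
      exact ⟨fun h => Subtype.ext h.2, fun h => ⟨x.2, congrArg Subtype.val h⟩⟩
    obtain ⟨k, hk⟩ := IsPGroup.iff_card.1 (P.2.to_le hUP)
    rw [← h3, ← h2, ← h4, Core.card_subgroupOf_of_le hUP, hk, hT] at h1
    rw [hk]
    exact pow_dvd_pow p ((Nat.pow_le_pow_iff_right hp.one_lt).1 h1)
  refine hasNormalPComplement_of_normalizer_le_centralizer P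
    (le_of_forall_prime_pow_mem fun q hq hqN x hx ⟨k, hk⟩ => ?_)
  have := Fact.mk hq
  have hxq : IsPGroup q (Subgroup.zpowers x) := IsPGroup.of_card (by rw [Nat.card_zpowers, hk])
  have hx' : Subgroup.zpowers x ≤ Subgroup.normalizer ((P : Subgroup G) : Set G) :=
    Subgroup.zpowers_le.2 hx
  by_cases hqp : q = p
  · subst hqp
    exact Subgroup.le_centralizer (P : Subgroup G) ((Core.isSylowOf_top P).le_of_le_normalizer' hxq
      le_top hx' (Subgroup.mem_zpowers x))
  have h1 := le_centralizer_of_not_dvd_pow_sub_one hqp hxq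
    (hx'.trans (Core.normalizer_le_normalizer_powKer _ hab p)) hcard fun i h1 h2 hd =>
      hq.one_lt.ne' (Nat.eq_one_of_dvd_coprimes hcop (hqN.trans (Subgroup.card_subgroup_dvd_card _))
        (hd.trans (Finset.dvd_prod_of_mem _ (Finset.mem_Icc.2 ⟨h1, h2⟩))))
  refine Core.le_centralizer_of_abelian_of_prime_orderOf _ _ hab hx'
    (IsPGroup.coprime_card_of_ne q p hqp _ _ hxq P.2) (fun v hv hv' => ?_) (Subgroup.mem_zpowers x)
  refine Subgroup.le_centralizer_iff.1 h1 ⟨hv, ?_⟩
  obtain ⟨j, hj⟩ := IsPGroup.iff_card.1 P.2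
  rw [← (Nat.prime_dvd_prime_iff_eq hv' hp).1
    (hv'.dvd_of_dvd_pow (hj ▸ Subgroup.orderOf_dvd_natCard _ hv)), pow_orderOf_eq_one]

end Cfsg.Agent.S3969
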