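import Mathlib
import Cfsg.Statements.S3970
import Cfsg.Agent.FGS.Meta
import Cfsg.Agent.FGS.Kazarin
import Cfsg.Agent.S0205

set_option autoImplicit false
open Cfsg

namespace Cfsg.Agent.S3970

open Subgroup Cfsg.Agent.FGS

/-- Let `G` be a finite group such that for every prime `p` dividing its order, other than the largest such prime, the Sylow `p`-subgroups are abelian and generated by at most two elements, and suppose `12` does not divide the order of `G`. Then `G` is solvable. In particular a group of cube-free order not divisible by `12` is solvable. -/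
theorem result {G : Type*} [Group G] [Finite G] (h : ∀ p : ℕ, p.Prime → p ∣ Nat.card G → (∃ q : ℕ, q.Prime ∧ q ∣ Nat.card G ∧ p < q) → ∀ P : Sylow p G, IsMulCommutative (P : Subgroup G) ∧ Group.rank (P : Subgroup G) ≤ 2) (h12 : ¬ 12 ∣ Nat.card G) : Group.IsSolvable G := by
  classical
  by_cases h2 : 2 ∣ Nat.card G
  swap
  · exact S0205.result (Nat.not_even_iff_odd.mp fun h => h2 (even_iff_two_dvd.mp h))
  by_cases hq : ∃ q : ℕ, q.Prime ∧ q ∣ Nat.card G ∧ 2 < q
  swap
  · have : IsPGroup 2 G := isPGroup_iff_forall_prime.mpr fun q hq' hd => by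
      by_contra hne
      exact hq ⟨q, hq', hd, lt_of_le_of_ne hq'.two_le (Ne.symm hne)⟩
    haveI := this.isNilpotent
    infer_instance
  obtain ⟨P⟩ : Nonempty (Sylow 2 G) := inferInstance
  obtain ⟨hc, hr⟩ := h 2 Nat.prime_two h2 hq P
  have hN : HasNormalPComplement 2 G := by
    refine Transfer.hasNormalPComplement_of_normalizer_le_centralizer P fun g hg => ?_
    refine mem_of_forall_pPart _ fun r j hr' a ha hj => ?_
    have haN : a ∈ normalizer ((P : Subgroup G) : Set G) := (zpowers_le.mpr hg) ha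
    by_cases hr2 : r = 2
    · subst hr2
      have := mem_sylow_of_mem_normalizer P hj haN
      exact mem_centralizer_iff.mpr fun y hy => Core.comm_of_isMulCommutative hc hy this
    by_contra hcn
    obtain ⟨S, hS1, hS2⟩ := Group.rank_spec (P : Subgroup G)
    have hf := (PGrp.index_frattini_le_pow_card P.isPGroup' S hS2).trans
      (Nat.pow_le_pow_right two_pos (hS1.le.trans hr))
    have h3 := dvd_sq_sub_one_of_not_cent P.isPGroup' hf haN hr' hr2 hj hcn
    have : r = 3 := (Nat.prime_dvd_prime_iff_eq hr' Nat.prime_three).mp h3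
    subst this
    have hj0 : j ≠ 0 := by
      rintro rfl
      exact hcn (by rw [show a = 1 from orderOf_eq_one_iff.mp (by simpa using hj)]; exact one_mem _)
    have h3G : 3 ∣ Nat.card G := (dvd_pow_self 3 hj0).trans (hj ▸ orderOf_dvd_natCard a)
    obtain ⟨n, hn⟩ := IsPGroup.iff_card.mp P.isPGroup'
    have hn1 : n ≤ 1 := by
      by_contra! hlt
      have h4 : 4 ∣ Nat.card G := (pow_dvd_pow 2 hlt : 2 ^ 2 ∣ 2 ^ n).trans (hn ▸ card_subgroup_dvd_card _)
      exact h12 (Nat.Coprime.mul_dvd_of_dvd_of_dvd (by norm_num : Nat.Coprime 3 4) h3G h4)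
    haveI : Fact (Nat.Prime 3) := ⟨hr'⟩
    refine hcn (Transfer.le_centralizer_of_not_dvd_pow_sub_one (p := 2) (q := 3) (by norm_num) (isPGroup_zpowers hj)
      (zpowers_le.mpr haN) (n := 1) (hn ▸ pow_dvd_pow 2 hn1) ?_ (mem_zpowers a))
    intro i h1 h2
    obtain rfl : i = 1 := le_antisymm h2 h1
    norm_num
  obtain ⟨N, _, hN1, hN2⟩ := Transfer.hasNormalPComplement_iff_exists_normal.mp hN
  haveI := hN2.isNilpotent
  exact (Group.isSolvable_iff_subgroup_quotient N).mpr
    ⟨S0205.result (Nat.not_even_iff_odd.mp fun h => hN1 (even_iff_two_dvd.mp h)), inferInstance⟩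

end Cfsg.Agent.S3970
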