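import Mathlib
import Cfsg.Statements.S3971
import Cfsg.Agent.FGS.Meta

set_option autoImplicit false
open Cfsg

namespace Cfsg.Agent.S3971

open Subgroup Cfsg.Agent.FGS

/-- Let `G` be a finite group of order `2 ^ a * n` with `n` odd and not divisible by `3`, and suppose `G` has an element of order `2 ^ (a - 1)` (so a Sylow `2`-subgroup has a cyclic subgroup of index at most `2`). Then `G` has a normal subgroup of order `n`. -/
theorem result {G : Type*} [Group G] [Finite G] (a n : ℕ) (hG : Nat.card G = 2 ^ a * n) (hn : Odd n) (h3 : ¬ 3 ∣ n) (hx : ∃ x : G, orderOf x = 2 ^ (a - 1)) : ∃ N : Subgroup G, N.Normal ∧ Nat.card N = n := by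
  obtain ⟨x, hx⟩ := hx
  obtain ⟨P, hP⟩ := exists_sylow_mem hx
  have hn2 : ¬ 2 ∣ n := fun h => (Nat.not_even_iff_odd.mpr hn) (even_iff_two_dvd.mpr h)
  have hc : Nat.card (P : Subgroup G) = 2 ^ a := by
    rw [P.card_eq_multiplicity, hG, Nat.factorization_mul (by positivity) hn.pos.ne', Nat.Prime.factorization_pow Nat.prime_two]
    simp [Nat.factorization_eq_zero_of_not_dvd hn2]
  have hm : IsMetacyclic (P : Subgroup G) := by
    let y : (P : Subgroup G) := ⟨x, hP⟩
    have hy : orderOf y = 2 ^ (a - 1) := by rw [← hx, ← orderOf_coe]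
    have h1 := (zpowers y).card_mul_index
    rw [Nat.card_zpowers, hy, hc] at h1
    have h2 : (zpowers y).index ∣ 2 := by
      rcases a with _ | a
      · simp at h1; simp [h1]
      · rw [Nat.add_sub_cancel, pow_succ] at h1
        exact (Nat.eq_of_mul_eq_mul_left (by positivity) h1).dvd
    rcases (Nat.dvd_prime Nat.prime_two).mp h2 with h3 | h3
    · exact PGrp.isMetacyclic_of_isCyclic (isCyclic_iff_exists_zpowers_eq_top.mpr ⟨y, index_eq_one.mp h3⟩)
    · haveI := normal_of_index_eq_two h3
      exact ⟨zpowers y, inferInstance, inferInstance, isCyclic_of_prime_card (p := 2) h3⟩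
  have h := hasNormalPComplement_of_isMetacyclic P hm fun q hq hq2 hqG hd => by
    have : q = 3 := (Nat.prime_dvd_prime_iff_eq hq Nat.prime_three).mp hd
    subst this
    rw [hG] at hqG
    rcases (Nat.Prime.dvd_mul hq).mp hqG with h1 | h1
    · exact absurd (hq.dvd_of_dvd_pow h1) (by norm_num)
    · exact h3 h1
  refine ⟨pResidual 2 G, Transfer.pResidual_normal, ?_⟩
  have := card_pResidual_mul_card_sylow h P
  rw [hc, hG, mul_comm] at this
  exact Nat.eq_of_mul_eq_mul_left (by positivity) this

end Cfsg.Agent.S3971
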