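import Mathlib
import Cfsg.Statements.S3977
import Cfsg.Agent.PGrp.Sect2
-- import your own Cfsg.Agent.* helpers here

set_option autoImplicit false
open Cfsg

namespace Cfsg.Agent.S3977

/-- Let `p` be a prime and `G` a group of order `p ^ m` which has exactly one subgroup of order `p ^ s`, where `1 ≤ s < m`, and where `s ≥ 2` if `p = 2`. Then `G` is cyclic. (For `p = 2` and `s = 1` the generalized quaternion groups also occur; that case is the classical criterion for a unique involution.) -/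
theorem result {G : Type*} [Group G] [Finite G] (p m s : ℕ) (hp : p.Prime) (hG : Nat.card G = p ^ m) (hs : 1 ≤ s) (hsm : s < m) (h2 : p ≠ 2 ∨ 2 ≤ s) (huniq : ∀ H K : Subgroup G, Nat.card H = p ^ s → Nat.card K = p ^ s → H = K) : IsCyclic G := by
  have : Fact p.Prime := ⟨hp⟩
  have hP : IsPGroup p G := IsPGroup.of_card hG
  obtain ⟨H, -, -, hH⟩ := PGrp.exists_normal_le_card_eq hP ⊤ s
    (by rw [Subgroup.card_top, hG]; exact Nat.pow_le_pow_right hp.pos hsm.le)
  -- every subgroup of order at most `p ^ s` lies in `H`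
  have h1 : ∀ K : Subgroup G, Nat.card K ≤ p ^ s → K ≤ H := by
    intro K hK
    obtain ⟨k, hk⟩ := PGrp.exists_card_eq_pow hP K
    rw [hk] at hK
    obtain ⟨L, hL, hKL⟩ := Sylow.exists_subgroup_card_pow_prime_le p (n := k) (m := s)
      (by rw [hG]; exact pow_dvd_pow p hsm.le) K hk ((Nat.pow_le_pow_iff_right hp.one_lt).mp hK)
    rw [← huniq L H hL hH]
    exact hKL
  -- `H` is cyclic
  have h2 : IsCyclic H := by
    obtain ⟨L, hL, hHL⟩ := Sylow.exists_subgroup_card_pow_prime_le p (n := s) (m := s + 1)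
      (by rw [hG]; exact pow_dvd_pow p hsm) H hH (by omega)
    obtain ⟨x, hxL, hxH⟩ : ∃ x ∈ L, x ∉ H := by
      by_contra hcon
      push Not at hcon
      have := Subgroup.card_le_of_le (show L ≤ H from hcon)
      rw [hL, hH] at this
      have := (Nat.pow_le_pow_iff_right hp.one_lt).mp this
      omega
    rcases (Subgroup.zpowers_le.mpr hxL).eq_or_lt with h | h
    · exact PGrp.isCyclic_of_le (PGrp.isCyclic_of_eq_zpowers h) hHL
    · exact absurd (h1 _ (PGrp.card_le_of_lt_of_card_eq_pow hL h) (Subgroup.mem_zpowers x)) hxH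
  have h3 : ∀ x : G, x ^ p = 1 → x ∈ H := by
    intro x hx
    refine h1 _ ?_ (Subgroup.mem_zpowers x)
    rw [Nat.card_zpowers]
    exact (Nat.le_of_dvd hp.pos (orderOf_dvd_of_pow_eq_one hx)).trans
      (Nat.le_self_pow (by omega) p)
  by_cases hp2 : p = 2
  · subst hp2
    have hs2 : 2 ≤ s := by simpa using h2
    by_contra hc
    obtain ⟨a, b, k, -, hm⟩ := PGrp.mc_of_normal_abelian_cyclic hP (fun A _ hA =>
      PGrp.isCyclic_of_comm_of_forall_pow_mem (hP.to_subgroup A) hA (hP.to_subgroup H) ‹_›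
        fun x _ hx => h3 x hx) hc
    have h4 : b ∈ H := by
      refine h1 _ ?_ (Subgroup.mem_zpowers b)
      rw [Nat.card_zpowers]
      have h5 : 2 ^ 2 ≤ 2 ^ s := Nat.pow_le_pow_right two_pos hs2
      rcases hm.y_sq with h6 | h6
      · have := Nat.le_of_dvd two_pos (orderOf_dvd_of_pow_eq_one (by rw [pow_two, h6] : b ^ 2 = 1))
        omega
      · rw [hm.four_of_sq h6]
        omega
    have h5 := PGrp.mc_card hm
    rw [hG] at h5
    have h6 := Nat.pow_right_injective le_rfl h5
    obtain ⟨L, hL, hLa⟩ := Sylow.exists_subgroup_le_card_pow_prime_of_le_card Nat.prime_two hP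
      (H := Subgroup.zpowers a) (n := s)
      (by rw [Nat.card_zpowers, hm.ord]; exact Nat.pow_le_pow_right two_pos (by omega))
    exact hm.ny (hL (huniq H L hH hLa ▸ h4))
  · refine PGrp.isCyclic_top_iff.mp (PGrp.isCyclic_of_card_omegaOne_le hp2 (hP.to_subgroup ⊤)
      ((Subgroup.card_le_of_le ?_).trans (PGrp.card_omegaOne_le_of_isCyclic (hP.to_subgroup H) ‹_›)))
    exact PGrp.omegaOne_le_iff.mpr fun x _ hx => PGrp.mem_omegaOne (h3 x hx) hx

end Cfsg.Agent.S3977
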