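import Mathlib
import Cfsg.Statements.S3978
import Cfsg.Agent.H2.Schur2

set_option autoImplicit false
open scoped Pointwise commutatorElement
open Cfsg

namespace Cfsg.Agent.S3978

/-- A finite group `Q` has trivial Schur multiplier if and only if, for every `n`, every homomorphism from `Q` to the projective general linear group (the quotient of `GL n ℂ` by its centre) lifts to a homomorphism into `GL n ℂ`. -/
theorem result {Q : Type*} [Group Q] [Finite Q] : Cfsg.HasCyclicSchurMultiplier Q 1 ↔ ∀ (n : ℕ) (γ : Q →* (GL (Fin n) ℂ ⧸ Subgroup.center (GL (Fin n) ℂ))), ∃ ρ : Q →* GL (Fin n) ℂ, (QuotientGroup.mk' (Subgroup.center (GL (Fin n) ℂ))).comp ρ = γ := by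
  have hc : Nat.card (MonoidHom.id Q).ker = 1 := by simp
  have : Subsingleton (MonoidHom.id Q).ker := (Nat.card_eq_one_iff_unique.1 hc).1
  have : Unique (MonoidHom.id Q).ker := uniqueOfSubsingleton 1
  have : Unique (Multiplicative (ZMod 1)) := uniqueOfSubsingleton 1
  refine ⟨fun h n γ => H2.Schur.exists_gl_lift h H2.Schur.stem_id MulEquiv.ofUnique n γ,
    fun h => ?_⟩
  obtain ⟨e⟩ := H2.Schur.cover_of_gl_lift H2.Schur.stem_id h
  exact H2.Schur.has_congr H2.Schur.has_mult (MulEquiv.refl Q) (e.symm.trans MulEquiv.ofUnique)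

end Cfsg.Agent.S3978
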