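import Mathlib
import Cfsg.Statements.S3992
import Cfsg.Agent.FGS.GK
import Cfsg.Agent.Perm.MinNormalProd

set_option autoImplicit false
open Cfsg

namespace Cfsg.Agent.S3992

open Subgroup FGS

variable {G : Type*} [Group G] [Finite G]

theorem eq_of_comm (h : ∀ π, Dis π G) {x y : G} (hc : Commute x y) {a b : ℕ} (ha : a.Prime) (hb : b.Prime)
    (h3 : a ∣ orderOf x) (h4 : b ∣ orderOf y) : b = a := by
  by_contra e
  exact (h {a}).comm hc ha hb rfl e h3 h4

theorem fc_prime [Group.IsSolvable G] (h : ∀ π, Dis π G) (hfc : Perm.IsFC G) :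
    ∃ q, ∀ r : ℕ, r.Prime → r ∣ Nat.card G → r = q := by
  rcases subsingleton_or_nontrivial G with h0 | h0
  · exact ⟨0, fun r hr e => absurd (Nat.dvd_one.mp (Nat.card_of_subsingleton (1 : G) ▸ e)) hr.one_lt.ne'⟩
  obtain ⟨N, q, hN, h1, -, hq, h2, -⟩ := Core.exists_minimal_normal_elementary_le (⊤ : Subgroup G) inferInstance top_ne_bot
  have : Fact q.Prime := ⟨hq⟩
  obtain ⟨y, hy⟩ := exists_prime_orderOf_dvd_card' q
    (Core.prime_dvd_card_of_isPGroup (Core.IsElementaryAbelian.isPGroup h2) h1)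
  rw [← Subgroup.orderOf_coe] at hy
  refine ⟨q, fun r hr e => ?_⟩
  have : Fact r.Prime := ⟨hr⟩
  obtain ⟨x, hx⟩ := exists_prime_orderOf_dvd_card' r e
  have h3 := hfc.commute_of_prime (hx ▸ hr) (hy ▸ hq) (hfc.mem_zpowers hq
    (by rw [← hy]; exact (MulAut.conj x).orderOf_eq _) hy
    (Core.comm_of_isMulCommutative h2.1 (hN.conj_mem _ y.2 x) y.2))
  exact eq_of_comm h h3.symm hq hr hy.symm.dvd hx.symm.dvd

theorem two_primes [Group.IsSolvable G] (h : ∀ π, Dis π G) : (Nat.card G).primeFactors.card ≤ 2 := by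
  rcases subsingleton_or_nontrivial G with h0 | h0
  · simp [Nat.card_of_subsingleton (1 : G)]
  obtain ⟨N, p, hN, h1, hp, h2⟩ := Core.exists_normal_pGroup (G := G)
  have : Fact p.Prime := ⟨hp⟩
  have h3 : piCore {p} G ≠ ⊥ := fun e =>
    h1 (le_bot_iff.mp (e ▸ (Core.le_pCore hN h2).trans (Core.pCore_le_piCore rfl)))
  obtain ⟨h4, h5⟩ := (h _).hall_quot h3
  obtain ⟨q, hq⟩ := fc_prime (fun π => ((h π).quot _).sub _) h4
  refine le_trans (Finset.card_le_card (t := {p, q}) fun r hr => ?_) Finset.card_le_two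
  obtain ⟨hr, h6, -⟩ := Nat.mem_primeFactors.mp hr
  rw [← (piCore {p} G).card_mul_index, index_eq_card, ← (piCore {p}ᶜ (G ⧸ piCore {p} G)).card_mul_index] at h6
  rw [Finset.mem_insert, Finset.mem_singleton]
  rcases hr.dvd_mul.mp h6 with e | e
  · exact Or.inl (Core.piCore_isPiSubgroup _ r hr e)
  rcases hr.dvd_mul.mp e with e | e
  · exact Or.inr (hq r hr e)
  · exact Or.inl (not_not.mp fun e' => h5.2 r hr e' e)

theorem rad_p (h : ∀ π, Dis π G) (hns : ¬ Group.IsSolvable G) (R : Subgroup G) [R.Normal] (hRs : Group.IsSolvable R) :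
    ∃ p : ℕ, p.Prime ∧ IsPGroup p R := by
  by_cases h0 : R = ⊥
  · exact ⟨2, Nat.prime_two, h0 ▸ IsPGroup.of_bot⟩
  obtain ⟨N, p, hN, h1, -, hp, h2⟩ := Core.exists_normal_pGroup_le R hRs h0
  have : Fact p.Prime := ⟨hp⟩
  refine ⟨p, hp, ?_⟩
  by_contra h3
  have h4 : pCore p G ≠ ⊥ := fun e => h1 (le_bot_iff.mp (e ▸ Core.le_pCore hN h2))
  have := Core.pCore_characteristic (G := G) p
  have := Subgroup.Normal.map ‹R.Normal› _ (QuotientGroup.mk'_surjective (pCore p G))
  obtain ⟨M, q, hM, h5, -, hq, h6, -⟩ := Core.exists_minimal_normal_elementary_le (R.map (QuotientGroup.mk' (pCore p G)))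
    (Group.isSolvable_of_surjective (MonoidHom.subgroupMap_surjective _ R)) (fun e => h3 ((Core.pCore_isPGroup p).to_le (by
      rwa [Subgroup.map_eq_bot_iff, QuotientGroup.ker_mk'] at e)))
  have : Fact q.Prime := ⟨hq⟩
  have h7 := Core.IsElementaryAbelian.isPGroup h6
  have hqp : q ≠ p := fun e => h5 (le_bot_iff.mp (Core.pCore_quotient_pCore (G := G) p ▸ Core.le_pCore hM (e ▸ h7)))
  obtain ⟨S⟩ : Nonempty (Sylow q G) := inferInstance
  have h8 := ((h {p}).fc_map (D := S) (by rw [Core.pCore_eq_piCore]; exact Core.piCore_isPiSubgroup _) h4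
    fun r hr e => by
      obtain ⟨k, hk⟩ := IsPGroup.iff_card.mp S.2
      rw [(Nat.prime_dvd_prime_iff_eq hr hq).mp (hr.dvd_of_dvd_pow (hk ▸ e))]
      exact hqp).of_injective _ (inclusion_injective
        (h7.le_sylow_of_normal (S.mapSurjective (QuotientGroup.mk'_surjective _))))
  have := h6.1
  have := h8.isCyclic_of_comm (B := ⊤) inferInstance
  have : IsCyclic M := isCyclic_of_surjective _ topEquiv.surjective
  obtain ⟨y, hy⟩ := exists_prime_orderOf_dvd_card' q (Core.prime_dvd_card_of_isPGroup h7 h5)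
  rw [← Subgroup.orderOf_coe] at hy
  have h9 : IsPGroup q (centralizer (M : Set (G ⧸ pCore p G))) := IsPGroup.iff_card.mpr
    ⟨_, Nat.eq_prime_pow_of_unique_prime_dvd Nat.card_pos.ne' fun {r} hr e => by
      have : Fact r.Prime := ⟨hr⟩
      obtain ⟨x, hx⟩ := exists_prime_orderOf_dvd_card' r e
      rw [← Subgroup.orderOf_coe] at hx
      exact eq_of_comm (fun π => (h π).quot _) (x.2 y y.2) hq hr hy.symm.dvd hx.symm.dvd⟩
  have := h9.isNilpotent
  have := (Core.pCore_isPGroup (G := G) p).isNilpotent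
  have := Subgroup.Normal.quotient_commutative_iff_commutator_le.mpr (Core.commutator_le_centralizer_of_isCyclic M)
  have : Group.IsSolvable ((G ⧸ pCore p G) ⧸ centralizer (M : Set (G ⧸ pCore p G))) := Group.isSolvable_of_comm this.1.1
  have : Group.IsSolvable (G ⧸ pCore p G) := Group.isSolvable_of_ker_le_range (centralizer (M : Set _)).subtype
    (QuotientGroup.mk' (centralizer (M : Set _))) (by simp)
  exact hns (Group.isSolvable_of_ker_le_range (pCore p G).subtype (QuotientGroup.mk' (pCore p G)) (by simp))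

theorem exists_other (hs : ¬ Group.IsSolvable G) (a : ℕ) (ha : a.Prime) : ∃ b : ℕ, b.Prime ∧ b ≠ a ∧ ∃ x : G, orderOf x = b := by
  by_contra! h
  have : Fact a.Prime := ⟨ha⟩
  have : IsPGroup a G := IsPGroup.iff_card.mpr ⟨_, Nat.eq_prime_pow_of_unique_prime_dvd Nat.card_pos.ne' fun {r} hr e => by
    have : Fact r.Prime := ⟨hr⟩
    obtain ⟨x, hx⟩ := exists_prime_orderOf_dvd_card' r e
    exact not_not.mp fun e => h r hr e x hx⟩
  have := this.isNilpotent
  exact hs inferInstance

theorem almost [Nontrivial G] (h : ∀ π, Dis π G) (hs : ∀ N : Subgroup G, N.Normal → Group.IsSolvable N → N = ⊥) :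
    ∃ M : Subgroup G, M.Normal ∧ IsSimpleGroup M ∧ ¬ IsMulCommutative M ∧ ∀ N : Subgroup G, N.Normal → N ≠ ⊥ → M ≤ N := by
  obtain ⟨M, hM, h0, -, hmin⟩ := Core.exists_minimal_normal_le (⊤ : Subgroup G) top_ne_bot
  have h1 : ¬ Group.IsSolvable M := fun e => h0 (hs M hM e)
  refine ⟨M, hM, ?_, fun e => h1 (Group.isSolvable_of_comm e.1.1), fun N hN h2 => ?_⟩
  · obtain ⟨T, _, m, hT, hm, ⟨e⟩⟩ := Perm.minimal_normal_equiv_pi M h0 hmin
    have hi : ∀ j : Fin m, Function.Injective (MonoidHom.mulSingle (fun _ => T) j) := fun j a b e => by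
      simpa using congrFun e j
    have : Finite (Fin m → T) := Finite.of_equiv _ e.toEquiv
    have : Finite T := Finite.of_injective _ (hi ⟨0, hm⟩)
    have h3 : ¬ Group.IsSolvable T := fun hc => h1 (Group.isSolvable_of_comm fun a b => e.injective (by
      rw [map_mul, map_mul]; exact funext fun j => IsSimpleGroup.comm_iff_isSolvable.mpr hc _ _))
    obtain rfl : m = 1 := by
      by_contra h4
      obtain ⟨a, ha, -, x, hx⟩ := exists_other h3 2 Nat.prime_two
      obtain ⟨b, hb, hab, y, hy⟩ := exists_other h3 a ha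
      refine hab (eq_of_comm (fun π => (h π).sub M) (x := e.symm (Pi.mulSingle ⟨0, hm⟩ x))
        (y := e.symm (Pi.mulSingle ⟨1, by omega⟩ y)) 
        ((Pi.mulSingle_commute (f := fun _ => T) (show (⟨0, hm⟩ : Fin m) ≠ ⟨1, by omega⟩ by simp) x y).map _) ha hb ?_ ?_)
      · rw [MulEquiv.orderOf_eq, ← hx]; exact (orderOf_injective _ (hi _) x).symm.dvd
      · rw [MulEquiv.orderOf_eq]; exact ((orderOf_injective _ (hi _) y).trans hy).symm.dvd
    exact (e.trans (MulEquiv.piUnique fun _ => T)).isSimpleGroup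
  · refine inf_eq_left.mp ((hmin (M ⊓ N) inferInstance inf_le_left).resolve_left fun e => ?_)
    obtain ⟨x, hx, hx1⟩ := (bot_or_exists_ne_one N).resolve_left h2
    obtain ⟨a, ha, h3⟩ := Nat.exists_prime_and_dvd (mt orderOf_eq_one_iff.mp hx1)
    obtain ⟨b, hb, hab, y, hy⟩ := exists_other h1 a ha
    exact hab (eq_of_comm h (commute_of_normal_of_disjoint M N hM hN (disjoint_iff.mpr e) y x y.2 hx).symm ha hb h3
      (by rw [Subgroup.orderOf_coe, hy]))

/-- Let G be a finite non-solvable group in which every element has prime-power order, and let R be its largest solvable normal subgroup. Then R is a p-group for some prime p; G/R has a non-abelian simple normal subgroup contained in every nontrivial normal subgroup of G/R (its unique minimal normal subgroup); and the order of every solvable subgroup of G has at most two prime divisors. -/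
theorem result {G : Type*} [Group G] [Finite G] (hns : ¬ Group.IsSolvable G) (hpp : ∀ g : G, g ≠ 1 → IsPrimePow (orderOf g))
    (R : Subgroup G) [R.Normal] (hRs : Group.IsSolvable ↥R) (hRmax : ∀ N : Subgroup G, N.Normal → Group.IsSolvable ↥N → N ≤ R) :
    (∃ p : ℕ, p.Prime ∧ IsPGroup p ↥R) ∧
      (∃ M : Subgroup (G ⧸ R), M.Normal ∧ IsSimpleGroup ↥M ∧ ¬ IsMulCommutative ↥M ∧
        ∀ N : Subgroup (G ⧸ R), N.Normal → N ≠ ⊥ → M ≤ N) ∧
      ∀ H : Subgroup G, Group.IsSolvable ↥H → (Nat.card ↥H).primeFactors.card ≤ 2 := by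
  have h : ∀ π, Dis π G := fun π g a b ha hb h1 h2 h3 h4 => by
    by_cases hg : g = 1
    · exact ha.one_lt.ne' (by simpa [hg] using h3)
    obtain ⟨p, k, hp, -, e⟩ := (isPrimePow_nat_iff _).mp (hpp g hg)
    rw [← e] at h3 h4
    rw [(Nat.prime_dvd_prime_iff_eq ha hp).mp (ha.dvd_of_dvd_pow h3)] at h1
    exact h2 ((Nat.prime_dvd_prime_iff_eq hb hp).mp (hb.dvd_of_dvd_pow h4) ▸ h1)
  refine ⟨rad_p h hns R hRs, ?_, fun H _ => two_primes fun π => (h π).sub H⟩
  have : Nontrivial (G ⧸ R) := QuotientGroup.nontrivial_iff.mpr fun e => hns (by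
    subst e; exact Group.isSolvable_of_surjective (f := (⊤ : Subgroup G).subtype) fun g => ⟨⟨g, trivial⟩, rfl⟩)
  refine almost (fun π => (h π).quot R) fun N hN hs => ?_
  have h1 := hRmax (N.comap (QuotientGroup.mk' R)) inferInstance
    (Group.isSolvable_of_ker_le_range (inclusion ((QuotientGroup.ker_mk' R).ge.trans (ker_le_comap _ N)))
      ((QuotientGroup.mk' R).subgroupComap N) fun x hx => ⟨⟨x, (QuotientGroup.eq_one_iff _).mp (congrArg Subtype.val hx)⟩, rfl⟩)
  rw [← map_comap_eq_self_of_surjective (QuotientGroup.mk'_surjective R) N, Subgroup.map_eq_bot_iff, QuotientGroup.ker_mk']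
  exact h1

end Cfsg.Agent.S3992
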