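import Mathlib
import Cfsg.Statements.S3997
import Cfsg.Agent.FGS.Super

set_option autoImplicit false
open Cfsg

namespace Cfsg.Agent.S3997

open Subgroup

/-- Let G and H be finite groups with the same order type: for every m they have the same number of elements of order m. If G is nilpotent then so is H. -/
theorem result {G H : Type*} [Group G] [Finite G] [Group H] [Finite H] (hT : (∀ m : ℕ, Nat.card {g : G // orderOf g = m} = Nat.card {h : H // orderOf h = m})) (hG : Group.IsNilpotent G) :
    Group.IsNilpotent H := by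
  obtain ⟨e, he⟩ := FGS.exists_equiv_orderOf hT
  refine (Group.isNilpotent_of_finite_tfae.out 0 3 rfl rfl).mpr ?_
  intro p hp Q
  obtain ⟨P⟩ : Nonempty (Sylow p G) := inferInstance
  have h1 := FGS.ncard_orderOf_eq e he (fun n => ∃ k, n = p ^ k)
  have h2 : {g : G | ∃ k, orderOf g = p ^ k} = ((P : Subgroup G) : Set G) := by
    ext g
    exact ⟨fun ⟨k, hk⟩ => FGS.mem_sylow_of_normal P hk,
      fun h => FGS.exists_orderOf_eq_of_mem P.isPGroup' h⟩
  refine FGS.normal_of_coe_eq (s := fun n => ∃ k, n = p ^ k) ?_
  refine Set.eq_of_subset_of_ncard_le (fun h hh => FGS.exists_orderOf_eq_of_mem Q.isPGroup' hh) ?_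
  rw [h1, h2, ← Nat.card_coe_set_eq, ← Nat.card_coe_set_eq]
  change Nat.card P ≤ Nat.card Q
  rw [P.card_eq_multiplicity, Q.card_eq_multiplicity, Nat.card_congr e]

end Cfsg.Agent.S3997
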