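import Mathlib
import Cfsg.Statements.S3998
import Cfsg.Agent.FGS.Super

set_option autoImplicit false
open Cfsg

namespace Cfsg.Agent.S3998

open Subgroup

theorem key {H : Type*} [Group H] [Finite H]
    (h : ∀ r : ℕ, ∃ a b : ℕ, a * b = Nat.card H ∧ (∀ q : ℕ, q.Prime → q ∣ a → r ≤ q) ∧
      (∀ q : ℕ, q.Prime → q ∣ b → q < r) ∧
      {g : H | ∀ q : ℕ, q.Prime → q ∣ orderOf g → r ≤ q}.ncard = a) (d : ℕ) :
    ∀ r : ℕ, r + d = Nat.card H + 1 → ∃ K : Subgroup H, Group.IsSolvable K ∧
      (∀ q : ℕ, q.Prime → q ∣ K.index → q < r) ∧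
      (K : Set H) = {g : H | ∀ q : ℕ, q.Prime → q ∣ orderOf g → r ≤ q} := by
  induction d with
  | zero =>
    intro r hr
    refine ⟨⊥, inferInstance, fun q hq h => ?_, ?_⟩
    · rw [index_bot] at h
      have := Nat.le_of_dvd Nat.card_pos h
      omega
    · ext g
      simp only [coe_bot, Set.mem_singleton_iff, Set.mem_ofPred_eq]
      refine ⟨fun h q hq hd => ?_, fun h => ?_⟩
      · rw [h, orderOf_one] at hd; exact absurd (Nat.dvd_one.mp hd) hq.one_lt.ne'
      · by_contra hne
        obtain ⟨q, hq, hd⟩ := Nat.exists_prime_and_dvd (mt orderOf_eq_one_iff.mp hne)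
        have h1 := h q hq hd
        have := Nat.le_of_dvd Nat.card_pos (hd.trans (orderOf_dvd_natCard g))
        omega
  | succ d ih =>
    intro r hr
    obtain ⟨K, hK, hKi, hKs⟩ := ih (r + 1) (by omega)
    by_cases hp : r.Prime
    swap
    · have hne : ∀ q : ℕ, q.Prime → q ≠ r := by rintro q hq rfl; exact hp hq
      refine ⟨K, hK, fun q hq h => ?_, ?_⟩
      · have := hKi q hq h
        have := hne q hq
        omega
      · rw [hKs]
        ext g
        refine ⟨fun h q hq hd => ?_, fun h q hq hd => ?_⟩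
        · have := h q hq hd; omega
        · have := h q hq hd
          have := hne q hq
          omega
    have := Fact.mk hp
    have hKn : K.Normal := FGS.normal_of_coe_eq (s := fun n => ∀ q : ℕ, q.Prime → q ∣ n → r + 1 ≤ q) hKs
    obtain ⟨P⟩ : Nonempty (Sylow r H) := inferInstance
    have hi : ∀ q : ℕ, q.Prime → q ∣ (K ⊔ P : Subgroup H).index → q < r := by
      intro q hq h
      have h1 := hKi q hq (h.trans (index_dvd_of_le le_sup_left))
      have h2 : q ≠ r := by
        rintro rfl
        exact FGS.not_dvd_index_of_sylow_le P le_sup_right h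
      omega
    have hc : ∀ q : ℕ, q.Prime → q ∣ Nat.card (K ⊔ P : Subgroup H) → r ≤ q := by
      intro q hq h
      rcases (Nat.Prime.dvd_mul hq).mp (h.trans (Core.card_sup_dvd le_normalizer_of_normal)) with h | h
      · have := Fact.mk hq
        obtain ⟨⟨x, hx⟩, hx'⟩ := exists_prime_orderOf_dvd_card' q h
        have hxo : orderOf x = q := by simpa using hx'
        rw [← SetLike.mem_coe, hKs] at hx
        have := hx q hq hxo.symm.dvd
        omega
      · obtain ⟨k, hk⟩ := IsPGroup.iff_card.mp P.isPGroup'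
        rw [hk] at h
        rw [(Nat.prime_dvd_prime_iff_eq hq hp).mp (hq.dvd_of_dvd_pow h)]
    refine ⟨K ⊔ P, FGS.solvable_sup_of_normal hK (Core.solvable_of_isPGroup P.isPGroup'), hi, ?_⟩
    refine Set.eq_of_subset_of_ncard_le
      (fun g hg q hq hd => hc q hq (hd.trans (FGS.orderOf_dvd_card_of_mem hg))) ?_
    obtain ⟨a, b, hab, ha, -, hn⟩ := h r
    rw [hn, ← Nat.card_coe_set_eq]
    refine Nat.le_of_dvd Nat.card_pos ?_
    refine (FGS.coprime_of_primes ha hi).dvd_of_dvd_mul_right ?_
    change a ∣ Nat.card (K ⊔ P : Subgroup H) * _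
    rw [card_mul_index, ← hab]
    exact dvd_mul_right a b

/-- Let G and H be finite groups with the same order type (for every m the same number of elements of order m). If G is supersolvable then H is solvable. -/
theorem result {G H : Type*} [Group G] [Finite G] [Group H] [Finite H] (hT : (∀ m : ℕ, Nat.card {g : G // orderOf g = m} = Nat.card {h : H // orderOf h = m})) (hG : Cfsg.IsSupersolvable G) :
    Group.IsSolvable H := by
  obtain ⟨e, he⟩ := FGS.exists_equiv_orderOf hT
  have h : ∀ r : ℕ, ∃ a b : ℕ, a * b = Nat.card H ∧ (∀ q : ℕ, q.Prime → q ∣ a → r ≤ q) ∧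
      (∀ q : ℕ, q.Prime → q ∣ b → q < r) ∧
      {g : H | ∀ q : ℕ, q.Prime → q ∣ orderOf g → r ≤ q}.ncard = a := by
    intro r
    obtain ⟨N, hN, h1, h2⟩ := FGS.exists_normal_hall_of_supersolvable r _ G rfl hG
    refine ⟨Nat.card N, N.index, by rw [card_mul_index, Nat.card_congr e], h1, h2, ?_⟩
    rw [FGS.ncard_orderOf_eq e he (fun n => ∀ q : ℕ, q.Prime → q ∣ n → r ≤ q)]
    have : {g : G | ∀ q : ℕ, q.Prime → q ∣ orderOf g → r ≤ q} = (N : Set G) := by
      ext g
      exact ⟨fun h => FGS.mem_of_coprime_index (FGS.coprime_of_primes h h2),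
        fun h q hq hd => h1 q hq (hd.trans (FGS.orderOf_dvd_card_of_mem h))⟩
    rw [this]
    exact (Nat.card_coe_set_eq _).symm
  obtain ⟨K, hK, hi, -⟩ := key (H := H) h (Nat.card H + 1) 0 (by simp)
  have : K = ⊤ := by
    rw [← index_eq_one]
    by_contra hne
    obtain ⟨q, hq, hd⟩ := Nat.exists_prime_and_dvd hne
    exact absurd (hi q hq hd) (by simp)
  rw [this] at hK
  exact Core.solvable_of_mulEquiv topEquiv hK

end Cfsg.Agent.S3998
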