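import Mathlib
import Cfsg.Statements.S4002
import Cfsg.Agent.S3992

set_option autoImplicit false
open Cfsg

namespace Cfsg.Agent.S4002

theorem three (n : ℕ) (hn : 7 ≤ n) : ∃ p q r : ℕ, p.Prime ∧ q.Prime ∧ r.Prime ∧ p < q ∧ q < r ∧ r ≤ n ∧ n < p * q := by
  by_cases h1 : n ≤ 14
  · exact ⟨3, 5, 7, by norm_num, by norm_num, by norm_num, by omega, by omega, hn, by omega⟩
  by_cases h2 : n ≤ 31
  · exact ⟨5, 7, 11, by norm_num, by norm_num, by norm_num, by omega, by omega, by omega, by omega⟩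
  obtain ⟨p, a1, a2, a3⟩ := Nat.exists_prime_lt_and_le_two_mul (n / 8) (by omega)
  obtain ⟨q, b1, b2, b3⟩ := Nat.exists_prime_lt_and_le_two_mul (2 * (n / 8)) (by omega)
  obtain ⟨r, c1, c2, c3⟩ := Nat.exists_prime_lt_and_le_two_mul (4 * (n / 8)) (by omega)
  refine ⟨p, q, r, a1, b1, c1, by omega, by omega, by omega, ?_⟩
  have h3 : 4 ≤ n / 8 := by omega
  have h4 : n ≤ 8 * (n / 8) + 7 := by omega
  have := Nat.mul_le_mul a2 b2
  simp only [Nat.succ_eq_add_one] at this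
  nlinarith

/-- If the set of element orders of a finite group G is {1, 2, …, n} with n ≥ 7, then G is not solvable. -/
theorem result {G : Type*} [Group G] [Finite G] (n : ℕ) (hn : 7 ≤ n) (h : Set.range (orderOf : G → ℕ) = {k : ℕ | 1 ≤ k ∧ k ≤ n}) : ¬ Group.IsSolvable G := by
  intro hs
  obtain ⟨p, q, r, hp, hq, hr, h1, h2, h3, h4⟩ := three n hn
  obtain ⟨H, hH⟩ := Core.exists_isPiHall (G := G) {p, q, r}
  have key : ∀ a ∈ ({p, q, r} : Set ℕ), a.Prime ∧ a ∣ Nat.card H := fun a ha => by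
    have h5 : a.Prime ∧ a ≤ n := by rcases ha with rfl | rfl | rfl <;> exact ⟨‹_›, by omega⟩
    obtain ⟨g, hg⟩ : a ∈ Set.range (orderOf : G → ℕ) := h ▸ ⟨h5.1.one_le, h5.2⟩
    have h6 := hg ▸ orderOf_dvd_natCard g
    rw [← H.card_mul_index] at h6
    exact ⟨h5.1, ((Nat.Prime.dvd_mul h5.1).mp h6).resolve_right (hH.2 a h5.1 ha)⟩
  have h5 := S3992.two_primes (G := H) fun π => FGS.dis_of fun a ha b hb a1 b1 a2 b2 ⟨g, hg⟩ => by
    have h6 : a * b ∈ Set.range (orderOf : G → ℕ) := ⟨g, by rw [Subgroup.orderOf_coe, hg]⟩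
    rw [h] at h6
    have h7 : a ≠ b := fun e => hb (e ▸ ha)
    have h8 := h6.2
    rcases hH.1 a a1 a2 with rfl | rfl | rfl <;> rcases hH.1 b b1 b2 with rfl | rfl | rfl <;> first | exact h7 rfl | nlinarith
  have h6 : ({p, q, r} : Finset ℕ) ⊆ (Nat.card H).primeFactors := fun a ha =>
    have := key a (by simpa using ha)
    Nat.mem_primeFactors.mpr ⟨this.1, this.2, Nat.card_pos.ne'⟩
  have h7 := Finset.card_le_card h6
  rw [Finset.card_eq_three.mpr ⟨p, q, r, by omega, by omega, by omega, rfl⟩] at h7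
  omega

end Cfsg.Agent.S4002
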