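import Mathlib
import Cfsg.Statements.S4003
import Cfsg.Agent.PGrp.CyclicOdd
import Cfsg.Agent.Glaub.KInf

set_option autoImplicit false
open Cfsg

namespace Cfsg.Agent.S4003

open Subgroup
open scoped Pointwise commutatorElement

variable {G : Type*} [Group G] [Finite G]

theorem ncard_gen (x : G) : {y | zpowers y = zpowers x}.ncard = (orderOf x).totient := by
  classical
  have := Fintype.ofFinite (zpowers x)
  have h := IsCyclic.card_orderOf_eq_totient (α := zpowers x) (d := orderOf x) (by rw [← Nat.card_eq_fintype_card, Nat.card_zpowers])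
  rw [← h, ← Set.ncard_coe_finset, ← Set.ncard_image_of_injective _ (subtype_injective (zpowers x))]
  congr 1
  ext y
  simp only [Set.mem_setOf_eq, Finset.coe_filter, Finset.mem_univ, true_and, Set.mem_image, coe_subtype]
  refine ⟨fun e => ⟨⟨y, e ▸ mem_zpowers y⟩, by rw [← Subgroup.orderOf_coe, ← Nat.card_zpowers, e, Nat.card_zpowers], rfl⟩, ?_⟩
  rintro ⟨z, h1, rfl⟩
  exact eq_of_le_of_card_ge (zpowers_le.mpr z.2) (by rw [Nat.card_zpowers, Nat.card_zpowers, Subgroup.orderOf_coe, h1])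

theorem ncard_eq_sum (T : Set G) (hT : ∀ x ∈ T, ∀ y, zpowers y = zpowers x → y ∈ T) :
    T.ncard = ∑ C ∈ (zpowers '' T).toFinite.toFinset, (Nat.card C).totient := by
  classical
  rw [Set.ncard_eq_toFinset_card T, Finset.card_eq_sum_card_fiberwise (f := zpowers)
    (t := (zpowers '' T).toFinite.toFinset) fun x hx => by simpa using ⟨x, by simpa using hx, rfl⟩]
  refine Finset.sum_congr rfl fun C hC => ?_
  obtain ⟨x, hx, rfl⟩ : C ∈ zpowers '' T := by simpa using hC
  rw [Nat.card_zpowers, ← ncard_gen, ← Set.ncard_coe_finset]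
  congr 1
  ext y
  simpa using hT x hx y

omit [Finite G] in
theorem mul_pow_eq {x e d : G} (h1 : x⁻¹ * e * x = d * e) (h2 : Commute d x) (h3 : Commute d e) (k : ℕ) :
    (x * e) ^ k = x ^ k * (d ^ k.choose 2 * e ^ k) := by
  induction k with
  | zero => simp
  | succ k ih =>
    have h4 : e ^ k * x = x * (d ^ k * e ^ k) := by
      rw [← h3.mul_pow, ← h1]
      have := conj_pow (a := x⁻¹) (b := e) (i := k)
      rw [inv_inv] at this
      rw [this]; group
    have h5 : (k + 1).choose 2 = k.choose 2 + k := by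
      rw [Nat.choose_succ_succ' k 1, Nat.choose_one_right, add_comm]
    rw [pow_succ, ih, h5, pow_add d, pow_succ x k, pow_succ e k]
    calc _ = x ^ k * (d ^ k.choose 2 * (e ^ k * x)) * e := by simp only [mul_assoc]
      _ = _ := by rw [h4, ← mul_assoc (d ^ _), (h2.pow_left _).eq]; simp only [mul_assoc]

variable {p : ℕ} [hp : Fact p.Prime]

theorem pow_eq (hodd : p ≠ 2) {P E : Subgroup G} (hP : IsPGroup p P) (h1 : E ≤ P) (h2 : P ≤ normalizer (E : Set G))
    (h3 : IsElementaryAbelian p E) (h4 : Nat.card E = p ^ 2) {x e : G} (hx : x ∈ P) (he : e ∈ E) :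
    (x * e) ^ p = x ^ p := by
  have a1 : ⁅E, P⁆ ≤ E := commutator_le.mpr fun a ha b hb => by
    rw [commutatorElement_def, mul_assoc, mul_assoc, ← mul_assoc b]
    exact E.mul_mem ha ((h2 hb _).mp (E.inv_mem ha))
  have a2 : ⁅⁅E, P⁆, P⁆ = ⊥ := by
    by_cases h0 : ⁅E, P⁆ = ⊥
    · rw [h0, commutator_bot_left]
    have b1 := Glaub.commutator_lt_of_pgroup hP h1 le_rfl (fun e => h0 (by rw [e, commutator_bot_left]))
    have b2 := Glaub.commutator_lt_of_pgroup hP (a1.trans h1) le_rfl h0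
    have b3 : ⁅⁅E, P⁆, P⁆ ≤ ⁅E, P⁆ := commutator_mono a1 le_rfl
    obtain ⟨i, hi, e1⟩ := (Nat.dvd_prime_pow hp.out).mp (h4 ▸ card_dvd_of_le a1)
    obtain ⟨j, hj, e2⟩ := (Nat.dvd_prime_pow hp.out).mp (e1 ▸ card_dvd_of_le b3)
    have : i ≠ 2 := fun e => b1 (eq_of_le_of_card_ge a1 (by rw [e1, e, h4])).ge
    have : j ≠ i := fun e => b2 (eq_of_le_of_card_ge b3 (by rw [e1, e2, e])).ge
    rw [← card_eq_one, e2, show j = 0 by omega, pow_zero]
  have a3 : ⁅x⁻¹, e⁆ ∈ ⁅E, P⁆ := commutator_comm E P ▸ commutator_mem_commutator (P.inv_mem hx) he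
  rw [mul_pow_eq (d := ⁅x⁻¹, e⁆) (by simp [commutatorElement_def])
    (commutatorElement_eq_one_iff_commute.mp (mem_bot.mp (a2 ▸ commutator_mem_commutator a3 hx)))
    (congrArg Subtype.val (h3.1.1.1 ⟨_, a1 a3⟩ ⟨e, he⟩)), h3.2 e he]
  obtain ⟨k, hk⟩ := hp.out.dvd_choose_self two_ne_zero (lt_of_le_of_ne hp.out.two_le (Ne.symm hodd))
  rw [hk, pow_mul, h3.2 _ (a1 a3)]
  simp

theorem order_eq {x y : G} (h : y ^ p = x ^ p) (hx : p ^ 2 ∣ orderOf x) : orderOf y = orderOf x := by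
  have h1 : p ∣ orderOf x := (dvd_pow_self p two_ne_zero).trans hx
  have h2 := orderOf_pow_of_dvd hp.out.ne_zero h1
  have h3 : p ∣ orderOf (y ^ p) := by rw [h, h2]; exact Nat.dvd_div_of_mul_dvd (sq p ▸ hx)
  have h4 := h3.trans (orderOf_pow_dvd p)
  rw [← h, orderOf_pow_of_dvd hp.out.ne_zero h4] at h2
  rw [← Nat.div_mul_cancel h4, h2, Nat.div_mul_cancel h1]

theorem stepB {E : Subgroup G} [E.Normal] (h3 : ∀ e ∈ E, e ^ p = 1) (h4 : Nat.card E = p ^ 2)
    (h : ∀ x, ∀ e ∈ E, (x * e) ^ p = x ^ p) {s n : ℕ} (hn : p ^ (s + 2) ∣ n) :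
    p ^ (s + 2) ∣ {x : G | orderOf x = n}.ncard := by
  have h2 : p ^ 2 ∣ n := (pow_dvd_pow p (by omega)).trans hn
  have e1 : {x : G | orderOf x = n} = QuotientGroup.mk ⁻¹' ((QuotientGroup.mk : G → G ⧸ E) '' {x | orderOf x = n}) := by
    refine Set.Subset.antisymm (Set.subset_preimage_image _ _) ?_
    rintro y ⟨x, hx, e⟩
    have := h x _ (QuotientGroup.eq.mp e)
    rw [mul_inv_cancel_left] at this
    exact (order_eq this (hx ▸ h2)).trans hx
  have e2 : ∀ x : G, orderOf x = n → n ∣ orderOf (x : G ⧸ E) * p := fun x hx => by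
    rw [← hx, orderOf_dvd_iff_pow_eq_one, pow_mul]
    exact h3 _ ((QuotientGroup.eq_one_iff _).mp (by rw [QuotientGroup.mk_pow, pow_orderOf_eq_one]))
  have e3 : ∀ x : G, orderOf x = n → p ^ (s + 1) ∣ orderOf (x : G ⧸ E) := fun x hx =>
    Nat.dvd_of_mul_dvd_mul_right hp.out.pos (pow_succ p _ ▸ hn.trans (e2 x hx))
  rw [e1, ← Nat.card_coe_set_eq, QuotientGroup.card_preimage_mk, h4, add_comm, pow_add, Nat.card_coe_set_eq,
    ncard_eq_sum]
  · refine mul_dvd_mul_left _ (Finset.dvd_sum fun C hC => ?_)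
    obtain ⟨_, ⟨x, hx, rfl⟩, rfl⟩ := (Set.Finite.mem_toFinset _).mp hC
    rw [Nat.card_zpowers]
    refine Dvd.dvd.trans ?_ (Nat.totient_dvd_of_dvd (e3 x hx))
    rw [Nat.totient_prime_pow_succ hp.out]
    exact dvd_mul_right _ _
  · rintro _ ⟨x, hx, rfl⟩ y hy
    obtain ⟨i, rfl⟩ := (mem_powers_iff_mem_zpowers.mpr (hy ▸ mem_zpowers y) : y ∈ Submonoid.powers (x : G ⧸ E))
    have e4 : i.Coprime (orderOf (x : G ⧸ E)) := mem_zpowers_pow_iff.mp (hy ▸ mem_zpowers _)
    refine ⟨x ^ i, ?_, rfl⟩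
    rw [Set.mem_setOf_eq] at hx ⊢
    rw [Nat.Coprime.orderOf_pow, hx]
    rw [hx]
    exact ((e4.mul_right (e4.coprime_dvd_right ((dvd_pow_self p (Nat.succ_ne_zero _)).trans
      (e3 x hx)))).coprime_dvd_right (e2 x hx)).symm

omit [Finite G] hp in
theorem mem_of_coprime {M : Subgroup G} {g : G} {a b : ℕ} (h : a.Coprime b) (ha : g ^ a ∈ M) (hb : g ^ b ∈ M) : g ∈ M := by
  have := M.mul_mem (M.zpow_mem ha (Nat.gcdA a b)) (M.zpow_mem hb (Nat.gcdB a b))
  rwa [← zpow_natCast, ← zpow_natCast, ← zpow_mul, ← zpow_mul, ← zpow_add, ← Nat.gcd_eq_gcd_ab, h, Nat.cast_one,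
    zpow_one] at this

theorem norm_pow {x g : G} (h : x ∈ normalizer (zpowers g : Set G)) (k : ℕ) : x ∈ normalizer (zpowers (g ^ k) : Set G) := by
  refine mem_normalizer_fintype fun y hy => ?_
  obtain ⟨i, rfl⟩ := mem_zpowers_iff.mp hy
  obtain ⟨j, hj⟩ := mem_zpowers_iff.mp ((h g).mp (mem_zpowers g))
  have e : (g ^ j) ^ k = (g ^ k) ^ j := by rw [← zpow_natCast, ← zpow_mul, mul_comm, zpow_mul, zpow_natCast]
  rw [← conj_zpow, ← conj_pow, ← hj, e]
  exact zpow_mem (zpow_mem (mem_zpowers _) _) _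

theorem stepA (P : Sylow p G) {s m : ℕ} (hm : p.Coprime m) (hφ : ¬ p ∣ m.totient) :
    p ^ (s + 1) ∣ {x : G | orderOf x = p ^ (s + 1) * m ∧ x ∉ (P : Subgroup G) ⊔ centralizer ((P : Subgroup G) : Set G)}.ncard := by
  set M := (P : Subgroup G) ⊔ centralizer ((P : Subgroup G) : Set G)
  set T := {x : G | orderOf x = p ^ (s + 1) * m ∧ x ∉ M}
  rw [ncard_eq_sum T fun x hx y hy => ⟨by rw [← Nat.card_zpowers, hy, Nat.card_zpowers, hx.1],
    fun e => hx.2 (zpowers_le.mpr e (hy ▸ mem_zpowers x))⟩, Finset.sum_congr rfl (g := fun _ => (p ^ (s + 1) * m).totient)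
      fun C hC => by
        obtain ⟨x, hx, rfl⟩ := (Set.Finite.mem_toFinset _).mp hC
        rw [Nat.card_zpowers, hx.1], Finset.sum_const, smul_eq_mul, ← Set.ncard_eq_toFinset_card, Nat.totient_mul (hm.pow_left _),
    Nat.totient_prime_pow_succ hp.out, pow_succ']
  refine mul_dvd_mul ?_ ((dvd_mul_right _ _).mul_right _)
  letI : MulAction P (Subgroup G) := MulAction.compHom _ (MulAut.conj.comp (P : Subgroup G).subtype)
  let Y : SubMulAction P (Subgroup G) :=
    { carrier := zpowers '' T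
      smul_mem' := by
        rintro a _ ⟨x, hx, rfl⟩
        refine ⟨a * x * (a : G)⁻¹, ⟨((MulAut.conj (a : G)).orderOf_eq x).trans hx.1, fun e => hx.2 ?_⟩,
          (MonoidHom.map_zpowers (MulAut.conj (a : G)).toMonoidHom x).symm⟩
        have ha : (a : G) ∈ M := mem_sup_left a.2
        exact (M.mul_mem_cancel_left ha).mp ((M.mul_mem_cancel_right (M.inv_mem ha)).mp e) }
  have h1 := P.2.card_modEq_card_fixedPoints Y
  have : IsEmpty (MulAction.fixedPoints P Y) := ⟨fun ⟨⟨_, x, hx, rfl⟩, h2⟩ => hx.2 (by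
    have h3 : (P : Subgroup G) ≤ normalizer (zpowers x : Set G) := fun a ha =>
      mem_normalizer_iff_map_conj_eq.mpr (congrArg Subtype.val (h2 ⟨a, ha⟩))
    have h0 : m ≠ 0 := by rintro rfl; simp at hφ
    refine mem_of_coprime (hm.pow_left (s + 1)) (mem_sup_right ?_) (mem_sup_left ?_)
    · have h4 : (P : Subgroup G) ≤ normalizer (zpowers (x ^ p ^ (s + 1)) : Set G) := fun a ha => norm_pow (h3 ha) _
      have h5 : Nat.card (zpowers (x ^ p ^ (s + 1))) = m := by
        rw [Nat.card_zpowers, orderOf_pow_of_dvd (pow_ne_zero _ hp.out.ne_zero) (hx.1 ▸ dvd_mul_right _ _), hx.1,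
          Nat.mul_div_cancel_left _ (pow_pos hp.out.pos _)]
      intro a ha
      have h6 := orderOf_dvd_natCard ((zpowers (x ^ p ^ (s + 1))).normalizerMonoidHom ⟨a, h4 ha⟩)
      rw [IsCyclic.card_mulAut, h5] at h6
      obtain ⟨k, hk⟩ := P.2 ⟨a, ha⟩
      have h7 : (zpowers (x ^ p ^ (s + 1))).normalizerMonoidHom ⟨a, h4 ha⟩ ^ p ^ k = 1 := by
        rw [← map_pow, show (⟨a, h4 ha⟩ : normalizer _) ^ p ^ k = 1 from Subtype.ext (by simpa using congrArg Subtype.val hk), map_one]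
      have h8 := orderOf_eq_one_iff.mp (Nat.eq_one_of_dvd_coprimes
        (((Nat.Prime.coprime_iff_not_dvd hp.out).mpr hφ).pow_left k) (orderOf_dvd_of_pow_eq_one h7) h6)
      have h9 : a * x ^ p ^ (s + 1) * a⁻¹ = x ^ p ^ (s + 1) :=
        congrArg Subtype.val (DFunLike.congr_fun h8 (⟨_, mem_zpowers _⟩ : zpowers (x ^ p ^ (s + 1))))
      exact mul_inv_eq_iff_eq_mul.mp h9
    · have h4 : IsPGroup p (zpowers (x ^ m)) := IsPGroup.of_card (n := s + 1) (by
        rw [Nat.card_zpowers, orderOf_pow_of_dvd h0 (hx.1 ▸ dvd_mul_left _ _), hx.1,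
          Nat.mul_div_cancel _ (Nat.pos_of_ne_zero h0)])
      exact (P.is_maximal' (P.2.to_sup_of_normal_right' h4 fun a ha => norm_pow (h3 ha) _) le_sup_left).le
        (mem_sup_right (mem_zpowers _)))⟩
  rw [Nat.card_of_isEmpty (α := MulAction.fixedPoints P Y)] at h1
  exact (Nat.modEq_zero_iff_dvd).mp h1

/-- Let G be a finite group, p an odd prime dividing the order of G whose Sylow p-subgroups are not cyclic, and n = p^s·m with s > 1 and m coprime to p. Then the number of elements of G of order n is a multiple of p^s. -/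
theorem result {G : Type*} [Group G] [Finite G] (p : ℕ) [Fact p.Prime] (hodd : p ≠ 2) (hpG : p ∣ Nat.card G)
    (P : Sylow p G) (hP : ¬ IsCyclic ↥(P : Subgroup G)) (s m : ℕ) (hs : 1 < s) (hm : Nat.Coprime p m) :
    p ^ s ∣ Nat.card {g : G // orderOf g = p ^ s * m} := by
  change p ^ s ∣ {g : G | orderOf g = p ^ s * m}.ncard
  have hp : p.Prime := Fact.out
  obtain ⟨s, rfl⟩ : ∃ t, s = t + 2 := ⟨s - 2, by omega⟩
  by_cases hφ : p ∣ m.totient
  · rw [ncard_eq_sum _ fun x hx y hy => by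
      rw [Set.mem_setOf_eq, ← Nat.card_zpowers, hy, Nat.card_zpowers]; exact hx]
    refine Finset.dvd_sum fun C hC => ?_
    obtain ⟨x, hx, rfl⟩ := (Set.Finite.mem_toFinset _).mp hC
    rw [Nat.card_zpowers, hx, Nat.totient_mul (hm.pow_left _), Nat.totient_prime_pow_succ hp, pow_succ]
    exact mul_dvd_mul (dvd_mul_right _ _) hφ
  set M := (P : Subgroup G) ⊔ centralizer ((P : Subgroup G) : Set G)
  rw [← Set.ncard_inter_add_ncard_diff_eq_ncard _ (M : Set G)]
  refine dvd_add ?_ (stepA P hm hφ)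
  obtain ⟨E, h1, h2, h3, h4⟩ := PGrp.exists_invariant_elementary_sq hodd P.2 le_rfl le_normalizer hP
  have h5 : M ≤ normalizer (E : Set G) := sup_le h2 ((centralizer_le h1).trans (centralizer_le_normalizer _))
  have := normal_subgroupOf_of_le_normalizer h5
  have h6 := stepB (p := p) (E := E.subgroupOf M) (fun e he => Subtype.ext (h3.2 e he))
    (by rw [Nat.card_congr (subgroupOfEquivOfLe (h1.trans le_sup_left)).toEquiv, h4]) (fun x e he => Subtype.ext (by
      obtain ⟨a, ha, c, hc, hx⟩ := Set.mem_mul.mp (by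
        rw [← coe_mul_of_right_le_normalizer_left _ _ (centralizer_le_normalizer _)]
        exact x.2 : (x : G) ∈ ((P : Subgroup G) : Set G) * centralizer ((P : Subgroup G) : Set G))
      have c1 : Commute a c := hc a ha
      have c2 : Commute (e : G) c := hc e (h1 he)
      simp only [coe_mul, SubmonoidClass.coe_pow]
      rw [← hx, mul_assoc, ← c2.eq, ← mul_assoc, (c1.mul_left c2).mul_pow, c1.mul_pow, pow_eq hodd P.2 h1 h2 h3 h4 (e := e) ha he]))
    (dvd_mul_right (p ^ (s + 2)) m)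
  rw [← Set.ncard_image_of_injective _ (subtype_injective M)] at h6
  refine (congrArg (fun T : Set G => p ^ (s + 2) ∣ T.ncard) ?_).mpr h6
  ext x
  simp only [Set.mem_inter_iff, Set.mem_setOf_eq, SetLike.mem_coe, Set.mem_image, coe_subtype]
  exact ⟨fun h => ⟨⟨x, h.2⟩, by rw [← Subgroup.orderOf_coe]; exact h.1, rfl⟩, by
    rintro ⟨y, hy, rfl⟩; exact ⟨by rw [Subgroup.orderOf_coe, hy], y.2⟩⟩

end Cfsg.Agent.S4003
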