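import Mathlib
import Cfsg.Statements.S4006
import Cfsg.Agent.CIT.Hig2
import Cfsg.Agent.H2.FrobCenter
import Cfsg.Agent.PGrp.CyclicTwo
import Cfsg.Agent.Char.Central
import Cfsg.Agent.Core.MinNormal

set_option autoImplicit false
open Cfsg

namespace Cfsg.Agent.S4006

open Subgroup Cfsg.Agent.CIT.Hig
open scoped commutatorElement

theorem elem {P : Type*} [Group P] [Finite P] [Group.IsNilpotent P] {α τ : MulAut P} (h : FP α)
    (h4 : ∀ x : P, x ^ 4 = 1) (hτ : ∀ x, τ (α x) = α⁻¹ (τ x)) (hu : ∀ f, (f * τ f) ^ 2 = 1) :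
    (∀ x y : P, x * y = y * x) ∧ ∀ x : P, x ^ 2 = 1 := by
  have inv : ∀ x, α⁻¹ x = α (α x) := fun x => α.injective (by simp [h.cube])
  have hz : ∀ (β : MulAut P), ∀ z ∈ center P, β z ∈ center P := fun β z hz =>
    mem_center_iff.2 fun g => by
      obtain ⟨g, rfl⟩ := β.surjective g
      rw [← map_mul, ← map_mul, mem_center_iff.1 hz g]
  have s1 : ∀ z ∈ center P, z ^ 2 = 1 := by
    have k : ∀ z ∈ center P, τ (z ^ 2) = (z ^ 2)⁻¹ := fun z hz' => by
      have := hu z
      rw [(show Commute z (τ z) from (mem_center_iff.1 hz' _).symm).mul_pow, ← map_pow] at this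
      exact eq_inv_of_mul_eq_one_right this
    intro z hz'
    have h1 := k _ (hz α z hz')
    rw [← map_pow, hτ, k z hz', map_inv, inv_inj, inv] at h1
    exact h.2 _ (α.injective h1)
  letI : CommGroup (P ⧸ center P) := { (inferInstance : Group (P ⧸ center P)) with
    mul_comm := fun a b => by
      obtain ⟨a, rfl⟩ := QuotientGroup.mk_surjective a
      obtain ⟨b, rfl⟩ := QuotientGroup.mk_surjective b
      rw [← QuotientGroup.mk_mul, ← QuotientGroup.mk_mul, QuotientGroup.eq]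
      have := h.central b⁻¹ a⁻¹
      simpa [commutatorElement_def, mul_assoc] using this }
  have c1 : ∀ f g, ⁅f * τ f, g * τ g⁆ = 1 := fun f g => by
    have h1 : ((f * g) * τ (f * g))⁻¹ * ((f * τ f) * (g * τ g)) ∈ center P := by
      rw [← QuotientGroup.eq]
      simp only [map_mul, QuotientGroup.mk_mul]
      exact mul_mul_mul_comm _ _ _ _
    set z := ((f * g) * τ (f * g))⁻¹ * ((f * τ f) * (g * τ g)) with hzd
    have h2 : (f * τ f) * (g * τ g) = ((f * g) * τ (f * g)) * z := by rw [hzd]; group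
    have h3 : ((f * τ f) * (g * τ g)) ^ 2 = 1 := by
      rw [h2, (show Commute ((f * g) * τ (f * g)) z from mem_center_iff.1 h1 _).mul_pow, hu, s1 z h1,
        one_mul]
    have a := hu f
    have b := hu g
    generalize f * τ f = u at *
    generalize g * τ g = v at *
    rw [pow_two] at a b h3
    rw [commutatorElement_def, inv_eq_of_mul_eq_one_right a, inv_eq_of_mul_eq_one_right b, ← h3]
    group
  have c2 : ∀ f g, ⁅f * τ f, α⁻¹ (g * τ g)⁆ = 1 := fun f g => by rw [← h.key, c1, map_one]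
  have c3 : ∀ f g, ⁅f * τ f, α (g * τ g)⁆ = 1 := fun f g => by
    have : α (g * τ g) = α⁻¹ (α⁻¹ (g * τ g)) := by rw [inv, inv, h.cube]
    rw [this, ← h.key, c2, map_one]
  have gen : ∀ K : Subgroup P, center P ≤ K → (∀ f, f * τ f ∈ K) → (∀ f, α (f * τ f) ∈ K) →
      (∀ f, α⁻¹ (f * τ f) ∈ K) → ∀ x, x ∈ K := by
    intro K hK k1 k2 k3 x
    have h1 : ((x * τ x) * α (α⁻¹ x * τ (α⁻¹ x)) * α⁻¹ (α x * τ (α x)))⁻¹ * x ^ 3 ∈ center P := by
      rw [← QuotientGroup.eq]
      have e1 : α (τ (α⁻¹ x)) = α (α (τ x)) := by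
        rw [inv, hτ, hτ, inv, inv, h.cube]
      have e2 : α⁻¹ (τ (α x)) = α (τ x) := by rw [hτ, inv, inv, h.cube]
      have e3 := congrArg (QuotientGroup.mk (s := center P)) (h.norm (τ x))
      rw [map_mul, map_mul, e1, e2]
      simp only [MulAut.apply_inv_self, MulAut.inv_apply_self, QuotientGroup.mk_mul,
        QuotientGroup.mk_one, QuotientGroup.mk_pow] at e3 ⊢
      generalize (x : P ⧸ center P) = a at *
      generalize ((τ x : P) : P ⧸ center P) = b at *
      generalize ((α (τ x) : P) : P ⧸ center P) = c at *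
      generalize ((α (α (τ x)) : P) : P ⧸ center P) = d at *
      calc a * b * (a * d) * (a * c) = a ^ 3 * (b * c * d) := by
            simp only [pow_succ, pow_zero, one_mul, mul_one, mul_comm, mul_left_comm, mul_assoc]
        _ = _ := by rw [e3, mul_one]
    have h2 : x ^ 3 ∈ K := by
      have := K.mul_mem (K.mul_mem (K.mul_mem (k1 x) (k2 (α⁻¹ x))) (k3 (α x))) (hK h1)
      rwa [mul_inv_cancel_left] at this
    have h3 : x⁻¹ = x ^ 3 := inv_eq_of_mul_eq_one_right (by rw [← pow_succ', h4])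
    rw [← inv_mem_iff, h3]; exact h2
  have c4 : ∀ f, f * τ f ∈ center P := fun f => mem_center_iff.2 fun g => by
    have := gen (centralizer {f * τ f}) (center_le_centralizer _)
      (fun g => mem_centralizer_singleton_iff.2
        (commutatorElement_eq_one_iff_mul_comm.1 (c1 f g)).symm)
      (fun g => mem_centralizer_singleton_iff.2
        (commutatorElement_eq_one_iff_mul_comm.1 (c3 f g)).symm)
      (fun g => mem_centralizer_singleton_iff.2
        (commutatorElement_eq_one_iff_mul_comm.1 (c2 f g)).symm) g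
    exact mem_centralizer_singleton_iff.1 this
  have all := gen (center P) le_rfl c4 (fun f => hz _ _ (c4 f)) (fun f => hz _ _ (c4 f))
  exact ⟨fun x y => mem_center_iff.1 (all y) x, fun x => s1 x (all x)⟩

variable {G : Type*} [Group G] [Finite G]

theorem no_mix (ho : ∀ g : G, orderOf g ≤ 4) {a b : G} (ha : a ^ 4 = 1) (hb : b ^ 3 = 1)
    (hc : Commute a b) : a = 1 ∨ b = 1 := by
  by_contra! h
  haveI : Fact (Nat.Prime 3) := ⟨Nat.prime_three⟩
  have h1 := orderOf_eq_prime hb h.2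
  have h2 := orderOf_dvd_of_pow_eq_one ha
  have h3 : orderOf a ≠ 1 := fun e => h.1 (orderOf_eq_one_iff.1 e)
  have h4 := hc.orderOf_mul_eq_mul_orderOf_of_coprime
    (by rw [h1]; exact Nat.Coprime.coprime_dvd_left h2 (by norm_num))
  have h5 := ho (a * b)
  have h6 := orderOf_pos a
  rw [h4, h1] at h5; omega

theorem dich (ho : ∀ g : G, orderOf g ≤ 4) (g : G) : g ^ 3 = 1 ∨ g ^ 4 = 1 := by
  have h1 := ho g
  have h2 := orderOf_pos g
  rw [← orderOf_dvd_iff_pow_eq_one, ← orderOf_dvd_iff_pow_eq_one]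
  interval_cases orderOf g <;> simp

theorem mem34 {H : Subgroup G} {a : G} (h3 : a ^ 3 ∈ H) (h4 : a ^ 4 ∈ H) : a ∈ H := by
  have : a = (a ^ 3)⁻¹ * a ^ 4 := by group
  rw [this]; exact H.mul_mem (H.inv_mem h3) h4

theorem case_three (ho : ∀ g : G, orderOf g ≤ 4) {w : G} (hw : orderOf w = 4) (V : Subgroup G)
    [hV : V.Normal] (hne : V ≠ ⊥) (he : IsElementaryAbelian 3 V) :
    ∃ (N : Subgroup G) (_ : N.Normal), IsElementaryAbelian 3 N ∧
      ((IsCyclic (G ⧸ N) ∧ N.index = 4) ∨ Nonempty (G ⧸ N ≃* QuaternionGroup 2)) := by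
  haveI : Fact (Nat.Prime 2) := ⟨Nat.prime_two⟩
  obtain ⟨v, hv, hv1⟩ := (bot_or_exists_ne_one V).resolve_left hne
  set N := centralizer (V : Set G) with hNd
  have hN : N.Normal := inferInstance
  have hVN : V ≤ N := fun a ha => mem_centralizer_iff.2 fun b hb =>
    Core.comm_of_isMulCommutative he.1 hb ha
  have h3 : ∀ c ∈ N, c ^ 3 = 1 := fun c hc => by
    rcases dich ho c with h | h
    · exact h
    · rcases no_mix ho h (he.2 v hv) (mem_centralizer_iff.1 hc v hv).symm with h | h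
      · rw [h, one_pow]
      · exact absurd h hv1
  have h1 : ∀ c ∈ N, c ^ 4 = 1 → c = 1 := fun c hc h4 => by
    rw [pow_succ, h3 c hc, one_mul] at h4; exact h4
  have mk1 : ∀ g : G, (g : G ⧸ N) = 1 ↔ g ∈ N := fun g => QuotientGroup.eq_one_iff g
  have inv : ∀ t : G, t ^ 2 = 1 → t ∉ N → ∀ c ∈ N, t * c * t⁻¹ = c⁻¹ := by
    intro t ht htN c hc
    have hti : t⁻¹ = t := inv_eq_of_mul_eq_one_right (by rw [← pow_two, ht])
    have h2 : (t * c) ^ 2 ∈ N := by
      rw [← mk1, QuotientGroup.mk_pow, QuotientGroup.mk_mul, (mk1 c).2 hc, mul_one,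
        ← QuotientGroup.mk_pow, ht, QuotientGroup.mk_one]
    rcases dich ho (t * c) with h | h
    · exfalso; apply htN
      have : t * c ∈ N := by
        have e : t * c = ((t * c) ^ 2)⁻¹ * (t * c) ^ 3 := by group
        rw [e, h, mul_one]; exact N.inv_mem h2
      exact (N.mul_mem_cancel_right hc).1 this
    · have := h1 _ h2 (by rw [← pow_mul, show 2 * 4 = 4 * 2 by rfl, pow_mul, h, one_pow])
      rw [hti]
      exact eq_inv_of_mul_eq_one_left (by rw [← this, pow_two]; group)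
  have two : ∀ s t : G, s ^ 2 = 1 → s ∉ N → t ^ 2 = 1 → t ∉ N → s * t ∈ N := by
    intro s t hs hsN ht htN
    refine mem_centralizer_iff.2 fun a ha => ?_
    have e1 := inv t ht htN a (hVN ha)
    have e2 := inv s hs hsN a⁻¹ (hVN (V.inv_mem ha))
    rw [inv_inv] at e2
    calc a * (s * t) = (s * a⁻¹ * s⁻¹) * (s * t) := by rw [e2]
      _ = s * (t * a * t⁻¹) * t := by rw [e1]; group
      _ = _ := by group
  have hw4 : w ^ 4 = 1 := by rw [← hw, pow_orderOf_eq_one]
  have ht : (w ^ 2) ^ 2 = 1 := by rw [← pow_mul, hw4]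
  have htN : w ^ 2 ∉ N := fun h => by
    have := orderOf_dvd_of_pow_eq_one (h1 _ h (by
      rw [← pow_mul, show 2 * 4 = 4 * 2 by rfl, pow_mul, hw4, one_pow]))
    rw [hw] at this; norm_num at this
  set t := w ^ 2 with htd
  have cen : ∀ g : G, Commute (t : G ⧸ N) g := fun g => by
    have := two _ _ (show (g * t * g⁻¹) ^ 2 = 1 by rw [conj_pow, ht]; simp)
      (fun h => htN (by simpa [mul_assoc] using hN.conj_mem _ h g⁻¹)) ht htN
    rw [← mk1] at this
    simp only [QuotientGroup.mk_mul, QuotientGroup.mk_inv] at this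
    have h2 : (t : G ⧸ N) * t = 1 := by
      rw [← QuotientGroup.mk_mul, ← pow_two, ht, QuotientGroup.mk_one]
    rw [← h2, mul_left_inj, mul_inv_eq_iff_eq_mul] at this
    exact this.symm
  have ht2 : (t : G ⧸ N) ^ 2 = 1 := by rw [← QuotientGroup.mk_pow, ht, QuotientGroup.mk_one]
  have h3N : ∀ g : G, g ^ 3 = 1 → g ∈ N := fun g hg => by
    have hg' : (g : G ⧸ N) ^ 3 = 1 := by rw [← QuotientGroup.mk_pow, hg, QuotientGroup.mk_one]
    rcases dich ho (t * g) with h | h
    · exfalso; apply htN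
      have := congrArg (QuotientGroup.mk (s := N)) h
      rw [QuotientGroup.mk_pow, QuotientGroup.mk_mul, (cen g).mul_pow, hg', mul_one, pow_succ, ht2,
        one_mul, QuotientGroup.mk_one] at this
      exact (mk1 _).1 this
    · have := congrArg (QuotientGroup.mk (s := N)) h
      rw [QuotientGroup.mk_pow, QuotientGroup.mk_mul, (cen g).mul_pow, show 4 = 2 * 2 by rfl,
        pow_mul, ht2, one_pow, one_mul, show 2 * 2 = 3 + 1 by rfl, pow_succ, hg', one_mul,
        QuotientGroup.mk_one] at this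
      exact (mk1 _).1 this
  have q4 : ∀ q : G ⧸ N, q ^ 4 = 1 := fun q => by
    obtain ⟨g, rfl⟩ := QuotientGroup.mk_surjective q
    rcases dich ho g with h | h
    · rw [(mk1 g).2 (h3N g h), one_pow]
    · rw [← QuotientGroup.mk_pow, h, QuotientGroup.mk_one]
  have uq : ∀ q : G ⧸ N, q ^ 2 = 1 → q = 1 ∨ q = t := fun q hq => by
    obtain ⟨g, rfl⟩ := QuotientGroup.mk_surjective q
    by_cases hg : g ∈ N
    · exact Or.inl ((mk1 g).2 hg)
    right
    have hg4 := (dich ho g).resolve_left fun h => hg (h3N g h)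
    have hg2 := h1 (g ^ 2) (by rw [← mk1, QuotientGroup.mk_pow, hq]) (by
      rw [← pow_mul, show 2 * 4 = 4 * 2 by rfl, pow_mul, hg4, one_pow])
    have := (mk1 _).2 (two _ _ hg2 hg ht htN)
    rw [QuotientGroup.mk_mul, ← ht2, pow_two, mul_left_inj] at this
    exact this
  refine ⟨N, hN, ⟨Core.isMulCommutative_of_forall fun a ha b hb => ?_, h3⟩, ?_⟩
  · have e := inv t ht htN _ (N.mul_mem ha hb)
    have e2 : t * (a * b) * t⁻¹ = (t * a * t⁻¹) * (t * b * t⁻¹) := by group
    rw [e2, inv t ht htN a ha, inv t ht htN b hb, ← mul_inv_rev] at e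
    exact (inv_injective e).symm
  have hP : IsPGroup 2 (G ⧸ N) := fun q => ⟨2, q4 q⟩
  have key : ∀ H : Subgroup (G ⧸ N), Nat.card H = 2 → H = zpowers (t : G ⧸ N) := fun H hH => by
    refine eq_of_le_of_card_ge (fun q hq => ?_) ?_
    · have : q ^ 2 = 1 := by
        have := pow_card_eq_one' (x := (⟨q, hq⟩ : H))
        rw [hH] at this; exact congrArg Subtype.val this
      rcases uq q this with rfl | rfl
      · exact one_mem _
      · exact mem_zpowers _
    · rw [hH, Nat.card_zpowers]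
      exact Nat.le_of_dvd (by norm_num) (orderOf_dvd_of_pow_eq_one ht2)
  rcases PGrp.isCyclic_or_quaternion_of_unique hP (fun H K a b => (key H a).trans (key K b).symm)
    with hc | ⟨-, m, hm, ⟨e⟩⟩
  · refine Or.inl ⟨hc, ?_⟩
    obtain ⟨g, hg⟩ := hc.exists_generator
    have h5 : N.index ∣ 4 := by
      rw [index, ← orderOf_eq_card_of_forall_mem_zpowers hg]; exact orderOf_dvd_of_pow_eq_one (q4 g)
    have h6 : orderOf (w : G ⧸ N) = 2 ^ 2 := orderOf_eq_prime_pow (n := 1)
      (fun h => htN ((mk1 _).1 (by rw [htd, QuotientGroup.mk_pow]; exact h))) (q4 _)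
    exact Nat.dvd_antisymm h5 (by have := orderOf_dvd_natCard (w : G ⧸ N); rwa [h6] at this)
  · right
    have h5 : (QuaternionGroup.a 1 : QuaternionGroup (2 ^ m)) ^ 4 = 1 := by
      obtain ⟨q, hq⟩ := e.surjective (QuaternionGroup.a 1)
      rw [← hq, ← map_pow, q4, map_one]
    have h6 := Nat.le_of_dvd (by norm_num) (orderOf_dvd_of_pow_eq_one h5)
    rw [QuaternionGroup.orderOf_a_one] at h6
    have : m = 1 := by
      by_contra h
      have : 2 ^ 2 ≤ 2 ^ m := Nat.pow_le_pow_right (by norm_num) (by omega)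
      omega
    subst this
    exact ⟨e⟩

theorem case_two (ho : ∀ g : G, orderOf g ≤ 4) {w a : G} (hw : orderOf w = 4) (ha : orderOf a = 3)
    (V : Subgroup G) [hV : V.Normal] (hne : V ≠ ⊥) (he : IsElementaryAbelian 2 V) :
    ∃ (N : Subgroup G) (_ : N.Normal),
      (IsPGroup 2 ↥N ∧ Monoid.exponent ↥N = 4 ∧ Group.nilpotencyClass ↥N ≤ 2 ∧ N.index = 3) ∨
      (IsElementaryAbelian 2 N ∧ Nonempty (G ⧸ N ≃* Equiv.Perm (Fin 3))) := by
  haveI : Fact (Nat.Prime 2) := ⟨Nat.prime_two⟩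
  haveI : Fact (Nat.Prime 3) := ⟨Nat.prime_three⟩
  have p3 : ∀ g : G, ∀ k, g ^ 3 ^ k = 1 → g ^ 3 = 1 := fun g k hg => by
    rcases dich ho g with h | h
    · exact h
    · rw [orderOf_eq_one_iff.1 (Nat.eq_one_of_dvd_coprimes (Nat.Coprime.pow_left k (by norm_num))
        (orderOf_dvd_of_pow_eq_one hg) (orderOf_dvd_of_pow_eq_one h)), one_pow]
  have p2 : ∀ g : G, ∀ k, g ^ 2 ^ k = 1 → g ^ 4 = 1 := fun g k hg => by
    rcases dich ho g with h | h
    · rw [orderOf_eq_one_iff.1 (Nat.eq_one_of_dvd_coprimes (Nat.Coprime.pow_left k (by norm_num))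
        (orderOf_dvd_of_pow_eq_one hg) (orderOf_dvd_of_pow_eq_one h)), one_pow]
    · exact h
  obtain ⟨R⟩ : Nonempty (Sylow 3 G) := inferInstance
  obtain ⟨T⟩ : Nonempty (Sylow 2 G) := inferInstance
  have hR3 : ∀ g ∈ (R : Subgroup G), g ^ 3 = 1 := fun g hg => by
    obtain ⟨k, hk⟩ := R.isPGroup' ⟨g, hg⟩
    exact p3 g k (congrArg Subtype.val hk)
  have hRc : IsCyclic (R : Subgroup G) := by
    refine (H2.isCyclic_or_quaternion_of_semiregular (K := V) (H := R)
      (by rw [normalizer_eq_top]; exact le_top) (fun h hh h1 => ?_) hne le_rfl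
      R.isPGroup').resolve_right (by simp)
    rw [eq_bot_iff]
    rintro v ⟨hv, hc⟩
    refine (no_mix ho (a := v) (by rw [show 4 = 2 * 2 by rfl, pow_mul, he.2 v hv, one_pow])
      (hR3 h hh) (mem_centralizer_singleton_iff.1 hc)).resolve_right h1
  have hRd : Nat.card (R : Subgroup G) ∣ 3 := by
    obtain ⟨g, hg⟩ := hRc.exists_generator
    rw [← orderOf_eq_card_of_forall_mem_zpowers hg]
    exact orderOf_dvd_of_pow_eq_one (Subtype.ext (hR3 g g.2))
  have hT3 : (T : Subgroup G).index = 3 := by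
    have h0 : (T : Subgroup G).index ≠ 0 := index_ne_zero_of_finite
    have h1 : ∀ {d}, d.Prime → d ∣ (T : Subgroup G).index → d = 3 := fun {r} hr hd => by
      haveI := Fact.mk hr
      obtain ⟨g, hg⟩ := exists_prime_orderOf_dvd_card' (G := G) r (hd.trans (index_dvd_card _))
      have h2 : r ≠ 2 := by rintro rfl; exact T.not_dvd_index hd
      have h3 := ho g
      have h4 := hr.two_le
      rw [hg] at h3
      interval_cases r
      · exact absurd rfl h2
      · rfl
      · exact absurd hr (by norm_num)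
    have h2 := Nat.eq_prime_pow_of_unique_prime_dvd h0 h1
    generalize (T : Subgroup G).index.primeFactorsList.length = k at h2
    have h3 : 3 ^ k ∣ 3 ^ 1 := by
      refine Dvd.dvd.trans ?_ hRd
      rw [R.card_eq_multiplicity]
      exact pow_dvd_pow _ ((Nat.prime_three.pow_dvd_iff_le_factorization Nat.card_pos.ne').1
        (h2 ▸ index_dvd_card _))
    have h4 : k ≤ 1 := (Nat.pow_dvd_pow_iff_le_right (by norm_num)).1 h3
    have h5 : k ≠ 0 := by
      rintro rfl
      have : (T : Subgroup G) = ⊤ := index_eq_one.1 h2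
      obtain ⟨j, hj⟩ := T.isPGroup' ⟨a, this ▸ mem_top a⟩
      have := orderOf_dvd_of_pow_eq_one (p2 a j (congrArg Subtype.val hj))
      rw [ha] at this; norm_num at this
    rw [h2, show k = 1 by omega, pow_one]
  let e : G ⧸ (T : Subgroup G) ≃ Fin 3 := Finite.equivFinOfCardEq hT3
  let π : G →* Equiv.Perm (Fin 3) :=
    (Equiv.permCongrHom e).toMonoidHom.comp (MulAction.toPermHom G (G ⧸ (T : Subgroup G)))
  have hk : π.ker = (T : Subgroup G).normalCore := by
    rw [normalCore_eq_ker]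
    exact MonoidHom.ker_comp_of_injective _ _ (Equiv.permCongrHom e).injective
  have hN2 : IsPGroup 2 π.ker := T.isPGroup'.to_le (hk ▸ normalCore_le _)
  have hN4 : ∀ x ∈ π.ker, x ^ 4 = 1 := fun x hx => by
    obtain ⟨k, hk⟩ := hN2 ⟨x, hx⟩
    exact p2 x k (congrArg Subtype.val hk)
  have a3 : a ^ 3 = 1 := ha ▸ pow_orderOf_eq_one a
  have a1 : a ≠ 1 := by rintro rfl; simp at ha
  have hf : ∀ q ∈ π.ker, a * q * a⁻¹ = q → q = 1 := fun q hq h =>
    (no_mix ho (hN4 q hq) a3 (mul_inv_eq_iff_eq_mul.1 h).symm).resolve_right a1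
  have hFP : FP (MulAut.conjNormal a : MulAut π.ker) := ⟨by rw [← map_pow, a3, map_one],
    fun g e => Subtype.ext (hf g g.2 (congrArg Subtype.val e))⟩
  haveI := hN2.isNilpotent
  have h6 : π.ker.index ∣ 6 := by
    rw [index_ker]
    have := card_subgroup_dvd_card π.range
    rwa [Nat.card_perm, Nat.card_eq_fintype_card (α := Fin 3), Fintype.card_fin] at this
  have h3 : 3 ∣ π.ker.index := by
    have := index_dvd_of_le (show π.ker ≤ T by rw [hk]; exact normalCore_le _)
    rwa [hT3] at this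
  have h36 : π.ker.index = 3 ∨ π.ker.index = 6 := by
    have := Nat.le_of_dvd (by norm_num) h6
    interval_cases π.ker.index <;> omega
  refine ⟨π.ker, inferInstance, h36.imp (fun h => ⟨hN2, ?_, ?_, h⟩) fun h => ?_⟩
  · have hw4 : w ^ 4 = 1 := hw ▸ pow_orderOf_eq_one w
    have hwN : w ∈ π.ker := mem34 (by have := pow_index_mem π.ker w; rwa [h] at this) (by rw [hw4]; exact one_mem _)
    refine Nat.dvd_antisymm (Monoid.exponent_dvd_of_forall_pow_eq_one fun g =>
      Subtype.ext (hN4 g g.2)) ?_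
    have := Monoid.order_dvd_exponent (⟨w, hwN⟩ : π.ker)
    rwa [← Subgroup.orderOf_coe, hw] at this
  · rw [← Subgroup.lowerCentralSeries_eq_bot_iff_nilpotencyClass_le]
    exact H23.Kr.lcs_eq_bot_of_fpf (p := 3) (fun _ _ _ hF h0 => H23.Kr.hkk_three hF h0) _
      hFP.1 hFP.2
  have hs : Function.Surjective π := by
    rw [← MonoidHom.range_eq_top]
    refine eq_top_of_card_eq _ ?_
    rw [← index_ker, h, Nat.card_perm, Nat.card_eq_fintype_card (α := Fin 3), Fintype.card_fin]; rfl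
  refine ⟨?_, ⟨QuotientGroup.quotientKerEquivOfSurjective π hs⟩⟩
  have hπa : π a ≠ 1 := fun h' => a1 (by
    have := hN4 a h'
    rwa [pow_succ, a3, one_mul] at this)
  obtain ⟨C, hC⟩ : ∃ C : Equiv.Perm (Fin 3), π a * C * π a * C⁻¹ = 1 ∧ C * C = 1 := by
    have h1 : π a ^ 3 = 1 := by rw [← map_pow, a3, map_one]
    revert hπa h1
    generalize π a = A
    revert A; decide
  obtain ⟨c0, rfl⟩ := hs C
  have hw' : (a * c0 * a * c0⁻¹)⁻¹ ∈ π.ker := inv_mem (by simpa using hC.1)
  obtain ⟨⟨q, q2⟩, hq⟩ := hFP.surj ⟨_, hw'⟩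
  have hq' : q⁻¹ * (a * q * a⁻¹) = (a * c0 * a * c0⁻¹)⁻¹ := congrArg Subtype.val hq
  obtain ⟨c, hc, hπ⟩ : ∃ c, c * a * c⁻¹ = a⁻¹ ∧ π c = π c0 := ⟨q * c0, by
    have : c0 * a * c0⁻¹ = a⁻¹ * (q⁻¹ * (a * q * a⁻¹))⁻¹ := by rw [hq']; group
    calc q * c0 * a * (q * c0)⁻¹ = q * (c0 * a * c0⁻¹) * q⁻¹ := by group
      _ = q * (a⁻¹ * (a * q⁻¹ * a⁻¹ * q)) * q⁻¹ := by rw [this]; group
      _ = a⁻¹ := by group, by rw [map_mul, show π q = 1 from q2, one_mul]⟩
  rw [← hπ] at hC
  have c2 : c * c = 1 := hf _ (by simpa using hC.2) (by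
    have : c * a⁻¹ * c⁻¹ = a := by rw [← conj_inv, hc, inv_inv]
    calc a * (c * c) * a⁻¹ = (c * a⁻¹ * c⁻¹) * (c * c) * a⁻¹ := by rw [this]
      _ = c * a⁻¹ * c * a⁻¹ := by group
      _ = c * (c * a * c⁻¹) * c * a⁻¹ := by rw [hc]
      _ = c * c := by group)
  have hci : c⁻¹ = c := inv_eq_of_mul_eq_one_right c2
  have hπc : π c ≠ 1 := fun h' => hπa (by
    have h1 := hC.1
    have h2 : π a ^ 3 = 1 := by rw [← map_pow, a3, map_one]
    rw [h', inv_one, mul_one, mul_one] at h1
    rwa [pow_succ, pow_two, h1, one_mul] at h2)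
  obtain ⟨k1, k2⟩ := elem (τ := (MulAut.conjNormal c : MulAut π.ker)) hFP
    (fun x => Subtype.ext (hN4 x x.2))
    (fun x => by
      rw [← map_inv, ← MulAut.mul_apply, ← MulAut.mul_apply, ← map_mul, ← map_mul, ← hc]; simp)
    (fun f => Subtype.ext (by
      show ((f : G) * (c * f * c⁻¹)) ^ 2 = 1
      rcases dich ho (f * c) with h' | h'
      · exfalso; apply hπc
        have := congrArg π h'
        rwa [map_pow, map_mul, show π f = 1 from f.2, one_mul, pow_succ, pow_two, hC.2, one_mul,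
          map_one] at this
      · rw [hci, ← h']; simp only [pow_succ, pow_zero, one_mul, mul_assoc]))
  exact ⟨⟨⟨k1⟩⟩, fun x hx => congrArg Subtype.val (k2 ⟨x, hx⟩)⟩

/-- A finite group whose set of element orders is exactly {1, 2, 3, 4} has a normal subgroup N such that either N is a 2-group of exponent 4 and nilpotency class at most 2 with G/N of order 3, or N is an elementary abelian 2-group with G/N isomorphic to the symmetric group of degree 3, or N is an elementary abelian 3-group with G/N cyclic of order 4 or quaternion of order 8. -/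
theorem result {G : Type*} [Group G] [Finite G] (h : Set.range (orderOf : G → ℕ) = {k : ℕ | 1 ≤ k ∧ k ≤ 4}) :
    ∃ (N : Subgroup G) (_ : N.Normal),
      (IsPGroup 2 ↥N ∧ Monoid.exponent ↥N = 4 ∧ Group.nilpotencyClass ↥N ≤ 2 ∧ N.index = 3) ∨
      (Cfsg.IsElementaryAbelian 2 N ∧ Nonempty (G ⧸ N ≃* Equiv.Perm (Fin 3))) ∨
      (Cfsg.IsElementaryAbelian 3 N ∧ ((IsCyclic (G ⧸ N) ∧ N.index = 4) ∨ Nonempty (G ⧸ N ≃* QuaternionGroup 2))) := by
  have ho : ∀ g : G, orderOf g ≤ 4 := fun g => by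
    have : orderOf g ∈ Set.range (orderOf : G → ℕ) := ⟨g, rfl⟩
    rw [h] at this; exact this.2
  obtain ⟨w, hw⟩ : (4 : ℕ) ∈ Set.range (orderOf : G → ℕ) := by rw [h]; simp
  obtain ⟨a, ha⟩ : (3 : ℕ) ∈ Set.range (orderOf : G → ℕ) := by rw [h]; simp
  have hpr : ∀ r : ℕ, r.Prime → (∃ g : G, orderOf g = r) → r = 2 ∨ r = 3 := by
    rintro r hr ⟨g, hg⟩
    have h1 := ho g
    have h2 := hr.two_le
    rw [hg] at h1
    interval_cases r
    · simp
    · simp
    · exact absurd hr (by norm_num)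
  haveI : Group.IsSolvable G := Char.burnside_of_primes Nat.prime_two Nat.prime_three
    fun r hr hd => by
      haveI := Fact.mk hr
      exact hpr r hr (exists_prime_orderOf_dvd_card' r hd)
  have hT : (⊤ : Subgroup G) ≠ ⊥ := by
    intro e
    have : a = 1 := by simpa using (e ▸ mem_top a : a ∈ (⊥ : Subgroup G))
    rw [this] at ha; simp at ha
  obtain ⟨N, p, hN, hne, -, hpp, he, -⟩ :=
    Core.exists_minimal_normal_elementary_le (⊤ : Subgroup G) inferInstance hT
  obtain ⟨n0, hn0, hn01⟩ := (Subgroup.bot_or_exists_ne_one N).resolve_left hne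
  haveI := Fact.mk hpp
  rcases hpr p hpp ⟨n0, orderOf_eq_prime (he.2 n0 hn0) hn01⟩ with rfl | rfl
  · obtain ⟨M, hM, h'⟩ := case_two ho hw ha N hne he
    exact ⟨M, hM, h'.imp id Or.inl⟩
  · obtain ⟨M, hM, h'⟩ := case_three ho hw N hne he
    exact ⟨M, hM, Or.inr (Or.inr h')⟩

end Cfsg.Agent.S4006
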