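import Mathlib
import Cfsg.Statements.S4200
import Cfsg.Agent.FGS.ClassCount

set_option autoImplicit false
open Cfsg

namespace Cfsg.Agent.S4200

open Subgroup
open scoped Classical

theorem card_le {X : Type*} [Group X] [Finite X] (Y C : Subgroup X) :
    Nat.card C ≤ Y.index * Nat.card (C ⊓ Y : Subgroup X) := by
  rw [← Core.card_inf_mul_relIndex Y, mul_comm, inf_comm, ← relIndex_top_right]
  exact Nat.mul_le_mul_right _ (relIndex_le_of_le_right le_top (by
    rw [relIndex_top_right]; exact index_ne_zero_of_finite))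

theorem swap {X : Type*} [Group X] [Fintype X] (Y : Subgroup X) :
    ∑ x : X, Nat.card (centralizer ({x} : Set X) ⊓ Y : Subgroup X) =
      ∑ y : Y, Nat.card (centralizer ({(y : X)} : Set X)) := by
  rw [← Finset.sum_subtype (Finset.univ.filter (· ∈ Y)) (by simp)
    fun y => Nat.card (centralizer ({y} : Set X))]
  simp only [FGS.card_eq_card_filter, Finset.card_filter, Finset.sum_filter]
  rw [Finset.sum_comm]
  refine Finset.sum_congr rfl fun y _ => ?_
  by_cases hy : y ∈ Y
  · simp only [mem_inf, hy, and_true, if_true, FGS.mem_centralizer_symm (x := y)]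
  · simp [hy]

/-- Let Y be a subgroup of the finite group X, of index m. Then the numbers of conjugacy classes satisfy k(Y) ≤ m·k(X) and k(X) ≤ m·k(Y), and the second inequality is strict unless Y is normal in X. -/
theorem result {X : Type*} [Group X] [Finite X] (Y : Subgroup X) : Nat.card (ConjClasses Y) ≤ Y.index * Nat.card (ConjClasses X) ∧ Nat.card (ConjClasses X) ≤ Y.index * Nat.card (ConjClasses Y) ∧ (¬ Y.Normal → Nat.card (ConjClasses X) < Y.index * Nat.card (ConjClasses Y)) := by
  have := Fintype.ofFinite X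
  have hX := FGS.card_conjClasses_mul (G := X)
  have hY := FGS.card_conjClasses_mul (G := Y)
  have hm : 0 < Y.index := Nat.pos_of_ne_zero index_ne_zero_of_finite
  simp only [FGS.card_centralizer_subtype] at hY
  have h1 : Nat.card (ConjClasses X) * Nat.card X ≤
      Y.index * ∑ y : Y, Nat.card (centralizer ({(y : X)} : Set X)) := by
    rw [hX, ← swap, Finset.mul_sum]
    exact Finset.sum_le_sum fun x _ => card_le Y _
  rw [← index_mul_card Y, mul_left_comm] at h1
  replace h1 := Nat.le_of_mul_le_mul_left h1 hm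
  refine ⟨Nat.le_of_mul_le_mul_right ?_ (Nat.card_pos (α := Y)),
    Nat.le_of_mul_le_mul_right (h1.trans ?_) (Nat.card_pos (α := Y)),
    fun hn => Nat.lt_of_mul_lt_mul_right (h1.trans_lt ?_)⟩
  · rw [hY, mul_right_comm, index_mul_card, mul_comm, hX]
    refine (Finset.sum_le_sum fun y _ => card_le_of_le inf_le_left).trans ?_
    rw [← swap]
    exact Finset.sum_le_sum fun y _ => card_le_of_le inf_le_left
  · rw [mul_assoc, hY, Finset.mul_sum]
    exact Finset.sum_le_sum fun y _ => card_le Y _
  · rw [mul_assoc, hY, Finset.mul_sum]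
    refine Finset.sum_lt_sum (fun y _ => card_le Y _) ?_
    by_contra! h
    refine hn ⟨fun y hy g => ?_⟩
    have h2 := le_antisymm (card_le Y _) (h ⟨y, hy⟩ (Finset.mem_univ _))
    rw [← Core.card_inf_mul_relIndex Y, mul_comm, inf_comm] at h2
    obtain ⟨c, hc, z, hz, e⟩ := (Core.forall_exists_mul_iff_relIndex_eq_index _ _).mpr
      (Nat.eq_of_mul_eq_mul_right Nat.card_pos h2) g⁻¹
    have : g * y * g⁻¹ = z⁻¹ * y * z := by
      rw [← inv_inv g, e, inv_inv]
      calc _ = z⁻¹ * c⁻¹ * (y * c) * z := by group
        _ = _ := by rw [← mem_centralizer_singleton_iff.mp hc]; group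
    exact this ▸ mul_mem (mul_mem (inv_mem hz) hy) hz

end Cfsg.Agent.S4200
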