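import Mathlib
import Cfsg.Statements.S4203
import Cfsg.Agent.Char.Central
import Cfsg.Agent.Core.MinNormal
import Cfsg.Agent.H2.Fac2

set_option autoImplicit false
open Cfsg

namespace Cfsg.Agent.S4203

open Subgroup

theorem index_modEq {G : Type*} [Group G] [Finite G] {p : ℕ} [Fact p.Prime] (P : Sylow p G)
    {M : Subgroup G} (h : normalizer ((P : Subgroup G) : Set G) ≤ M) : M.index ≡ 1 [MOD p] := by
  have h1 := card_sylow_modEq_one p G
  have h2 := card_sylow_modEq_one p M
  rw [(P.subtype (le_normalizer.trans h)).card_eq_index_normalizer] at h2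
  change (normalizer ((P : Subgroup G).subgroupOf M : Set M)).index ≡ 1 [MOD p] at h2
  rw [← subgroupOf_normalizer_eq (le_normalizer.trans h)] at h2
  rw [P.card_eq_index_normalizer] at h1
  replace h1 := (congrArg (· % p) (relIndex_mul_index h)).trans h1
  simpa using (Nat.ModEq.trans (h2.mul_right M.index).symm h1)

/-- A finite group in which every maximal subgroup has index a prime or the square of a prime is solvable. -/
theorem result {G : Type*} [Group G] [Finite G] (h : ∀ M : Subgroup G, IsCoatom M → ∃ p : ℕ, p.Prime ∧ (M.index = p ∨ M.index = p ^ 2)) : Group.IsSolvable G := by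
  refine Core.induction_on_card (P := fun G _ _ => (∀ M : Subgroup G, IsCoatom M → ∃ p : ℕ, p.Prime ∧
    (M.index = p ∨ M.index = p ^ 2)) → Group.IsSolvable G) (fun G _ _ ih h => ?_) G h
  rcases subsingleton_or_nontrivial G with _ | _
  · infer_instance
  have h0 : Nat.card G ≠ 0 := Nat.card_pos.ne'
  obtain ⟨p, hp, hmax⟩ := (Nat.card G).primeFactors.exists_max_image id
    (Nat.nonempty_primeFactors.mpr Finite.one_lt_card)
  have := Fact.mk (Nat.prime_of_mem_primeFactors hp)
  obtain ⟨P⟩ := Sylow.nonempty (p := p) (G := G)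
  rcases eq_top_or_exists_le_coatom (normalizer ((P : Subgroup G) : Set G)) with e | ⟨M, hM, hle⟩
  · have := normalizer_eq_top_iff.mp e
    have := P.isPGroup'.isNilpotent
    refine H2.solvable_of_normal_quotient (P : Subgroup G) inferInstance (ih _ ?_ fun M hM => ?_)
    · rw [card_eq_card_quotient_mul_card_subgroup (P : Subgroup G)]
      exact (Nat.lt_mul_iff_one_lt_right Nat.card_pos).mpr ((one_lt_card_iff_ne_bot _).mpr
        (P.ne_bot_of_dvd_card (Nat.dvd_of_mem_primeFactors hp)))
    · have := h _ (isCoatom_comap_of_surjective (QuotientGroup.mk'_surjective _) hM)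
      rwa [index_comap_of_surjective _ (QuotientGroup.mk'_surjective _)] at this
  obtain ⟨q, hq, hi⟩ := h M hM
  have h1 := index_modEq P hle
  have hqp : q ≤ p := hmax q (Nat.mem_primeFactors.mpr ⟨hq, Dvd.dvd.trans (by
    rcases hi with e | e <;> simp [e]) M.index_dvd_card, h0⟩)
  have h2 : ¬ p ∣ q - 1 := fun hd => by
    have := Nat.le_of_dvd (by have := hq.one_lt; omega) hd
    have := hq.one_lt
    omega
  rcases hi with e | e <;> rw [e] at h1
  · exact absurd ((Nat.modEq_iff_dvd' hq.one_le).mp h1.symm) h2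
  have h3 := (Nat.modEq_iff_dvd' (Nat.one_le_pow _ _ hq.pos)).mp h1.symm
  rw [show q ^ 2 - 1 = (q + 1) * (q - 1) from Nat.sq_sub_sq q 1] at h3
  replace h3 := ((Nat.Prime.dvd_mul Fact.out).mp h3).resolve_right h2
  have h4 : p = q + 1 := by
    obtain ⟨c, hc⟩ := h3
    have := hq.two_le
    rcases c with _ | _ | c
    · omega
    · omega
    · rcases hqp.eq_or_lt with rfl | hlt
      · exact absurd ((Nat.dvd_add_right dvd_rfl).mp ⟨_, hc⟩) hq.not_dvd_one
      · nlinarith
  have h5 : q = 2 := hq.eq_two_or_odd'.resolve_right fun ho => by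
    have := (Fact.out : p.Prime).even_iff.mp (h4 ▸ ho.add_one)
    have := hq.two_le
    omega
  refine Char.burnside_of_primes Nat.prime_two Nat.prime_three fun r hr hd => ?_
  have := hmax r (Nat.mem_primeFactors.mpr ⟨hr, hd, h0⟩)
  have := hr.two_le
  simp only [id] at *
  omega

end Cfsg.Agent.S4203
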