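import Mathlib
import Cfsg.Statements.S4204
import Cfsg.Agent.FGS.Comm

set_option autoImplicit false
open Cfsg

namespace Cfsg.Agent.S4204

open Subgroup

def ser {G : Type*} [Group G] (H : Subgroup G) : ℕ → Subgroup G
  | 0 => ⊤
  | n + 1 => H.lowerCentralSeries n

instance ser_normal {G : Type*} [Group G] (H : Subgroup G) [H.Normal] : ∀ n, (ser H n).Normal
  | 0 => normal_top
  | n + 1 => FGS.lowerCentralSeries_normal H n

theorem ser_comm {G : Type*} [Group G] (H : Subgroup G) [H.Normal] : ∀ n, ⁅ser H n, H⁆ ≤ ser H (n + 1)
  | 0 => commutator_le_right _ _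
  | _ + 1 => le_rfl

theorem aux {G : Type*} [Group G] (H K : Subgroup G) [H.Normal] [K.Normal] (n : ℕ) :
    ∀ (N : Subgroup G) [N.Normal], (∀ i j, i + j = n + 1 → ser H i ⊓ ser K j ≤ N) →
    (H ⊔ K).lowerCentralSeries n ≤ N := by
  induction n with
  | zero =>
    exact fun N _ h => sup_le (le_trans (le_inf le_rfl le_top) (h 1 0 rfl))
      (le_trans (le_inf le_top le_rfl) (h 0 1 rfl))
  | succ n ih =>
    intro N _ h
    have := ((inferInstance : (H ⊔ K).Normal).map _ (QuotientGroup.mk'_surjective N))
    rw [Subgroup.lowerCentralSeries_succ, FGS.commutator_le_iff_le_comap]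
    refine ih _ fun i j e => FGS.commutator_le_iff_le_comap.mp ?_
    rw [Subgroup.commutator_comm]
    refine FGS.commutator_sup_le ?_ ?_ <;> rw [Subgroup.commutator_comm]
    · exact (le_inf ((commutator_mono inf_le_left le_rfl).trans (ser_comm H i))
        ((commutator_mono inf_le_right le_rfl).trans (commutator_le_left _ _))).trans
        (h (i + 1) j (by omega))
    · exact (le_inf ((commutator_mono inf_le_left le_rfl).trans (commutator_le_left _ _))
        ((commutator_mono inf_le_right le_rfl).trans (ser_comm K j))).trans
        (h i (j + 1) (by omega))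

/-- If `H` and `K` are normal subgroups of a finite group with `H` nilpotent of class at most `c` and `K` nilpotent of class at most `d` (the terms with index `c`, respectively `d`, of their lower central series are trivial, indices starting at `0`), then `HK` is nilpotent of class at most `c + d`. -/
theorem result {G : Type*} [Group G] [Finite G] (H K : Subgroup G) [H.Normal] [K.Normal] (c d : ℕ) (hH : H.lowerCentralSeries c = ⊥) (hK : K.lowerCentralSeries d = ⊥) : (H ⊔ K).lowerCentralSeries (c + d) = ⊥ := by
  refine eq_bot_iff.mpr (aux H K _ ⊥ fun i j e => ?_)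
  by_cases h : c < i
  · obtain ⟨m, rfl⟩ := Nat.exists_eq_add_of_lt h
    exact inf_le_left.trans ((H.lowerCentralSeries_antitone (Nat.le_add_right c m)).trans hH.le)
  · obtain ⟨m, rfl⟩ := Nat.exists_eq_add_of_lt (show d < j by omega)
    exact inf_le_right.trans ((K.lowerCentralSeries_antitone (Nat.le_add_right d m)).trans hK.le)

end Cfsg.Agent.S4204
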