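import Mathlib
import Cfsg.Statements.S4205

set_option autoImplicit false
open Cfsg

namespace Cfsg.Agent.S4205

/-- In a finite group whose upper central series reaches the whole group at step `c` (nilpotent of class at most `c`), starting from any subgroup and taking normalizers `c` times reaches the whole group. -/
theorem result {G : Type*} [Group G] [Finite G] (c : ℕ) (hG : Subgroup.upperCentralSeries G c = ⊤) (H : Subgroup G) : (fun K : Subgroup G => Subgroup.normalizer (K : Set G))^[c] H = ⊤ := by
  refine top_le_iff.mp (hG ▸ ?_)
  clear hG
  induction c with
  | zero => exact bot_le
  | succ c ih =>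
    intro x hx
    rw [Function.iterate_succ_apply']
    refine Subgroup.mem_normalizer_fintype fun k hk => ?_
    simpa [commutatorElement_def] using mul_mem (ih (Subgroup.mem_upperCentralSeries_succ_iff.mp hx k)) hk

end Cfsg.Agent.S4205
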