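import Mathlib
import Cfsg.Statements.S4207
import Cfsg.Agent.PGrp.Aut

set_option autoImplicit false
open Cfsg

namespace Cfsg.Agent.S4207

/-- Let `P` be a group of order `p^n` whose Frattini subgroup has index `p^r`. Then any group of automorphisms of `P` each of which induces the identity on the Frattini quotient has order dividing `p^(r(n-r))`; in particular it is a `p`-group. -/
theorem result {P : Type*} [Group P] [Finite P] {p n r : ℕ} [Fact p.Prime] (hP : Nat.card P = p ^ n) (hr : (frattini P).index = p ^ r) (A : Subgroup (MulAut P)) (hA : ∀ α ∈ A, ∀ x : P, α x * x⁻¹ ∈ frattini P) : Nat.card A ∣ p ^ (r * (n - r)) := by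
  classical
  have hG := IsPGroup.of_card hP
  obtain ⟨k, hk⟩ := IsPGroup.iff_card.mp ((PGrp.isPGroup_ker_autQuot_frattini hG).to_le (H := A)
    fun α hα => (PGrp.autQuot_eq_one_iff _).mpr fun x =>
      (inferInstance : (frattini P).Normal).mem_comm (hA α hα x))
  obtain ⟨T, -, hT, hc⟩ := PGrp.exists_subset_card_closure_eq_top hG hr Set.univ Subgroup.closure_univ
  have h1 : Nat.card (frattini P) = p ^ (n - r) := by
    have := (frattini P).index_mul_card
    rw [hr, hP] at this
    rw [← Nat.pow_div ((Nat.pow_dvd_pow_iff_le_right (Fact.out : p.Prime).one_lt).mp ⟨_, this.symm⟩)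
      (Fact.out : p.Prime).pos, ← this, Nat.mul_div_cancel_left _ (pow_pos (Fact.out : p.Prime).pos r)]
  have h2 : Nat.card A ≤ Nat.card (T → frattini P) :=
    Nat.card_le_card_of_injective (fun α t => ⟨_, hA α α.2 t⟩) fun α β e => Subtype.ext
      (MulEquiv.toMonoidHom_injective (MonoidHom.eq_of_eqOn_dense hc fun t ht =>
        mul_right_cancel (congrArg Subtype.val (congrFun e ⟨t, ht⟩))))
  rw [Nat.card_fun, h1, Nat.card_eq_finsetCard, hT, ← pow_mul, mul_comm, hk] at h2
  rw [hk]
  exact pow_dvd_pow p ((Nat.pow_le_pow_iff_right (Fact.out : p.Prime).one_lt).mp h2)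

end Cfsg.Agent.S4207
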