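import Mathlib
import Cfsg.Statements.S4208
import Cfsg.Agent.S4207
import Cfsg.Agent.Core.Fitting

set_option autoImplicit false
open Cfsg

namespace Cfsg.Agent.S4208

/-- Let `P` be a group of order `p^n` whose Frattini subgroup has index `p^r`. Then the order of the automorphism group of `P` divides `p^(r(n-r)) · (p^r - 1)(p^r - p) ⋯ (p^r - p^(r-1))`. -/
theorem result {P : Type*} [Group P] [Finite P] {p n r : ℕ} [Fact p.Prime] (hP : Nat.card P = p ^ n) (hr : (frattini P).index = p ^ r) : Nat.card (MulAut P) ∣ p ^ (r * (n - r)) * ∏ i ∈ Finset.range r, (p ^ r - p ^ i) := by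
  have hG := IsPGroup.of_card hP
  have h1 := S4207.result hP hr (PGrp.autQuot (frattini P)).ker fun α hα x =>
    (inferInstance : (frattini P).Normal).mem_comm ((PGrp.autQuot_eq_one_iff _).mp hα x)
  obtain ⟨h2, h3⟩ := (PGrp.frattini_eq_bot_iff (hG.to_quotient (frattini P))).mp
    Core.frattini_quotient_frattini
  obtain ⟨φ, hφ⟩ := PGrp.exists_autMatrix h2 h3 hr
  have h4 := PGrp.card_dvd_card_GL φ hφ
  rw [Matrix.card_GL_field, ZMod.card, Finset.prod_fin_eq_prod_range] at h4
  rw [← Subgroup.card_mul_index (PGrp.autQuot (frattini P)).ker, Subgroup.index_ker]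
  refine mul_dvd_mul h1 ((Subgroup.card_subgroup_dvd_card _).trans (h4.trans (dvd_of_eq ?_)))
  exact Finset.prod_congr rfl fun i hi => by simp [Finset.mem_range.mp hi]

end Cfsg.Agent.S4208
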