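import Mathlib
import Cfsg.Statements.S4214
import Cfsg.Agent.BG.AmbHall2
import Cfsg.Agent.Core.Glauberman
import Cfsg.Agent.Core.MinNormal
import Cfsg.Agent.Core.Product
import Cfsg.Agent.Core.Hall
import Cfsg.Agent.Transfer.SylowConj
import Cfsg.Agent.FGS.Solv

set_option autoImplicit false
open Cfsg

namespace Cfsg.Agent.S4214

open Subgroup Cfsg.Agent.BG Cfsg.Agent.BG.Amb
open scoped Pointwise

theorem cent_list {G : Type*} [Group G] [Finite G] (N H : Subgroup G) : Group.IsSolvable H →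
    H ≤ 𝐍(N) → (Nat.card N).Coprime (Nat.card H) → ∃ l : List ℕ, (𝐂(H)).relIndex N = l.prod ∧
    ∀ x ∈ l, x ∣ Nat.card N ∧ ∃ r : ℕ, r.Prime ∧ r ∣ Nat.card H ∧ x ≡ 1 [MOD r] := by
  induction H using WellFoundedLT.induction with | _ H ih
  intro hs hn hc
  by_cases h0 : H = ⊥
  · exact ⟨[], by rw [h0, cent_bot, relIndex_top_left]; rfl, by simp⟩
  obtain ⟨A, P, p, hp, hd, hlt, hA, hP, rfl⟩ := Core.exists_normal_sup_pGroup hs h0
  have := Fact.mk hp
  obtain ⟨l, h1, h2⟩ := ih A hlt (solvable_mono hs hlt.le) (hlt.le.trans hn)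
    (hc.coprime_dvd_right (card_dvd_of_le hlt.le))
  refine ⟨(𝐂(P)).relIndex (𝐂(A) ⊓ N) :: l, by
    rw [List.prod_cons, ← h1, relIndex_inf_mul_relIndex, cent_sup, inf_comm], ?_⟩
  rw [List.forall_mem_cons]
  refine ⟨⟨(Core.relIndex_dvd_card' _ _).trans (card_dvd_of_le inf_le_right), p, hp, hd, ?_⟩,
    fun x hx => ⟨(h2 x hx).1, (h2 x hx).2.imp fun r hr =>
      ⟨hr.1, hr.2.1.trans (card_dvd_of_le hlt.le), hr.2.2⟩⟩⟩
  have h3 := Transfer.card_modEq_card_inf_centralizer hP (le_norm_inf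
    (le_norm_cent (le_sup_right.trans hA)) (le_sup_right.trans hn))
  rw [← Core.card_inf_mul_relIndex 𝐂(P), inf_comm] at h3
  refine Nat.ModEq.cancel_left_of_coprime ?_ (h3.trans (by rw [mul_one]))
  exact ((hc.coprime_dvd_right hd).coprime_dvd_left
    (card_dvd_of_le (inf_le_left.trans inf_le_right))).symm

def Good (G : Type*) [Group G] (m x : ℕ) : Prop :=
  (∃ q e : ℕ, q.Prime ∧ x = q ^ e) ∧ (∃ K L : Subgroup G, K.Normal ∧ L.Normal ∧ K < L ∧
    (∀ M : Subgroup G, M.Normal → K ≤ M → M ≤ L → M = K ∨ M = L) ∧ x ∣ K.relIndex L) ∧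
    (∃ q : ℕ, q.Prime ∧ q ∣ m ∧ x ≡ 1 [MOD q])

theorem Good.comap {G Q : Type*} [Group G] [Group Q] {f : G →* Q} (hf : Function.Surjective f)
    {m m' x : ℕ} (hm : m ∣ m') (h : Good Q m x) : Good G m' x := by
  obtain ⟨h1, ⟨K, L, hK, hL, hlt, hmax, hd⟩, q, hq, h2, h3⟩ := h
  refine ⟨h1, ⟨K.comap f, L.comap f, hK.comap f, hL.comap f, (comap_lt_comap_of_surjective hf).mpr hlt,
    fun M hM h4 h5 => ?_, by rwa [relIndex_comap, map_comap_eq_self_of_surjective hf]⟩,
    q, hq, h2.trans hm, h3⟩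
  rw [← comap_map_eq_self ((ker_le_comap f K).trans h4)]
  exact (hmax _ (hM.map f hf) (by rw [← map_comap_eq_self_of_surjective hf K]; exact map_mono h4)
    (map_le_iff_le_comap.mpr h5)).imp (congrArg _) (congrArg _)

theorem aux.{u} (π : Set ℕ) (G : Type u) [Group G] [Finite G] : Group.IsSolvable G →
    ∀ H : Subgroup G, IsPiHallOf π H ⊤ →
    ∃ l : List ℕ, (𝐍(H)).index = l.prod ∧ ∀ x ∈ l, Good G (Nat.card H) x := by
  refine Core.induction_on_card (P := fun G _ _ => Group.IsSolvable G → ∀ H : Subgroup G,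
    IsPiHallOf π H ⊤ → ∃ l : List ℕ, (𝐍(H)).index = l.prod ∧ ∀ x ∈ l, Good G (Nat.card H) x)
    (fun G _ _ ih hs H hH => ?_) G
  rcases subsingleton_or_nontrivial G with hG | hG
  · exact ⟨[], by rw [Subsingleton.elim 𝐍(H) ⊤, index_top]; rfl, by simp⟩
  obtain ⟨N, q, hN, hne, -, hq, hE, hmin⟩ := Core.exists_minimal_normal_elementary_le
    (⊤ : Subgroup G) inferInstance top_ne_bot
  have := Fact.mk hq
  have hf := QuotientGroup.mk'_surjective N
  obtain ⟨l, h1, h2⟩ := ih (G ⧸ N) (by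
      rw [card_eq_card_quotient_mul_card_subgroup N]
      exact (Nat.lt_mul_iff_one_lt_right Nat.card_pos).mpr ((one_lt_card_iff_ne_bot N).mpr hne))
    inferInstance (H.map (QuotientGroup.mk' N)) (by
      simpa only [map_top_of_surjective _ hf] using Core.IsPiHallOf.map hH (QuotientGroup.mk' N))
  rw [← index_comap_of_surjective _ hf, comap_normalizer_eq_of_surjective _ hf, comap_map_eq,
    QuotientGroup.ker_mk', sup_comm] at h1
  have h3 : 𝐍(H) ≤ 𝐍(N ⊔ H) := le_norm_sup le_normalizer_of_normal le_rfl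
  have h4 := frattini_hall_of_sup (M := 𝐍(N ⊔ H)) inferInstance (hall_of_le hH (le_sup_right : H ≤ N ⊔ H) le_top)
    (le_sup_left.trans le_normalizer) (le_normalizer.trans h3) le_rfl
  rw [inf_eq_right.mpr h3] at h4
  have hp := Core.IsElementaryAbelian.isPGroup hE
  obtain ⟨l', h5, h6⟩ : ∃ l : List ℕ, (𝐍(H)).relIndex N = l.prod ∧
      ∀ x ∈ l, x ∣ Nat.card N ∧ ∃ r : ℕ, r.Prime ∧ r ∣ Nat.card H ∧ x ≡ 1 [MOD r] := by
    by_cases hπ : q ∈ π
    · exact ⟨[], relIndex_eq_one.mpr ((normal_le_hall hH le_top le_normalizer_of_normal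
        (pi_of_isPGroup hp hπ)).trans le_normalizer), by simp⟩
    · have h7 : IsPiSubgroup πᶜ N := pi_of_isPGroup hp hπ
      rw [← inf_relIndex_left, inf_norm_eq_inf_cent le_normalizer_of_normal
        (inf_comm H N ▸ pi_inf_eq_bot (hall_pi hH) h7), inf_relIndex_left]
      exact cent_list N H inferInstance le_normalizer_of_normal (pi_coprime (hall_pi hH) h7).symm
  refine ⟨l' ++ l, ?_, List.forall_mem_append.mpr ⟨fun x hx => ?_, fun x hx =>
    (h2 x hx).comap hf (card_map_dvd _ _)⟩⟩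
  · rw [List.prod_append, ← h1, ← h5, ← relIndex_mul_index h3, ← Core.relIndex_sup_eq_relIndex
      (le_normalizer_of_normal (H := N)), h4]
  · obtain ⟨k, hk⟩ := IsPGroup.iff_card.mp hp
    obtain ⟨j, hj⟩ := FGS.exists_pow_of_dvd hq (hk ▸ (h6 x hx).1)
    exact ⟨⟨q, j, hq, hj⟩, ⟨⊥, N, inferInstance, hN, bot_lt_iff_ne_bot.mpr hne, fun M hM _ h =>
      hmin M hM h, by rw [relIndex_bot_left]; exact (h6 x hx).1⟩, (h6 x hx).2⟩

/-- Let `G` be a finite solvable group of order `mn` with `gcd(m, n) = 1`. Then the number of subgroups of order `m` is a product of natural numbers each of which is a power of a prime, divides the order of some chief factor of `G` (a quotient `L/K` of normal subgroups `K < L` of `G` with no normal subgroup of `G` strictly between them), and is congruent to `1` modulo some prime divisor of `m`. -/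
theorem result {G : Type*} [Group G] [Finite G] [Group.IsSolvable G] (m n : ℕ) (hG : Nat.card G = m * n) (hmn : Nat.Coprime m n) : ∃ (k : ℕ) (f : Fin k → ℕ), Nat.card {H : Subgroup G // Nat.card H = m} = ∏ i, f i ∧ ∀ i, (∃ q e : ℕ, q.Prime ∧ f i = q ^ e) ∧ (∃ K L : Subgroup G, K.Normal ∧ L.Normal ∧ K < L ∧ (∀ M : Subgroup G, M.Normal → K ≤ M → M ≤ L → M = K ∨ M = L) ∧ f i ∣ K.relIndex L) ∧ (∃ q : ℕ, q.Prime ∧ q ∣ m ∧ f i ≡ 1 [MOD q]) := by
  have hm : 0 < m := Nat.pos_of_mul_pos_right (hG ▸ Nat.card_pos)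
  have key : ∀ K : Subgroup G, IsPiHallOf {p | p ∣ m} K ⊤ ↔ Nat.card K = m := fun K => by
    have h1 := K.card_mul_index.trans hG
    refine ⟨fun h => Nat.dvd_antisymm ?_ ?_, fun h => ?_⟩
    · exact (piNat_coprime (hall_pi h) (piNat_of_coprime hmn)).dvd_of_dvd_mul_right ⟨_, h1.symm⟩
    · refine (piNat_coprime piNat_self (hall_index h)).dvd_of_dvd_mul_right ?_
      rw [relIndex_top_right, h1]
      exact dvd_mul_right _ _
    · subst h
      exact hall_of_coprime le_top (by rwa [relIndex_top_right, Nat.eq_of_mul_eq_mul_left hm h1])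
  obtain ⟨H, hH⟩ := exists_hall {p | p ∣ m} (inferInstance : Group.IsSolvable (⊤ : Subgroup G))
  obtain ⟨l, h1, h2⟩ := aux _ G inferInstance H hH
  rw [(key H).mp hH] at h2
  refine ⟨l.length, fun i => l[i], ?_, fun i => h2 _ (List.getElem_mem _)⟩
  let _ : MulAction G (Subgroup G) := MulAction.compHom _ (MulAut.conj : G →* MulAut G)
  refine Eq.trans ?_ (Fin.prod_univ_getElem l).symm
  rw [← h1, show 𝐍(H) = MulAction.stabilizer G H from
    Subgroup.ext fun g => mem_normalizer_iff_conj, MulAction.index_stabilizer, ← Nat.card_coe_set_eq]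
  refine Nat.card_congr (Equiv.subtypeEquivRight fun K => ⟨fun h => ?_, ?_⟩)
  · obtain ⟨g, -, rfl⟩ := hall_conj inferInstance hH ((key K).mpr h)
    exact ⟨g, rfl⟩
  · rintro ⟨g, rfl⟩
    exact (card_conj g H).trans ((key H).mp hH)

end Cfsg.Agent.S4214
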