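import Mathlib
import Cfsg.Statements.S4217
import Cfsg.Agent.H2.Gaschutz
import Cfsg.Agent.BG.AmbHall

set_option autoImplicit false
open Cfsg

namespace Cfsg.Agent.S4217

open Subgroup

theorem exists_cocycle {G : Type*} [Group G] [Finite G] (K U : Subgroup G) [K.Normal]
    (hK : IsMulCommutative K) (A : Subgroup G) (hd : Disjoint K A) (hKA : K ⊔ A = U) :
    ∃ F : G → K, (∀ g h, F (g * h) = MulAut.conjNormal g (F h) * F g) ∧
      ∀ k : K, F k = k ^ (U.index : ℤ) := by
  classical
  have hKU : K ≤ U := hKA ▸ le_sup_left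
  let _ : CommGroup K := { (inferInstance : Group K) with mul_comm := hK.is_comm.comm }
  have := Fintype.ofFinite (G ⧸ U)
  obtain ⟨κ, -, hκ2, hκ3⟩ := H2.exists_component K A hd
  rw [hKA] at hκ2
  let u : G → G ⧸ U → G := fun g c => (g • c).out⁻¹ * g * c.out
  have hu : ∀ g c, u g c ∈ U := by
    intro g c
    simp only [u]
    rw [mul_assoc, ← QuotientGroup.eq, QuotientGroup.out_eq', ← smul_eq_mul,
      ← MulAction.Quotient.smul_coe, QuotientGroup.out_eq']
  refine ⟨fun g => ∏ c : G ⧸ U, MulAut.conjNormal (g • c).out (κ (u g c)), fun g h => ?_, fun k => ?_⟩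
  · have e : ∀ c, u (g * h) c = u g (h • c) * u h c := by
      intro c; simp only [u, mul_smul]; group
    beta_reduce
    rw [map_prod, ← Fintype.prod_equiv (MulAction.toPerm h)
      (fun c => MulAut.conjNormal (g • h • c).out (κ (u g (h • c))))
      (fun c => MulAut.conjNormal (g • c).out (κ (u g c))) (fun _ => rfl),
      ← Finset.prod_mul_distrib]
    refine Finset.prod_congr rfl fun c _ => ?_
    rw [e, hκ2 _ (hu _ _) _ (hu _ _), map_mul, mul_smul]
    congr 1
    rw [← MulAut.mul_apply, ← map_mul, ← MulAut.mul_apply, ← map_mul]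
    congr 2
    simp only [u]; group
  · have e : ∀ c : G ⧸ U, (k : G) • c = c := by
      intro c
      induction c using QuotientGroup.induction_on with | H g => ?_
      rw [MulAction.Quotient.smul_coe, smul_eq_mul, eq_comm, QuotientGroup.eq, ← mul_assoc]
      exact hKU (‹K.Normal›.conj_mem' _ k.2 g)
    beta_reduce
    rw [zpow_natCast, index_eq_card, Nat.card_eq_fintype_card, ← Finset.card_univ, ← Finset.prod_const]
    refine Finset.prod_congr rfl fun c _ => ?_
    have := hκ3 ⟨c.out⁻¹ * k * c.out, ‹K.Normal›.conj_mem' _ k.2 _⟩ 1 A.one_mem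
    rw [mul_one] at this
    simp only [u, e]
    rw [this]
    apply Subtype.ext
    simp only [MulAut.conjNormal_apply]
    group

/-- Let `A` be an abelian normal subgroup of the finite group `G`. Then `A` has a complement in `G` if and only if, for every prime `p` dividing the index of `A`, there are a Sylow `p`-subgroup `S` of `G/A` and a subgroup `K` of `G` with `K ∩ A = 1` and `KA` equal to the preimage of `S` (that is, `A` has a complement in the preimage of a Sylow `p`-subgroup of `G/A`). -/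
theorem result {G : Type*} [Group G] [Finite G] (A : Subgroup G) [A.Normal] (hA : IsMulCommutative A) : (∃ K : Subgroup G, K.IsComplement' A) ↔ ∀ p : ℕ, p.Prime → p ∣ A.index → ∃ (S : Sylow p (G ⧸ A)) (K : Subgroup G), K ⊓ A = ⊥ ∧ K ⊔ A = (S : Subgroup (G ⧸ A)).comap (QuotientGroup.mk' A) := by
  constructor
  · rintro ⟨K, hK⟩ p hp -
    obtain ⟨S⟩ := Sylow.nonempty (p := p) (G := G ⧸ A)
    refine ⟨S, K ⊓ (S : Subgroup (G ⧸ A)).comap (QuotientGroup.mk' A),
      eq_bot_iff.mpr ((inf_le_inf_right _ inf_le_left).trans hK.disjoint.le_bot), ?_⟩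
    rw [sup_comm, ← BG.Amb.sup_inf_assoc_of_le (QuotientGroup.le_comap_mk' A _) le_normalizer_of_normal,
      hK.symm.sup_eq_top, top_inf_eq]
  intro h
  let _ : CommGroup A := { (inferInstance : Group A) with mul_comm := hA.is_comm.comm }
  let I : Ideal ℤ :=
    { carrier := {n | ∃ F : G → A, (∀ g h, F (g * h) = MulAut.conjNormal g (F h) * F g) ∧
        ∀ k : A, F k = k ^ n}
      add_mem' := by
        rintro a b ⟨F, h1, h2⟩ ⟨F', h1', h2'⟩
        exact ⟨F * F', fun g h => by simp only [Pi.mul_apply, h1, h1', map_mul, mul_mul_mul_comm],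
          fun k => by simp only [Pi.mul_apply, h2, h2', zpow_add]⟩
      zero_mem' := ⟨1, by simp, by simp⟩
      smul_mem' := by
        rintro c a ⟨F, h1, h2⟩
        exact ⟨fun g => F g ^ c, fun g h => by simp only [h1, map_zpow, mul_zpow],
          fun k => by simp only [h2, smul_eq_mul, ← zpow_mul, mul_comm]⟩ }
  have h1 : (1 : ℤ) ∈ I := by
    rw [Submodule.IsPrincipal.mem_iff_generator_dvd, ← isUnit_iff_dvd_one, Int.isUnit_iff_natAbs_eq]
    by_contra hne
    obtain ⟨p, hp, hd⟩ := Nat.exists_prime_and_dvd hne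
    have key : ∀ n : ℕ, (n : ℤ) ∈ I → p ∣ n := fun n hn => hd.trans
      (Int.natAbs_dvd_natAbs.mpr ((Submodule.IsPrincipal.mem_iff_generator_dvd I).mp hn))
    obtain ⟨S, K, h2, h3⟩ := h p hp (key _ (exists_cocycle A A hA ⊥ disjoint_bot_right (sup_bot_eq A)))
    have := Fact.mk hp
    have := key _ (exists_cocycle A _ hA K (disjoint_iff.mpr h2).symm ((sup_comm _ _).trans h3))
    rw [index_comap_of_surjective _ (QuotientGroup.mk'_surjective A)] at this
    exact S.not_dvd_index this
  obtain ⟨F, hF, hFK⟩ := h1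
  simp only [zpow_one] at hFK
  have hF1 : F 1 = 1 := hFK 1
  let H : Subgroup G :=
    { carrier := {g | F g = 1}
      one_mem' := hF1
      mul_mem' := fun {a b} (ha : F a = 1) (hb : F b = 1) => show F (a * b) = 1 by
        rw [hF, ha, hb, map_one, mul_one]
      inv_mem' := fun {a} (ha : F a = 1) => by
        have := hF a a⁻¹
        rwa [mul_inv_cancel, hF1, ha, mul_one, eq_comm, EmbeddingLike.map_eq_one_iff] at this }
  refine ⟨H, (isComplement'_of_disjoint_and_mul_eq_univ (disjoint_def.mpr fun {k} hk hH =>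
    congrArg Subtype.val ((hFK ⟨k, hk⟩).symm.trans hH)) (Set.eq_univ_of_forall fun g =>
    ⟨F g, (F g).2, (F g : G)⁻¹ * g, ?_, by simp⟩)).symm⟩
  change F _ = 1
  rw [← coe_inv, hF, hFK, mul_inv_eq_one]
  apply Subtype.ext
  rw [MulAut.conjNormal_apply, ← coe_mul, ← coe_inv, ← coe_mul, inv_mul_cancel, inv_inv, one_mul]

end Cfsg.Agent.S4217
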