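import Mathlib
import Cfsg.Agent.Core.PHall
import Cfsg.Statements.S4218
-- import your own Cfsg.Agent.* helpers here

set_option autoImplicit false
open Cfsg

namespace Cfsg.Agent.S4218

/-- Let `G` be a finite `p`-solvable group, `N₀ = O_{p'}(G)`, `P₁ = O_{p',p}(G)`, and let `F ≤ P₁` be the preimage of the Frattini subgroup of `P₁/N₀`. Then an element `g` of `G` induces the identity on `P₁/F` by conjugation (that is, `g x g⁻¹ x⁻¹ ∈ F` for all `x ∈ P₁`) if and only if `g ∈ P₁`: the group `G/P₁` acts faithfully on `P₁/F`. -/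
theorem result {G : Type*} [Group G] [Finite G] {p : ℕ} [Fact p.Prime] (hG : Cfsg.IsPSolvable p G) (g : G) : (∀ x ∈ Cfsg.pPrimePCore p G, g * x * g⁻¹ * x⁻¹ ∈ ((frattini (↥(Cfsg.pPrimePCore p G) ⧸ (Cfsg.pPrimeCore p G).subgroupOf (Cfsg.pPrimePCore p G))).comap (QuotientGroup.mk' ((Cfsg.pPrimeCore p G).subgroupOf (Cfsg.pPrimePCore p G)))).map (Cfsg.pPrimePCore p G).subtype) ↔ g ∈ Cfsg.pPrimePCore p G := by
  have hV := Core.isPConstrained_iff.mp (Core.IsPSolvable.isPConstrained hG)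
  set N := Cfsg.pPrimeCore p G with hN
  set f := QuotientGroup.mk' N with hf
  have hmem : ∀ x : G, x ∈ Cfsg.pPrimePCore p G ↔ f x ∈ Cfsg.pCore p (G ⧸ N) := fun x => Iff.rfl
  let φ : Cfsg.pPrimePCore p G →* Cfsg.pCore p (G ⧸ N) :=
    (f.comp (Cfsg.pPrimePCore p G).subtype).codRestrict _ (fun x => (hmem x).mp x.2)
  have hφ : Function.Surjective φ := by
    rintro ⟨y, hy⟩
    obtain ⟨x, rfl⟩ := QuotientGroup.mk'_surjective N y
    exact ⟨⟨x, (hmem x).mpr hy⟩, rfl⟩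
  have hker : ∀ x, x ∈ N.subgroupOf (Cfsg.pPrimePCore p G) ↔ φ x = 1 := fun x => by
    rw [Subgroup.mem_subgroupOf, Subtype.ext_iff]
    exact (QuotientGroup.eq_one_iff _).symm
  let ψ := QuotientGroup.lift (N.subgroupOf (Cfsg.pPrimePCore p G)) φ (fun x hx => (hker x).mp hx)
  have hψi : Function.Injective ψ := by
    rw [injective_iff_map_eq_one]
    intro a ha
    obtain ⟨x, rfl⟩ := QuotientGroup.mk_surjective a
    exact (QuotientGroup.eq_one_iff _).mpr ((hker x).mpr ha)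
  have hψs : Function.Surjective ψ := fun y => by
    obtain ⟨x, rfl⟩ := hφ y
    exact ⟨QuotientGroup.mk x, rfl⟩
  have hp1 := (Core.pCore_isPGroup (G := G ⧸ N) p).of_injective ψ hψi
  constructor
  · intro h
    rw [hmem]
    refine Core.mem_pCore_of_frattini hV fun y hy => ?_
    obtain ⟨x, rfl⟩ := QuotientGroup.mk'_surjective N y
    obtain ⟨z, hz, e⟩ := h x ((hmem x).mpr hy)
    refine ⟨ψ (QuotientGroup.mk z), ?_, ?_⟩
    · rw [← PGrp.map_frattini_of_surjective hp1 ψ hψs]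
      exact Subgroup.mem_map_of_mem ψ hz
    · change f (z : G) = _
      have e' : (z : G) = g * x * g⁻¹ * x⁻¹ := e
      rw [e']
      rfl
  · intro hg x hx
    refine ⟨⟨g, hg⟩ * ⟨x, hx⟩ * ⟨g, hg⟩⁻¹ * ⟨x, hx⟩⁻¹, ?_, rfl⟩
    exact PGrp.commutatorElement_mem_frattini hp1 (QuotientGroup.mk ⟨g, hg⟩) (QuotientGroup.mk ⟨x, hx⟩)

end Cfsg.Agent.S4218
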