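import Mathlib
import Cfsg.Statements.S4219

set_option autoImplicit false
open Cfsg

namespace Cfsg.Agent.S4219

open MulAction

/-- Let a finite group `G` act `t`-fold transitively on a finite set, let `H` be the stabilizer of `t` distinct points and `P` a Sylow `p`-subgroup of `H`. Then the normalizer of `P` in `G` is `t`-fold transitive on the fixed points of `P`: any `t` distinct fixed points of `P` can be carried to any other `t` distinct fixed points of `P` by an element normalizing `P`. -/
theorem result {G : Type*} [Group G] [Finite G] {α : Type*} [Fintype α] [MulAction G α] {t : ℕ} (hG : MulAction.IsMultiplyPretransitive G α t) (x : Fin t ↪ α) {p : ℕ} [Fact p.Prime] (P : Sylow p (MulAction.stabilizer G x)) (a b : Fin t ↪ α) (ha : ∀ i, a i ∈ MulAction.fixedPoints ((P : Subgroup (MulAction.stabilizer G x)).map (MulAction.stabilizer G x).subtype) α) (hb : ∀ i, b i ∈ MulAction.fixedPoints ((P : Subgroup (MulAction.stabilizer G x)).map (MulAction.stabilizer G x).subtype) α) : ∃ g ∈ Subgroup.normalizer ((((P : Subgroup (MulAction.stabilizer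 G x)).map (MulAction.stabilizer G x).subtype) : Subgroup G) : Set G), g • a = b := by
  set K := (P : Subgroup (stabilizer G x)).map (stabilizer G x).subtype with hK
  have aux : ∀ a : Fin t ↪ α, (∀ i, a i ∈ fixedPoints K α) →
      ∃ g ∈ Subgroup.normalizer (K : Set G), g • a = x := by
    intro a ha
    obtain ⟨g, hg⟩ := exists_smul_eq G a x
    have hle : K.map (MulAut.conj g).toMonoidHom ≤ stabilizer G x := by
      rintro _ ⟨k, hk, rfl⟩
      change (g * k * g⁻¹) • x = x
      have : k • a = a := by ext i; exact ha i ⟨k, hk⟩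
      rw [← hg, mul_smul, mul_smul, inv_smul_smul, this]
    have hc : Nat.card ((K.map (MulAut.conj g).toMonoidHom).subgroupOf (stabilizer G x)) =
        p ^ (Nat.card (stabilizer G x)).factorization p := by
      rw [Nat.card_congr (Subgroup.subgroupOfEquivOfLe hle).toEquiv,
        Subgroup.card_map_of_injective (MulAut.conj g).injective, hK,
        Subgroup.card_map_of_injective (Subgroup.subtype_injective _), P.card_eq_multiplicity]
    obtain ⟨u, hu⟩ := exists_smul_eq (stabilizer G x) (Sylow.ofCard _ hc) P
    refine ⟨u * g, Subgroup.mem_normalizer_fintype fun k hk => ?_, by rw [mul_smul, hg]; exact u.2⟩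
    refine ⟨u * ⟨g * k * g⁻¹, hle ⟨k, hk, rfl⟩⟩ * u⁻¹, ?_, by simp [mul_assoc]⟩
    rw [← hu]
    exact Subgroup.smul_mem_pointwise_smul _ (MulAut.conj u) _ ⟨k, hk, rfl⟩
  obtain ⟨g, hg, e⟩ := aux a ha
  obtain ⟨g', hg', e'⟩ := aux b hb
  exact ⟨g'⁻¹ * g, mul_mem (inv_mem hg') hg, by rw [mul_smul, e, inv_smul_eq_iff, e']⟩

end Cfsg.Agent.S4219
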