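import Mathlib
import Cfsg.Statements.S4220
import Cfsg.Agent.Mil.B
import Cfsg.Agent.S0713
import Cfsg.Agent.S0415
-- import your own Cfsg.Agent.* helpers here

set_option autoImplicit false
open Cfsg

namespace Cfsg.Agent.S4220

/-- Let `n = kp + r` with `p` prime, `1 ≤ k < p` and `r > k`, excluding the case `k = 1, r = 2`. Then a permutation group of degree `n` that is `(r + 1)`-fold transitive contains the alternating group. -/
theorem result {α : Type*} [Fintype α] [DecidableEq α] (G : Subgroup (Equiv.Perm α)) {k p r : ℕ} (hp : p.Prime) (hn : Fintype.card α = k * p + r) (hk : 1 ≤ k) (hpk : k < p) (hrk : k < r) (hex : ¬ (k = 1 ∧ r = 2)) (hG : MulAction.IsMultiplyPretransitive G α (r + 1)) : alternatingGroup α ≤ G := by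
  open Equiv Equiv.Perm MulAction Subgroup Cfsg.Agent.Mil Pointwise commutatorElement in
  classical
  by_contra hna
  haveI := Fact.mk hp
  have hp2 := hp.two_le
  have hr3 : 3 ≤ r := by omega
  have hkp : p ≤ k * p := Nat.le_mul_of_pos_left _ hk
  have hrn : r + 1 ≤ Fintype.card α := by omega
  have hrn' : r + 1 ≤ Nat.card α := by rwa [Nat.card_eq_fintype_card]
  have hmin : ∀ g ∈ G, g ≠ 1 → 2 * r ≤ g.support.card := by
    intro g hg hg1
    by_contra hc
    exact hna (S0711.result G (k := r + 1) (by omega) hrn hG g hg hg1 (by omega)).2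
  obtain ⟨Γ, -, hΓ⟩ := Finset.exists_subset_card_eq (s := (Finset.univ : Finset α)) (n := r)
    (by rw [Finset.card_univ]; omega)
  obtain ⟨P, hPG, hP, hfix, hmove, hsurj⟩ := exists_P G hp hrn hG Γ hΓ (by rw [hn]; simp)
  set D : Set α := (Γ : Set α)ᶜ with hD
  have hDm : ∀ y, y ∈ D ↔ y ∉ Γ := fun y => Iff.rfl
  have hDc : D.ncard = k * p := by
    rw [hD, Set.ncard_compl, Set.ncard_coe_finset, hΓ, Nat.card_eq_fintype_card]; omega
  obtain ⟨hdat, horb⟩ := dat_of (D := D) hp hP (by rw [hDc]; nlinarith)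
    (fun x hx y hy => hfix x hx y (by simpa [hDm] using hy)) hmove
  have hfaith : ∀ g ∈ G, (∀ y ∈ D, g y = y) → g = 1 := by
    intro g hg h
    by_contra hg1
    have h1 := hmin g hg hg1
    have h2 : g.support ⊆ Γ := fun y hy => by
      by_contra hc; exact (mem_support.mp hy) (h y hc)
    have h3 := Finset.card_le_card h2
    omega
  have hno : ∀ x ∈ P, x ≠ 1 → 2 * p ≤ x.support.card := by
    intro x hx hx1
    by_contra hc
    have ho : orderOf x = p := orderOf_eq_prime (hdat.pow x hx) hx1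
    have hcyc : x.IsCycle := isCycle_of_prime_order (ho ▸ hp) (by omega)
    have h2 : IsMultiplyPretransitive G α 2 :=
      isMultiplyPretransitive_of_le (n := r + 1) (by omega) hrn'
    exact hna (S0713.result G (isPreprimitive_of_is_two_pretransitive h2) hp (by omega) (by omega)
      hcyc (by rw [← hcyc.orderOf, ho]) (hPG hx))
  have hk2 : 2 ≤ k := by
    obtain ⟨y, hy⟩ : D.Nonempty := Set.nonempty_of_ncard_ne_zero (by omega)
    obtain ⟨x, hx, hxy⟩ := hdat.move y hy
    have h1 := hno x hx (by rintro rfl; simp at hxy)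
    have h2 : x.support.card ≤ D.ncard := by
      rw [← Set.ncard_coe_finset]
      refine Set.ncard_le_ncard fun z hz => ?_
      by_contra hc
      exact (mem_support.mp hz) (hdat.fix x hx z hc)
    rw [hDc] at h2
    nlinarith
  by_cases hp3 : p = 3 ∧ r ≤ 4
  · obtain ⟨rfl, hr4⟩ := hp3
    have hk' : k = 2 := by omega
    subst hk'
    haveI h4 : IsMultiplyPretransitive G α 4 :=
      isMultiplyPretransitive_of_le (n := r + 1) (by omega) hrn'
    have := S0415.result G (by omega) (Perm.sharp_of_forall fun x hx g hg => by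
      by_contra hg1
      have h1 := hmin g.1 g.2 (fun e => hg1 (Subtype.ext e))
      have h2 : g.1.support ⊆ (Finset.univ.image x)ᶜ := by
        intro y hy
        rw [Finset.mem_compl]
        intro hy'
        obtain ⟨i, -, rfl⟩ := Finset.mem_image.mp hy'
        exact (mem_support.mp hy) (hg i)
      have h3 := Finset.card_le_card h2
      rw [Finset.card_compl, Finset.card_image_of_injective _ hx, Finset.card_univ,
        Fintype.card_fin] at h3
      omega)
    omega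
  let N : Subgroup (Perm α) := G ⊓ normalizer (P : Set (Perm α))
  have hNP : ∀ g ∈ N, ∀ x ∈ P, g * x * g⁻¹ ∈ P := fun g hg x hx =>
    (Subgroup.mem_normalizer_iff.mp hg.2 x).mp hx
  have hNΓ : ∀ g ∈ N, ∀ y ∈ Γ, g y ∈ Γ := by
    intro g hg y hy
    by_contra hc
    obtain ⟨x, hx, hxy⟩ := hmove _ hc
    apply hxy
    have := hfix _ (hNP _ (N.inv_mem hg) x hx) y hy
    rw [inv_inv, mul_apply, mul_apply, Perm.inv_eq_iff_eq] at this
    exact this
  have hND : ∀ g ∈ N, ∀ y ∈ D, g y ∈ D := by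
    intro g hg y hy hc
    have := hNΓ _ (N.inv_mem hg) _ hc
    simp only [Perm.coe_inv, symm_apply_apply] at this
    exact hy this
  have horbN : ∀ g : N, ∀ y, g • orbit P y = orbit P (g.1 y) := by
    intro g y
    ext z
    constructor
    · rintro ⟨_, ⟨u, rfl⟩, rfl⟩
      refine ⟨⟨_, hNP g.1 g.2 u.1 u.2⟩, ?_⟩
      change (g.1 * u.1 * g.1⁻¹) (g.1 y) = g.1 (u.1 y)
      simp
    · rintro ⟨u, rfl⟩
      refine ⟨_, ⟨⟨_, hNP _ (N.inv_mem g.2) u.1 u.2⟩, rfl⟩, ?_⟩
      change g.1 ((g.1⁻¹ * u.1 * g.1⁻¹⁻¹) y) = u.1 (g.1 y)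
      simp
  let Γ' : SubMulAction N α := ⟨Γ, fun g y hy => hNΓ g.1 g.2 y hy⟩
  let ρ := toPermHom N Γ'
  let Ω : SubMulAction N (Set α) := ⟨{S | ∃ y ∈ D, S = orbit P y}, by
    rintro g _ ⟨y, hy, rfl⟩
    exact ⟨g.1 y, hND g.1 g.2 y hy, horbN g y⟩⟩
  let φ := toPermHom N Ω
  have hΓc : Nat.card Γ' = r := by
    rw [← hΓ, ← Set.ncard_coe_finset]; rfl
  have hΩc : Nat.card Ω ≤ k := by
    have h1 : Nat.card Ω = (Γᶜ.image fun y => orbit P y).card := by
      rw [← Set.ncard_coe_finset]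
      change Set.ncard {S | ∃ y ∈ D, S = orbit P y} = _
      congr 1
      ext S
      simp [hDm, eq_comm]
    have h2 := Finset.mul_card_image_le_card (f := fun y => orbit P y) Γᶜ p (by
      intro b hb
      obtain ⟨y, hy, rfl⟩ := Finset.mem_image.mp hb
      have hy' : y ∈ D := by simpa [hDm] using hy
      rw [← horb y hy', ← Set.ncard_coe_finset]
      refine Set.ncard_le_ncard fun z hz => ?_
      simp only [Finset.coe_filter, Finset.mem_compl, Set.mem_setOf_eq]
      refine ⟨?_, orbit_eq_iff.mpr hz⟩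
      obtain ⟨u, rfl⟩ := hz
      intro hc
      have e : u.1 (u.1 y) = u.1 y := hfix u.1 u.2 _ hc
      have e2 : u.1 y = y := u.1.injective e
      have hc' : u.1 y ∈ Γ := hc
      rw [e2] at hc'
      exact hy' hc')
    rw [Finset.card_compl, hΓ, hn, Nat.add_sub_cancel, ← h1, mul_comm k] at h2
    exact Nat.le_of_mul_le_mul_left h2 hp.pos
  have hρ : Function.Surjective ρ := by
    intro τ
    let τ' : Perm α := Perm.ofSubtype (p := fun y => y ∈ Γ') τ
    have hτ' : ∀ y : Γ', τ' y.1 = (τ y).1 := fun y => Perm.ofSubtype_apply_coe τ y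
    obtain ⟨g, hg, hgn, e⟩ := hsurj τ' (fun y hy => by rw [hτ' ⟨y, hy⟩]; exact (τ ⟨y, hy⟩).2)
    refine ⟨⟨g, hg, hgn⟩, ?_⟩
    ext y
    exact (e y.1 y.2).trans (hτ' y)
  have hker : ∀ g ∈ φ.ker, ∀ y ∈ D, ∃ u ∈ P, g.1 y = u y := by
    intro g hg y hy
    have h1 : g • orbit P y = orbit P y :=
      congrArg (fun u : Perm Ω => (u ⟨orbit P y, y, hy, rfl⟩).1) (MonoidHom.mem_ker.mp hg)
    rw [horbN] at h1
    obtain ⟨u, hu⟩ := orbit_eq_iff.mp h1
    exact ⟨u.1, u.2, hu.symm⟩
  have hgood : ∀ g ∈ φ.ker, Good P D g.1 := fun g hg =>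
    ⟨hNP g.1 g.2, hker g⁻¹ (φ.ker.inv_mem hg)⟩
  have hA : ¬ φ.ker ≤ ρ.ker := by
    intro h
    have h1 := Subgroup.index_dvd_of_le h
    rw [Subgroup.index_ker, Subgroup.index_ker, MonoidHom.range_eq_top.mpr hρ, Subgroup.card_top,
      Nat.card_perm, hΓc] at h1
    have h2 := h1.trans (Subgroup.card_subgroup_dvd_card _)
    rw [Nat.card_perm] at h2
    have h3 := Nat.le_of_dvd (Nat.factorial_pos _) h2
    have h4 := Nat.factorial_le hΩc
    have h5 := (Nat.factorial_lt (by omega : 0 < k)).mpr hrk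
    omega
  let C : Subgroup N := φ.ker ⊓ (centralizer (P : Set (Perm α))).comap N.subtype
  have hC : ∀ c ∈ C, ∀ x ∈ P, c.1 * x = x * c.1 := fun c hc x hx => (hc.2 x hx).symm
  have hcomm : ∀ g ∈ φ.ker, ∀ h : N, (∀ x ∈ P, g.1 * h.1 * x * (g.1 * h.1)⁻¹ =
      h.1 * g.1 * x * (h.1 * g.1)⁻¹) → ⁅g, h⁆ ∈ C := by
    intro g hg h e
    refine ⟨?_, fun x hx => ?_⟩
    · rw [commutatorElement_def, mul_assoc g, mul_assoc g]
      exact φ.ker.mul_mem hg ((MonoidHom.normal_ker φ).conj_mem _ (φ.ker.inv_mem hg) h)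
    · have e1 := e _ (hNP _ (N.inv_mem (N.mul_mem h.2 g.2)) x hx)
      change x * (g.1 * h.1 * g.1⁻¹ * h.1⁻¹) = g.1 * h.1 * g.1⁻¹ * h.1⁻¹ * x
      calc x * (g.1 * h.1 * g.1⁻¹ * h.1⁻¹)
          = (h.1 * g.1 * ((h.1 * g.1)⁻¹ * x * (h.1 * g.1)⁻¹⁻¹) * (h.1 * g.1)⁻¹) *
            (g.1 * h.1 * g.1⁻¹ * h.1⁻¹) := by group
        _ = _ := by rw [← e1]; group
  by_cases hr5 : 5 ≤ r
  · haveI : (φ.ker.map ρ).Normal := (MonoidHom.normal_ker φ).map ρ hρ
    have h1 : alternatingGroup Γ' ≤ φ.ker.map ρ := alternatingGroup_le_of_normal (by omega)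
      ((Subgroup.nontrivial_iff_ne_bot _).mpr fun h => hA ((Subgroup.map_eq_bot_iff _).mp h))
    have h2 := commutator_alternatingGroup_eq_self (α := Γ') (by omega)
    have h3 : ⁅φ.ker, φ.ker⁆ ≤ C := Subgroup.commutator_le.mpr fun g hg h hh =>
      hcomm g hg h fun x hx => hdat.conj_comm (hgood g hg) (hgood h hh) hx
    have h4 : ⁅C, C⁆ ≤ ⊥ := Subgroup.commutator_le.mpr fun c hc d hd => by
      rw [Subgroup.mem_bot, commutatorElement_eq_one_iff_mul_comm]
      apply Subtype.ext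
      have := hfaith ((d.1 * c.1)⁻¹ * (c.1 * d.1))
        (G.mul_mem (G.inv_mem (G.mul_mem d.2.1 c.2.1)) (G.mul_mem c.2.1 d.2.1)) fun y hy => by
          rw [mul_apply, hdat.ccomm (hC c hc) (hker c hc.1) (hC d hd) (hker d hd.1) hy]
          simp only [Perm.coe_inv, symm_apply_apply]
      exact (inv_mul_eq_one.mp this).symm
    have h5 : alternatingGroup Γ' ≤ C.map ρ := by
      rw [← h2]
      refine (Subgroup.commutator_mono h1 h1).trans ?_
      rw [← Subgroup.map_commutator]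
      exact Subgroup.map_mono h3
    have h6 : alternatingGroup Γ' ≤ ⊥ := by
      rw [← h2]
      refine (Subgroup.commutator_mono h5 h5).trans ?_
      rw [← Subgroup.map_commutator, ← Subgroup.map_bot ρ]
      exact Subgroup.map_mono h4
    have h7 : Nontrivial (alternatingGroup Γ') := alternatingGroup.nontrivial_of_three_le_card (by omega)
    exact (Subgroup.nontrivial_iff_ne_bot _).mp h7 (le_bot_iff.mp h6)
  · have hp5 : 5 ≤ p := by
      have h4 : p ≠ 4 := by rintro rfl; exact absurd hp (by norm_num)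
      omega
    apply hA
    intro g hg
    rw [MonoidHom.mem_ker]
    refine eq_one_of_central (by rw [← Nat.card_eq_fintype_card]; omega) _ fun τ => ?_
    obtain ⟨h, rfl⟩ := hρ τ
    obtain ⟨l, hl⟩ := hdat.uniform hp (by rw [hDc]; nlinarith) hno (hgood g hg)
    have h1 := hcomm g hg h fun x hx => by
      calc g.1 * h.1 * x * (g.1 * h.1)⁻¹ = g.1 * (h.1 * x * h.1⁻¹) * g.1⁻¹ := by group
        _ = h.1 * (g.1 * x * g.1⁻¹) * h.1⁻¹ := by rw [hl _ (hNP h.1 h.2 x hx), hl x hx, conj_zpow]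
        _ = _ := by group
    have h2 : ⁅g, h⁆ ^ p = 1 := Subtype.ext (hfaith _ (G.pow_mem (⁅g, h⁆).2.1 p) fun y hy =>
      hdat.cpow (hC _ h1) (hker _ h1.1) hy)
    have h3 : ρ ⁅g, h⁆ ^ p = 1 := by rw [← map_pow, h2, map_one]
    rw [← commutatorElement_eq_one_iff_mul_comm, ← map_commutatorElement]
    by_contra h4
    have h5 := orderOf_dvd_natCard (ρ ⁅g, h⁆)
    rw [orderOf_eq_prime h3 h4, Nat.card_perm, hΓc, hp.dvd_factorial] at h5
    omega

end Cfsg.Agent.S4220
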