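import Mathlib
import Cfsg.Statements.S4221
import Cfsg.Agent.Isaacs.Hall4
import Cfsg.Agent.Perm.Sharp4
-- import your own Cfsg.Agent.* helpers here

set_option autoImplicit false
open Cfsg

namespace Cfsg.Agent.S4221

/-- Let `G` be a `4`-fold transitive permutation group on a finite set of `n` points in which the pointwise stabilizer of some four distinct points has odd order. Then `n = 4` or `n = 5` with `G` the full symmetric group, or `n = 6` or `n = 7` with `G` the alternating group, or `n = 11` and `G` has order `7920`. -/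
theorem result {α : Type*} [Fintype α] [DecidableEq α] (G : Subgroup (Equiv.Perm α)) (hG : MulAction.IsMultiplyPretransitive G α 4) (x : Fin 4 ↪ α) (hodd : Odd (Nat.card (MulAction.stabilizer G x))) : ((Fintype.card α = 4 ∨ Fintype.card α = 5) ∧ G = ⊤) ∨ ((Fintype.card α = 6 ∨ Fintype.card α = 7) ∧ G = alternatingGroup α) ∨ (Fintype.card α = 11 ∧ Nat.card G = 7920) := by
  have hn : 4 ≤ Fintype.card α := by simpa using Fintype.card_le_of_embedding x
  have hc : Nat.card α = Fintype.card α := Nat.card_eq_fintype_card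
  have Dx : Hall4.D4 (x 0) (x 1) (x 2) (x 3) := ⟨x.injective.ne (by decide), x.injective.ne (by decide),
    x.injective.ne (by decide), x.injective.ne (by decide), x.injective.ne (by decide), x.injective.ne (by decide)⟩
  have tr : ∀ {a b c d a' b' c' d' : α}, Hall4.D4 a b c d → Hall4.D4 a' b' c' d' →
      ∃ g : G, g • a = a' ∧ g • b = b' ∧ g • c = c' ∧ g • d = d' := fun D D' =>
    Perm.four_trans hG D.1 D.2.1 D.2.2.1 D.2.2.2.1 D.2.2.2.2.1 D.2.2.2.2.2
      D'.1 D'.2.1 D'.2.2.1 D'.2.2.2.1 D'.2.2.2.2.1 D'.2.2.2.2.2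
  have H : Hall4.H4 G α := by
    refine ⟨tr, fun D g h1 h2 h3 h4 => ?_, fun g h => Subtype.ext (Equiv.ext h)⟩
    obtain ⟨k, k1, k2, k3, k4⟩ := tr Dx D
    have : k⁻¹ * g * k ∈ MulAction.stabilizer G x := by
      rw [MulAction.mem_stabilizer_iff]
      ext i
      change (k⁻¹ * g * k) • x i = x i
      fin_cases i <;> simp [mul_smul, inv_smul_eq_iff, *]
    have h5 := hodd.of_dvd_nat (Subgroup.orderOf_dvd_natCard _ this)
    rwa [show k⁻¹ * g * k = MulAut.conj k⁻¹ g by simp, MulEquiv.orderOf_eq] at h5
  have sharp : (∀ {a b c d : α} {g : G}, Hall4.D4 a b c d → g • a = a → g • b = b → g • c = c → g • d = d → g = 1) →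
      ∀ y : Fin 4 ↪ α, MulAction.stabilizer G y = ⊥ := fun h => Perm.sharp_of_forall fun y hy g hg =>
    h ⟨hy.ne (by decide), hy.ne (by decide), hy.ne (by decide), hy.ne (by decide), hy.ne (by decide),
      hy.ne (by decide)⟩ (hg 0) (hg 1) (hg 2) (hg 3)
  by_cases h8 : 7 < Fintype.card α
  · have hs := sharp fun D => H.eq_one h8 D
    have h1 := Perm.sharp4_card hG hs (by omega)
    have h2 : Fintype.card α = 11 := by omega
    exact .inr (.inr ⟨h2, by rw [Perm.card_of_sharp hG hs (by omega), hc, h2]; decide⟩)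
  by_cases h5 : Fintype.card α ≤ 5
  · exact .inl ⟨by omega, Equiv.Perm.eq_top_of_isMultiplyPretransitive
      (MulAction.isMultiplyPretransitive_of_le (n := 4) (by omega) (by omega))⟩
  refine .inr (.inl ⟨by omega, ?_⟩)
  · have hA : alternatingGroup α ≤ G := by
      by_cases h6 : Fintype.card α = 6
      · exact IsMultiplyPretransitive.alternatingGroup_le α G (by rwa [hc, h6])
      by_contra hA
      have hs := sharp fun {a b c d g} D h1 h2 h3 h4 => by
        by_contra hg
        have ho := H.odd D g h1 h2 h3 h4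
        have e1 : g.1.support.card ≤ 3 := by
          have : g.1.support ⊆ ({a, b, c, d} : Finset α)ᶜ := fun z hz => by
            simp only [Finset.mem_compl, Finset.mem_insert, Finset.mem_singleton]
            rintro (rfl | rfl | rfl | rfl) <;> exact Equiv.Perm.mem_support.mp hz ‹_›
          have h7 := Finset.card_le_card this
          rw [Finset.card_compl, Finset.card_eq_four.mpr ⟨a, b, c, d, D.1, D.2.1, D.2.2.1, D.2.2.2.1, D.2.2.2.2.1,
            D.2.2.2.2.2, rfl⟩] at h7
          omega
        have e2 := Equiv.Perm.one_lt_card_support_of_ne_one (f := g.1) fun e => hg (Subtype.ext e)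
        have e3 : g.1.support.card ≠ 2 := fun e => by
          rw [← Subgroup.orderOf_coe, (Equiv.Perm.card_support_eq_two.mp e).orderOf] at ho
          exact absurd ho (by decide)
        exact hA (Equiv.Perm.alternatingGroup_le_of_isPreprimitive_of_isThreeCycle_mem
          (MulAction.isPreprimitive_of_is_two_pretransitive
            (MulAction.isMultiplyPretransitive_of_le (n := 4) (by omega) (by omega)))
          (card_support_eq_three_iff.mp (by omega)) g.2)
      have := Perm.sharp4_card hG hs (by omega)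
      omega
    refine le_antisymm (fun g hg => ?_) hA
    by_contra h
    obtain ⟨y, hy⟩ := Hall4.H4.exists_out (n := 5) (by omega) {x 0, x 1, x 2, x 3} (Finset.card_le_four.trans (by norm_num))
    obtain ⟨z, hz⟩ := Hall4.H4.exists_out (n := 5) (by omega) {x 0, x 1, x 2, x 3, y} Finset.card_le_five
    simp only [Finset.mem_insert, Finset.mem_singleton, not_or] at hy hz
    have h1 : Equiv.swap y z ∈ G := by
      have h2 : Equiv.Perm.sign g = -1 := (Int.units_eq_one_or _).resolve_left h
      have h3 : Equiv.swap y z * g⁻¹ ∈ alternatingGroup α := by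
        simp [Equiv.Perm.mem_alternatingGroup, Equiv.Perm.sign_swap (Ne.symm hz.2.2.2.2), h2]
      simpa using mul_mem (hA h3) hg
    have k : ∀ w, y ≠ w → z ≠ w → (⟨_, h1⟩ : G) • w = w := fun w a b => Equiv.swap_apply_of_ne_of_ne a.symm b.symm
    have h2 := H.fix3 (s := ⟨_, h1⟩) (Subtype.ext (Equiv.swap_mul_self y z)) Dx (k _ hy.1 hz.1) (k _ hy.2.1 hz.2.1)
      (k _ hy.2.2.1 hz.2.2.1) (k _ hy.2.2.2 hz.2.2.2.1)
    exact hz.2.2.2.2 (Equiv.swap_eq_refl_iff.mp (congrArg Subtype.val h2)).symm

end Cfsg.Agent.S4221
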