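import Mathlib
import Cfsg.Statements.S4223

set_option autoImplicit false
open Cfsg

namespace Cfsg.Agent.S4223

open Subgroup

def Indec (A : Type*) [Group A] : Prop :=
  Nontrivial A ∧ ∀ H K : Subgroup A, H.Normal → K.Normal → H ⊓ K = ⊥ → H ⊔ K = ⊤ → H = ⊥ ∨ K = ⊥

theorem fitting {A : Type*} [Group A] [Finite A] (hA : Indec A) (φ : Monoid.End A)
    (hφ : ∀ x a, φ (x * a * x⁻¹) = x * φ a * x⁻¹) (hn : ¬ Function.Injective φ) {a : A}
    (ha : φ a = a) : a = 1 := by
  have : Finite (Monoid.End A) := Finite.of_injective _ (DFunLike.coe_injective (F := A →* A))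
  obtain ⟨n, hn0, e⟩ : ∃ n, 0 < n ∧ φ ^ n * φ ^ n = φ ^ n := by
    obtain ⟨k, l, hlt, e⟩ : ∃ k l, k < l ∧ φ ^ k = φ ^ l := by
      obtain ⟨k, l, hne, e⟩ := Finite.exists_ne_map_eq_of_infinite fun n : ℕ => φ ^ n
      exact hne.lt_or_gt.elim (fun h => ⟨k, l, h, e⟩) fun h => ⟨l, k, h, e.symm⟩
    obtain ⟨d, rfl⟩ := Nat.exists_eq_add_of_lt hlt
    have h1 : ∀ t, φ ^ (k + (d + 1) * t) = φ ^ k := fun t => by
      induction t with
      | zero => rfl
      | succ t ih => rw [mul_add, ← add_assoc, pow_add, ih, mul_one, ← pow_add, ← add_assoc, ← e]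
    refine ⟨(d + 1) * (k + 1), by positivity, ?_⟩
    rw [← pow_add]
    nth_rewrite 1 [show (d + 1) * (k + 1) = d * (k + 1) + 1 + k by ring]
    rw [add_assoc, pow_add, h1, ← pow_add]
    congr 1
    ring
  have h1 : ∀ m x a, (φ ^ m) (x * a * x⁻¹) = x * (φ ^ m) a * x⁻¹ := fun m x a => by
    induction m with
    | zero => rfl
    | succ m ih => rw [pow_succ']; exact (congrArg φ ih).trans (hφ _ _)
  have h2 : ∀ a, (φ ^ n) ((φ ^ n) a) = (φ ^ n) a := fun a => DFunLike.congr_fun e a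
  rcases hA.2 (MonoidHom.ker (φ ^ n)) (MonoidHom.range (φ ^ n)) inferInstance
    ⟨by rintro _ ⟨a, rfl⟩ x; exact ⟨_, h1 n x a⟩⟩ ((eq_bot_iff_forall _).mpr (by
      rintro _ ⟨h, a, rfl⟩; exact (h2 a).symm.trans h)) (eq_top_iff.mpr fun a _ => by
      simpa using mul_mem_sup (show a * ((φ ^ n) a)⁻¹ ∈ MonoidHom.ker (φ ^ n) by
        change (φ ^ n) _ = 1
        rw [map_mul, map_inv, h2, mul_inv_cancel])
        (show (φ ^ n) a ∈ MonoidHom.range (φ ^ n) from ⟨a, rfl⟩)) with h | h
  · obtain ⟨m, rfl⟩ := Nat.exists_eq_add_of_lt hn0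
    refine absurd (Function.Injective.of_comp (f := (φ ^ (0 + m) :)) ?_) hn
    exact (MonoidHom.ker_eq_bot_iff _).mp h
  · refine mem_bot.mp (h ▸ ⟨a, ?_⟩)
    clear hn0 e h2 h
    induction n with
    | zero => rfl
    | succ m ih => rw [pow_succ']; exact (congrArg φ ih).trans ha

theorem exists_bij {A X κ : Type*} [Group A] [Finite A] [Group X] [Finite κ] {B : κ → Type*}
    [∀ j, Group (B j)] (hA : Indec A) (hB : ∀ j, Indec (B j)) (e : A × X ≃* ∀ j, B j) :
    ∃ j, Function.Bijective fun a => e (a, 1) j := by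
  classical
  have := Fintype.ofFinite κ
  let P : Finset κ → (∀ j, B j) →* ∀ j, B j := fun s =>
    MonoidHom.mk' (fun b j => if j ∈ s then b j else 1) fun b c => funext fun j => by
      by_cases h : j ∈ s <;> simp [h]
  let σ : Finset κ → Monoid.End A := fun s =>
    (MonoidHom.fst A X).comp (e.symm.toMonoidHom.comp ((P s).comp (e.toMonoidHom.comp (MonoidHom.inl A X))))
  have hσ : ∀ s a, σ s a = (e.symm (P s (e (a, 1)))).1 := fun _ _ => rfl
  have h1 : ∀ s x a, σ s (x * a * x⁻¹) = x * σ s a * x⁻¹ := fun s x a => by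
    have : P s (e (x * a * x⁻¹, 1)) = e (x, 1) * P s (e (a, 1)) * (e (x, 1))⁻¹ := by
      rw [show ((x * a * x⁻¹, 1) : A × X) = (x, 1) * (a, 1) * (x, 1)⁻¹ by simp, map_mul e, map_mul e,
        map_inv e]
      funext j
      by_cases h : j ∈ s <;> simp [P, h]
    rw [hσ, this]
    simp [hσ]
  obtain ⟨j, hj⟩ : ∃ j, Function.Injective (σ {j}) := by
    by_contra! h
    have key : ∀ s, ¬ Function.Injective (σ s) := fun s => by
      induction s using Finset.induction_on with
      | empty =>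
        obtain ⟨a, b, hne⟩ := hA.1
        have : P ∅ = 1 := MonoidHom.ext fun b => funext fun j => by simp [P]
        exact fun hi => hne (hi (by simp [hσ, this]))
      | insert j s hj ih =>
        intro hi
        have h2 : ∀ a, σ (insert j s) a = σ {j} a * σ s a := fun a => by
          rw [hσ, hσ, hσ, ← Prod.fst_mul, ← map_mul]
          congr 2
          funext k
          by_cases hk : k = j
          · subst hk; simp [P, hj]
          · simp [P, hk]
        let τ := MulEquiv.ofBijective (σ (insert j s)) hi.bijective_of_finite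
        refine ih ((injective_iff_map_eq_one _).mpr fun a ha => fitting hA
          (τ.symm.toMonoidHom.comp (σ {j})) (fun x a => τ.injective ?_)
          (fun hi => h j (Function.Injective.of_comp (f := τ.symm) hi)) (τ.injective ?_))
        · change τ (τ.symm (σ {j} _)) = σ _ (x * τ.symm (σ {j} a) * x⁻¹)
          rw [h1, h1, τ.apply_symm_apply]
          exact congrArg (x * · * x⁻¹) (τ.apply_symm_apply _).symm
        · change τ (τ.symm (σ {j} _)) = σ _ a
          rw [τ.apply_symm_apply, h2, ha, mul_one]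
    exact key Finset.univ fun a b e' => by simpa [hσ, P] using e'
  let α : A →* B j := (Pi.evalMonoidHom B j).comp (e.toMonoidHom.comp (MonoidHom.inl A X))
  let β : B j →* A := (MonoidHom.fst A X).comp (e.symm.toMonoidHom.comp (MonoidHom.mulSingle B j))
  have h2 : ∀ a, β (α a) = σ {j} a := fun a => by
    change (e.symm (Pi.mulSingle j (e (a, 1) j))).1 = _
    rw [hσ]
    congr 2
    funext k
    by_cases hk : k = j
    · subst hk; simp [P]
    · simp [P, hk]
  have h3 : Function.Injective α := fun a b e' => hj (by rw [← h2, e', h2])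
  have h4 : ∀ b, ∃ a, (α a)⁻¹ * b ∈ β.ker := fun b => by
    obtain ⟨a, ha⟩ := hj.bijective_of_finite.2 (β b)
    exact ⟨a, by rw [MonoidHom.mem_ker, map_mul, map_inv, h2, ha, inv_mul_cancel]⟩
  refine ⟨j, h3, fun b => ?_⟩
  have h5 : α.range.Normal := by
    constructor
    rintro _ ⟨a, rfl⟩ c
    obtain ⟨g, hg⟩ := e.surjective (Pi.mulSingle j c)
    refine ⟨g.1 * a * g.1⁻¹, ?_⟩
    change e (g.1 * a * g.1⁻¹, 1) j = c * e (a, 1) j * c⁻¹
    rw [show ((g.1 * a * g.1⁻¹, 1) : A × X) = g * (a, 1) * g⁻¹ from Prod.ext rfl (by simp),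
      map_mul e, map_mul e, map_inv e, hg]
    simp
  rcases (hB j).2 α.range β.ker h5 inferInstance ((eq_bot_iff_forall _).mpr (by
    rintro _ ⟨⟨a, rfl⟩, h⟩
    rw [hj ((h2 a).symm.trans (h.trans (map_one _).symm)), map_one])) (eq_top_iff.mpr fun b _ => by
    obtain ⟨a, ha⟩ := h4 b
    simpa using mul_mem_sup (show α a ∈ α.range from ⟨a, rfl⟩) ha) with h | h
  · obtain ⟨a, a', hne⟩ := hA.1
    exact absurd (h3 ((mem_bot.mp (h ▸ ⟨a, rfl⟩)).trans (mem_bot.mp (h ▸ ⟨a', rfl⟩)).symm)) hne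
  · obtain ⟨a, ha⟩ := h4 b
    exact ⟨a, inv_mul_eq_one.mp (mem_bot.mp (h ▸ ha))⟩

theorem cancel {A X B Y : Type*} [Group A] [Group X] [Group B] [Group Y] [Finite A] [Finite X]
    (e : A × X ≃* B × Y) (h : Function.Bijective fun a => (e (a, 1)).1) : Nonempty (Y ≃* X) := by
  have h1 := Nat.card_congr e.toEquiv
  rw [Nat.card_prod, Nat.card_prod, ← Nat.card_eq_of_bijective _ h] at h1
  refine ⟨MulEquiv.ofBijective ((MonoidHom.snd A X).comp (e.symm.toMonoidHom.comp (MonoidHom.inr B Y)))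
    (Function.Injective.bijective_of_nat_card_le ((injective_iff_map_eq_one _).mpr fun y hy => ?_)
    (Nat.eq_of_mul_eq_mul_left Nat.card_pos h1).le)⟩
  have h2 : e ((e.symm (1, y)).1, 1) = (1, y) := by
    rw [← e.apply_symm_apply (1, y), e.symm_apply_apply]
    exact congrArg e (Prod.ext rfl (Eq.symm hy))
  have h3 : (e.symm (1, y)).1 = 1 := h.1 (by
    change (e _).1 = (e 1).1
    rw [h2, map_one]; rfl)
  rw [h3, show ((1, 1) : A × X) = 1 from rfl, map_one] at h2
  exact (congrArg Prod.snd h2).symm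

def split {ι : Type*} [DecidableEq ι] (A : ι → Type*) [∀ i, Group (A i)] (i : ι) :
    (∀ i, A i) ≃* A i × ∀ j : {j // j ≠ i}, A j :=
  { Equiv.piSplitAt i A with map_mul' := fun _ _ => rfl }

theorem aux.{u, v} (n : ℕ) : ∀ (ι κ : Type) [Finite ι] [Finite κ] (A : ι → Type u) (B : κ → Type v)
    [∀ i, Group (A i)] [∀ j, Group (B j)] [∀ i, Finite (A i)], Nat.card ι = n → (∀ i, Indec (A i)) →
    (∀ j, Indec (B j)) → ((∀ i, A i) ≃* ∀ j, B j) → ∃ σ : ι ≃ κ, ∀ i, Nonempty (A i ≃* B (σ i)) := by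
  classical
  induction n using Nat.strong_induction_on with | _ n ih
  intro ι κ _ _ A B _ _ _ hn hA hB e
  rcases isEmpty_or_nonempty ι with _ | ⟨⟨i⟩⟩
  · have : IsEmpty κ := ⟨fun j => by
      obtain ⟨a, b, hne⟩ := (hB j).1
      exact hne (Pi.mulSingle_injective j (e.symm.injective (Subsingleton.elim _ _)))⟩
    exact ⟨Equiv.equivOfIsEmpty _ _, isEmptyElim⟩
  obtain ⟨j, hj⟩ := exists_bij (hA i) hB ((split A i).symm.trans e)
  obtain ⟨e'⟩ := cancel (((split A i).symm.trans e).trans (split B j)) hj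
  obtain ⟨σ, hσ⟩ := ih _ (hn ▸ Finite.card_subtype_lt (p := (· ≠ i)) (x := i) (by simp)) _ _ _ _ rfl
    (fun k => hA k.1) (fun k => hB k.1) e'.symm
  refine ⟨(Equiv.optionSubtypeNe i).symm.trans (σ.optionCongr.trans (Equiv.optionSubtypeNe j)),
    fun k => ?_⟩
  by_cases hk : k = i
  · subst hk
    rw [Equiv.trans_apply, Equiv.optionSubtypeNe_symm_self]
    exact ⟨MulEquiv.ofBijective ((Pi.evalMonoidHom B j).comp (((split A k).symm.trans
      e).toMonoidHom.comp (MonoidHom.inl _ _))) hj⟩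
  · rw [Equiv.trans_apply, Equiv.optionSubtypeNe_symm_of_ne hk]
    exact hσ ⟨k, hk⟩

/-- If a finite group is isomorphic both to a direct product of `m` directly indecomposable nontrivial groups and to a direct product of `n` such groups (a group is directly indecomposable when it is not the internal direct product of two nontrivial normal subgroups), then `m = n` and the factors are isomorphic in pairs after a suitable matching. -/
theorem result {m n : ℕ} {A : Fin m → Type*} {B : Fin n → Type*} [∀ i, Group (A i)] [∀ j, Group (B j)] [∀ i, Finite (A i)] [∀ j, Finite (B j)] (hA : ∀ i, Nontrivial (A i) ∧ ∀ H K : Subgroup (A i), H.Normal → K.Normal → H ⊓ K = ⊥ → H ⊔ K = ⊤ → H = ⊥ ∨ K = ⊥) (hB : ∀ j, Nontrivial (B j) ∧ ∀ H K : Subgroup (B j), H.Normal → K.Normal → H ⊓ K = ⊥ → H ⊔ K = ⊤ → H = ⊥ ∨ K = ⊥) (e : ((i : Fin m) → A i) ≃* ((j : Fin n) → B j)) : ∃ σ : Fin m ≃ Fin n, ∀ i, Nonempty (A i ≃* B (σ i)) := by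
  exact aux _ _ _ A B rfl hA hB e

end Cfsg.Agent.S4223
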