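import Cfsg.Statements.S4227
import Cfsg.Agent.H23.PL1
import Cfsg.Agent.S0144
-- import your own Cfsg.Agent.* helpers here

set_option autoImplicit false
open Cfsg

namespace Cfsg.Agent.S4227

/-- A finite group in which every element has order dividing `6` has `2`-length at most `1` and `3`-length at most `1`. -/
theorem result {G : Type*} [Group G] [Finite G] (h : ∀ x : G, x ^ 6 = 1) : Cfsg.PLengthLE 2 1 G ∧ Cfsg.PLengthLE 3 1 G := by

  have h3 := Fact.mk Nat.prime_three
  have hs : Group.IsSolvable G := by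
    have h0 := (Nat.card_pos (α := G)).ne'
    refine S0144.result 2 3 ((Nat.card G).factorization 2) ((Nat.card G).factorization 3)
      Nat.prime_two Nat.prime_three ?_
    conv_lhs => rw [← Nat.prod_factorization_pow_eq_self h0]
    rw [Finsupp.prod_of_support_subset _ (s := {2, 3}) _ _ (fun _ _ => pow_zero _),
      Finset.prod_pair (by norm_num)]
    intro t ht
    rw [Nat.support_factorization, Nat.mem_primeFactors] at ht
    have := Fact.mk ht.1
    obtain ⟨x, hx⟩ := exists_prime_orderOf_dvd_card' (G := G) t ht.2.1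
    have h6 : t ∣ 2 * 3 := hx ▸ orderOf_dvd_of_pow_eq_one (h x)
    simpa [Nat.prime_dvd_prime_iff_eq ht.1 Nat.prime_two,
      Nat.prime_dvd_prime_iff_eq ht.1 Nat.prime_three] using (Nat.Prime.dvd_mul ht.1).1 h6
  have key : ∀ p q : ℕ, p * q = 6 → p.Coprime q → H23.HH.PExp p 1 G := by
    intro p q hpq hc x hx
    obtain ⟨n, hn⟩ := H23.HH.isPGroup_zpowers_iff.1 hx
    rw [pow_one, ← orderOf_dvd_iff_pow_eq_one]
    exact ((hc.pow_left n).coprime_dvd_left (orderOf_dvd_of_pow_eq_one hn)).dvd_of_dvd_mul_right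
      (hpq ▸ orderOf_dvd_of_pow_eq_one (h x))
  have h2 : ∀ S : Sylow 2 G, IsMulCommutative (S : Subgroup G) := fun S =>
    ⟨⟨fun a b => by
      have e : ∀ x : S, x⁻¹ = x := fun x => by
        rw [inv_eq_iff_mul_eq_one, ← sq]
        exact Subtype.ext (key 2 3 rfl (by norm_num) x (S.isPGroup'.to_le
          (Subgroup.zpowers_le.2 x.2)))
      rw [← e (a * b), mul_inv_rev, e, e]⟩⟩
  exact ⟨Core.pLengthLE_one_of_centralizer_sylow (Core.isPConstrained_of_solvable 2 hs) default
    (h2 _), H23.HH.plength_of_exp 1 (Core.isPSolvable_of_solvable 3 hs)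
    (H23.HH.noExc_of_sylow_two (by norm_num) h2) (key 3 2 rfl (by norm_num))⟩

end Cfsg.Agent.S4227
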