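import Mathlib
import Cfsg.Statements.S4276
import Cfsg.Agent.FGS.TwoTr

set_option autoImplicit false
open Cfsg

namespace Cfsg.Agent.S4276

/-- Let G be a doubly transitive group of permutations of a finite set Ω of size n, let o ∈ Ω, and let α be an automorphism of G of odd order. Suppose that the image under α of the stabilizer of o has an orbit on Ω whose length k is coprime to n. Then α is induced by conjugation by a permutation of Ω normalizing G, and k = 1 or k = n − 1. -/
theorem result {Ω : Type*} [Fintype Ω] (G : Subgroup (Equiv.Perm Ω)) (h2 : MulAction.IsMultiplyPretransitive G Ω 2) (o : Ω) (α : MulAut G) (hα : Odd (orderOf α)) (ω : Ω) (hk : (Nat.card (MulAction.orbit ((MulAction.stabilizer G o).map α.toMonoidHom) ω)).Coprime (Fintype.card Ω)) : (∃ σ : Equiv.Perm Ω, σ ∈ Subgroup.normalizer (G : Set (Equiv.Perm Ω)) ∧ ∀ g : G, ((α g : G) : Equiv.Perm Ω) = σ * (g : Equiv.Perm Ω) * σ⁻¹) ∧ (Nat.card (MulAction.orbit ((MulAction.stabilizer G o).map α.toMonoidHom)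 ω) = 1 ∨ Nat.card (MulAction.orbit ((MulAction.stabilizer G o).map α.toMonoidHom) ω) = Fintype.card Ω - 1) := by
  obtain ⟨τ, hτ⟩ := FGS.TwoTr.exists_twist h2 α hα o ω (by
    convert hk using 3
    ext b
    constructor
    · rintro ⟨g, h1, rfl⟩
      exact ⟨⟨α g, g, h1, rfl⟩, rfl⟩
    · rintro ⟨⟨_, g, h1, rfl⟩, rfl⟩
      exact ⟨g, h1, rfl⟩)
  have hc : ∀ g : G, ((α g : G) : Equiv.Perm Ω) = τ * (g : Equiv.Perm Ω) * τ⁻¹ := fun g => by
    rw [eq_mul_inv_iff_mul_eq]
    exact Equiv.ext fun a => (hτ g a).symm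
  refine ⟨⟨τ, Subgroup.mem_normalizer_fintype fun g hg => hc ⟨g, hg⟩ ▸ (α ⟨g, hg⟩).2, hc⟩, ?_⟩
  have hfix : ∀ k : (MulAction.stabilizer G o).map α.toMonoidHom, k • τ o = τ o := by
    rintro ⟨_, g, h1, rfl⟩
    exact (hτ g o).symm.trans (congrArg τ h1)
  by_cases hω : ω = τ o
  · left
    rw [Nat.card_eq_one_iff_exists]
    refine ⟨⟨ω, MulAction.mem_orbit_self _⟩, ?_⟩
    rintro ⟨_, k, rfl⟩
    exact Subtype.ext (by subst hω; exact hfix k)
  · right
    have : MulAction.orbit ((MulAction.stabilizer G o).map α.toMonoidHom) ω = {τ o}ᶜ := by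
      ext b
      constructor
      · rintro ⟨k, rfl⟩ h
        exact hω (smul_left_cancel k (h.trans (hfix k).symm))
      · intro hb
        obtain ⟨g, h1, h2⟩ := MulAction.is_two_pretransitive_iff.mp h2 hω (show b ≠ τ o from hb)
        obtain ⟨g, rfl⟩ := α.surjective g
        exact ⟨⟨α g, g, τ.injective ((hτ g o).trans h2), rfl⟩, h1⟩
    rw [this, Nat.card_coe_set_eq, Set.ncard_compl, Set.ncard_singleton, Nat.card_eq_fintype_card]

end Cfsg.Agent.S4276
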