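import Mathlib
import Cfsg.Statements.S4277
import Cfsg.Agent.FGS.TwoTr
import Cfsg.Agent.FGS.Sylow
import Cfsg.Agent.Perm.Burnside
import Cfsg.Agent.Transfer.Residual
import Cfsg.Agent.Core.Basic

set_option autoImplicit false
open Cfsg

namespace Cfsg.Agent.S4277

/-- A case of the Schreier conjecture: if a finite simple group G has a subgroup of prime index, then the outer automorphism group of G is solvable. -/
theorem result {G : Type*} [Group G] [Finite G] [IsSimpleGroup G] (H : Subgroup G) (hH : H.index.Prime) : Group.IsSolvable (Cfsg.Out G) := by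
  classical
  set p := H.index with hp
  haveI := Fact.mk hH
  by_cases hs : Group.IsSolvable G
  · have hc : IsMulCommutative G := ⟨⟨IsSimpleGroup.comm_iff_isSolvable.mpr hs⟩⟩
    haveI : IsCyclic G := by
      letI := hc
      open scoped IsMulCommutative in exact IsSimpleGroup.isCyclic
    haveI : Group.IsSolvable (MulAut G) := Core.solvable_of_mulEquiv (IsCyclic.mulAutMulEquiv G).symm inferInstance
    infer_instance
  haveI : FaithfulSMul G (G ⧸ H) := by
    have hk : (MulAction.toPermHom G (G ⧸ H)).ker = ⊥ := by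
      rw [← Subgroup.normalCore_eq_ker]
      refine (H.normalCore_normal.eq_bot_or_eq_top).resolve_right fun h => hH.one_lt.ne' ?_
      exact Subgroup.index_eq_one.mpr (top_le_iff.mp (h ▸ H.normalCore_le))
    exact ⟨fun h => (MonoidHom.ker_eq_bot_iff _).mp hk (Equiv.ext h)⟩
  have hcard : Nat.card (G ⧸ H) = p := rfl
  have h2 := (Perm.burnside_prime_degree hcard).resolve_left hs
  obtain ⟨P⟩ : Nonempty (Sylow p G) := inferInstance
  obtain ⟨e, t, hP, ht, he⟩ := Perm.exists_translation hcard P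
  let D : Subgroup (MulAut G × Equiv.Perm (G ⧸ H)) :=
    { carrier := {d | (∀ (g : G) (a : G ⧸ H), d.2 (g • a) = d.1 g • d.2 a) ∧ d.1 • P = P}
      one_mem' := ⟨fun _ _ => rfl, one_smul _ _⟩
      mul_mem' := fun {c d} hc hd => ⟨fun g a => by
        rw [Prod.snd_mul, Equiv.Perm.mul_apply, hd.1, hc.1]; rfl, by rw [Prod.fst_mul, mul_smul, hd.2, hc.2]⟩
      inv_mem' := fun {d} hd => ⟨fun g a => by
        rw [Prod.snd_inv, Prod.fst_inv, Equiv.Perm.inv_eq_iff_eq, hd.1, MulAut.apply_inv_self]; simp, by rw [Prod.fst_inv, inv_smul_eq_iff, hd.2]⟩ }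
  letI : MulAction D (G ⧸ H) := MulAction.compHom _ ((MonoidHom.snd _ _).comp D.subtype)
  haveI : FaithfulSMul D (G ⧸ H) := ⟨fun {c d} h => by
    have h1 : c.1.2 = d.1.2 := Equiv.ext h
    refine Subtype.ext (Prod.ext (MulEquiv.ext fun g => eq_of_smul_eq_smul (α := G ⧸ H) fun a => ?_) h1)
    obtain ⟨a, rfl⟩ := c.1.2.surjective a
    rw [← c.2.1, h1, d.2.1]⟩
  have hD : Group.IsSolvable D := Perm.solvable_of_affine e fun d => by
    have h1 : d.1.1 t ∈ Subgroup.zpowers t := by
      rw [← hP, ← d.2.2]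
      exact Subgroup.smul_mem_pointwise_smul t _ _ (hP ▸ Subgroup.mem_zpowers t)
    obtain ⟨i, hi⟩ := mem_powers_iff_mem_zpowers.mpr h1
    refine ⟨i, _, Perm.affine_of_conj (G := Equiv.Perm (G ⧸ H)) (τ := MulAction.toPermHom G _ t) he
      (g := d.1.2) (i := i) ?_⟩
    rw [mul_inv_eq_iff_eq_mul, ← map_pow]
    exact Equiv.ext fun a => (d.2.1 t a).trans (by rw [← hi]; rfl)
  let f : D →* Cfsg.Out G := (QuotientGroup.mk' _).comp ((MonoidHom.fst _ _).comp D.subtype)
  have hle : Cfsg.pResidual 2 (Cfsg.Out G) ≤ f.range := Transfer.pResidual_le_iff.mpr fun x hx => by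
    obtain ⟨α, rfl⟩ := QuotientGroup.mk'_surjective _ x
    obtain ⟨β, -, hβ, hβ2⟩ := FGS.exists_pPrime_lift _ α hx
    haveI := Fintype.ofFinite (G ⧸ H)
    obtain ⟨τ, hτ⟩ := FGS.TwoTr.exists_twist h2 β (Nat.coprime_two_right.mp hβ2)
      ((1 : G) : G ⧸ H) ((1 : G) : G ⧸ H) (by
        have h1 : {b : G ⧸ H | ∃ g : G, g • ((1 : G) : G ⧸ H) = ((1 : G) : G ⧸ H) ∧ β g • ((1 : G) : G ⧸ H) = b} =
            MulAction.orbit (H.map β.toMonoidHom) ((1 : G) : G ⧸ H) := by
          ext b
          constructor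
          · rintro ⟨g, h1, rfl⟩
            exact ⟨⟨β g, g, (MulAction.stabilizer_quotient H).le h1, rfl⟩, rfl⟩
          · rintro ⟨⟨_, g, h1, rfl⟩, rfl⟩
            exact ⟨g, (MulAction.stabilizer_quotient H).ge h1, rfl⟩
        rw [h1, ← Nat.card_eq_fintype_card, hcard, Nat.card_coe_set_eq, ← MulAction.index_stabilizer]
        refine Nat.Coprime.coprime_dvd_left (Subgroup.index_dvd_card _) ?_
        rw [Subgroup.card_map_of_injective (f := β.toMonoidHom) β.injective]
        refine ((Nat.Prime.coprime_iff_not_dvd hH).mpr fun h => ?_).symm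
        refine Perm.not_sq_dvd_card (G := G) (α := G ⧸ H) (p := p) (by rw [hcard]; have := hH.pos; omega) ?_
        rw [← H.card_mul_index, sq]
        exact Nat.mul_dvd_mul_right h _)
    obtain ⟨g, hg⟩ := MulAction.exists_smul_eq G (β • P) P
    refine ⟨⟨(MulAut.conj g * β, MulAction.toPermHom G _ g * τ), fun x a => ?_, by rw [mul_smul]; exact hg⟩, ?_⟩
    · simp [hτ, ← mul_smul]
    · rw [← hβ]
      change QuotientGroup.mk' _ (MulAut.conj g * β) = _
      rw [map_mul, (QuotientGroup.eq_one_iff (N := Cfsg.Inn G) _).mpr ⟨g, rfl⟩ |> fun h =>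
        (h : QuotientGroup.mk' (Cfsg.Inn G) (MulAut.conj g) = 1), one_mul]
  haveI := Transfer.pResidual_normal (p := 2) (G := Cfsg.Out G)
  haveI := Fact.mk Nat.prime_two
  exact (Group.isSolvable_iff_subgroup_quotient (Cfsg.pResidual 2 (Cfsg.Out G))).mpr
    ⟨Core.solvable_of_le hle (Group.isSolvable_of_surjective f.rangeRestrict_surjective),
      Core.solvable_of_isPGroup Transfer.isPGroup_quotient_pResidual⟩

end Cfsg.Agent.S4277
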