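import Cfsg.Statements.S4278
import Mathlib
import Cfsg.Agent.Chev.SsC

set_option autoImplicit false
open Cfsg

namespace Cfsg.Agent.S4278
open Cfsg.Lie Cfsg.Agent.Chev

/-- In the Chevalley group of type G₂ over a finite field of odd order, any two involutions are conjugate. -/
theorem result {F : Type*} [Field F] [Fintype F] (hF : Odd (Fintype.card F)) (s t : ↥(Cfsg.Lie.chevG2.group F)) (hs : orderOf s = 2) (ht : orderOf t = 2) : IsConj s t := by
  letI := good2G2
  haveI := neZero_two hF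
  obtain ⟨k, hk, b, hb, e⟩ := conj_G2 (group_eq (D := chevG2) (F := F) ▸ s.2) ((Subgroup.orderOf_coe s).trans hs)
  obtain ⟨k', hk', b', hb', e'⟩ := conj_G2 (group_eq (D := chevG2) (F := F) ▸ t.2) ((Subgroup.orderOf_coe t).trans ht)
  rw [List.mem_singleton.mp hk] at e
  rw [List.mem_singleton.mp hk', ← e] at e'
  rw [← group_eq] at hb hb'
  refine isConj_iff.mpr ⟨⟨b'⁻¹ * b, mul_mem (inv_mem hb') hb⟩, Subtype.ext ?_⟩
  change b'⁻¹ * b * s * (b'⁻¹ * b)⁻¹ = t
  rw [show b'⁻¹ * b * s * (b'⁻¹ * b)⁻¹ = b'⁻¹ * (b * s * b⁻¹) * b' by group, ← e']; group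

end Cfsg.Agent.S4278
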