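import Cfsg.Statements.S4280
import Mathlib
import Cfsg.Agent.Chev.SsC

set_option autoImplicit false
open Cfsg

namespace Cfsg.Agent.S4280
open Cfsg.Lie Cfsg.Agent.Chev

/-- In the Chevalley group of type F₄ over a finite field of odd order q there are exactly two conjugacy classes of involutions; the centralizer of an involution in one class has order q¹⁶(q² − 1)(q⁴ − 1)(q⁶ − 1)(q⁸ − 1), and in the other class q¹⁰(q² − 1)²(q⁴ − 1)(q⁶ − 1). -/
theorem result {F : Type*} [Field F] [Fintype F] (hF : Odd (Fintype.card F)) : ∃ s t : ↥(Cfsg.Lie.chevF4.group F), orderOf s = 2 ∧ orderOf t = 2 ∧ ¬ IsConj s t ∧ (∀ u : ↥(Cfsg.Lie.chevF4.group F), orderOf u = 2 → IsConj u s ∨ IsConj u t) ∧ Nat.card (Subgroup.centralizer ({s} : Set ↥(Cfsg.Lie.chevF4.group F))) = Fintype.card F ^ 16 * (Fintype.card F ^ 2 - 1) * (Fintype.card F ^ 4 - 1) * (Fintype.card F ^ 6 - 1) * (Fintype.card F ^ 8 - 1) ∧ Nat.card (Subgroup.centralizer ({t} : Set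 ↥(Cfsg.Lie.chevF4.group F))) = Fintype.card F ^ 10 * (Fintype.card F ^ 2 - 1) ^ 2 * (Fintype.card F ^ 4 - 1) * (Fintype.card F ^ 6 - 1) := by
  letI := good2F4
  haveI := neZero_two hF
  have hm : ∀ k, dgU (zk F k) ∈ chevF4.group F := fun k =>
    group_eq (D := chevF4) (F := F) ▸ StSys.H_le_grp _ (dgU_mem_grp (ker_F4 _) _)
  have h1 := card_F4_0 (F := F)
  have h2 := card_F4_3 (F := F)
  rw [← card_centralizer (z := ⟨_, hm _⟩)] at h1 h2
  have hq : ∀ n, 1 ≤ Fintype.card F ^ n := fun n => Nat.one_le_pow _ _ Fintype.card_pos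
  refine ⟨⟨_, hm ndF4_0⟩, ⟨_, hm ndF4_3⟩, (Subgroup.orderOf_mk _ _).trans (orderOf_zk _),
    (Subgroup.orderOf_mk _ _).trans (orderOf_zk _), fun h => ?_, fun u hu => ?_, ?_, ?_⟩
  · rw [card_cent_eq h, h2] at h1
    refine not_dvd_of_cast (F := F) (n := 10) (m := 5) h1 ?_
    simp
  · obtain ⟨k, hk, b, hb, e⟩ := conj_F4 (group_eq (D := chevF4) (F := F) ▸ u.2) ((Subgroup.orderOf_coe u).trans hu)
    rw [← group_eq] at hb
    have : IsConj u ⟨_, hm k⟩ := isConj_iff.mpr ⟨⟨b, hb⟩, Subtype.ext e⟩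
    rcases List.mem_pair.mp hk with rfl | rfl
    exacts [.inl this, .inr this]
  · zify [hq]; rw [h1]; ring
  · zify [hq]; rw [h2]; ring

end Cfsg.Agent.S4280
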