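import Cfsg.Statements.S4282
import Cfsg.Agent.H23.HHApp
-- import your own Cfsg.Agent.* helpers here

set_option autoImplicit false
open Cfsg

namespace Cfsg.Agent.S4282

/-- A critical case behind the Hall–Higman theorem. Let p ≠ q be primes and G a finite group generated by a normal q-subgroup Q and a cyclic p-subgroup generated by x, such that the centralizer of every non-identity element of that cyclic subgroup is its product with the centre of G. Let K be an algebraically closed field of characteristic p and ρ a faithful representation of G on a nonzero finite-dimensional K-space whose restriction to Q is irreducible. If s is the least exponent with (ρ(x) − 1)^s = 0, then |⟨x⟩| − 1 ≤ s ≤ |⟨x⟩|; and if s = |⟨x⟩| − 1 then |⟨x⟩| − 1 is a power of q and Q is non-abelian. -/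
theorem result {G : Type*} [Group G] [Finite G] (p q : ℕ) [Fact p.Prime] [Fact q.Prime] (hpq : p ≠ q) (Q : Subgroup G) [Q.Normal] (hQ : IsPGroup q Q) (x : G) (hx : IsPGroup p (Subgroup.zpowers x)) (hgen : Q ⊔ Subgroup.zpowers x = ⊤) (hC : ∀ y ∈ Subgroup.zpowers x, y ≠ 1 → Subgroup.centralizer ({y} : Set G) = Subgroup.zpowers x ⊔ Subgroup.center G) {K : Type*} [Field K] [IsAlgClosed K] [CharP K p] {V : Type*} [AddCommGroup V] [Module K V] [FiniteDimensional K V] [Nontrivial V] (ρ : Representation K G V) (hfaith : Function.Injective ρ) (hirr : ∀ W : Submodule K V, (∀ g ∈ Q, Submodule.map (ρ g) W ≤ W) → W = ⊥ ∨ W = ⊤) (s : ℕ) (hs : (ρ x - 1) ^ s = 0) (hmin : ∀ k < s, (ρ x - 1) ^ k ≠ 0) : Nat.card (Subgroup.zpowers x) - 1 ≤ s ∧ s ≤ Nat.card (Subgroup.zpowers x) ∧ (s = Nat.card (Subgroup.zpowers x) - 1 → (∃ b : ℕ, Nat.card (Subgroup.zpowers x) - 1 = q ^ b) ∧ ¬ IsMulCommutative Q) := by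

  open BG BG.Amb H23.HH in
  have hp : p.Prime := Fact.out
  have hq : q.Prime := Fact.out
  obtain ⟨n, hn⟩ := IsPGroup.iff_card.1 hx
  rw [hn]
  rw [Nat.card_zpowers] at hn
  have hle : s ≤ p ^ n := by
    by_contra hc
    refine hmin (p ^ n) (by omega) ?_
    rw [sub_one_pow_char, ← map_pow, ← hn, pow_orderOf_eq_one, map_one, sub_self]
  have key : s < p ^ n → p ^ n - 1 ≤ s ∧ (∃ b, p ^ n - 1 = q ^ b) ∧ ¬ IsMulCommutative Q := by
    intro hlt
    rcases Nat.eq_zero_or_pos n with rfl | hn1
    · obtain rfl : s = 0 := by simpa using hlt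
      exact absurd hs (by simp)
    have hy := card_omega hp hn hn1
    set y := x ^ p ^ (n - 1) with hyd
    have hy1 : y ≠ 1 := by
      intro h
      rw [h, Subgroup.zpowers_one_eq_bot, Subgroup.card_bot] at hy
      exact hp.one_lt.ne hy
    have hk : (Nat.card Q : K) ≠ 0 := cast_card_ne_zero hq hpq.symm hQ
    have hnc : ¬ Q ≤ Subgroup.centralizer (Subgroup.zpowers y : Set G) := by
      intro h
      rw [cent_zpowers] at h
      have h0 : (ρ y - 1) ^ p ^ 1 = 0 := by
        rw [sub_one_pow_char, ← map_pow, pow_one, ← hy, Nat.card_zpowers, pow_orderOf_eq_one,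
          map_one, sub_self]
      rcases hirr (LinearMap.ker (ρ y - 1)) (by
        rintro g hg _ ⟨v, hv, rfl⟩
        have h1 : ρ y v = v := sub_eq_zero.1 (LinearMap.mem_ker.1 hv)
        rw [LinearMap.mem_ker, LinearMap.sub_apply, Module.End.one_apply, ← Module.End.mul_apply,
          ← map_mul, ← mem_cent1.1 (h hg), map_mul, Module.End.mul_apply, h1, sub_self]) with h1 | h1
      · have h2 : Function.Injective ((ρ y - 1) ^ p ^ 1 : Module.End K V) := by
          rw [Module.End.coe_pow]
          exact (LinearMap.ker_eq_bot.1 h1).iterate _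
        obtain ⟨v, hv⟩ := exists_ne (0 : V)
        exact hv (h2 (by rw [h0, LinearMap.zero_apply, LinearMap.zero_apply]))
      · rw [LinearMap.ker_eq_top, sub_eq_zero, ← map_one ρ] at h1
        exact hy1 (hfaith h1)
    have := hQ.isNilpotent
    obtain ⟨a, ha⟩ := IsPGroup.iff_card.1 hQ
    obtain ⟨Q₀, hQ₀, hm⟩ := exists_minAct (Q₀ := Q) (T := Subgroup.zpowers x)
      (Subgroup.le_normalizer_of_normal) (zpowers_pow_le x _)
      (le_norm_of_le_cent (le_cent_of_comm inferInstance le_rfl (zpowers_pow_le x _)))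
      (by rw [hy, ha]; exact ((Nat.coprime_primes hq hp).2 hpq.symm).pow_left a) inferInstance hnc
    obtain ⟨g, hg, hg1⟩ := exists_mem_ne_one hm.ne_bot
    obtain ⟨l, j, N, hj, hl, hst, hN, h1, h2, h3⟩ := hm.hh hn hn1 (Subgroup.mem_zpowers x)
      (RepFrob.cast_card_ne_zero_of_le hQ₀ hk)
      ⟨g, hg, fun h => hg1 (hfaith (h.trans (map_one ρ).symm))⟩ hs hlt
    have hxs : x ∈ stab l := by
      apply cent_le_stab l
      apply le_cent1_iff.1
      refine inf_le_right.trans ?_
      rw [cent_zpowers, hC y (zpowers_pow_le x _ (Subgroup.mem_zpowers _)) hy1]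
      exact sup_le (Subgroup.zpowers_le.2 (mem_cent1_self x)) (Subgroup.center_le_centralizer _)
    have h4 : p ^ j ∣ 1 := dvd_of_pow_mem hn hj.le
      (by rw [pow_one, ← hst]; exact ⟨Subgroup.mem_zpowers x, hxs⟩)
    obtain rfl : j = 0 := (Nat.pow_eq_one.1 (Nat.dvd_one.1 h4)).resolve_left hp.one_lt.ne'
    obtain ⟨m, -, rfl⟩ := eq_pow_of_sq hq (hQ.to_le hQ₀) h1 hN
    rw [Nat.sub_zero] at h2
    rw [pow_zero, one_mul] at h3
    refine ⟨by omega, ⟨m, by omega⟩, fun hc => hl ?_⟩
    rw [der_eq_bot_iff.2 (comm_mono hc hQ₀)]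
    exact bot_le
  have h0 : 1 ≤ p ^ n := Nat.one_le_pow _ _ hp.pos
  refine ⟨?_, hle, fun h => (key (by omega)).2⟩
  rcases hle.eq_or_lt with h | h
  · omega
  · exact (key h).1

end Cfsg.Agent.S4282
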