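import Mathlib
import Cfsg.Statements.S4283
import Cfsg.Agent.FGS.Basic2
import Cfsg.Agent.Core.Basic
import Cfsg.Agent.H2.FrobQuot

set_option autoImplicit false
open Cfsg

namespace Cfsg.Agent.S4283

/-- Let G be a finite group with centre Z and let K, H be abelian subgroups of G containing Z such that G/Z is a Frobenius group with complement H/Z and kernel K/Z. Then the conjugacy class sizes of G are exactly 1, [G : K] and [G : H], and these two indices are coprime. (This is the converse half of the characterization of finite groups whose conjugacy class sizes are exactly 1, m and n with m and n coprime.) -/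
theorem result {G : Type*} [Group G] [Finite G] (K H : Subgroup G) (hZK : Subgroup.center G ≤ K) (hZH : Subgroup.center G ≤ H) (hK : IsMulCommutative K) (hH : IsMulCommutative H) (hFrob : Cfsg.IsFrobeniusComplement (H.map (QuotientGroup.mk' (Subgroup.center G)))) (hker : Cfsg.frobeniusKernel (H.map (QuotientGroup.mk' (Subgroup.center G))) = (K.map (QuotientGroup.mk' (Subgroup.center G)) : Set (G ⧸ Subgroup.center G))) : Set.range (fun x : G => (Subgroup.centralizer ({x} : Set G)).index) = ({1, K.index, H.index} : Set ℕ) ∧ K.index.Coprime H.index := by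
  set f := QuotientGroup.mk' (Subgroup.center G) with hf
  have hsurj : Function.Surjective f := QuotientGroup.mk'_surjective _
  have hker' : f.ker = Subgroup.center G := QuotientGroup.ker_mk' _
  have hmem : ∀ {L : Subgroup G}, Subgroup.center G ≤ L → ∀ x, f x ∈ L.map f ↔ x ∈ L := fun {L} hL x => by
    rw [← Subgroup.mem_comap, Subgroup.comap_map_eq_self (hker'.le.trans hL)]
  have hidx : ∀ {L : Subgroup G}, Subgroup.center G ≤ L → (L.map f).index = L.index := fun {L} hL =>
    Subgroup.index_map_eq _ hsurj (hker'.le.trans hL)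
  have hne : ∀ x, f x = 1 ↔ x ∈ Subgroup.center G := fun x => QuotientGroup.eq_one_iff x
  have hcent : ∀ x y : G, y ∈ Subgroup.centralizer ({x} : Set G) →
      f y ∈ Subgroup.centralizer ({f x} : Set _) := fun x y h => by
    rw [Subgroup.mem_centralizer_singleton_iff] at h ⊢
    rw [← map_mul, h, map_mul]
  have h1 : ∀ x ∈ K, x ∉ Subgroup.center G → Subgroup.centralizer ({x} : Set G) = K := fun x hx hz =>
    le_antisymm (fun y hy => (hmem hZK y).mp (H2.Frob.centralizer_le_kernel hFrob hker.symm
      ((hmem hZK x).mpr hx) (mt (hne x).mp hz) (hcent x y hy))) (FGS.le_centralizer_of_comm hK hx)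
  have h2 : ∀ x ∈ H, x ∉ Subgroup.center G → Subgroup.centralizer ({x} : Set G) = H := fun x hx hz =>
    le_antisymm (fun y hy => (hmem hZH y).mp (H2.Frob.centralizer_le hFrob
      (mt (hne x).mp hz) ((hmem hZH x).mpr hx) (hcent x y hy))) (FGS.le_centralizer_of_comm hH hx)
  have hex : ∀ {L : Subgroup G}, L.map f ≠ ⊥ → ∃ x ∈ L, x ∉ Subgroup.center G := fun {L} hL => by
    by_contra! hc
    exact hL ((Subgroup.map_eq_bot_iff _).mpr fun x hx => hker'.ge (hc x hx))
  have hc := H2.Frob.isComplement'_of_coe_eq hFrob hker.symm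
  refine ⟨Set.Subset.antisymm ?_ ?_, ?_⟩
  · rintro _ ⟨x, rfl⟩
    by_cases hz : x ∈ Subgroup.center G
    · exact Or.inl (FGS.index_centralizer_eq_one_iff.mpr hz)
    by_cases hx : x ∈ K
    · exact Or.inr (Or.inl (by simp only [h1 x hx hz]))
    have h3 : f x ∉ Cfsg.frobeniusKernel (H.map f) := by rw [hker]; exact mt (hmem hZK x).mp hx
    simp only [Cfsg.frobeniusKernel, Set.mem_ofPred_eq, not_or, not_forall, not_not] at h3
    obtain ⟨-, g, hg⟩ := h3
    obtain ⟨g, rfl⟩ := hsurj g
    rw [FGS.mem_conj_iff, ← map_inv, ← map_mul, ← map_mul, hmem hZH] at hg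
    refine Or.inr (Or.inr ?_)
    have h4 := FGS.index_centralizer_conj g⁻¹ x
    rw [inv_inv, h2 _ hg fun h => hz (by
      have := (Subgroup.normal_of_characteristic (Subgroup.center G)).conj_mem _ h g
      simpa [mul_assoc] using this)] at h4
    exact h4.symm
  · rintro _ (rfl | rfl | rfl)
    · exact ⟨1, FGS.index_centralizer_eq_one_iff.mpr (Subgroup.one_mem _)⟩
    · obtain ⟨x, hx, hz⟩ := hex (H2.Frob.ne_bot_of_coe_eq hFrob hker.symm)
      exact ⟨x, by simp only [h1 x hx hz]⟩
    · obtain ⟨x, hx, hz⟩ := hex hFrob.1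
      exact ⟨x, by simp only [h2 x hx hz]⟩
  · rw [← hidx hZK, ← hidx hZH, hc.symm.index_eq_card]
    exact H2.Frob.coprime_index hFrob

end Cfsg.Agent.S4283
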