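import Mathlib
import Cfsg.Statements.S4292
import Cfsg.Agent.Perm.FC2

set_option autoImplicit false
open Cfsg

namespace Cfsg.Agent.S4292

theorem eq_zero {n m : ℕ} {M : Matrix (Fin n) (Fin n) ℤ} (h : (M - 1).det ≠ 0)
    {T : Matrix (Fin n) (Fin m) ℤ} (e : M * T = T) : T = 0 := by
  have h1 : (M - 1) * T = 0 := by rw [Matrix.sub_mul, e, Matrix.one_mul, sub_self]
  have h2 := congrArg ((M - 1).adjugate * ·) h1
  simp only [← Matrix.mul_assoc, Matrix.adjugate_mul, Matrix.mul_zero, Matrix.smul_mul,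
    Matrix.one_mul] at h2
  exact (smul_eq_zero.1 h2).resolve_left h

theorem prod {A B : Type*} [Group A] [Finite A] [Group B] [Finite B] (hA : Perm.IsFC A)
    (hB : Perm.IsFC B) (hc : (Nat.card A).Coprime (Nat.card B)) : Perm.IsFC (A × B) := by
  obtain ⟨n, ρ, hn, hρ⟩ := hA
  obtain ⟨m, σ, hm, hσ⟩ := hB
  have : Nonempty (Fin n) := ⟨⟨0, hn⟩⟩
  have : Nonempty (Fin m) := ⟨⟨0, hm⟩⟩
  letI : DistribMulAction (A × B) (Matrix (Fin n) (Fin m) ℤ) :=
    { smul := fun g T => ρ g.1 * T * σ g.2⁻¹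
      one_smul := fun T => show ρ 1 * T * σ 1⁻¹ = T by simp
      mul_smul := fun g h T => show ρ (g.1 * h.1) * T * σ (g.2 * h.2)⁻¹ =
        ρ g.1 * (ρ h.1 * T * σ h.2⁻¹) * σ g.2⁻¹ by simp [Matrix.mul_assoc]
      smul_zero := fun g => show ρ g.1 * 0 * σ g.2⁻¹ = 0 by simp
      smul_add := fun g S T => show ρ g.1 * (S + T) * σ g.2⁻¹ =
        ρ g.1 * S * σ g.2⁻¹ + ρ g.1 * T * σ g.2⁻¹ by rw [Matrix.mul_add, Matrix.add_mul] }
  refine Perm.isFC_of_distrib (Matrix (Fin n) (Fin m) ℤ) fun g hg T e => ?_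
  have h1 : ∀ k : ℕ, ρ (g.1 ^ k) * T * σ (g.2 ^ k)⁻¹ = T := fun k =>
    (MulAction.stabilizer (A × B) T).pow_mem e k
  by_cases h2 : g.1 = 1
  · have h3 : g.2⁻¹ ≠ 1 := fun e => hg (Prod.ext h2 (inv_eq_one.1 e))
    have h4 := congrArg Matrix.transpose (h1 1)
    rw [h2, one_pow, map_one, Matrix.one_mul, pow_one, Matrix.transpose_mul] at h4
    refine Matrix.transpose_eq_zero.1 (eq_zero ?_ h4)
    rw [← Matrix.transpose_one, ← Matrix.transpose_sub, Matrix.det_transpose]
    exact hσ _ h3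
  · have h3 := h1 (Nat.card B)
    rw [pow_card_eq_one', inv_one, map_one, Matrix.mul_one] at h3
    refine eq_zero (hρ _ fun e => h2 ?_) h3
    exact (powCoprime hc).injective (e.trans (one_pow _).symm)

/-- Let A and B be nontrivial finite groups. Then the direct product A × B occurs as a Frobenius complement if and only if A and B both occur as Frobenius complements and the orders of A and B are coprime. -/
theorem result {A B : Type*} [Group A] [Finite A] [Nontrivial A] [Group B] [Finite B] [Nontrivial B] :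
    (∃ (L : Type) (_ : Group L) (_ : Finite L) (H : Subgroup L), Cfsg.IsFrobeniusComplement H ∧ Nonempty ((A × B) ≃* H)) ↔
    ((∃ (L : Type) (_ : Group L) (_ : Finite L) (H : Subgroup L), Cfsg.IsFrobeniusComplement H ∧ Nonempty (A ≃* H)) ∧
     (∃ (L : Type) (_ : Group L) (_ : Finite L) (H : Subgroup L), Cfsg.IsFrobeniusComplement H ∧ Nonempty (B ≃* H)) ∧
     (Nat.card A).Coprime (Nat.card B)) := by
  refine ⟨fun h => ?_, fun ⟨h1, h2, h3⟩ =>
    (prod (Perm.isFC_of_exists_frob h1) (Perm.isFC_of_exists_frob h2) h3).exists_frob⟩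
  have h := Perm.isFC_of_exists_frob h
  refine ⟨(h.of_injective (MonoidHom.inl A B) fun _ _ e => congrArg Prod.fst e).exists_frob,
    (h.of_injective (MonoidHom.inr A B) fun _ _ e => congrArg Prod.snd e).exists_frob,
    Nat.coprime_of_dvd fun p hp h1 h2 => ?_⟩
  have : Fact p.Prime := ⟨hp⟩
  obtain ⟨a, ha⟩ := exists_prime_orderOf_dvd_card' p h1
  obtain ⟨b, hb⟩ := exists_prime_orderOf_dvd_card' p h2
  obtain ⟨i, hi⟩ := h.mem_zpowers hp (y := (a, 1)) (z := (1, b))
    (by simp [Prod.orderOf_mk, ha]) (by simp [Prod.orderOf_mk, hb])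
    (by simp [Commute, SemiconjBy])
  have h3 : a = 1 := by simpa using (congrArg Prod.fst hi).symm
  rw [h3, orderOf_one] at ha
  exact hp.one_lt.ne ha

end Cfsg.Agent.S4292
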