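import Mathlib
import Cfsg.Statements.S4297
import Cfsg.Agent.Perm.FC2
import Cfsg.Agent.Inv.Dihedral

set_option autoImplicit false
open Cfsg

namespace Cfsg.Agent.S4297

open scoped Quaternion

/-- For every n ≥ 2 the dicyclic group of order 4n (generated by an element a of order 2n and an element x with x² = aⁿ and x a x⁻¹ = a⁻¹) occurs as a Frobenius complement of some finite Frobenius group. -/
theorem result (n : ℕ) (hn : 2 ≤ n) :
    ∃ (L : Type) (_ : Group L) (_ : Finite L) (H : Subgroup L), Cfsg.IsFrobeniusComplement H ∧ Nonempty (H ≃* QuaternionGroup n) := by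
  have n0 : 2 * n ≠ 0 := by omega
  have : NeZero n := ⟨by omega⟩
  have hζ := Complex.isPrimitiveRoot_exp _ n0
  set ζ := Complex.exp (2 * Real.pi * Complex.I / (2 * n : ℕ))
  have inj : Function.Injective (Quaternion.ofComplex) := Quaternion.ofComplex.toRingHom.injective
  let a : ℍ[ℝ]ˣ := Units.map Quaternion.ofComplex.toRingHom.toMonoidHom (hζ.isUnit n0).unit
  have ha : (a : ℍ[ℝ]) = Quaternion.ofComplex ζ := rfl
  have ho : orderOf a = 2 * n := by
    rw [← orderOf_units, ha]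
    exact (orderOf_injective Quaternion.ofComplex.toRingHom.toMonoidHom inj ζ).trans
      hζ.eq_orderOf.symm
  let j : ℍ[ℝ] := ⟨0, 0, 1, 0⟩
  have j0 : j ≠ 0 := fun e => by simpa [j] using congrArg QuaternionAlgebra.imJ e
  let t : ℍ[ℝ]ˣ := Units.mk0 j j0
  have hz : ζ ^ n = -1 := (hζ.pow (by omega) (mul_comm 2 n)).eq_neg_one_of_two_right
  have h1 : t * t = a ^ n := by
    ext : 1
    rw [Units.val_pow_eq_pow_val, ha, ← map_pow, hz, map_neg, map_one]
    change j * j = -1
    have a1 : j.re = 0 := rfl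
    have a2 : j.imI = 0 := rfl
    have a3 : j.imJ = 1 := rfl
    have a4 : j.imK = 0 := rfl
    ext <;> simp [a1, a2, a3, a4]
  have hn1 : ζ.re * ζ.re + ζ.im * ζ.im = 1 := by
    rw [← Complex.normSq_apply, Complex.normSq_eq_norm_sq, hζ.norm'_eq_one n0, one_pow]
  have h2 : t * a * t⁻¹ = a⁻¹ := by
    rw [mul_inv_eq_iff_eq_mul, eq_inv_mul_iff_mul_eq]
    ext : 1
    change Quaternion.ofComplex ζ * (j * Quaternion.ofComplex ζ) = j
    have a1 : j.re = 0 := rfl
    have a2 : j.imI = 0 := rfl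
    have a3 : j.imJ = 1 := rfl
    have a4 : j.imK = 0 := rfl
    have b1 : (Quaternion.ofComplex ζ).re = ζ.re := rfl
    have b2 : (Quaternion.ofComplex ζ).imI = ζ.im := rfl
    have b3 : (Quaternion.ofComplex ζ).imJ = 0 := rfl
    have b4 : (Quaternion.ofComplex ζ).imK = 0 := rfl
    generalize Quaternion.ofComplex ζ = w at *
    ext <;> simp [a1, a2, a3, a4, b1, b2, b3, b4] <;> linarith
  have h3 : t ∉ Subgroup.zpowers a := by
    rintro ⟨k, hk⟩
    have : t * a * t⁻¹ = a := by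
      rw [← hk, mul_inv_eq_iff_eq_mul]; exact ((Commute.refl a).zpow_left k).eq
    rw [h2, inv_eq_iff_mul_eq_one, ← sq, ← orderOf_dvd_iff_pow_eq_one, ho] at this
    have := Nat.le_of_dvd two_pos this
    omega
  obtain ⟨e⟩ := Inv.nonempty_quaternion ho h1 h2 h3
  have : Finite (Subgroup.closure ({a, t} : Set ℍ[ℝ]ˣ)) := Finite.of_equiv _ e.symm.toEquiv
  have : Nontrivial (QuaternionGroup n) := ⟨⟨.a 0, .xa 0, fun e => by cases e⟩⟩
  obtain ⟨L, _, _, H, h, ⟨e'⟩⟩ := ((Perm.isFC_of_units _).of_equiv e).exists_frob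
  exact ⟨L, _, ‹_›, H, h, ⟨e'.symm⟩⟩

end Cfsg.Agent.S4297
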