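import Mathlib
import Cfsg.Statements.S4299
import Cfsg.Agent.Perm.FC2

set_option autoImplicit false
open Cfsg

namespace Cfsg.Agent.S4299


/-- Every nontrivial finite cyclic group occurs as a Frobenius complement of some finite Frobenius group. -/
theorem result {C : Type*} [Group C] [Finite C] [IsCyclic C] [Nontrivial C] :
    ∃ (L : Type) (_ : Group L) (_ : Finite L) (H : Subgroup L), Cfsg.IsFrobeniusComplement H ∧ Nonempty (C ≃* H) := by
  classical
  refine Perm.IsFC.exists_frob ?_
  -- embed `C` in the units of a cyclotomic-free lattice: the roots of unity in `ℂ`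
  obtain ⟨g, hg⟩ := IsCyclic.exists_generator (α := C)
  have hn : Nat.card C ≠ 0 := Nat.card_pos.ne'
  have hζ := Complex.isPrimitiveRoot_exp _ hn
  let u : ℂˣ := (hζ.isUnit hn).unit
  have ho : orderOf u = Nat.card C := by
    rw [← orderOf_units, IsUnit.unit_spec]; exact hζ.eq_orderOf.symm
  have hc : Nat.card C = Nat.card (Subgroup.zpowers u) := by rw [Nat.card_zpowers, ho]
  have : Finite (Subgroup.zpowers u) := Nat.finite_of_card_ne_zero (hc ▸ hn)
  exact (Perm.isFC_of_units (Subgroup.zpowers u)).of_equiv (mulEquivOfCyclicCardEq hc).symm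

end Cfsg.Agent.S4299
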