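import Mathlib
import Cfsg.Statements.S4300
import Cfsg.Agent.Perm.NormalSub

set_option autoImplicit false
open Cfsg

namespace Cfsg.Agent.S4300

open MulAction

/-- Let G act faithfully and primitively on a set X, and suppose the stabilizer of some point is a simple group. Then either G is simple, or G has a normal subgroup, neither trivial nor the whole group, that acts regularly on X (transitively with trivial point stabilizers). -/
theorem result {G : Type*} [Group G] {X : Type*} [MulAction G X] [FaithfulSMul G X]
    (hprim : MulAction.IsPreprimitive G X) (x : X) (hsimple : IsSimpleGroup (MulAction.stabilizer G x)) :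
    IsSimpleGroup G ∨ ∃ N : Subgroup G, N.Normal ∧ N ≠ ⊥ ∧ N ≠ ⊤ ∧
      MulAction.IsPretransitive N X ∧ ∀ y : X, MulAction.stabilizer N y = ⊥ := by
  by_contra hc
  rw [not_or] at hc
  obtain ⟨h1, h2⟩ := hc
  push Not at h2
  apply h1
  haveI : Nontrivial G := (stabilizer G x).subtype_injective.nontrivial
  refine ⟨fun N hN => ?_⟩
  by_contra hne
  rw [not_or] at hne
  have htr := Perm.transitive_of_normal (α := X) N hne.1
  obtain ⟨y, hy⟩ := h2 N hN hne.1 hne.2 htr
  rcases (inferInstance : (N.subgroupOf (stabilizer G x)).Normal).eq_bot_or_eq_top with h | h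
  · apply hy
    rw [eq_bot_iff]
    intro n hn
    obtain ⟨g, rfl⟩ := exists_smul_eq G x y
    have : (⟨g⁻¹ * n * g, by
        change (g⁻¹ * n * g) • x = x
        rw [mul_smul, mul_smul, show n.1 • g • x = g • x from hn, inv_smul_smul]⟩ : stabilizer G x) ∈
        N.subgroupOf (stabilizer G x) := by
      simpa [Subgroup.mem_subgroupOf] using hN.conj_mem _ n.2 g⁻¹
    rw [h, Subgroup.mem_bot] at this
    have e : g⁻¹ * n * g = 1 := congrArg Subtype.val this
    rw [mul_assoc, inv_mul_eq_one, eq_comm, mul_eq_right] at e
    exact Subtype.ext e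
  · apply hne.2
    rw [eq_top_iff]
    intro g _
    obtain ⟨n, hn⟩ := exists_smul_eq N x (g • x)
    have : (⟨n.1⁻¹ * g, by
        change (n.1⁻¹ * g) • x = x
        rw [mul_smul, inv_smul_eq_iff]; exact hn.symm⟩ : stabilizer G x) ∈
        N.subgroupOf (stabilizer G x) := h ▸ Subgroup.mem_top _
    simpa using N.mul_mem n.2 this

end Cfsg.Agent.S4300
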