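import Mathlib
import Cfsg.Statements.S4301
import Cfsg.Agent.Perm.Witt
import Cfsg.Agent.Perm.Multi

set_option autoImplicit false
open Cfsg

namespace Cfsg.Agent.S4301

open MulAction

/-- One-point extension of a multiply transitive group. Let X be a set and G a group of permutations of Option X (the set X with one extra point ∗ = none) all of whose elements fix ∗, such that G is k-transitive on the points of X for some k ≥ 2, X having at least k points. Suppose a permutation h of Option X and an element g of G satisfy: h interchanges ∗ with a point x of X and fixes a point y of X; g interchanges x and y; (g h)³ and h² lie in G; and for every f in G fixing x, the product h f h lies in G and fixes x. Then an element of the group generated by G and h fixes ∗ exactly when it lies in G, and that group acts (k+1)-transitively on Option X. -/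
theorem result {X : Type*} (G : Subgroup (Equiv.Perm (Option X))) (hfix : ∀ f ∈ G, f none = none)
    (k : ℕ) (hk : 2 ≤ k) (hkX : Nonempty (Fin k ↪ X))
    (htrans : ∀ a b : Fin k ↪ X, ∃ f ∈ G, ∀ i, f (some (a i)) = some (b i))
    (h g : Equiv.Perm (Option X)) (hg : g ∈ G) (x y : X)
    (h1 : h none = some x) (h2 : h (some x) = none) (h3 : h (some y) = some y)
    (h4 : g (some x) = some y) (h5 : g (some y) = some x)
    (h6 : (g * h) ^ 3 ∈ G) (h7 : h ^ 2 ∈ G)
    (h8 : ∀ f ∈ G, f (some x) = some x → h * f * h ∈ G ∧ (h * f * h) (some x) = some x) :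
    (∀ f ∈ Subgroup.closure ((G : Set (Equiv.Perm (Option X))) ∪ {h}), f none = none ↔ f ∈ G) ∧
      MulAction.IsMultiplyPretransitive (Subgroup.closure ((G : Set (Equiv.Perm (Option X))) ∪ {h})) (Option X) (k + 1) := by
  classical
  obtain ⟨k, rfl⟩ : ∃ j, k = j + 2 := ⟨k - 2, by omega⟩
  have hxy : x ≠ y := by
    rintro rfl
    rw [h3] at h2; cases h2
  have hsome : ∀ f ∈ G, ∀ a : X, ∃ b, f (some a) = some b := fun f hf a =>
    Option.ne_none_iff_exists'.mp fun e => by
      have := f.injective (e.trans (hfix f hf).symm); cases this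
  have htwo : ∀ a b c d : X, a ≠ b → c ≠ d → ∃ f ∈ G, f (some a) = some c ∧ f (some b) = some d := by
    obtain ⟨e⟩ := hkX
    have aux : ∀ a b : X, a ≠ b → ∃ u : Fin (k + 2) ↪ X, u 0 = a ∧ u 1 = b := fun a b hab => by
      obtain ⟨σ, h0, h1⟩ := (Equiv.Perm.isMultiplyPretransitive X 2 |> is_two_pretransitive_iff.mp)
        (e.injective.ne (show (0 : Fin (k + 2)) ≠ 1 by simp)) hab
      exact ⟨e.trans σ.toEmbedding, h0, h1⟩
    intro a b c d hab hcd
    obtain ⟨u, rfl, rfl⟩ := aux a b hab
    obtain ⟨v, rfl, rfl⟩ := aux c d hcd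
    obtain ⟨f, hf, h⟩ := htrans u v
    exact ⟨f, hf, h 0, h 1⟩
  refine ⟨Perm.witt_step G none (some x) hfix h g hg h1 (by simp) (fun f hf hx => ?_) h6 h7
    fun f hf hx => (h8 f hf hx).1, ?_⟩
  · obtain ⟨b, hb⟩ := hsome f hf x
    obtain ⟨u, hu, e1, e2⟩ := htwo x y x b hxy (by rintro rfl; exact hx hb)
    exact ⟨u, hu, e1, by change u (g (some x)) = f (some x); rw [h4, e2, hb]⟩
  set K := Subgroup.closure ((G : Set (Equiv.Perm (Option X))) ∪ {h})
  have hGK : ∀ f ∈ G, f ∈ K := fun f hf => Subgroup.subset_closure (Or.inl hf)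
  have hhK : h ∈ K := Subgroup.subset_closure (Or.inr rfl)
  have aux : ∀ u : Fin (k + 2 + 1) → Option X, Function.Injective u →
      ∃ f ∈ K, ∃ a : Fin (k + 2) ↪ X, f (u 0) = none ∧ ∀ i, f (u i.succ) = some (a i) := by
    intro u hu
    obtain ⟨f, hf, e⟩ : ∃ f ∈ K, f (u 0) = none := by
      cases hu0 : u 0 with
      | none => exact ⟨1, K.one_mem, rfl⟩
      | some a =>
        obtain ⟨b, hb⟩ : ∃ b, a ≠ b := by
          by_cases hax : a = x
          · exact ⟨y, hax ▸ hxy⟩
          · exact ⟨x, hax⟩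
        obtain ⟨f, hf, e, -⟩ := htwo a b x y hb hxy
        exact ⟨h * f, K.mul_mem hhK (hGK f hf), by rw [Equiv.Perm.mul_apply, e, h2]⟩
    have : ∀ i : Fin (k + 2), ∃ b, f (u i.succ) = some b := fun i =>
      Option.ne_none_iff_exists'.mp fun e' => Fin.succ_ne_zero i (hu (f.injective (e'.trans e.symm)))
    choose a ha using this
    exact ⟨f, hf, ⟨a, fun i j hij => Fin.succ_injective _ (hu (f.injective (by rw [ha, ha, hij])))⟩, e, ha⟩
  rw [Perm.multi_iff]
  intro u v hu hv
  obtain ⟨f, hf, a, e0, e1⟩ := aux u hu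
  obtain ⟨f', hf', a', e0', e1'⟩ := aux v hv
  obtain ⟨w, hw, e⟩ := htrans a a'
  refine ⟨⟨f'⁻¹ * w * f, K.mul_mem (K.mul_mem (K.inv_mem hf') (hGK w hw)) hf⟩, fun i => ?_⟩
  change f'⁻¹ (w (f (u i))) = v i
  rw [Equiv.Perm.inv_eq_iff_eq]
  refine Fin.cases ?_ (fun i => ?_) i
  · rw [e0, e0', hfix w hw]
  · rw [e1, e1', e]

end Cfsg.Agent.S4301
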