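import Cfsg.Statements.S4305
import Cfsg.Agent.H23.Fpf4
-- import your own Cfsg.Agent.* helpers here

set_option autoImplicit false
open Cfsg

namespace Cfsg.Agent.S4305

/-- Let the symmetric group of degree 3 act by automorphisms on a finite solvable group `G` of order prime to 6, so that only the identity of `G` is fixed by all of it. Then the derived subgroup of `G` is nilpotent. -/
theorem result {G : Type*} [Group G] [Finite G] [Group.IsSolvable G]
    [MulDistribMulAction (Equiv.Perm (Fin 3)) G] (hcop : (Nat.card G).Coprime 6)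
    (hfpf : ∀ g : G, (∀ a : Equiv.Perm (Fin 3), a • g = g) → g = 1) :
    Group.IsNilpotent ↥(commutator G) := by

  open H23.HH in
  let φ := MulDistribMulAction.toMulAut (Equiv.Perm (Fin 3)) G
  let a : Equiv.Perm (Fin 3) := Equiv.swap 0 1 * Equiv.swap 1 2
  let b : Equiv.Perm (Fin 3) := Equiv.swap 0 1
  have h0 : Subgroup.zpowers a ⊔ Subgroup.zpowers b = ⊤ := by
    rw [eq_top_iff]
    have key : ∀ g : Equiv.Perm (Fin 3), ∃ i : Fin 3, ∃ j : Fin 2,
        g = a ^ (i : ℕ) * b ^ (j : ℕ) := by decide
    intro g _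
    obtain ⟨i, j, rfl⟩ := key g
    exact Subgroup.mul_mem _ (Subgroup.mem_sup_left (Subgroup.npow_mem_zpowers a i))
      (Subgroup.mem_sup_right (Subgroup.npow_mem_zpowers b j))
  have h1 : Subgroup.zpowers (SemidirectProduct.inr a : G ⋊[φ] _) ⊔
      Subgroup.zpowers (SemidirectProduct.inr b) = FGS.sdA φ := by
    rw [← MonoidHom.map_zpowers, ← MonoidHom.map_zpowers, ← Subgroup.map_sup, h0, FGS.sdA,
      MonoidHom.range_eq_map]
  refine nilpotent_commutator_of_sd φ (nilpotent_der_s3 (a := SemidirectProduct.inr a)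
    (b := SemidirectProduct.inr b) (solvable_sdG φ inferInstance)
    (by rw [← map_pow, show a ^ 3 = 1 by decide, map_one])
    (by rw [← map_pow, show b ^ 2 = 1 by decide, map_one])
    (by rw [← map_inv, ← map_inv, ← map_mul, ← map_mul, show b * a * b⁻¹ = a⁻¹ by decide])
    (by rw [h1, FGS.sd_sup]) (by rw [h1, FGS.card_sdA, Nat.card_perm]; simp [Nat.factorial])
    (by rw [FGS.card_sdG]; exact hcop) (by rw [h1]; exact sd_fpf _ hfpf))

end Cfsg.Agent.S4305
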