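import Cfsg.Statements.S4306
import Cfsg.Agent.H23.Fpf3
-- import your own Cfsg.Agent.* helpers here

set_option autoImplicit false
open Cfsg

namespace Cfsg.Agent.S4306

/-- Let `A` be a non-abelian group of order `pq` with `p, q` distinct primes, acting by automorphisms on a finite solvable group `G` of order prime to `pq`, so that only the identity of `G` is fixed by all of `A`. Then `G` has Fitting height at most 2: there is a normal nilpotent subgroup `F` of `G` with `G/F` nilpotent. -/
theorem result {G A : Type*} [Group G] [Finite G]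
    [Group.IsSolvable G] [Group A] [Finite A] [MulDistribMulAction A G] (p q : ℕ) (hp : p.Prime) (hq : q.Prime) (hpq : p ≠ q)
    (hA : Nat.card A = p * q) (hAna : ¬ IsMulCommutative A) (hcop : (Nat.card G).Coprime (p * q))
    (hfpf : ∀ g : G, (∀ a : A, a • g = g) → g = 1) :
    ∃ F : Subgroup G, ∃ hF : F.Normal, Group.IsNilpotent ↥F ∧ Group.IsNilpotent (G ⧸ F) := by

  open H23.HH in
  let φ := MulDistribMulAction.toMulAut A G
  have h1 := nilpotent_nres_pq (A := FGS.sdA φ) (solvable_sdG φ inferInstance) hp hq hpq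
    ((FGS.card_sdA _).trans hA)
    (fun h => hAna ⟨⟨fun a b => (FGS.sdEquivA φ).injective (by rw [map_mul, map_mul, mul_comm'])⟩⟩)
    (by rw [FGS.card_sdA, FGS.card_sdG, hA]; exact hcop) (sd_fpf _ hfpf)
  rw [FGS.sdG, MonoidHom.range_eq_map, ← map_nres] at h1
  refine ⟨nres ⊤, inferInstance,
    Group.nilpotent_of_mulEquiv (_h := h1) (FGS.mapInlEquiv (φ := φ) _).symm, ?_⟩
  rw [← Group.isNilpotent_top, ← nres_eq_bot_iff,
    ← Subgroup.map_top_of_surjective _ (QuotientGroup.mk'_surjective (nres ⊤)), ← map_nres,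
    Subgroup.map_eq_bot_iff, QuotientGroup.ker_mk']

end Cfsg.Agent.S4306
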