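import Mathlib
import Cfsg.Statements.S4310
import Cfsg.Agent.FGS.FT

set_option autoImplicit false
open Cfsg

namespace Cfsg.Agent.S4310

open Subgroup
open scoped Pointwise

theorem coprime_of_pi {π : Set ℕ} {a b : ℕ} (ha : ∀ p : ℕ, p.Prime → p ∣ a → p ∈ π)
    (hb : ∀ p : ℕ, p.Prime → p ∈ π → ¬ p ∣ b) : a.Coprime b :=
  Nat.coprime_of_dvd fun p hp h1 => hb p hp (ha p hp h1)

theorem exists_conj {G : Type*} [Group G] {π : Set ℕ} {A : Subgroup G} (hA : IsCPiGroup π A)
    {H K : Subgroup G} (hH : IsPiHallOf π H A) (hK : IsPiHallOf π K A) :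
    ∃ a ∈ A, MulAut.conj a • H = K := by
  obtain ⟨a, ha⟩ := hA.2 _ _ (Core.isPiHallOf_iff.mp hH).2 (Core.isPiHallOf_iff.mp hK).2
  refine ⟨a, a.2, ?_⟩
  rw [← map_subgroupOf_eq_of_le hK.1, ha, ← Core.conj_smul_eq_map, Core.map_conj_smul,
    map_subgroupOf_eq_of_le hH.1]
  rfl

/-- Let `π` be a set of primes and `A` a normal subgroup of the finite group `G`. Suppose `A` has a Hall `π`-subgroup and all Hall `π`-subgroups of `A` are conjugate in `A`, and likewise for `G/A`. Then `G` has a Hall `π`-subgroup and all Hall `π`-subgroups of `G` are conjugate. (The conjugacy of complements of coprime order that the usual proof uses rests, in general, on the odd order Theorem.) -/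
theorem result {G : Type*} [Group G] [Finite G] (π : Set ℕ) (A : Subgroup G) [A.Normal]
    (hA : Cfsg.IsCPiGroup π ↥A) (hQ : Cfsg.IsCPiGroup π (G ⧸ A)) : Cfsg.IsCPiGroup π G := by
  have hs := QuotientGroup.mk'_surjective A
  constructor
  · obtain ⟨X0, hX0⟩ := hA.1
    obtain ⟨L0, hL0⟩ := hQ.1
    set X := X0.map A.subtype with hXdef
    have hX : IsPiHallOf π X A := Core.isPiHallOf_map_subtype.mpr hX0
    set L := L0.comap (QuotientGroup.mk' A) with hL
    have hAL : A ≤ L := fun a ha => by
      rw [hL, mem_comap, QuotientGroup.mk'_apply, (QuotientGroup.eq_one_iff a).mpr ha]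
      exact one_mem _
    set M := L ⊓ normalizer (X : Set G) with hM
    have hXM : X ≤ M := le_inf (hX.1.trans hAL) le_normalizer
    have hAM : A ⊔ M = L := by
      refine le_antisymm (sup_le hAL inf_le_left) fun g hg => ?_
      obtain ⟨a, ha, e⟩ := exists_conj hA hX
        (Core.IsPiHallOf.conj_of_mem_normalizer hX (g := g) (le_normalizer_of_normal (mem_top g)))
      have h1 : a⁻¹ * g ∈ M := by
        refine mem_inf.mpr ⟨mul_mem (inv_mem (hAL ha)) hg, ?_⟩
        rw [← Core.conj_smul_eq_iff_mem_normalizer, map_mul, mul_smul, ← e, ← mul_smul, ← map_mul,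
          inv_mul_cancel, map_one, one_smul]
      simpa using mul_mem (mem_sup_left ha : a ∈ A ⊔ M) (mem_sup_right h1)
    have hidx : A.relIndex M = Nat.card L0 := by
      have h1 := relIndex_ker L (QuotientGroup.mk' A)
      rw [QuotientGroup.ker_mk', hL, map_comap_eq_self_of_surjective hs] at h1
      rw [← Core.relIndex_sup_of_le_normalizer (N := A) le_normalizer_of_normal, hAM, h1]
    have := (normal_subgroupOf_iff_le_normalizer hXM).mpr inf_le_right
    set f := QuotientGroup.mk' (X.subgroupOf M)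
    have hf := QuotientGroup.mk'_surjective (X.subgroupOf M)
    have hker : f.ker = X.subgroupOf M := QuotientGroup.ker_mk' _
    have hXA : X.subgroupOf M ≤ A.subgroupOf M := comap_mono hX.1
    have : ((A.subgroupOf M).map f).Normal := Subgroup.Normal.map inferInstance _ hf
    have hc1 : Nat.card ((A.subgroupOf M).map f) ∣ X.relIndex A := by
      rw [← relIndex_ker, hker, ← inf_subgroupOf_right A M, relIndex_subgroupOf inf_le_right]
      exact Dvd.intro _ (relIndex_mul_relIndex _ _ _ (le_inf hX.1 hXM) inf_le_left)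
    have hi1 : ((A.subgroupOf M).map f).index = Nat.card L0 := by
      rw [index_map, hker, sup_eq_left.mpr hXA, MonoidHom.range_eq_top.mpr hf, index_top, mul_one]
      exact hidx
    obtain ⟨K0, hK0⟩ := Subgroup.exists_right_complement'_of_coprime (N := (A.subgroupOf M).map f)
      (by rw [hi1]; exact ((coprime_of_pi hL0.1 hX.2.2).symm.coprime_dvd_left hc1))
    have hc : Nat.card ((K0.comap f).map M.subtype) = Nat.card X * Nat.card L0 := by
      rw [Core.card_map_subtype, Core.card_comap_mk', Core.card_subgroupOf_of_le hXM,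
        ← hK0.symm.index_eq_card, hi1]
    refine ⟨(K0.comap f).map M.subtype, ?_, ?_⟩
    · intro p hp h
      rw [hc] at h
      exact (hp.dvd_mul.mp h).elim (hX.2.1 p hp) (hL0.1 p hp)
    · intro p hp hpπ h
      have h1 := ((K0.comap f).map M.subtype).index_mul_card
      rw [hc, ← A.index_mul_card, ← Core.card_mul_relIndex hX.1, A.index_eq_card,
        ← L0.index_mul_card] at h1
      have h2 : ((K0.comap f).map M.subtype).index = L0.index * X.relIndex A :=
        Nat.eq_of_mul_eq_mul_right (Nat.mul_pos Nat.card_pos Nat.card_pos) (h1.trans (by ring))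
      rw [h2] at h
      exact (hp.dvd_mul.mp h).elim (hL0.2 p hp hpπ) (hX.2.2 p hp hpπ)
  · intro H K hH hK
    obtain ⟨g, hg⟩ := hQ.2 _ _ (Core.IsPiHall.map hH hs) (Core.IsPiHall.map hK hs)
    obtain ⟨g, rfl⟩ := hs g
    rw [← Core.conj_smul_eq_map, ← Core.map_conj_smul] at hg
    have hH1 := Core.IsPiHall.conj hH g
    obtain ⟨a, ha, e⟩ := exists_conj hA (Core.IsPiHall.inf_normal hH1 A) (Core.IsPiHall.inf_normal hK A)
    have hH2 := Core.IsPiHall.conj hH1 a
    set H2 := MulAut.conj a • MulAut.conj g • H with hH2def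
    have e2 : H2 ⊓ A = K ⊓ A := by
      rw [← e, smul_inf, Core.conj_smul_eq_iff_mem_normalizer.mpr (le_normalizer ha)]
    have hle : H2 ≤ K ⊔ A := by
      have h1 : MulAut.conj g • H ≤ K ⊔ A := by
        rw [← QuotientGroup.ker_mk' A, ← Subgroup.map_le_map_iff, hg]
      refine Core.conj_smul_le_iff.mpr fun x hx => ?_
      exact mul_mem (mul_mem (mem_sup_right ha) (h1 hx)) (inv_mem (mem_sup_right ha))
    set M := normalizer ((K ⊓ A : Subgroup G) : Set G)
    have hKM : K ≤ M := Core.le_normalizer_inf le_normalizer le_normalizer_of_normal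
    have hHM : H2 ≤ M := by
      have := Core.le_normalizer_inf (A := H2) (H := H2) (K := A) le_normalizer le_normalizer_of_normal
      rwa [e2] at this
    have hc : (Nat.card H2).Coprime ((K ⊓ A).relIndex (A ⊓ M)) :=
      (coprime_of_pi hH2.1 (Core.IsPiHall.inf_normal hK A).2.2).coprime_dvd_right
        (Dvd.intro _ (relIndex_mul_relIndex _ _ _ (le_inf inf_le_right le_normalizer) inf_le_left))
    have hle2 : H2 ≤ A ⊓ M ⊔ K := by
      rw [sup_comm, ← FGS.sup_inf_of_le_normalizer le_normalizer_of_normal hKM]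
      exact le_inf hle hHM
    obtain ⟨d, -, hd⟩ := FGS.exists_conj_le_mod' (X := K ⊓ A) (D := A ⊓ M) (H := H2) (K := K) (M := M)
      le_rfl (Core.le_normalizer_inf le_normalizer_of_normal le_normalizer) inf_le_right hHM hKM
      inf_le_left hc hle2
    refine ⟨d * a * g, ?_⟩
    rw [← Core.conj_smul_eq_map, map_mul, map_mul, mul_smul, mul_smul]
    refine (Core.eq_of_le_of_card_le hd ?_).symm
    rw [Core.card_conj_smul, Core.IsPiHall.card_eq hH2 hK]

end Cfsg.Agent.S4310
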