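import Mathlib
import Cfsg.Agent.Gsh.A
import Cfsg.Statements.S4316
-- import your own Cfsg.Agent.* helpers here

set_option autoImplicit false
universe u
open Cfsg

namespace Cfsg.Agent.S4316

/-- There is a function `f` of two natural-number arguments with the following property. Let `q` be a prime and `A` an elementary abelian group of order `q³` acting by automorphisms on a finite group `G` of order prime to `q`, and suppose that for every non-identity `a ∈ A` the derived subgroup of the fixed-point subgroup `C_G(a)` has order at most `m`. Then the derived subgroup of `G` has order at most `f(q, m)`. -/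
theorem result :
    ∃ f : ℕ → ℕ → ℕ, ∀ (q m : ℕ) (A G : Type u) [Group A] [Finite A] [Group G] [Finite G] [MulDistribMulAction A G],
      q.Prime → Nat.card A = q ^ 3 → (∀ a b : A, a * b = b * a) → (∀ a : A, a ^ q = 1) → ¬ q ∣ Nat.card G →
      (∀ a : A, a ≠ 1 → Nat.card ↥(commutator ↥(FixedPoints.subgroup (Subgroup.zpowers a) G)) ≤ m) →
      Nat.card ↥(commutator G) ≤ f q m := by
  refine ⟨fun q m => ((((q ^ 3 * m + 1) ^ (q ^ 3 * m) + 1) ^ 2 ^ q ^ 3).factorial) ^
    ((((q ^ 3 * m + 1) ^ (q ^ 3 * m) + 1) ^ 2 ^ q ^ 3).factorial *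
      ((((q ^ 3 * m + 1) ^ (q ^ 3 * m) + 1) ^ 2 ^ q ^ 3).factorial *
        (((q ^ 3 * m + 1) ^ (q ^ 3 * m) + 1) ^ 2 ^ q ^ 3).factorial) + 1) * m.factorial ^ (q ^ 3 * m),
    fun q m A G _ _ _ _ _ hq hA hc he hG h => ?_⟩
  let φ := MulDistribMulAction.toMulAut A G
  have : Finite (G ⋊[φ] A) := Finite.of_equiv _ SemidirectProduct.equivProd.symm
  have hl : Function.Injective (SemidirectProduct.inl : G →* G ⋊[φ] A) := SemidirectProduct.inl_injective
  have hr : Function.Injective (SemidirectProduct.inr : A →* G ⋊[φ] A) := SemidirectProduct.inr_injective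
  have cA : Nat.card (SemidirectProduct.inr : A →* G ⋊[φ] A).range = q ^ 3 :=
    (Nat.card_congr (MonoidHom.ofInjective hr).toEquiv).symm.trans hA
  have cG : Nat.card (SemidirectProduct.inl : G →* G ⋊[φ] A).range = Nat.card G :=
    (Nat.card_congr (MonoidHom.ofInjective hl).toEquiv).symm
  have : (SemidirectProduct.inl : G →* G ⋊[φ] A).range.Normal := by
    rw [SemidirectProduct.range_inl_eq_ker_rightHom]; infer_instance
  have cm : IsMulCommutative (SemidirectProduct.inr : A →* G ⋊[φ] A).range := ⟨⟨by
    rintro ⟨_, a, rfl⟩ ⟨_, b, rfl⟩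
    exact Subtype.ext (show _ * _ = _ * _ by rw [← map_mul, hc, map_mul])⟩⟩
  have key := Gsh.main (K := (SemidirectProduct.inl : G →* G ⋊[φ] A).range) cm
    (by rw [cA, cG]; exact ((Nat.Prime.coprime_iff_not_dvd hq).2 hG).pow_left 3)
    (fun B B' => Gsh.rank3 cm hq cA (by rintro _ ⟨a, rfl⟩; rw [← map_pow, he, map_one])) (m := m) (by
      rintro _ ⟨a, rfl⟩ a1
      refine le_trans ?_ (h a fun e => a1 (by rw [e, map_one]))
      have e : (SemidirectProduct.inl : G →* G ⋊[φ] A).range ⊓
          Subgroup.centralizer {SemidirectProduct.inr a} ≤ (⊤ : Subgroup _).map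
            (SemidirectProduct.inl.comp (FixedPoints.subgroup (Subgroup.zpowers a) G).subtype) := by
        rintro _ ⟨⟨g, rfl⟩, hg⟩
        have h1 : a • g = g := hl (by
          have := SemidirectProduct.inl_aut (φ := φ) a g
          rw [← Subgroup.mem_centralizer_singleton_iff.1 hg, map_inv, mul_inv_cancel_right] at this
          exact this)
        refine ⟨⟨g, ?_⟩, trivial, rfl⟩
        rintro ⟨b, hb⟩
        exact MulAction.mem_stabilizer_iff.1 ((Subgroup.zpowers_le.2
          (MulAction.mem_stabilizer_iff.2 h1) : Subgroup.zpowers a ≤ MulAction.stabilizer A g) hb)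
      refine (Subgroup.card_le_of_le ((Subgroup.commutator_mono e e).trans
        (Subgroup.map_commutator ..).ge)).trans ?_
      exact Nat.le_of_dvd Nat.card_pos (Subgroup.card_map_dvd ..)) rfl rfl
  rw [cA, MonoidHom.range_eq_map, ← Subgroup.map_commutator, Subgroup.card_map_of_injective hl] at key
  exact key

end Cfsg.Agent.S4316
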