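import Mathlib
import Cfsg.Statements.S4320

set_option autoImplicit false
open Cfsg

namespace Cfsg.Agent.S4320

open Subgroup

theorem exists_ann {G A W R : Type*} [Group G] [Fintype G] [CommGroup A] [Finite A] (π : G →* A)
    (hπ : Function.Surjective π) (hk : π.ker ≤ _root_.commutator G) [AddCommGroup W] [CommRing R]
    [Module R W] (ε : R →+* ℤ) (o : G → R) (ho : ∀ g, ε (o g) = 1) (D : G → W)
    (hD : ∀ g h, D (g * h) = D g + o g • D h) :
    ∃ γ : R, (ε γ).natAbs = Nat.card A ∧ ∀ g, γ • D g = 0 := by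
  classical
  let B : Submodule R W := RingHom.ker ε • Submodule.span R (Set.range D)
  let ψ : G →* Multiplicative (W ⧸ B) := MonoidHom.mk' (fun g => Multiplicative.ofAdd (B.mkQ (D g))) fun g h => by
    rw [← ofAdd_add, ← map_add, hD]
    refine congrArg _ ((Submodule.Quotient.eq B).mpr ?_)
    rw [add_sub_add_left_eq_sub, ← one_smul R (D h), smul_smul, mul_one, ← sub_smul]
    exact Submodule.smul_mem_smul (by simp [RingHom.mem_ker, ho]) (Submodule.subset_span ⟨h, rfl⟩)
  let χ := π.liftOfSurjective hπ ⟨ψ, hk.trans (Abelianization.commutator_subset_ker ψ)⟩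
  have hχ : ∀ g, χ (π g) = ψ g := fun g => MonoidHom.liftOfRightInverse_comp_apply _ _ _ _ _
  let φ : (G → ℤ) →ₗ[ℤ] Additive A := Fintype.linearCombination ℤ fun g => Additive.ofMul (π g)
  have hφ : Function.Surjective φ := fun a => by
    obtain ⟨g, hg⟩ := hπ a.toMul
    exact ⟨Pi.single g 1, by simp [φ, hg]⟩
  have hc : Nat.card ((G → ℤ) ⧸ LinearMap.ker φ) = Nat.card A :=
    Nat.card_congr (φ.quotKerEquivOfSurjective hφ).toEquiv
  haveI : Finite ((G → ℤ) ⧸ LinearMap.ker φ) := Nat.finite_of_card_ne_zero (hc ▸ Nat.card_pos.ne')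
  let b := (Pi.basisFun ℤ G).map (LinearEquiv.ofFinrankEq (R := ℤ) _ (LinearMap.ker φ)
    ((Submodule.finiteQuotient_iff _).mp this).symm)
  have hb := Submodule.natAbs_det_basis_change (Pi.basisFun ℤ G) _ b
  rw [hc, Pi.basisFun_det_apply] at hb
  have h1 : ∀ i, ∑ k, ((b i).1 k : R) • D k ∈ B := fun i => by
    have h2 := congrArg (MonoidHom.toAdditiveLeft χ) (b i).2
    rw [map_zero, Fintype.linearCombination_apply, map_sum] at h2
    rw [← Submodule.Quotient.mk_eq_zero, ← h2, ← Submodule.mkQ_apply, map_sum]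
    refine Finset.sum_congr rfl fun k _ => ?_
    rw [map_zsmul, Int.cast_smul_eq_zsmul, map_zsmul]
    exact congrArg _ (congrArg Multiplicative.toAdd (hχ k)).symm
  choose c hc1 hc2 using fun i => (Submodule.mem_ideal_smul_span_iff_exists_sum _ D _).mp (h1 i)
  let μ : Matrix G G R := Matrix.of fun i k => ((b i).1 k : R) - c i k
  have h3 : ∀ i, ∑ k, μ i k • D k = 0 := fun i => by
    simp only [μ, Matrix.of_apply, sub_smul, Finset.sum_sub_distrib, ← hc2]
    rw [Finsupp.sum_fintype _ _ (by simp), sub_self]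
  refine ⟨μ.det, ?_, fun g => ?_⟩
  · rw [RingHom.map_det, ← hb]
    congr 2
    ext i k
    simp [μ, RingHom.mem_ker.mp (hc1 i k)]
  · have : ∑ i, μ.adjugate g i • ∑ k, μ i k • D k = ∑ k, (μ.adjugate * μ) g k • D k := by
      simp only [Finset.smul_sum, smul_smul, Matrix.mul_apply, Finset.sum_smul]
      exact Finset.sum_comm
    simpa [h3, Matrix.adjugate_mul, Matrix.one_apply] using this.symm

/-- The Principal Ideal Theorem of class field theory in its group-theoretic form: for every finite group `G`, the transfer homomorphism from `G` into the abelianization `G'/G''` of its derived subgroup `G'` is the trivial homomorphism. -/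
theorem result {G : Type*} [Group G] [Finite G] :
    MonoidHom.transfer (Abelianization.of : ↥(commutator G) →* Abelianization ↥(commutator G)) =
      (1 : G →* Abelianization ↥(commutator G)) := by
  classical
  haveI := Fintype.ofFinite G
  let A := Abelianization G
  let M := Additive (Abelianization (commutator G))
  haveI := Fintype.ofFinite A
  let π : G →* A := Abelianization.of
  obtain ⟨s, hs0⟩ : ∃ s : A → G, ∀ a, π (s a) = a := ⟨Quotient.out, Quotient.out_eq⟩
  have hs : ∀ (g : G) (a : A), (s a)⁻¹ * g * s ((π g)⁻¹ * a) ∈ commutator G := fun g a => by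
    rw [← Abelianization.ker_of, MonoidHom.mem_ker]
    change π _ = 1
    rw [map_mul, map_mul, map_inv, hs0, hs0]
    group
  let ρ : A →* Module.End ℤ (A → M × ℤ) :=
    { toFun := fun b => LinearMap.funLeft ℤ _ (b⁻¹ * ·)
      map_one' := LinearMap.ext fun f => by simp [funext_iff, LinearMap.funLeft_apply]
      map_mul' := fun b c => LinearMap.ext fun f => by simp [funext_iff, LinearMap.funLeft_apply, mul_assoc] }
  letI : Module (MonoidAlgebra ℤ A) (A → M × ℤ) :=
    Module.compHom _ (MonoidAlgebra.lift ℤ _ A ρ).toRingHom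
  have hρ : ∀ (γ : MonoidAlgebra ℤ A) (f : A → M × ℤ) (a : A), (γ • f) a = ∑ b, γ.coeff b • f (b⁻¹ * a) :=
    fun γ f a => by
      change (MonoidAlgebra.lift ℤ _ A ρ γ f) a = _
      rw [MonoidAlgebra.lift_apply, Finsupp.sum_fintype _ _ (by simp), LinearMap.sum_apply,
        Finset.sum_apply]
      rfl
  obtain ⟨γ, h1, h2⟩ := exists_ann π (fun a => ⟨_, hs0 a⟩) (Abelianization.ker_of G).le
    (MonoidAlgebra.lift ℤ ℤ A 1).toRingHom (fun g => MonoidAlgebra.of ℤ A (π g)) (fun g => by simp)
    (fun g a => (Additive.ofMul (Abelianization.of ⟨_, hs g a⟩),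
      (if (π g)⁻¹ * a = 1 then 1 else 0) - (if a = 1 then 1 else 0)) : G → A → M × ℤ) fun g h => by
      ext1 a
      change _ = _ + (MonoidAlgebra.lift ℤ _ A ρ (MonoidAlgebra.of ℤ A (π g)) _) a
      rw [MonoidAlgebra.lift_of]
      refine Prod.ext (congrArg Additive.ofMul ((congrArg _ (Subtype.ext ?_)).trans (map_mul _ _ _))) ?_
      · simp [mul_assoc]
      · simp [ρ, LinearMap.funLeft_apply, mul_assoc]
  have h3 : ∀ a, γ.coeff a = γ.coeff 1 := fun a => by
    have := congrArg Prod.snd ((hρ γ _ a).symm.trans (congrFun (h2 (s a)) a))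
    rw [eq_comm, ← sub_eq_zero, eq_comm]
    simpa [Prod.snd_sum, mul_sub, hs0, mul_left_comm, inv_mul_eq_one, eq_comm] using this
  have h4 : (γ.coeff 1).natAbs = 1 := by
    rw [AlgHom.toRingHom_eq_coe, RingHom.coe_coe, MonoidAlgebra.lift_apply,
      Finsupp.sum_fintype _ _ (by simp)] at h1
    simp only [h3, MonoidHom.one_apply, smul_eq_mul, mul_one, Finset.sum_const, Finset.card_univ, nsmul_eq_mul,
      Int.natAbs_mul, Int.natAbs_natCast, Nat.card_eq_fintype_card] at h1
    exact (Nat.mul_eq_left Fintype.card_ne_zero).mp h1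
  ext g
  have h5 := congrArg Prod.fst ((hρ γ _ 1).symm.trans (congrFun (h2 g) 1))
  simp only [h3, Prod.fst_sum, Prod.smul_fst, ← Finset.smul_sum, mul_one] at h5
  rw [MonoidHom.transfer_def _ ⟨_, isComplement_range_left (f := s) hs0⟩]
  have h6 := ((Int.isUnit_iff_natAbs_eq.mpr h4).smul_eq_zero).mp h5
  rw [← Equiv.sum_comp (Equiv.inv A)] at h6
  refine Eq.trans ?_ ((toMul_sum _ _).symm.trans (congrArg Additive.toMul h6))
  refine Finset.prod_congr (by ext; exact iff_of_true (@Finset.mem_univ _ (_) _) (@Finset.mem_univ _ (_) _)) fun q _ =>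
    congrArg Abelianization.of (Subtype.ext ?_)
  simp only [smul_apply_eq_smul_apply_inv_smul, smul_eq_mul, mul_assoc,
    IsComplement.leftQuotientEquiv_apply (f := s) hs0]
  rw [show ((Equiv.inv A) q)⁻¹ = q from inv_inv (G := A) q]
  induction q using QuotientGroup.induction_on
  rfl

end Cfsg.Agent.S4320
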