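import Mathlib
import Cfsg.Statements.S4323
import Cfsg.Agent.Mart.Main

set_option autoImplicit false
open Cfsg

namespace Cfsg.Agent.S4323

/-- Let `q` be a prime and `A` a non-cyclic group of order `q²` acting by automorphisms on a finite group `G` of order prime to `q`, such that the fixed-point subgroup `C_G(a)` is abelian for every non-identity `a ∈ A`. Then `G` is solvable. -/
theorem result {A G : Type*} [Group A] [Finite A]
    [Group G] [Finite G] [MulDistribMulAction A G] (q : ℕ) (hq : q.Prime) (hA : Nat.card A = q ^ 2) (hnc : ¬ IsCyclic A)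
    (hcop : ¬ q ∣ Nat.card G) (h : ∀ a : A, a ≠ 1 → IsMulCommutative ↥(FixedPoints.subgroup (Subgroup.zpowers a) G)) :
    Group.IsSolvable G := by
  refine Mart.solvable_of_action (MulDistribMulAction.toMulAut A G) hq hA hnc hcop
    fun a ha x y hx hy => ?_
  have key : ∀ z : G, a • z = z → z ∈ FixedPoints.subgroup (Subgroup.zpowers a) G := by
    rintro z hz ⟨b, hb⟩
    exact MulAction.mem_stabilizer_iff.1 ((Subgroup.zpowers_le.2
      (MulAction.mem_stabilizer_iff.2 hz) : Subgroup.zpowers a ≤ MulAction.stabilizer A z) hb)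
  exact congrArg Subtype.val ((h a ha).is_comm.comm ⟨x, key x hx⟩ ⟨y, key y hy⟩)

end Cfsg.Agent.S4323
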