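import Mathlib
import Cfsg.Statements.S4422

set_option autoImplicit false
open Cfsg

namespace Cfsg.Agent.S4422

/-- Primitive divisors of `q^e - 1` are congruent to 1 modulo `e`. Let `q ≥ 2` and `e ≥ 1` be natural numbers and let `m` be a divisor of `q^e - 1` that is coprime to `q^i - 1` for every `1 ≤ i < e` (so `m` divides the primitive part of `q^e - 1`, the largest such divisor). Then `m ≡ 1 (mod e)`. -/
theorem result (q e m : ℕ) (hq : 2 ≤ q) (he : 1 ≤ e)
    (hm : m ∣ q ^ e - 1) (hcop : ∀ i : ℕ, 1 ≤ i → i < e → Nat.Coprime m (q ^ i - 1)) :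
    m % e = 1 % e := by
  change m ≡ 1 [MOD e]
  have h0 : 1 < q ^ e := Nat.one_lt_pow (by omega) hq
  induction m using Nat.recOnMul with
  | zero => simp at hm; omega
  | one => rfl
  | prime p hp =>
    have := Fact.mk hp
    have key : ∀ i, (q : ZMod p) ^ i = 1 ↔ p ∣ q ^ i - 1 := fun i => by
      rw [← Nat.modEq_iff_dvd' (Nat.one_le_pow _ _ (by omega)), ← ZMod.natCast_eq_natCast_iff,
        Nat.cast_one, Nat.cast_pow, eq_comm]
    have h1 : orderOf (q : ZMod p) = e := (orderOf_eq_iff he).mpr ⟨(key e).mpr hm, fun i h1 h2 h3 =>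
      hp.one_lt.ne' (Nat.Coprime.eq_one_of_dvd (hcop i h2 h1) ((key i).mp h3))⟩
    have h2 : (q : ZMod p) ≠ 0 := fun h => by
      have := (key e).mpr hm
      rw [h, zero_pow (by omega)] at this
      exact zero_ne_one this
    exact ((Nat.modEq_iff_dvd' hp.one_le).mpr (h1 ▸ ZMod.orderOf_dvd_card_sub_one h2)).symm
  | mul a b iha ihb =>
    exact (iha (dvd_of_mul_right_dvd hm) fun i h1 h2 => (hcop i h1 h2).coprime_mul_right).mul
      (ihb (dvd_of_mul_left_dvd hm) fun i h1 h2 => (hcop i h1 h2).coprime_mul_left)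

end Cfsg.Agent.S4422
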