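import Cfsg.Statements.S4423
import Cfsg.Agent.S3430
import Cfsg.Agent.S4422
-- import your own Cfsg.Agent.* helpers here

set_option autoImplicit false
open Cfsg

namespace Cfsg.Agent.S4423

open Cfsg

open Cfsg.Agent.Comp2.Zsig Cfsg.Agent.S3430

theorem big' (t : ℕ) (h : 29 ≤ t) : (2 * t ^ 2 * (2 * (2 * t ^ 2) + 1)) ^ 2 < 3 ^ t := by
  induction t, h using Nat.le_induction with
  | base => norm_num
  | succ t h ih =>
    have h1 : 10 * (2 * (t + 1) ^ 2) ≤ 11 * (2 * t ^ 2) := by nlinarith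
    have h2 : 100 * (2 * (t + 1) ^ 2 * (2 * (2 * (t + 1) ^ 2) + 1)) ≤
        121 * (2 * t ^ 2 * (2 * (2 * t ^ 2) + 1)) := by
      have := Nat.mul_le_mul h1 (show 10 * (2 * (2 * (t + 1) ^ 2) + 1) ≤
        11 * (2 * (2 * t ^ 2) + 1) by omega)
      linarith
    have h3 := Nat.pow_le_pow_left h2 2
    rw [mul_pow, mul_pow 121] at h3
    rw [pow_succ 3]; omega

set_option synthInstance.maxSize 4000 in
theorem fin0' : ∀ n < 1570, 6 < n → 3 ^ tt n (min n 150) ≤ (n * (2 * n + 1)) ^ 2 →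
    n ∈ [7, 8, 9, 10, 11, 12, 14, 15, 16, 18, 20, 21, 22, 24, 26, 28, 30, 36, 42, 60] := by
  decide +kernel

/-- the primitive part -/
def pp (q n : ℕ) : ℕ → ℕ
  | 0 => q ^ n - 1
  | i + 1 => pp q n i / (pp q n i).gcd ((q ^ (i + 1) - 1) ^ 8)

set_option synthInstance.maxSize 4000 in
theorem fin2' : ∀ n ∈ [3, 4, 5, 6, 7, 8, 9, 10, 11, 12, 14, 15, 16, 18, 20, 21, 22, 24, 26, 28, 30, 36, 42, 60],
    ∀ q < 10, 2 ≤ q → (q - 1) ^ n.totient ≤ n * (2 * n + 1) →
    (q, n) ∉ [(2, 6), (2, 4), (2, 10), (2, 12), (2, 18), (3, 4), (3, 6), (5, 6), (2, 3), (2, 8), (2, 20), (4, 3), (4, 6)] →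
    (q ^ n - 1) % pp q n (n - 1) = 0 ∧ (∀ i < n, 1 ≤ i → (pp q n (n - 1)).gcd (q ^ i - 1) = 1) ∧
      3 * n + 1 ≤ pp q n (n - 1) := by decide +kernel

set_option synthInstance.maxSize 4000 in
theorem fin3' : ∀ x ∈ [(2, 6), (2, 4), (2, 10), (2, 12), (2, 18), (3, 4), (3, 6), (5, 6), (2, 3), (2, 8), (2, 20), (4, 3), (4, 6)],
    ∃ c < 2 * x.2 + 2, 0 < c ∧ (c * (∏ i ∈ Finset.Ico 1 x.2, (x.1 ^ i - 1)) ^ 3) % (x.1 ^ x.2 - 1) = 0 := by
  decide +kernel

theorem exists_prim {q n : ℕ} (ha : 1 < q) (hn : 3 ≤ n) : ∃ m, m ∣ q ^ n - 1 ∧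
    (∀ i : ℕ, 1 ≤ i → i < n → Nat.Coprime m (q ^ i - 1)) ∧ phi n q ≤ n * m := by
  have key : ∀ r : ℕ, r.Prime → r ∣ phi n q → (∀ i : ℕ, 1 ≤ i → i < n → ¬ r ∣ q ^ i - 1) ∨
      (r ∣ n ∧ ¬ r ^ 2 ∣ phi n q ∧ ∀ s : ℕ, s.Prime → s ∣ n → s ≤ r) := by
    intro r hr hd
    haveI := Fact.mk hr
    obtain ⟨k, m, hm, rfl⟩ := Nat.exists_eq_pow_mul_and_not_dvd (n := n) (by omega) r hr.ne_one
    have hp := prim_of_dvd ha hm hd
    have hm0 : m ≠ 0 := fun e => hm (e ▸ dvd_zero r)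
    have := hr.two_le
    rcases k with - | k
    · simp only [pow_zero, one_mul] at *
      refine Or.inl fun j hj hjn hdj => ?_
      have := Nat.le_of_dvd hj (hp.dvd_of_pow_eq_one _ ((dvd_pow_sub_one_iff ha j).1 hdj))
      omega
    · refine Or.inr ⟨(dvd_pow_self r k.succ_ne_zero).mul_right m, fun hsq => ?_, fun s hs hsd => ?_⟩
      · have e : r ^ (k + 1) * m = (r ^ k * m) * r := by ring
        by_cases hr2 : r = 2
        · subst hr2
          obtain rfl : m = 1 := Nat.dvd_one.1 (dvd_sub_one_of_prim hm0 hp)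
          rcases k with - | k
          · simp at hn
          · refine not_four_dvd ha (d := 2 ^ k) (by positivity) ?_
            rwa [show 2 ^ k * 2 * 2 = 2 ^ (k + 1 + 1) * 1 by ring]
        · refine not_sq_dvd_odd ha hr hr2 (d := r ^ k * m)
            (Nat.mul_pos (Nat.pow_pos hr.pos) (by omega)) ?_ (e ▸ hsq)
          rw [dvd_pow_sub_one_iff ha, mul_comm, pow_mul, hp.pow_eq_one, one_pow]
      · rcases (Nat.Prime.dvd_mul hs).1 hsd with h | h
        · exact Nat.le_of_dvd hr.pos (hs.dvd_of_dvd_pow h)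
        · have := Nat.le_of_dvd (by omega) (h.trans (dvd_sub_one_of_prim hm0 hp))
          omega
  by_cases h : ∃ r : ℕ, r.Prime ∧ r ∣ phi n q ∧ r ∣ n ∧ ¬ r ^ 2 ∣ phi n q ∧
      ∀ s : ℕ, s.Prime → s ∣ n → s ≤ r
  · obtain ⟨r, hr, ⟨m, hm⟩, h1, h2, h3⟩ := h
    have h4 : m ∣ phi n q := hm ▸ dvd_mul_left m r
    refine ⟨m, h4.trans (phi_dvd ha), fun i a b => Nat.coprime_of_dvd fun s hs c => ?_,
      hm ▸ Nat.mul_le_mul_right m (Nat.le_of_dvd (by omega) h1)⟩
    rcases key s hs (c.trans h4) with h5 | ⟨h5, -, h6⟩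
    · exact h5 i a b
    · obtain rfl : s = r := le_antisymm (h3 s hs h5) (h6 r hr h1)
      exact absurd (hm ▸ sq s ▸ Nat.mul_dvd_mul_left s c) h2
  · refine ⟨phi n q, phi_dvd ha, fun i a b => Nat.coprime_of_dvd fun s hs c => ?_,
      Nat.le_mul_of_pos_left _ (by omega)⟩
    exact (key s hs c).resolve_right (fun h5 => h ⟨s, hs, c, h5⟩) i a b


/-- Size of the primitive part of `q^e - 1`. For a prime power `q` and `e ≥ 3`, call a divisor of `q^e - 1` primitive when it is coprime to `q^i - 1` for every `1 ≤ i < e`; the primitive part is the largest primitive divisor. Apart from thirteen exceptional pairs, the primitive part is at least `3e + 1`: there is a primitive divisor `m ≥ 3e + 1` unless `(q, e)` is `(2, 6)` (where every primitive divisor is 1), one of `(2,4), (2,10), (2,12), (2,18), (3,4), (3,6), (5,6)` (where the primitive part is exactly `e + 1`), or one of `(2,3), (2,8), (2,20), (4,3), (4,6)` (where it is exactly `2e +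 1`). The statement asserts the existence of a primitive divisor `m ≥ 3e + 1` outside the thirteen pairs, and that every primitive divisor is at most `2e + 1` for the thirteen pairs. -/
theorem result (q e : ℕ) (hq : IsPrimePow q) (he : 3 ≤ e) :
    ((q, e) ∉ [(2, 6), (2, 4), (2, 10), (2, 12), (2, 18), (3, 4), (3, 6), (5, 6), (2, 3), (2, 8), (2, 20), (4, 3), (4, 6)] →
      ∃ m : ℕ, m ∣ q ^ e - 1 ∧ (∀ i : ℕ, 1 ≤ i → i < e → Nat.Coprime m (q ^ i - 1)) ∧ 3 * e + 1 ≤ m) ∧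
    ((q, e) ∈ [(2, 6), (2, 4), (2, 10), (2, 12), (2, 18), (3, 4), (3, 6), (5, 6), (2, 3), (2, 8), (2, 20), (4, 3), (4, 6)] →
      ∀ m : ℕ, m ∣ q ^ e - 1 → (∀ i : ℕ, 1 ≤ i → i < e → Nat.Coprime m (q ^ i - 1)) → m ≤ 2 * e + 1) := by
  have ha : 1 < q := hq.one_lt
  refine ⟨fun h => ?_, fun h m h1 h2 => ?_⟩
  · obtain ⟨m, m1, m2, m3⟩ := exists_prim ha he
    by_cases h3 : 3 * e + 1 ≤ m
    · exact ⟨m, m1, m2, h3⟩
    have h4 : m ≤ 2 * e + 1 := by
      have h5 := S4422.result q e m (by omega) (by omega) m1 m2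
      have h0 : 0 < m := Nat.pos_of_ne_zero fun h0 => by
        have := phi_pos (n := e) ha
        rw [h0] at m3; omega
      obtain ⟨c, hc⟩ := (Nat.modEq_iff_dvd' h0).1 h5.symm
      have : c < 3 := by
        by_contra h6
        have := Nat.mul_le_mul_left e (not_lt.1 h6)
        omega
      have := Nat.mul_le_mul_left e (Nat.le_of_lt_succ this)
      omega
    have hle : phi e q ≤ e * (2 * e + 1) := m3.trans (Nat.mul_le_mul_left e h4)
    have hmem : e ∈ [3, 4, 5, 6, 7, 8, 9, 10, 11, 12, 14, 15, 16, 18, 20, 21, 22, 24, 26, 28, 30, 36, 42, 60] := by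
      by_cases h6 : 6 < e
      · have h5 : 3 ^ e.totient ≤ (e * (2 * e + 1)) ^ 2 := (low ha h6).trans (Nat.pow_le_pow_left hle 2)
        have h7 := (tot e).1
        have h8 : e.totient < 29 := by
          by_contra hc
          have h9 := big' _ (not_lt.1 hc)
          have := Nat.pow_le_pow_left (Nat.mul_le_mul h7
            (Nat.succ_le_succ (Nat.mul_le_mul_left 2 h7))) 2
          simp only [Nat.succ_eq_add_one] at this
          omega
        have := fin0' e (by nlinarith) h6 (le_trans (by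
          rw [tt_card, Nat.totient_eq_card_coprime]
          exact Nat.pow_le_pow_right (by norm_num) (Finset.card_le_card
            (Finset.filter_subset_filter _ (Finset.range_subset_range.2 (min_le_left _ _))))) h5)
        simp only [List.mem_cons] at this ⊢; tauto
      · have : e = 3 ∨ e = 4 ∨ e = 5 ∨ e = 6 := by omega
        simp only [List.mem_cons]; tauto
    have h5 := (le_phi (n := e) ha).trans hle
    have h6 : q < 10 := by
      by_contra hc
      have := (Nat.pow_le_pow_left (show 9 ≤ q - 1 by omega) _).trans h5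
      revert this
      exact (by decide +kernel : ∀ n ∈ [3, 4, 5, 6, 7, 8, 9, 10, 11, 12, 14, 15, 16, 18, 20, 21, 22, 24, 26, 28, 30, 36, 42, 60], ¬ 9 ^ n.totient ≤ n * (2 * n + 1)) e hmem
    obtain ⟨h7, h8, h9⟩ := fin2' e hmem q h6 ha h5 h
    exact ⟨_, Nat.dvd_of_mod_eq_zero h7, fun i a b => h8 i b a, h9⟩
  · obtain ⟨c, c1, c2, c3⟩ := fin3' _ h
    have h3 : Nat.Coprime m ((∏ i ∈ Finset.Ico 1 e, (q ^ i - 1)) ^ 3) :=
      (Nat.Coprime.prod_right fun i hi => h2 i (Finset.mem_Ico.1 hi).1 (Finset.mem_Ico.1 hi).2).pow_right 3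
    have := Nat.le_of_dvd c2 (h3.dvd_of_dvd_mul_right (h1.trans (Nat.dvd_of_mod_eq_zero c3)))
    simp only at c1
    omega

end Cfsg.Agent.S4423
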