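import Mathlib
import Cfsg.Statements.S4425
import Cfsg.Agent.Block.Rank

set_option autoImplicit false
open Cfsg

namespace Cfsg.Agent.S4425

open Cfsg.Agent.Block Cfsg.Agent.Char

/-- Let χ be an irreducible character of the finite group G, p a prime, p^a the p-part of the order of G and p^b the p-part of the degree χ(1). Let χ̃ be the class function equal to p^a · χ on p-regular elements and zero on p-singular elements. Then p^(−b) · χ̃ is a generalized character of G, while p^(−(b+1)) · χ̃ is not. -/
theorem result {G : Type*} [Group G] [Finite G] (p : ℕ) [Fact p.Prime] (χ : Cfsg.IrrCharacter G) : Cfsg.IsGeneralizedCharacter G (fun x : G => if p ∣ orderOf x then (0 : ℂ) else ((p ^ ((Nat.card G).factorization p - (Cfsg.charDegree (χ : G → ℂ)).factorization p) : ℕ) : ℂ) * (χ : G → ℂ) x) ∧ ¬ Cfsg.IsGeneralizedCharacter G (fun x : G => if p ∣ orderOf x then (0 : ℂ) else ((p ^ (Nat.card G).factorization p : ℕ) : ℂ) / ((p ^ ((Cfsg.charDegree (χ : G → ℂ)).factorization p + 1) : ℕ) : ℂ) * (χ : G → ℂ) x) := by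
  classical
  have hp : p.Prime := Fact.out
  have := Fintype.ofFinite G
  constructor
  · convert isGenChar_pow_sub_smul hp χ using 1
    funext x
    rw [Pi.smul_apply, pRegularPart_apply]
    split_ifs <;> simp
  · intro h
    obtain ⟨M, hM⟩ := exists_isPModular hp
    have h1 := val_div_card_centralizer_le hM (isGenChar_classFun h) (fun g hg => if_pos hg)
      (γ := 1) (fun ψ => by
        obtain ⟨n, hn⟩ := classInner_isGenChar_int h (irr_isGenChar ψ)
        rw [hn]; exact val_intCast_le_one M n) 1
    have h2 : Subgroup.centralizer ({1} : Set G) = ⊤ := by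
      ext x; simp [Subgroup.mem_centralizer_singleton_iff]
    have h0 := val_p_ne_zero hM
    rw [h2, Subgroup.card_top, orderOf_one, if_neg hp.not_dvd_one, map_div₀, map_mul,
      map_div₀, Nat.cast_pow, Nat.cast_pow, map_pow, map_pow, val_irr_one hM,
      val_natCast hM Nat.card_pos.ne', pow_succ] at h1
    have h3 : val M (p : ℂ) ^ (Nat.card G).factorization p /
        (val M (p : ℂ) ^ (charDegree (χ : G → ℂ)).factorization p * val M (p : ℂ)) *
        val M (p : ℂ) ^ (charDegree (χ : G → ℂ)).factorization p /
        val M (p : ℂ) ^ (Nat.card G).factorization p = (val M (p : ℂ))⁻¹ := by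
      field_simp
    rw [h3, inv_le_one₀ (val_p_pos hM)] at h1
    exact absurd (val_p_lt_one hM) (not_lt.2 h1)

end Cfsg.Agent.S4425
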