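import Mathlib
import Cfsg.Statements.S4426
import Cfsg.Agent.Block.Rank2

set_option autoImplicit false
open Cfsg

namespace Cfsg.Agent.S4426

open Cfsg.Agent.Block Cfsg.Agent.Char

/-- Let χ be an irreducible character in the p-block B of the finite group G (relative to a maximal ideal M of the algebraic integers containing p), let p^a be the p-part of the order of G, and let χ̃ be the class function equal to p^a · χ on p-regular elements and zero elsewhere. For ξ ∈ B the inner product [χ̃, ξ] is an integer. The following are equivalent: (a) χ has height zero in B; (b) for some ξ ∈ B the integer [χ̃, ξ] is nonzero and the exact power of p dividing it equals the exact power of p dividing ξ(1); (c) the same holds for every ξ ∈ B. -/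
theorem result {G : Type*} [Group G] [Fintype G] (p : ℕ) [Fact p.Prime] (M : Ideal Cfsg.AlgInt) (hM : Cfsg.IsPModular p M) (B : Set (Cfsg.IrrCharacter G)) (hB : Cfsg.IsPBlock M B) (χ : Cfsg.IrrCharacter G) (hχ : χ ∈ B) : (Cfsg.blockHeight p B (χ : G → ℂ) = 0 ↔ ∃ ξ ∈ B, ∃ n : ℤ, Cfsg.classInner (fun x : G => if p ∣ orderOf x then (0 : ℂ) else ((p ^ (Nat.card G).factorization p : ℕ) : ℂ) * (χ : G → ℂ) x) (ξ : G → ℂ) = (n : ℂ) ∧ n ≠ 0 ∧ padicValInt p n = (Cfsg.charDegree (ξ : G → ℂ)).factorization p) ∧ (Cfsg.blockHeight p B (χ : G → ℂ) = 0 ↔ ∀ ξ ∈ B, ∃ n : ℤ, Cfsg.classInner (fun x : G => if p ∣ orderOf x then (0 : ℂ) else ((p ^ (Nat.card G).factorization p : ℕ) : ℂ) * (χ : G → ℂ) x) (ξ : G → ℂ) = (n : ℂ) ∧ n ≠ 0 ∧ padicValInt p n = (Cfsg.charDegree (ξ : G → ℂ)).factorization p) := by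
  classical
  have hf : (fun x : G => if p ∣ orderOf x then (0 : ℂ) else
      ((p ^ (Nat.card G).factorization p : ℕ) : ℂ) * (χ : G → ℂ) x) =
      ((p : ℂ) ^ (Nat.card G).factorization p) • pRegularPart p (χ : G → ℂ) := by
    funext x
    rw [Pi.smul_apply, pRegularPart_apply]
    split_ifs <;> simp
  rw [hf]
  have key : ∀ ξ ∈ B, (blockHeight p B (χ : G → ℂ) = 0 ↔ ∃ n : ℤ,
      classInner (((p : ℂ) ^ (Nat.card G).factorization p) • pRegularPart p (χ : G → ℂ))
        (ξ : G → ℂ) = (n : ℂ) ∧ n ≠ 0 ∧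
        padicValInt p n = (charDegree (ξ : G → ℂ)).factorization p) := by
    intro ξ hξ
    obtain ⟨n, hn⟩ := exists_int_pow_mul_inner hM.1 χ (n := (Nat.card G).factorization p)
      (Nat.le_add_left _ _) (irr_isGenChar ξ)
    have hv := val_pow_mul_inner hM ξ χ (n := (Nat.card G).factorization p)
      (h := (charDegree (ξ : G → ℂ)).factorization p) (add_comm _ _)
    rw [inner_pReg_symm (irr_isChar ξ) (irr_isChar χ), hn] at hv
    have hval : n ≠ 0 → val M (n : ℂ) = val M (p : ℂ) ^ padicValInt p n := fun h0 => by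
      have h1 : val M (n : ℂ) = val M (n.natAbs : ℂ) := by
        rcases Int.natAbs_eq n with h | h
        · conv_lhs => rw [h]
          rw [Int.cast_natCast]
        · conv_lhs => rw [h]
          rw [Int.cast_neg, Valuation.map_neg, Int.cast_natCast]
      rw [h1, val_natCast hM (Int.natAbs_ne_zero.2 h0), padicValInt,
        Nat.factorization_def _ hM.1]
    have hp0 := pow_ne_zero ((charDegree (ξ : G → ℂ)).factorization p) (val_p_ne_zero hM)
    rw [classInner_smul_left, hn]
    constructor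
    · intro h0
      rw [val_omega_aReg_eq_one hM hB hχ hξ h0, mul_one] at hv
      have hn0 : n ≠ 0 := fun h => by
        rw [h, Int.cast_zero, map_zero] at hv
        exact hp0 hv.symm
      exact ⟨n, rfl, hn0, (val_p_pow_inj hM).1 ((hval hn0).symm.trans hv)⟩
    · rintro ⟨m, hm, h0, h1⟩
      obtain rfl : n = m := Int.cast_injective hm
      rw [hval h0, h1] at hv
      exact height_zero_of_val_omega_aReg hM hB hχ hξ
        (mul_left_cancel₀ hp0 (hv.symm.trans (mul_one _).symm))
  exact ⟨⟨fun h => ⟨χ, hχ, (key χ hχ).1 h⟩, fun ⟨ξ, hξ, h⟩ => (key ξ hξ).2 h⟩,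
    ⟨fun h ξ hξ => (key ξ hξ).1 h, fun h => (key χ hχ).2 (h χ hχ)⟩⟩

end Cfsg.Agent.S4426
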