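import Mathlib
import Cfsg.Statements.S4427
import Cfsg.Agent.Isaacs.BN1
-- import your own Cfsg.Agent.* helpers here

set_option autoImplicit false
open Cfsg

namespace Cfsg.Agent.S4427

/-- Let G be a finite group of order p^a · q^b · r^c with p, q, r distinct primes, and suppose that G has exactly q^b · r^c elements of order not divisible by p. Then G has a normal p-complement: a normal subgroup of order q^b · r^c. -/
theorem result {G : Type*} [Group G] [Finite G] (p q r a b c : ℕ) (hp : p.Prime) (hq : q.Prime) (hr : r.Prime) (hpq : p ≠ q) (hpr : p ≠ r) (hqr : q ≠ r) (hG : Nat.card G = p ^ a * q ^ b * r ^ c) (hcount : Nat.card {g : G // ¬ p ∣ orderOf g} = q ^ b * r ^ c) : ∃ N : Subgroup G, N.Normal ∧ Nat.card N = q ^ b * r ^ c := by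
  classical
  have := Fintype.ofFinite G
  haveI := Fact.mk hq
  haveI := Fact.mk hr
  obtain ⟨Q⟩ : Nonempty (Sylow q G) := inferInstance
  obtain ⟨R⟩ : Nonempty (Sylow r G) := inferInstance
  have hQ : Nat.card (Q : Subgroup G) = q ^ b := by
    rw [Q.card_eq_multiplicity, hG]
    congr 1
    rw [Nat.factorization_mul (by have := hp.pos; have := hq.pos; positivity) (pow_ne_zero _ hr.ne_zero),
      Nat.factorization_mul (pow_ne_zero _ hp.ne_zero) (pow_ne_zero _ hq.ne_zero),
      hp.factorization_pow, hq.factorization_pow, hr.factorization_pow]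
    simp [hpq, hqr.symm]
  have hR : Nat.card (R : Subgroup G) = r ^ c := by
    rw [R.card_eq_multiplicity, hG]
    congr 1
    rw [Nat.factorization_mul (by have := hp.pos; have := hq.pos; positivity) (pow_ne_zero _ hr.ne_zero),
      Nat.factorization_mul (pow_ne_zero _ hp.ne_zero) (pow_ne_zero _ hq.ne_zero),
      hp.factorization_pow, hq.factorization_pow, hr.factorization_pow]
    simp [hpr, hqr]
  obtain ⟨N, hN, hmem⟩ := BN.main hp (Q : Subgroup G) (R : Subgroup G)
    (by rw [hQ, hR]; exact Nat.Coprime.pow _ _ ((Nat.coprime_primes hq hr).2 hqr))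
    (by rw [hQ]; exact fun h => hpq ((Nat.prime_dvd_prime_iff_eq hp hq).1 (hp.dvd_of_dvd_pow h)))
    (by rw [hR]; exact fun h => hpr ((Nat.prime_dvd_prime_iff_eq hp hr).1 (hp.dvd_of_dvd_pow h)))
    (by rw [hQ, hR, hcount])
  refine ⟨N, hN, ?_⟩
  rw [← hcount]
  exact Nat.card_congr (Equiv.subtypeEquivRight hmem)

end Cfsg.Agent.S4427
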