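import Mathlib
import Cfsg.Statements.S4428
import Cfsg.Agent.Block.Nilp

set_option autoImplicit false
open Cfsg

namespace Cfsg.Agent.S4428

open Cfsg.Agent.Block Cfsg.Agent.Char Subgroup

/-- Let χ be an irreducible character of height zero in the p-block B of the finite group G (relative to a maximal ideal M of the algebraic integers containing p). Let x be a p-element of G with centralizer C, and let b be a block of C that induces B. Form the class function ϑ(c) = χ(x c) on C and its b-part (the sum over ψ ∈ b of the inner product of ϑ with ψ, times ψ). Then the b-part of ϑ does not vanish identically on the p-regular elements of C. (Compare the second main Theorem, which gives vanishing when b does not induce B.) -/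
theorem result {G : Type*} [Group G] [Finite G] (p : ℕ) [Fact p.Prime] (M : Ideal Cfsg.AlgInt) (hM : Cfsg.IsPModular p M) (B : Set (Cfsg.IrrCharacter G)) (hB : Cfsg.IsPBlock M B) (χ : Cfsg.IrrCharacter G) (hχ : χ ∈ B) (h0 : Cfsg.blockHeight p B (χ : G → ℂ) = 0) (x : G) (hx : ∃ k : ℕ, orderOf x = p ^ k) (b : Set (Cfsg.IrrCharacter (Subgroup.centralizer ({x} : Set G)))) (hb : Cfsg.IsInducedBlock M (Subgroup.centralizer ({x} : Set G)) b B) : ∃ y : Subgroup.centralizer ({x} : Set G), ¬ p ∣ orderOf y ∧ Cfsg.blockPart b (fun c : Subgroup.centralizer ({x} : Set G) => (χ : G → ℂ) (x * (c : G))) y ≠ 0 := by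
  have e := centralizer_zpowers x
  revert b
  rw [← e]
  intro b hb
  have ha : IsBPOf p M B ⟨zpowers x, b⟩ :=
    (isBrauerPairOf_iff_induced hM).2 ⟨isPGroup_zpowers_of_orderOf hx, hb⟩
  have h : (⟨x, ⟨zpowers x, b⟩⟩ : Subs G).Ok p M := ⟨rfl, ha.bp⟩
  by_contra! hne
  refine con_ne_zero_of_height_zero hM h ha hχ hχ h0 h0 ?_
  rw [con, secF_eq_blockPart (irr_classFun χ) h.mem, bf_congr_left (f' := 0) hne, bf_zero_left]

end Cfsg.Agent.S4428
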