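import Mathlib
import Cfsg.Statements.S4430
import Cfsg.Agent.Block.FongReynolds

set_option autoImplicit false
open Cfsg

namespace Cfsg.Agent.S4430

open Cfsg.Agent.Block Cfsg.Agent.Char Subgroup

theorem aux {G : Type*} [Group G] [Fintype G] (M : Ideal AlgInt) (H : Subgroup G) [Fintype H]
    (ξ : IrrCharacter H) (B : Set (IrrCharacter G)) :
    ∃ n : ℕ, blockPart B (indFun H (ξ : H → ℂ)) 1 = (n : ℂ) ∧
      (n : ℂ) = omega (ξ : H → ℂ) (resTo H (blockIdem B)) *
        (charDegree (indFun H (ξ : H → ℂ)) : ℂ) := by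
  classical
  have hch := IndRep.isChar_indFun H (irr_isChar ξ)
  choose a ha using fun χ : IrrCharacter G => classInner_isChar_nat hch (irr_isChar χ)
  have e : blockPart B (indFun H (ξ : H → ℂ)) 1 =
      ((∑ χ : IrrCharacter G with χ ∈ B, a χ * charDegree (χ : G → ℂ) : ℕ) : ℂ) := by
    rw [blockPart_eq_sum]
    push_cast
    exact Finset.sum_congr rfl fun χ _ => by rw [ha, irr_degree_cast]
  refine ⟨_, e, ?_⟩
  rw [← e, blockPart_eq_sum, omega_resTo_blockIdem, charDegree_cast hch, Ind.indFun_one,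
    Finset.sum_mul]
  refine Finset.sum_congr rfl fun χ _ => ?_
  have hi : (H.index : ℂ) ≠ 0 := Nat.cast_ne_zero.2 Subgroup.index_ne_zero_of_finite
  have := irr_one_ne_zero ξ
  rw [classInner_isChar_comm hch (irr_isChar χ), Ind.inner_indFun_right H _ (irr_classFun χ)]
  field_simp

/-- Let H be a subgroup of the finite group G, b a block of H whose induced block B₀ in G is defined (relative to a maximal ideal M of the algebraic integers containing p), and ξ ∈ b. For a block B of G let n_B be the value at 1 of the B-part of the induced character ξ^G (a natural number: the sum over χ ∈ B of the multiplicity of χ in ξ^G times χ(1)). Then for B = B₀ the exact power of p dividing n_B equals the exact power of p dividing ξ^G(1), while for every other block B either n_B = 0 or n_B is divisible by a strictly higher power of p than ξ^G(1). -/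
theorem result {G : Type*} [Group G] [Fintype G] (p : ℕ) [Fact p.Prime] (M : Ideal Cfsg.AlgInt) (hM : Cfsg.IsPModular p M) (H : Subgroup G) [Fintype H] (b : Set (Cfsg.IrrCharacter H)) (B₀ : Set (Cfsg.IrrCharacter G)) (hind : Cfsg.IsInducedBlock M H b B₀) (ξ : Cfsg.IrrCharacter H) (hξ : ξ ∈ b) : (∃ n : ℕ, Cfsg.blockPart B₀ (Cfsg.indFun H (ξ : H → ℂ)) 1 = (n : ℂ) ∧ n ≠ 0 ∧ n.factorization p = (Cfsg.charDegree (Cfsg.indFun H (ξ : H → ℂ))).factorization p) ∧ ∀ B : Set (Cfsg.IrrCharacter G), Cfsg.IsPBlock M B → B ≠ B₀ → ∃ n : ℕ, Cfsg.blockPart B (Cfsg.indFun H (ξ : H → ℂ)) 1 = (n : ℂ) ∧ (n = 0 ∨ (Cfsg.charDegree (Cfsg.indFun H (ξ : H → ℂ))).factorization p < n.factorization p) := by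
  classical
  have hd : charDegree (indFun H (ξ : H → ℂ)) ≠ 0 := by
    rw [charDegree_indFun (irr_isChar ξ)]
    exact mul_ne_zero Subgroup.index_ne_zero_of_finite (irr_degree_ne_zero ξ)
  have hd' : val M (charDegree (indFun H (ξ : H → ℂ)) : ℂ) ≠ 0 := by
    simpa using hd
  have key : ∀ B : Set (IrrCharacter G), IsPBlock M B →
      omega (ξ : H → ℂ) (resTo H (blockIdem B)) ∈ V M ∧
      red M (omega (ξ : H → ℂ) (resTo H (blockIdem B))) = lam M (ξ : H → ℂ) (resTo H (eB M B)) := by
    intro B hB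
    have h1 := (isCentral_blockIdem B).resTo H
    have h2 := (isV_blockIdem hM hB).resTo H
    exact ⟨omega_mem_V ξ h1 h2, by rw [← lam_redG ξ h1 h2, redG_resTo]; rfl⟩
  constructor
  · obtain ⟨n, h1, h2⟩ := aux M H ξ B₀
    obtain ⟨k1, k2⟩ := key B₀ (induced_right hind)
    rw [induced_lam_eB hM hind hξ] at k2
    have hv := (red_ne_zero_iff k1).1 (by rw [k2]; exact one_ne_zero)
    have h3 : val M (n : ℂ) = val M (charDegree (indFun H (ξ : H → ℂ)) : ℂ) := by
      rw [h2, map_mul, hv, one_mul]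
    have hn : n ≠ 0 := by
      rintro rfl
      rw [Nat.cast_zero, map_zero] at h3
      exact hd' h3.symm
    exact ⟨n, h1, hn, (val_natCast_eq_iff hM hn hd).1 h3⟩
  · intro B hB hne
    obtain ⟨n, h1, h2⟩ := aux M H ξ B
    obtain ⟨k1, k2⟩ := key B hB
    rw [induced_lam_eB_of_ne hM hind hB hne.symm hξ] at k2
    have hv := (red_eq_zero_iff k1).1 k2
    refine ⟨n, h1, ?_⟩
    rcases eq_or_ne n 0 with hn | hn
    · exact Or.inl hn
    refine Or.inr ((val_natCast_lt_iff hM hn hd).1 ?_)
    rw [h2, map_mul]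
    exact mul_lt_of_lt_one_left (zero_lt_iff.2 hd') hv

end Cfsg.Agent.S4430
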