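import Mathlib
import Cfsg.Statements.S4431
import Cfsg.Agent.Block.Brauer
import Cfsg.Agent.Block.Ind

set_option autoImplicit false
open Cfsg

namespace Cfsg.Agent.S4431

open Cfsg.Agent.Block Cfsg.Agent.Char Subgroup

/-- Let H be a subgroup of the finite group G and b a block of H whose induced block B₀ in G is defined (relative to a maximal ideal M of the algebraic integers containing p). Let χ be an irreducible character of G, ψ ∈ b, and let η be the class function on H equal to p^a · χ on the p-regular elements of H and zero elsewhere, p^a being the p-part of the order of H. Then (a) if χ ∉ B₀, the number [η, ψ]/ψ(1) lies in the local ideal at M; (b) if χ ∈ B₀ has height zero, it does not. -/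
theorem result {G : Type*} [Group G] [Fintype G] (p : ℕ) [Fact p.Prime] (M : Ideal Cfsg.AlgInt) (hM : Cfsg.IsPModular p M) (H : Subgroup G) [Fintype H] (b : Set (Cfsg.IrrCharacter H)) (B₀ : Set (Cfsg.IrrCharacter G)) (hind : Cfsg.IsInducedBlock M H b B₀) (χ : Cfsg.IrrCharacter G) (ψ : Cfsg.IrrCharacter H) (hψ : ψ ∈ b) : (χ ∉ B₀ → Cfsg.MemLocalIdeal M (Cfsg.classInner (fun h : H => if p ∣ orderOf h then (0 : ℂ) else ((p ^ (Nat.card H).factorization p : ℕ) : ℂ) * (χ : G → ℂ) h) (ψ : H → ℂ) / (ψ : H → ℂ) 1)) ∧ (χ ∈ B₀ → Cfsg.blockHeight p B₀ (χ : G → ℂ) = 0 → ¬ Cfsg.MemLocalIdeal M (Cfsg.classInner (fun h : H => if p ∣ orderOf h then (0 : ℂ) else ((p ^ (Nat.card H).factorization p : ℕ) : ℂ) * (χ : G → ℂ) h) (ψ : H → ℂ) / (ψ : H → ℂ) 1)) := by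
  classical
  have hp := hM.1
  obtain ⟨φ, hφ⟩ := block_nonempty hM (induced_right hind)
  have hres := isChar_res H (irr_isChar χ)
  have e1 : (fun h : H => if p ∣ orderOf h then (0 : ℂ) else
      ((p ^ (Nat.card H).factorization p : ℕ) : ℂ) * (χ : G → ℂ) h) =
      ((p ^ (Nat.card H).factorization p : ℕ) : ℂ) • pRegularPart p fun h : H => (χ : G → ℂ) h := by
    funext h
    rw [Pi.smul_apply, pRegularPart_apply]
    split_ifs <;> simp
  obtain ⟨m, hm⟩ : ∃ m : ℤ, classInner (((p ^ (Nat.card H).factorization p : ℕ) : ℂ) •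
      pRegularPart p fun h : H => (χ : G → ℂ) h) (ψ : H → ℂ) = m :=
    classInner_isGenChar_int (isGenChar_pow_smul_pRegularPart hp (isChar_isGenChar hres))
      (irr_isGenChar ψ)
  have hH : (Nat.card H : ℂ) ≠ 0 := card_ne_zero
  have hψ0 := irr_one_ne_zero ψ
  have e2 : classInner (((p ^ (Nat.card H).factorization p : ℕ) : ℂ) •
      pRegularPart p fun h : H => (χ : G → ℂ) h) (ψ : H → ℂ) / (ψ : H → ℂ) 1 =
      (((p ^ (Nat.card H).factorization p : ℕ) : ℂ) / Nat.card H) *
        omega (ψ : H → ℂ) (aReg p fun h : H => (χ : G → ℂ) h) := by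
    rw [omega_aReg, classInner_smul_left]
    field_simp
  have hv : val M (((p ^ (Nat.card H).factorization p : ℕ) : ℂ) / Nat.card H) = 1 := by
    rw [map_div₀, val_natCast hM Nat.card_pos.ne', Nat.cast_pow, map_pow]
    exact div_self (pow_ne_zero _ (val_p_ne_zero hM))
  have halg : IsAlgebraic ℤ (classInner (((p ^ (Nat.card H).factorization p : ℕ) : ℂ) •
      pRegularPart p fun h : H => (χ : G → ℂ) h) (ψ : H → ℂ) / (ψ : H → ℂ) 1) := by
    rw [hm, ← irr_degree_cast, div_eq_mul_inv]
    exact (isIntegral_intCast' m).isAlgebraic.mul (isIntegral_natCast' _).isAlgebraic.inv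
  have e3 : red M (omega (ψ : H → ℂ) (aReg p fun h : H => (χ : G → ℂ) h)) =
      lam M (φ : G → ℂ) (redG M (aReg p (χ : G → ℂ))) := by
    rw [← lam_aReg ψ hres, ← resTo_aReg, redG_resTo]
    exact induced_lam hM hind hψ hφ (isCentral_aReg (irr_classFun χ)).redG
  have hV := omega_aReg_mem_V (p := p) (M := M) ψ hres
  rw [e1, memLocalIdeal_iff hM halg, e2, map_mul, hv, one_mul, ← red_eq_zero_iff hV, e3]
  have k := lam_aReg_ne_zero_iff hM (isPBlock_blockOf (M := M) χ) (ψ := φ) (self_mem_blockOf hM χ)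
  constructor
  · intro hχ
    by_contra h
    exact hχ (block_mem_of_sameBlock hM (induced_right hind) hφ
      (sameBlock_symm hM (k.1 h).1))
  · intro hχ h0
    exact (lam_aReg_ne_zero_iff hM (induced_right hind) hχ).2 ⟨hφ, h0⟩

end Cfsg.Agent.S4431
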