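import Mathlib
import Cfsg.Statements.S4442
import Cfsg.Agent.Block.OrdP
-- import your own Cfsg.Agent.* helpers here

set_option autoImplicit false
open Cfsg

namespace Cfsg.Agent.S4442

open Cfsg.Agent.Block in

/-- Blocks of defect one. Let p be an odd prime and G a finite group whose Sylow p-subgroup P has order p; let C = C_G(P) and N = N_G(P), and fix a maximal ideal M of the algebraic integers containing p. Let B be a block of G with defect group P, b a block of C inducing B, and θ the member of b having P in its kernel (there is exactly one). Let T be the stabilizer of θ in N (the elements g ∈ N with θ(g c g⁻¹) = θ(c) for all c ∈ C) and e the index of C in T. Then e divides p − 1 and B contains exactly e + (p − 1)/e irreducible characters. Moreover B is the disjoint union of a set X of e characters and a set Y of (p − 1)/e characters such that, with f the index of C in N: every χ ∈ X has χ(1) ≡ ±(f/e)·θ(1) (mod p), there is one sign ε with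 ψ(1) ≡ ε f θ(1) (mod p) for all ψ ∈ Y, and all members of Y agree on the p-regular elements of G. -/
theorem result {G : Type*} [Group G] [Finite G] (p : ℕ) [Fact p.Prime] (M : Ideal Cfsg.AlgInt) (hM : Cfsg.IsPModular p M) (hodd : p ≠ 2) (P : Sylow p G) (hP : Nat.card P = p) (B : Set (Cfsg.IrrCharacter G)) (hB : Cfsg.IsPBlock M B) (hBP : Cfsg.IsDefectGroup p M B P) (b : Set (Cfsg.IrrCharacter (Subgroup.centralizer ((P : Subgroup G) : Set G)))) (hind : Cfsg.IsInducedBlock M (Subgroup.centralizer ((P : Subgroup G) : Set G)) b B) (θ : Cfsg.IrrCharacter (Subgroup.centralizer ((P : Subgroup G) : Set G))) (hθ : θ ∈ b) (hθP : ∀ x : Subgroup.centralizer ((P : Subgroup G) : Set G), (x : G) ∈ (P : Subgroup G) → (θ : Subgroup.centralizer ((P : Subgroup G) : Set G) → ℂ) x = (θ : Subgroup.centralizer ((P : Subgroup G) : Set G) → ℂ) 1) (T : Subgroup G) (hT : ∀ g : G, g ∈ T ↔ (g ∈ Subgroup.normalizer ((P : Subgroup G) : Set G) ∧ ∀ c c' : Subgroup.centralizer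 ((P : Subgroup G) : Set G), (c' : G) = g * c * g⁻¹ → (θ : Subgroup.centralizer ((P : Subgroup G) : Set G) → ℂ) c' = (θ : Subgroup.centralizer ((P : Subgroup G) : Set G) → ℂ) c)) (e f : ℕ) (he : (Subgroup.centralizer ((P : Subgroup G) : Set G)).relIndex T = e) (hf : (Subgroup.centralizer ((P : Subgroup G) : Set G)).relIndex (Subgroup.normalizer ((P : Subgroup G) : Set G)) = f) : e ∣ p - 1 ∧ Nat.card B = e + (p - 1) / e ∧ ∃ X Y : Set (Cfsg.IrrCharacter G), B = X ∪ Y ∧ Disjoint X Y ∧ Nat.card X = e ∧ Nat.card Y = (p - 1) / e ∧ (∀ χ ∈ X, (Cfsg.charDegree (χ : G → ℂ) : ℤ) ≡ ((f / e * Cfsg.charDegree (θ : Subgroup.centralizer ((P : Subgroup G) : Set G) → ℂ) : ℕ) : ℤ) [ZMOD p] ∨ (Cfsg.charDegree (χ : G → ℂ) : ℤ) ≡ -((f / e * Cfsg.charDegree (θ : Subgroup.centralizer ((P : Subgroup G) : Set G) → ℂ) : ℕ) : ℤ) [ZMOD p]) ∧ (∃ ε : ℤ, (ε = 1 ∨ ε = -1) ∧ ∀ ψ ∈ Y, (Cfsg.charDegree (ψ : G → ℂ) : ℤ) ≡ ε * ((f * Cfsg.charDegree (θ : Subgroup.centralizer ((P : Subgroup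 G) : Set G) → ℂ) : ℕ) : ℤ) [ZMOD p]) ∧ ∀ ψ ∈ Y, ∀ ψ' ∈ Y, ∀ g : G, ¬ p ∣ orderOf g → (ψ : G → ℂ) g = (ψ' : G → ℂ) g := by
  have := Fintype.ofFinite G
  have hT' : T = stabI θ := by
    ext g
    rw [hT]
    constructor
    · rintro ⟨h1, h2⟩
      exact ⟨h1, Subtype.ext (funext fun c => h2 c _ (coe_cH ⟨g, h1⟩ c))⟩
    · rintro ⟨h1, h2⟩
      refine ⟨h1, fun c c' e => ?_⟩
      rw [show c' = cH ⟨g, h1⟩ c from Subtype.ext (e.trans (coe_cH ⟨g, h1⟩ c).symm)]
      exact congrFun (congrArg Subtype.val h2) c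
  subst he hf hT'
  obtain ⟨δ, ζ, a, X, hd⟩ := (ordP_sylow P hP).exists_defOne hM hind hθ hθP
  refine ⟨hd.dvd, hd.card, X, Set.range ζ, hd.union, hd.disj, hd.cardX, hd.cardY', fun χ hχ => ?_,
    ⟨δ, hd.sign, ?_⟩, ?_⟩
  · have h1 := hd.degX hM hχ
    have h0 : (Subgroup.centralizer ((P : Subgroup G) : Set G)).relIndex (stabI θ) ≠ 0 :=
      Subgroup.index_ne_zero_of_finite
    rw [← Subgroup.relIndex_mul_relIndex _ _ _ (le_stabI θ) (stabI_le θ),
      Nat.mul_div_cancel_left _ (Nat.pos_of_ne_zero h0)]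
    rcases hd.a_sign χ hχ with e | e <;> rw [e] at h1
    · exact Or.inl (by simpa using h1)
    · exact Or.inr (by simpa using h1)
  · rintro _ ⟨lam, rfl⟩
    exact hd.degY hM lam
  · rintro _ ⟨lam, rfl⟩ _ ⟨μ, rfl⟩
    exact hd.agree lam μ

end Cfsg.Agent.S4442
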