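import Mathlib
import Cfsg.Statements.S4443
import Cfsg.Agent.Block.Robin2

set_option autoImplicit false
open Cfsg

namespace Cfsg.Agent.S4443

open Cfsg.Agent.Block Cfsg.Agent.Char Subgroup Cfsg.Agent.LocalEven

/-- Let D be a normal p-subgroup of the finite group G, of order p^d, let p^a be the p-part of the order of G, and fix a Sylow p-subgroup S and a maximal ideal M of the algebraic integers containing p. Index by a finite type ι (via an injective map K) exactly the conjugacy classes of p-regular elements x of G for which D is a Sylow p-subgroup of C_G(x). For classes K_i, K_j let ω(i, j) be the number of pairs (y, z) ∈ K_i × K_j with z y⁻¹ ∈ S; this number is divisible by p^(a−d). Then the number of p-blocks of G having D as a defect group equals the rank over ℤ/pℤ of the matrix with (i, j) entry ω(i, j)/p^(a−d) reduced modulo p. -/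
theorem result {G : Type*} [Group G] [Finite G] (p : ℕ) [Fact p.Prime] (M : Ideal Cfsg.AlgInt) (hM : Cfsg.IsPModular p M) (D : Subgroup G) [D.Normal] (hD : IsPGroup p D) (S : Sylow p G) {ι : Type*} [Fintype ι] [DecidableEq ι] (K : ι → ConjClasses G) (hKinj : Function.Injective K) (hK : ∀ C : ConjClasses G, (∃ i, K i = C) ↔ ∃ x ∈ C.carrier, ¬ p ∣ orderOf x ∧ ∃ Q : Sylow p (Subgroup.centralizer ({x} : Set G)), (Q : Subgroup (Subgroup.centralizer ({x} : Set G))).map (Subgroup.centralizer ({x} : Set G)).subtype = D) : Nat.card {B : Set (Cfsg.IrrCharacter G) // Cfsg.IsPBlock M B ∧ Cfsg.IsDefectGroup p M B D} = (Matrix.of fun i j : ι => ((Nat.card {yz : G × G // yz.1 ∈ (K i).carrier ∧ yz.2 ∈ (K j).carrier ∧ yz.2 * yz.1⁻¹ ∈ (S : Subgroup G)} / p ^ ((Nat.card G).factorization p - (Nat.card D).factorization p) : ℕ) : ZMod p)).rank := by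
  classical
  have hp : p.Prime := Fact.out
  have := Fintype.ofFinite G
  have := charP_F hM
  set κ := {B : Set (IrrCharacter G) // IsPBlock M B ∧ IsDefectGroup p M B D}
  have := Fintype.ofFinite κ
  choose x hx h1 h2 using fun i => (hK (K i)).1 ⟨i, rfl⟩
  simp only [← isSylowIn_iff, ConjClasses.mem_carrier_iff_mk_eq] at hx h2
  set d := (Nat.card D).factorization p with hd
  have h3 : ∀ g, IsSylowIn p D (centralizer ({g} : Set G)) →
      (Nat.card (centralizer ({g} : Set G))).factorization p = d := fun g h => by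
    rw [hd, h.card_eq, hp.factorization_pow, Finsupp.single_eq_same]
  have h4 : ∀ B : κ, blockDefect p B.1 = d := fun B => by
    rw [hd, card_defectGroup hM B.2.1 B.2.2, hp.factorization_pow, Finsupp.single_eq_same]
  have hinj : ∀ i j, IsConj (x i) (x j) → i = j := fun i j h =>
    hKinj (by rw [← hx, ← hx]; exact ConjClasses.mk_eq_mk_iff_isConj.2 h)
  have hall : ∀ g, ¬ p ∣ orderOf g → IsSylowIn p D (centralizer ({g} : Set G)) →
      ∃ i, IsConj (x i) g := fun g hg h => by
    obtain ⟨i, hi⟩ := (hK (ConjClasses.mk g)).2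
      ⟨g, ConjClasses.mem_carrier_mk, hg, isSylowIn_iff.1 h⟩
    exact ⟨i, ConjClasses.mk_eq_mk_iff_isConj.1 ((hx i).trans hi)⟩
  have hf := indFun_mem_VC (M := M) (S : Subgroup G) one_mem_VC
  have hc : ∀ B : κ, red M (dl p B.1 (indFun (S : Subgroup G) 1)) ≠ 0 := fun B => by
    refine red_dl_ne_zero hM B.2.1 hf ?_ fun g hg h => Ind.indFun_eq_zero _ _ fun y hy => ?_
    · rw [Ind.indFun_one, Pi.one_apply, mul_one, val_natCast_eq_one_iff hM]
      exact S.not_dvd_index
    · obtain ⟨k, hk⟩ := IsPGroup.iff_orderOf.1 S.isPGroup' ⟨_, hy⟩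
      rw [← orderOf_coe, ← Inv.orderOf_of_isConj (isConj_iff.2 ⟨y⁻¹, by rw [inv_inv]⟩)] at hk
      rcases k with _ | k
      · exact hg (orderOf_eq_one_iff.1 hk)
      · exact h (hk ▸ dvd_pow_self p k.succ_ne_zero)
  rw [← matrix_rank_map (ZMod.castHom (dvd_refl p) (F M)), Nat.card_eq_fintype_card,
    ← rank_mul_of_inv
      (A := Matrix.of fun (i : ι) (B : κ) => red M (dl p B.1 (indFun (S : Subgroup G) 1)) *
        lamB M B.1 (classSum (F M) (x i)⁻¹))
      (W := Matrix.of fun (B : κ) (j : ι) => lamB M B.1 (classSum (F M) (x j)))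
      (U := Matrix.of fun (B : κ) (i : ι) => (eB M B.1).coeff (x i)⁻¹)
      (U' := Matrix.of fun (i : ι) (B : κ) => (eB M B.1).coeff (x i))
      (ne_of_eq_of_ne (congrArg Matrix.det (?_ : _ = Matrix.diagonal fun B : κ =>
        red M (dl p B.1 (indFun (S : Subgroup G) 1)))) (by
          rw [Matrix.det_diagonal, Finset.prod_ne_zero_iff]
          exact fun B _ => hc B))
      (ne_of_eq_of_ne (congrArg Matrix.det (?_ : _ = (1 : Matrix κ κ (F M)))) (by simp))]
  · congr 1
    ext i j
    obtain ⟨k1, k2⟩ := red_pow_mul_lin_classSum hM hf (h3 _ (h2 j)) (y := (x i)⁻¹)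
      (by rw [centralizer_singleton_inv, h3 _ (h2 i)])
    have k3 := card_pairs_eq_pow_mul S (x i) (x j)
    rw [h3 _ (h2 i)] at k3
    obtain ⟨m, hm⟩ := pow_dvd_of_mem_V hM k1 k3
    have k4 : ∀ i g, g ∈ (K i).carrier ↔ IsConj (x i) g := fun i g => by
      rw [ConjClasses.mem_carrier_iff_mk_eq, ← hx, eq_comm, ConjClasses.mk_eq_mk_iff_isConj]
    rw [hm, Nat.cast_mul, Nat.cast_pow, mul_right_inj' (pow_ne_zero _ (Nat.cast_ne_zero.2
      hp.ne_zero))] at k3
    rw [← k3, red_natCast] at k2
    simp only [Matrix.map_apply, Matrix.of_apply, Matrix.mul_apply, k4, hm, map_natCast]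
    rw [Nat.mul_div_cancel_left _ (pow_pos hp.pos _), k2]
    refine Finset.sum_of_injOn (fun B : κ => B.1) Subtype.val_injective.injOn (fun B _ => ?_)
      (fun B hB hB' => ?_) fun B _ => by ring
    · exact Finset.mem_filter.2 ⟨mem_blocksIn_univ.2 B.2.1, h4 B⟩
    · obtain ⟨k5, k6⟩ := Finset.mem_filter.1 hB
      rw [mem_blocksIn_univ] at k5
      obtain ⟨χ, hχ⟩ := block_nonempty hM k5
      by_contra k7
      refine hB' ⟨⟨B, k5, isDefectGroup_of_lam hM k5 hχ ?_ (h2 j) ?_⟩, by simp, rfl⟩
      · rw [← lamB_eq hM k5 hχ]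
        exact left_ne_zero_of_mul (right_ne_zero_of_mul k7)
      · rw [h3 _ (h2 j), k6]
  · ext B B'
    have k := sum_coeff_eB_mul_lamB hM B'.2.1 B.2.1 (by rw [h4, h4]) B'.2.2 (fun i => (x i)⁻¹)
      (fun i j h => hinj i j (isConj_inv_iff.1 h)) fun g hg h => by
        obtain ⟨i, hi⟩ := hall g⁻¹ (by rwa [orderOf_inv]) (by rwa [centralizer_singleton_inv])
        exact ⟨i, isConj_inv_iff.1 (by rwa [inv_inv])⟩
    rw [Matrix.mul_apply, Matrix.diagonal_apply]
    simp only [Matrix.of_apply, mul_left_comm (_ : F M) (red M _)]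
    rw [← Finset.mul_sum, k]
    by_cases h : B = B'
    · simp [h]
    · rw [if_neg h, if_neg fun e => h (Subtype.ext e.symm), mul_zero]
  · ext B B'
    have k := sum_coeff_eB_mul_lamB hM B.2.1 B'.2.1 (by rw [h4, h4]) B.2.2 x hinj hall
    rw [Matrix.mul_apply, Matrix.one_apply]
    simp only [Matrix.of_apply, mul_comm (lamB _ _ _), k]
    exact if_congr Subtype.ext_iff.symm rfl rfl

end Cfsg.Agent.S4443
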