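import Mathlib
import Cfsg.Statements.S4445
import Cfsg.Agent.Isaacs.GlS
-- import your own Cfsg.Agent.* helpers here

set_option autoImplicit false
open Cfsg

namespace Cfsg.Agent.S4445

open Cfsg.Agent.Char Cfsg.Agent.Isaacs Subgroup

/-- Inside a finite group Γ let the solvable subgroup S normalise G with the orders of G and S coprime. Then the number of S-invariant irreducible characters of G (χ(s g s⁻¹) = χ(g) for all s ∈ S, g ∈ G) equals the number of conjugacy classes of G mapped to themselves by conjugation by every element of S. -/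
theorem result {Γ : Type*} [Group Γ] [Fintype Γ] (G S : Subgroup Γ) [Fintype G] (hnorm : ∀ s ∈ S, ∀ g ∈ G, s * g * s⁻¹ ∈ G) (hcop : (Nat.card G).Coprime (Nat.card S)) (hsolv : Group.IsSolvable S) : Nat.card {χ : Cfsg.IrrCharacter G // (∀ s ∈ S, ∀ g g' : G, (g' : Γ) = s * g * s⁻¹ → (χ : G → ℂ) g' = (χ : G → ℂ) g)} = Nat.card {K : ConjClasses G // ∀ s ∈ S, ∀ g g' : G, (g' : Γ) = s * g * s⁻¹ → ConjClasses.mk g = K → ConjClasses.mk g' = K} := by
  classical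
  have hn : S ≤ normalizer (G : Set Γ) := le_norm hnorm
  simp only [← inv_ez_iff hn]
  rw [card_inv_irr hsolv G hn hcop.symm, card_irr_eq_card_conjClasses]
  set C := G ⊓ centralizer (S : Set Γ)
  have hl : C ≤ G := inf_le_left
  refine card_eq_of_rel (fun L K => ∃ c : C, ConjClasses.mk c = L ∧
    ConjClasses.mk (inclusion hl c) = K.1) (fun L => ?_) (fun K => ?_) ?_ ?_
  · obtain ⟨c, rfl⟩ := ConjClasses.mk_surjective L
    refine ⟨⟨ConjClasses.mk (inclusion hl c), fun s hs g g' e h => ?_⟩, c, rfl, rfl⟩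
    obtain ⟨k, hk⟩ := isConj_iff.mp (ConjClasses.mk_eq_mk_iff_isConj.mp h)
    refine ConjClasses.mk_eq_mk_iff_isConj.mpr (isConj_iff.mpr ⟨⟨_, hnorm s hs k k.2⟩, Subtype.ext ?_⟩)
    have h1 : (k : Γ) * g * (k : Γ)⁻¹ = c := congrArg Subtype.val hk
    have h2 := c.2.2 s hs
    change s * k * s⁻¹ * g' * (s * k * s⁻¹)⁻¹ = (c : Γ)
    rw [e, ← mul_inv_cancel_right (c : Γ) s, ← h2, ← h1]; group
  · obtain ⟨K, hK⟩ := K
    obtain ⟨g, rfl⟩ := ConjClasses.mk_surjective K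
    obtain ⟨k, hk, h⟩ := @Core.exists_fixed_of_smul_mem_orbit Γ _ _ Γ
      (MulAction.compHom Γ (MulAut.conj : Γ →* MulAut Γ)) S G hn hcop.symm (Or.inl hsolv) g fun a ha => by
        obtain ⟨k, hk⟩ := isConj_iff.mp (ConjClasses.mk_eq_mk_iff_isConj.mp
          (hK a ha g ⟨_, hnorm a ha g g.2⟩ rfl rfl).symm)
        exact ⟨k, k.2, congrArg Subtype.val hk⟩
    refine ⟨_, ⟨k * g * k⁻¹, G.mul_mem (G.mul_mem hk g.2) (G.inv_mem hk), fun a ha =>
      mul_inv_eq_iff_eq_mul.mp (h a ha)⟩, rfl, ?_⟩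
    exact (ConjClasses.mk_eq_mk_iff_isConj.mpr (isConj_iff.mpr ⟨(⟨k, hk⟩ : G), rfl⟩)).symm
  · rintro _ K K' ⟨c, rfl, h⟩ ⟨c', h1, h2⟩
    exact Subtype.ext (h.symm.trans ((ConjClasses.mk_eq_mk_iff_isConj.mpr ((inclusion hl).map_isConj
      (ConjClasses.mk_eq_mk_iff_isConj.mp h1))).symm.trans h2))
  · rintro _ _ K ⟨c, rfl, h⟩ ⟨c', rfl, h2⟩
    obtain ⟨k, hk⟩ := isConj_iff.mp (ConjClasses.mk_eq_mk_iff_isConj.mp (h.trans h2.symm))
    have h1 : (k : Γ) * c * (k : Γ)⁻¹ = c' := congrArg Subtype.val hk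
    obtain ⟨z, hz, h3⟩ := @Core.exists_centralizer_smul_eq Γ _ _ Γ
      (MulAction.compHom Γ (MulAut.conj : Γ →* MulAut Γ)) S G hn hcop.symm (Or.inl hsolv) c k k.2
      (fun a ha => mul_inv_eq_iff_eq_mul.mpr (c.2.2 a ha)) fun a ha => by
        change a * (k * c * (k : Γ)⁻¹) * a⁻¹ = k * c * (k : Γ)⁻¹
        rw [h1]; exact mul_inv_eq_iff_eq_mul.mpr (c'.2.2 a ha)
    exact ConjClasses.mk_eq_mk_iff_isConj.mpr (isConj_iff.mpr ⟨⟨z, hz⟩, Subtype.ext (h3.trans h1)⟩)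

end Cfsg.Agent.S4445
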