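import Mathlib
import Cfsg.Statements.S4446
import Cfsg.Agent.Isaacs.GlS
-- import your own Cfsg.Agent.* helpers here

set_option autoImplicit false
open Cfsg

namespace Cfsg.Agent.S4446

open Cfsg.Agent.Char Cfsg.Agent.Isaacs Subgroup

/-- Let the finite group Γ be generated by a normal subgroup G and a cyclic subgroup S of coprime orders, C = G ⊓ C(S), and let χ be an S-invariant irreducible character of G with canonical extension χ̂ to Γ (the extension whose determinantal order is coprime to the order of S). Then there are exactly one irreducible character β of C and one sign ε such that χ̂(c s) = ε β(c) for every c ∈ C and every generator s of S; this β is a constituent of the restriction of χ to C; distinct S-invariant χ give distinct β; and every irreducible character of C arises in this way. -/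
theorem result {Γ : Type*} [Group Γ] [Fintype Γ] (G S : Subgroup Γ) [Fintype G] (hnorm : ∀ s ∈ S, ∀ g ∈ G, s * g * s⁻¹ ∈ G) (hcop : (Nat.card G).Coprime (Nat.card S)) (htop : G ⊔ S = ⊤) (hcyc : IsCyclic S) (C : Subgroup Γ) [Fintype C] (hC : C = G ⊓ Subgroup.centralizer (S : Set Γ)) (hCG : C ≤ G) : (∀ (χ : Cfsg.IrrCharacter G) (χh : Cfsg.IrrCharacter Γ), (∀ s ∈ S, ∀ g g' : G, (g' : Γ) = s * g * s⁻¹ → (χ : G → ℂ) g' = (χ : G → ℂ) g) → (∀ g : G, (χh : Γ → ℂ) g = (χ : G → ℂ) g) → (Cfsg.detOrder (χh : Γ → ℂ)).Coprime (Nat.card S) → (∃! βε : Cfsg.IrrCharacter C × ℤ, (βε.2 = 1 ∨ βε.2 = -1) ∧ ∀ c : C, ∀ s : Γ, Subgroup.zpowers s = S → (χh : Γ → ℂ) ((c : Γ) * s) = (βε.2 : ℂ) * (βε.1 : C → ℂ) c) ∧ ∀ β : Cfsg.IrrCharacter C, ∀ ε : ℤ, (ε = 1 ∨ ε = -1) → (∀ c : C, ∀ s : Γ, Subgroup.zpowers s = S → (χh : Γ → ℂ) ((c : Γ) * s) = (ε : ℂ) * (β : C → ℂ) c) → Cfsg.classInner (fun c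 : C => (χ : G → ℂ) ⟨c, hCG c.2⟩) (β : C → ℂ) ≠ 0) ∧ (∀ (χ χ' : Cfsg.IrrCharacter G) (χh χh' : Cfsg.IrrCharacter Γ), (∀ s ∈ S, ∀ g g' : G, (g' : Γ) = s * g * s⁻¹ → (χ : G → ℂ) g' = (χ : G → ℂ) g) → (∀ s ∈ S, ∀ g g' : G, (g' : Γ) = s * g * s⁻¹ → (χ' : G → ℂ) g' = (χ' : G → ℂ) g) → (∀ g : G, (χh : Γ → ℂ) g = (χ : G → ℂ) g) → (∀ g : G, (χh' : Γ → ℂ) g = (χ' : G → ℂ) g) → (Cfsg.detOrder (χh : Γ → ℂ)).Coprime (Nat.card S) → (Cfsg.detOrder (χh' : Γ → ℂ)).Coprime (Nat.card S) → ∀ β : Cfsg.IrrCharacter C, ∀ ε ε' : ℤ, (ε = 1 ∨ ε = -1) → (ε' = 1 ∨ ε' = -1) → (∀ c : C, ∀ s : Γ, Subgroup.zpowers s = S → (χh : Γ → ℂ) ((c : Γ) * s) = (ε : ℂ) * (β : C → ℂ) c) → (∀ c : C, ∀ s : Γ, Subgroup.zpowers s = S → (χh' : Γ → ℂ) ((c : Γ) * s) = (ε' : ℂ) * (β : C → ℂ) c) → χ = χ') ∧ (∀ β : Cfsg.IrrCharacter C, ∃ (χ : Cfsg.IrrCharacter G) (χh : Cfsg.IrrCharacter Γ) (ε : ℤ), (∀ s ∈ S, ∀ g g'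 : G, (g' : Γ) = s * g * s⁻¹ → (χ : G → ℂ) g' = (χ : G → ℂ) g) ∧ (∀ g : G, (χh : Γ → ℂ) g = (χ : G → ℂ) g) ∧ (Cfsg.detOrder (χh : Γ → ℂ)).Coprime (Nat.card S) ∧ (ε = 1 ∨ ε = -1) ∧ ∀ c : C, ∀ s : Γ, Subgroup.zpowers s = S → (χh : Γ → ℂ) ((c : Γ) * s) = (ε : ℂ) * (β : C → ℂ) c) := by
  have hn : S ≤ normalizer (G : Set Γ) := le_norm hnorm
  obtain ⟨t, rfl⟩ := (Subgroup.isCyclic_iff_exists_zpowers_eq_top S).mp hcyc
  have c : Cyc G C t := ⟨hn (mem_zpowers t), Nat.card_zpowers t ▸ hcop, fun x => by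
    rw [hC]
    exact and_congr_right fun _ => ⟨fun h => (h t (mem_zpowers t)).symm,
      fun h y hy => (comm_zpowers h y hy).symm⟩⟩
  have hN := htop ▸ c.hn
  have hc := htop ▸ c.hc
  haveI : G.Normal := normalizer_eq_top_iff.mp (top_le_iff.mp hN)
  have hi : G.relIndex ⊤ = Nat.card (zpowers t) := by
    rw [← htop, relIndex_sup_left, ← inf_relIndex_right, (disjoint_of_coprime_natCard hcop).eq_bot,
      relIndex_bot_left]
  have can : ∀ (χ : IrrCharacter G) (χh : IrrCharacter Γ), (∀ g : G, (χh : Γ → ℂ) g = (χ : G → ℂ) g) →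
      (detOrder (χh : Γ → ℂ)).Coprime (Nat.card (zpowers t)) → Canon G ⊤ χh := fun χ χh h1 h2 =>
    ⟨(irr_top.mpr χh.2).chr, by rw [Irr, funext h1]; exact χ.2, by
      rw [hi, dord_top (chr_top.mp (irr_top.mpr χh.2).chr)]; exact h2.symm⟩
  have pw : ∀ (ψ β : Γ → ℂ) (ε : ℤ), Canon G ⊤ ψ → Eqv C (sh t ψ) ((ε : ℂ) • β) → ∀ x : C, ∀ s,
      zpowers s = zpowers t → ψ (x * s) = ε * β x := fun ψ β ε h1 h2 x s hs => by
    obtain ⟨k, rfl⟩ := mem_powers_iff_mem_zpowers.mpr (hs ▸ mem_zpowers s)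
    exact (h1.apply_pow hN le_top hc (hCG x.2) trivial ((c.mem x).mp x.2).2 c.cop
      (mem_zpowers_pow_iff.mp (hs.symm.le (mem_zpowers t)))).trans (h2 x x.2)
  have ne : ∀ (ψ : Γ → ℂ) (β : IrrCharacter C) (ε : ℤ), (∀ x : C, ∀ s, zpowers s = zpowers t →
      ψ (x * s) = ε * (β : C → ℂ) x) → Eqv C (sh t ψ) ((ε : ℂ) • ez C β) := fun ψ β ε h x hx => by
    rw [Pi.smul_apply, ez_mem _ hx]; exact h ⟨x, hx⟩ t rfl
  have ne0 : ∀ ε : ℤ, (ε = 1 ∨ ε = -1) → (ε : ℂ) ≠ 0 := by rintro _ (rfl | rfl) <;> simp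
  simp only [← inv_ez_iff hn, inn_res_ez hCG]
  refine ⟨fun χ χh _ h1 h2 => ⟨?_, fun β ε h3 h4 => ?_⟩,
    fun χ χ' χh χh' _ _ h1 h1' h2 h2' β ε ε' h3 h3' h4 h4' => ?_, fun β => ?_⟩
  · obtain ⟨β, ε, a1, a2, a3⟩ := c.exists_corr hN le_top hc trivial (can χ χh h1 h2)
    refine ⟨(⟨_, a1⟩, ε), ⟨a2, pw _ β ε (can χ χh h1 h2) a3⟩, ?_⟩
    rintro ⟨β', ε'⟩ ⟨b1, b2⟩
    have b3 := (ne _ β' ε' b2).symm.trans a3
    have b4 : Eqv C β (ez C β') := (irr_ez.mpr β'.2).eqv_of_smul a1 b3.symm (by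
      rw [inn_smul_left, a1.inn_self, mul_one]; exact ne0 ε a2)
    have b5 := b3.one
    rw [Pi.smul_apply, Pi.smul_apply, ← b4.one, smul_eq_mul, smul_eq_mul] at b5
    exact Prod.ext (irr_ez_eq (b4.symm.trans (ez_mk a1).symm))
      (Int.cast_injective (mul_right_cancel₀ a1.one_ne b5))
  · have := c.under le_top trivial (irr_top.mpr χh.2).chr (irr_ez.mpr β.2).chr (by
      rw [(irr_ez.mpr β.2).inn_of_smul (ne _ β ε h4)]; exact ne0 ε h3)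
    rwa [Eqv.inn_left (φ := χh) fun x hx => by rw [ez_mem _ (hCG hx), ← h1]]
  · have := c.inj hN le_top trivial (can χ χh h1 h2).chr (can χ' χh' h1' h2').chr (can χ χh h1 h2).res
      (can χ' χh' h1' h2').res (by
        rw [inn_congr (ne _ β ε h4) (ne _ β ε' h4'), inn_smul_left, inn_smul_right,
          (irr_ez.mpr β.2).inn_self, mul_one, map_intCast]
        exact mul_ne_zero (ne0 ε h3) (ne0 ε' h3'))
    exact Subtype.ext (funext fun g => (h1 g).symm.trans ((this g g.2).trans (h1' g)))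
  · obtain ⟨ψ, a1, a2⟩ := c.surj (irr_ez.mpr β.2)
    rw [htop] at a1
    obtain ⟨β', ε, b1, b2, b3⟩ := c.exists_corr hN le_top hc trivial a1
    have b4 := b1.eqv_of_smul (irr_ez.mpr β.2) b3 a2
    refine ⟨⟨_, a1.res⟩, ⟨ψ, irr_top.mp (a1.irr le_top)⟩, ε, ((a1.chr.inv.mono le_top le_top).congr hn
      (ez_mk a1.res).symm), fun g => rfl, ?_, b2, fun x s hs => ?_⟩
    · rw [← hi, ← dord_top (chr_top.mp a1.chr)]; exact a1.cop.symm
    · rw [← ez_coe (β : C → ℂ) x, b4 x x.2]; exact pw ψ β' ε a1 b3 x s hs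

end Cfsg.Agent.S4446
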