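import Mathlib
import Cfsg.Statements.S4448
import Cfsg.Agent.Isaacs.GlS
-- import your own Cfsg.Agent.* helpers here

set_option autoImplicit false
open Cfsg

namespace Cfsg.Agent.S4448

open Cfsg.Agent.Char Cfsg.Agent.Isaacs Subgroup

/-- Inside a finite group Γ let S normalise G and also normalise a normal subgroup N of G, with the order of S coprime to the index of N in G and G/N solvable. Then for every S-invariant irreducible character ϑ of N, the induced character ϑ^G has an S-invariant irreducible constituent. -/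
theorem result {Γ : Type*} [Group Γ] [Fintype Γ] (G S N : Subgroup Γ) [Fintype G] [Fintype N] (hnorm : ∀ s ∈ S, ∀ g ∈ G, s * g * s⁻¹ ∈ G) (hNG : N ≤ G) [hNn : (N.subgroupOf G).Normal] (hNS : ∀ s ∈ S, ∀ n ∈ N, s * n * s⁻¹ ∈ N) (hcop : (N.relIndex G).Coprime (Nat.card S)) (hsolv : Group.IsSolvable (G ⧸ N.subgroupOf G)) (θ : Cfsg.IrrCharacter N) (hinv : (∀ s ∈ S, ∀ g g' : N, (g' : Γ) = s * g * s⁻¹ → (θ : N → ℂ) g' = (θ : N → ℂ) g)) : ∃ χ : Cfsg.IrrCharacter G, Cfsg.classInner (fun n : N => (χ : G → ℂ) ⟨n, hNG n.2⟩) (θ : N → ℂ) ≠ 0 ∧ (∀ s ∈ S, ∀ g g' : G, (g' : Γ) = s * g * s⁻¹ → (χ : G → ℂ) g' = (χ : G → ℂ) g) := by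
  have hn : S ≤ normalizer (G : Set Γ) := le_norm hnorm
  have hn' : S ≤ normalizer (N : Set Γ) := le_norm hNS
  have hK : G ≤ normalizer (N : Set Γ) := (normal_subgroupOf_iff_le_normalizer hNG).mp hNn
  simp only [← inv_ez_iff hn, ← inv_ez_iff hn', inn_res_ez hNG] at hinv ⊢
  obtain ⟨χ, a1, a2, a3⟩ := (irr_ez.mpr θ.2).exists_inv_over_solv G hn hn' hK hNG (solvMod_of_quot' hsolv)
    (hcop.symm.coprime_dvd_left (relIndex_dvd_card _ _)) hinv
  exact ⟨⟨_, a1⟩, by rwa [((ez_mk a1).mono hNG).inn_left], a3.congr hn (ez_mk a1).symm⟩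

end Cfsg.Agent.S4448
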