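import Mathlib
import Cfsg.Statements.S4451
import Cfsg.Agent.Isaacs.PmOne
-- import your own Cfsg.Agent.* helpers here

set_option autoImplicit false
open Cfsg

namespace Cfsg.Agent.S4451

open Cfsg.Agent.Char Cfsg.Agent.Isaacs Subgroup

/-- Let the finite group Γ be generated by a normal subgroup G and a cyclic subgroup S of coprime orders such that every non-identity element of S has the same centraliser C = G ⊓ C(S) in G. Let χ be an S-invariant irreducible character of G, χ̂ its canonical extension to Γ (determinantal order coprime to the order of S), and β the irreducible character of C with χ̂(c s) = ε₀ β(c) for c ∈ C and generators s of S (ε₀ = ±1). Then there are a sign ε = ±1, which may differ from ε₀, and a linear character μ of S with μ² = 1, such that: (a) χ̂(c x) = ε β(c) μ(x) for all c ∈ C and all x ∈ S other than 1; (b) the restriction of χ to C equals |S|·ϑ + ε β for some character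 ϑ of C or ϑ = 0; (c) |S| divides χ(1) − ε β(1). -/
theorem result {Γ : Type*} [Group Γ] [Fintype Γ] (G S : Subgroup Γ) [Fintype G] (hnorm : ∀ s ∈ S, ∀ g ∈ G, s * g * s⁻¹ ∈ G) (hcop : (Nat.card G).Coprime (Nat.card S)) (htop : G ⊔ S = ⊤) (hcyc : IsCyclic S) (C : Subgroup Γ) [Fintype C] (hC : C = G ⊓ Subgroup.centralizer (S : Set Γ)) (hCG : C ≤ G) (hfpf : ∀ x ∈ S, x ≠ 1 → G ⊓ Subgroup.centralizer ({x} : Set Γ) = C) (χ : Cfsg.IrrCharacter G) (hinv : (∀ s ∈ S, ∀ g g' : G, (g' : Γ) = s * g * s⁻¹ → (χ : G → ℂ) g' = (χ : G → ℂ) g)) (χh : Cfsg.IrrCharacter Γ) (hext : (∀ g : G, (χh : Γ → ℂ) g = (χ : G → ℂ) g)) (hdet : (Cfsg.detOrder (χh : Γ → ℂ)).Coprime (Nat.card S)) (β : Cfsg.IrrCharacter C) (ε₀ : ℤ) (hε₀ : ε₀ = 1 ∨ ε₀ = -1) (hβ : ∀ c : C, ∀ s : Γ, Subgroup.zpowers s = S → (χh : Γ → ℂ) ((c : Γ) * s) = (ε₀ : ℂ) * (β : C → ℂ) c) : ∃ ε : ℤ, (ε = 1 ∨ ε = -1) ∧ (∃ μ : S → ℂ, Cfsg.IsCharacter S μ ∧ μ 1 = 1 ∧ (∀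 x : S, μ x * μ x = 1) ∧ ∀ c : C, ∀ x : S, x ≠ 1 → (χh : Γ → ℂ) ((c : Γ) * x) = (ε : ℂ) * (β : C → ℂ) c * μ x) ∧ (∃ ϑ : C → ℂ, Cfsg.IsCharacter C ϑ ∧ (fun c : C => (χ : G → ℂ) ⟨c, hCG c.2⟩) = fun c => (Nat.card S : ℂ) * ϑ c + (ε : ℂ) * (β : C → ℂ) c) ∧ (Nat.card S : ℤ) ∣ (Cfsg.charDegree (χ : G → ℂ) : ℤ) - ε * (Cfsg.charDegree (β : C → ℂ) : ℤ) := by
  have hn : S ≤ normalizer (G : Set Γ) := le_norm hnorm
  obtain ⟨t, rfl⟩ := (Subgroup.isCyclic_iff_exists_zpowers_eq_top S).mp hcyc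
  have hN : ⊤ ≤ normalizer (G : Set Γ) := htop ▸ sup_le le_normalizer hn
  have hi : G.relIndex ⊤ = Nat.card (zpowers t) := htop ▸ relIndex_sup_cop hn hcop
  have can : Canon G ⊤ χh := ⟨(irr_top.mpr χh.2).chr, by rw [Irr, funext hext]; exact χ.2, by
      rw [hi, dord_top (chr_top.mp (irr_top.mpr χh.2).chr)]; exact hdet.symm⟩
  have b1 := irr_ez.mpr β.2
  have main : ∃ ε : ℤ, (ε = 1 ∨ ε = -1) ∧ (∃ μ : zpowers t → ℂ, IsCharacter _ μ ∧ μ 1 = 1 ∧
      (∀ x, μ x * μ x = 1) ∧ ∀ c : C, ∀ x : zpowers t, x ≠ 1 →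
      (χh : Γ → ℂ) ((c : Γ) * x) = (ε : ℂ) * (β : C → ℂ) c * μ x) ∧ ∃ ϑ, Chr C ϑ ∧
      Eqv C χh ((Nat.card (zpowers t) : ℂ) • ϑ + (ε : ℂ) • ez C β) := by
    by_cases ht : t = 1
    · subst ht
      refine ⟨ε₀, hε₀, ⟨fun _ => 1, chr_one, rfl, by simp, fun c x hx => absurd (Subtype.ext (by
        simpa using x.2)) hx⟩, 0, chr_zero, fun x hx => ?_⟩
      simpa [ez_mem _ hx] using hβ ⟨x, hx⟩ 1 rfl
    have hc : ∀ a ∈ zpowers t, ∀ b ∈ zpowers t, a * b = b * a := fun a ha b hb =>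
      (comm_zpowers (comm_zpowers (Commute.refl t) a ha).symm b hb).eq
    have sl : ∀ {γ}, Chr C γ → Chr (zpowers t) fun s => inn C (sh s χh) γ := fun h =>
      can.chr.slice le_top le_top (fun c hc s hs => ((hC.le hc).2 s hs).symm) h
    have ex : ∀ x ∈ zpowers t, x ≠ 1 → ∃ (γ : Γ → ℂ) (ε : ℤ), Irr C γ ∧ (ε = 1 ∨ ε = -1) ∧
        Eqv C (sh x χh) ((ε : ℂ) • γ) := fun x hx x1 =>
      Cyc.exists_corr ⟨hn hx, hcop.coprime_dvd_right (orderOf_dvd_natCard _ hx), fun y => by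
        rw [← hfpf x hx x1, mem_inf, mem_centralizer_singleton_iff]; rfl⟩ hN le_top (hi ▸ hcop) trivial can
    have val : ∀ {γ}, Irr C γ → ∀ x ∈ zpowers t, x ≠ 1 → inn C (sh x χh) γ = 0 ∨ inn C (sh x χh) γ = 1 ∨
        inn C (sh x χh) γ = -1 := fun {γ} h x hx x1 => by
      obtain ⟨δ, ε, a1, a2, a3⟩ := ex x hx x1
      rw [a3.inn_left, inn_smul_left]
      by_cases e : Eqv C δ γ
      · rw [a1.inn_of_eqv e]; rcases a2 with rfl | rfl <;> simp
      · rw [a1.inn_eq_zero h e]; simp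
    have h1 : Eqv C (sh t χh) ((ε₀ : ℂ) • ez C β) := fun x hx => by
      rw [Pi.smul_apply, ez_mem _ hx]; exact hβ ⟨x, hx⟩ t rfl
    have h2 : ∀ x ∈ zpowers t, x ≠ 1 → inn C (sh x χh) (ez C β) ≠ 0 := fun x hx x1 e => by
      have := (sl b1.chr).gen.zero_iff hc (val b1) hx (mem_zpowers t) x1 ht e
      rw [b1.inn_of_smul h1] at this
      rcases hε₀ with rfl | rfl <;> simp at this
    obtain ⟨k, ε, l, a1, a2, a3, a4⟩ := (sl b1.chr).gen.pm_one (A := ⊥)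
      (bot_lt_iff_ne_bot.mpr (zpowers_ne_bot.mpr ht)) hc chr_one rfl
      (fun x hx => by rw [show x = 1 from hx]; simp) fun x hx x1 => by
        rcases (val b1 x hx x1).resolve_left (h2 x hx x1) with e | e <;> simp [e]
    rw [relIndex_bot_left, sh_one] at a3
    have n0 : (Nat.card (zpowers t) : ℂ) ≠ 0 := Nat.cast_ne_zero.mpr Nat.card_pos.ne'
    refine ⟨ε, a2, ⟨fun x => l x, a1.chr, a1.one_of_comm hc, fun x => ?_, fun c x x1 => ?_⟩,
      (Nat.card (zpowers t) : ℂ)⁻¹ • ((χh : Γ → ℂ) - (ε : ℂ) • ez C β),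
      (((can.chr.inv.mono le_top le_top).sub (b1.inv.smul _)).smul _).chr_of fun γ hγ => ?_, fun x _ => by
        rw [smul_inv_smul₀ n0, sub_add_cancel]⟩
    · change l x * l x = 1
      by_cases x1 : (x : Γ) = 1
      · rw [x1, a1.one_of_comm hc, one_mul]
      have := a4 x x.2 x1
      rcases (val b1 x x.2 x1).resolve_left (h2 x x.2 x1) with e | e <;> rcases a2 with rfl | rfl <;>
        simp only [e, Int.cast_one, Int.cast_neg] at this <;> grind
    · have x2 : (x : Γ) ≠ 1 := fun e => x1 (Subtype.ext e)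
      obtain ⟨δ, ε', c1, -, c3⟩ := ex x x.2 x2
      have c4 := c1.eqv_of_smul b1 c3 (h2 x x.2 x2)
      have c5 : (ε' : ℂ) = ε * l x := by rw [← a4 x x.2 x2, c4.inn_right, c1.inn_of_smul c3]
      rw [show (χh : Γ → ℂ) (c * x) = _ from c3 c c.2, Pi.smul_apply, c5, ← c4 c c.2, ez_coe, smul_eq_mul]
      ring
    · rw [inn_smul_left, inn_sub_left, inn_smul_left]
      by_cases e : Eqv C (ez C β) γ
      · obtain ⟨m, hm⟩ := (can.chr.res le_top).inn_nat b1.chr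
        have h3 : (m : ℤ) = k * Nat.card (zpowers t) + ε := by exact_mod_cast hm.symm.trans a3
        have h4 := one_lt_relIndex (bot_lt_iff_ne_bot.mpr (zpowers_ne_bot.mpr ht))
        rw [relIndex_bot_left] at h4
        obtain ⟨k, rfl⟩ := Int.eq_ofNat_of_zero_le (a := k) (by
          rcases a2 with rfl | rfl <;> nlinarith [Int.natCast_nonneg m])
        exact ⟨k, by rw [b1.inn_of_eqv e, ← e.inn_right, a3]; field_simp; simp⟩
      · obtain ⟨m, hm⟩ := (sl hγ.chr).inn_nat chr_one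
        have := inn_one_of_vanish (ψ := fun s => inn C (sh s χh) γ) fun x hx x1 =>
          (sl hγ.chr).gen.zero_iff hc (val hγ) (mem_zpowers t) hx ht x1 (by
            rw [h1.inn_left, inn_smul_left, b1.inn_eq_zero hγ e, mul_zero])
        rw [hm, sh_one] at this
        exact ⟨m, by rw [b1.inn_eq_zero hγ e, ← this]; field_simp; simp⟩
  obtain ⟨ε, a1, a2, ϑ, a3, a4⟩ := main
  refine ⟨ε, a1, a2, ⟨_, a3, funext fun c => ?_⟩, ?_⟩
  · rw [← hext, a4 c c.2]; simp [ez_coe]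
  · obtain ⟨d, hd⟩ := a3.deg
    have := a4.one
    rw [Pi.add_apply, Pi.smul_apply, Pi.smul_apply, hd, ez_deg, show (χh : Γ → ℂ) 1 = _ from hext 1,
      ← Block.irr_degree_cast, smul_eq_mul, smul_eq_mul, ← sub_eq_iff_eq_add] at this
    exact ⟨d, by exact_mod_cast this⟩

end Cfsg.Agent.S4451
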