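import Mathlib
import Cfsg.Statements.S4452
import Cfsg.Agent.Isaacs.Cop
-- import your own Cfsg.Agent.* helpers here

set_option autoImplicit false
open Cfsg

namespace Cfsg.Agent.S4452

open Cfsg.Agent.Char Cfsg.Agent.Isaacs Subgroup

/-- Let the finite group G be the product of a normal subgroup K and a solvable subgroup H of coprime orders, and let N = N_G(H). Then the number of irreducible characters of G of degree coprime to the order of H equals the number of irreducible characters of N of degree coprime to the order of H. (The two sets are in fact in a canonical bijection; only the equality of their sizes is stated here.) -/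
theorem result {G : Type*} [Group G] [Finite G] (K H : Subgroup G) [K.Normal] (hKH : K ⊔ H = ⊤) (hcop : (Nat.card K).Coprime (Nat.card H)) (hsolv : Group.IsSolvable H) : Nat.card {χ : Cfsg.IrrCharacter G // (Cfsg.charDegree (χ : G → ℂ)).Coprime (Nat.card H)} = Nat.card {η : Cfsg.IrrCharacter (Subgroup.normalizer (H : Set G)) // (Cfsg.charDegree (η : Subgroup.normalizer (H : Set G) → ℂ)).Coprime (Nat.card H)} := by
  have h1 := card_cop_deg norm_top hcop hKH
  have h2 := card_cop_deg (K := K ⊓ centralizer (H : Set G)) (H := H) (M := normalizer (H : Set G))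
    (Core.le_normalizer_inf norm_top (Core.le_normalizer_centralizer le_normalizer))
    (Core.coprime_of_le_left hcop inf_le_left) (by
      rw [normalizer_eq_of_cop norm_top hKH (Core.disjoint_of_coprime hcop), inf_top_eq])
  rw [h2, Nat.card_congr (Equiv.subtypeUnivEquiv fun _ => inv_of_centralizer (le_centralizer_iff.mp inf_le_right)),
    ← card_inv_irr hsolv K norm_top hcop.symm, ← h1]
  refine card_eq_of_rel (fun χ ψ => ∀ x : (⊤ : Subgroup G), (χ.1 : G → ℂ) x = (ψ.1 : _ → ℂ) x)
    (fun χ => ⟨⟨⟨_, irr_top.mpr χ.1.2⟩, χ.2⟩, fun _ => rfl⟩) (fun ψ => ⟨⟨⟨_, irr_top.mp (irr_ez.mpr ψ.1.2)⟩, ?_⟩,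
      fun x => ez_coe _ x⟩) (fun χ ψ ψ' a b => Subtype.ext (Subtype.ext (funext fun x => (a x).symm.trans (b x))))
    fun χ χ' ψ a b => Subtype.ext (Subtype.ext (funext fun x => (a ⟨x, trivial⟩).trans (b ⟨x, trivial⟩).symm))
  have := ψ.2
  simpa only [charDegree, ez_one] using this

end Cfsg.Agent.S4452
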