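import Mathlib
import Cfsg.Statements.S4453
import Cfsg.Agent.Isaacs.OddCorr3
-- import your own Cfsg.Agent.* helpers here

set_option autoImplicit false
open Cfsg

namespace Cfsg.Agent.S4453

open Cfsg.Agent.Char Cfsg.Agent.Isaacs Subgroup

/-- Inside a finite group Γ let S normalise the solvable subgroup G of odd order with the orders of G and S coprime, let C = G ⊓ C(S), and let L ≤ K be S-invariant normal subgroups of G with K/L abelian, G = KC and H = LC (so C ≤ H ≤ G). Then for each S-invariant irreducible character χ of G there is exactly one S-invariant irreducible character ψ of H whose multiplicity in the restriction of χ to H is odd, and χ ↦ ψ is a bijection from the S-invariant irreducible characters of G onto those of H (distinct χ give distinct ψ, and every S-invariant ψ arises). -/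
theorem result {Γ : Type*} [Group Γ] [Fintype Γ] (G S : Subgroup Γ) [Fintype G] (hnorm : ∀ s ∈ S, ∀ g ∈ G, s * g * s⁻¹ ∈ G) (hcop : (Nat.card G).Coprime (Nat.card S)) (hGsolv : Group.IsSolvable G) (hodd : Odd (Nat.card G)) (C : Subgroup Γ) [Fintype C] (hC : C = G ⊓ Subgroup.centralizer (S : Set Γ)) (hCG : C ≤ G) (K L H : Subgroup Γ) [Fintype H] (hLK : L ≤ K) (hKG : K ≤ G) (hKn : ∀ g ∈ G, ∀ k ∈ K, g * k * g⁻¹ ∈ K) (hLn : ∀ g ∈ G, ∀ l ∈ L, g * l * g⁻¹ ∈ L) (hKS : ∀ s ∈ S, ∀ k ∈ K, s * k * s⁻¹ ∈ K) (hLS : ∀ s ∈ S, ∀ l ∈ L, s * l * s⁻¹ ∈ L) (hab : ∀ a ∈ K, ∀ b ∈ K, a * b * a⁻¹ * b⁻¹ ∈ L) (hGKC : K ⊔ C = G) (hH : H = L ⊔ C) (hHG : H ≤ G) : (∀ χ : Cfsg.IrrCharacter G, (∀ s ∈ S, ∀ g g' : G, (g' : Γ) = s * g * s⁻¹ → (χ : G → ℂ) g' = (χ : G → ℂ) g) → ∃! ψ : Cfsg.IrrCharacter H, (∀ s ∈ S, ∀ g g' : H, (g' : Γ) = s * g *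 s⁻¹ → (ψ : H → ℂ) g' = (ψ : H → ℂ) g) ∧ ∃ m : ℕ, Cfsg.classInner (fun h : H => (χ : G → ℂ) ⟨h, hHG h.2⟩) (ψ : H → ℂ) = (m : ℂ) ∧ Odd m) ∧ (∀ χ χ' : Cfsg.IrrCharacter G, (∀ s ∈ S, ∀ g g' : G, (g' : Γ) = s * g * s⁻¹ → (χ : G → ℂ) g' = (χ : G → ℂ) g) → (∀ s ∈ S, ∀ g g' : G, (g' : Γ) = s * g * s⁻¹ → (χ' : G → ℂ) g' = (χ' : G → ℂ) g) → ∀ ψ : Cfsg.IrrCharacter H, (∀ s ∈ S, ∀ g g' : H, (g' : Γ) = s * g * s⁻¹ → (ψ : H → ℂ) g' = (ψ : H → ℂ) g) → ∀ m m' : ℕ, Cfsg.classInner (fun h : H => (χ : G → ℂ) ⟨h, hHG h.2⟩) (ψ : H → ℂ) = (m : ℂ) → Odd m → Cfsg.classInner (fun h : H => (χ' : G → ℂ) ⟨h, hHG h.2⟩) (ψ : H → ℂ) = (m' : ℂ) → Odd m' → χ = χ') ∧ (∀ ψ : Cfsg.IrrCharacter H, (∀ s ∈ S, ∀ g g' : H, (g' : Γ) = s * g * s⁻¹ → (ψ : H → ℂ) g' = (ψ : H → ℂ) g) → ∃ χ : Cfsg.IrrCharacter G, (∀ s ∈ S, ∀ g g' : G, (g' : Γ) = s * g * s⁻¹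 → (χ : G → ℂ) g' = (χ : G → ℂ) g) ∧ ∃ m : ℕ, Cfsg.classInner (fun h : H => (χ : G → ℂ) ⟨h, hHG h.2⟩) (ψ : H → ℂ) = (m : ℂ) ∧ Odd m) := by
  subst hC
  have hn : S ≤ normalizer (G : Set Γ) := le_norm hnorm
  have hn' : S ≤ normalizer (H : Set Γ) := hH ▸ Core.le_normalizer_sup (le_norm hLS)
    ((le_centralizer_iff.mp inf_le_right).trans (centralizer_le_normalizer _))
  have d := gd_odd hn hcop.symm hodd hLK (le_norm hKn) (le_norm hLn) (le_norm hKS) (le_norm hLS)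
    (commutator_le.mpr hab) hGKC hH
  simp only [← inv_ez_iff hn, ← inv_ez_iff hn', inn_res_ez hHG]
  have od : ∀ {m : ℕ}, Odd m ↔ ¬ ((2 : ℕ) : ℤ) ∣ (m : ℤ) := by
    intro m; rw [Int.natCast_dvd_natCast, Nat.two_dvd_ne_zero, Nat.odd_iff]
  have ex : ∀ (χ β : Γ → ℂ) (a : ℤ), Irr G χ → Irr H β → inn H χ β = a → ¬ ((2 : ℕ) : ℤ) ∣ a →
      ∃ m : ℕ, inn H χ β = m ∧ Odd m := by
    intro χ β a h1 h2 h3 h4
    obtain ⟨m, hm⟩ := (h1.chr.res hHG).inn_nat h2.chr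
    exact ⟨m, hm, od.mpr (by rwa [show (m : ℤ) = a by exact_mod_cast hm.symm.trans h3])⟩
  refine ⟨fun χ h => ?_, fun χ χ' h h' β hβ m m' h1 h2 h3 h4 => ?_, fun β hβ => ?_⟩
  · obtain ⟨η, ⟨a1, a2⟩, ⟨ε, n, a3, a4⟩, a5⟩ := d.ex _ ⟨irr_ez.mpr χ.2, h⟩
    refine ⟨⟨_, a1⟩, ⟨a2.congr hn' (ez_mk a1).symm, ex _ _ _ (irr_ez.mpr χ.2) (a1.congr (ez_mk a1).symm)
      ((ez_mk a1).inn_right.trans a4) (not_dvd_pm Nat.prime_two a3)⟩, ?_⟩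
    rintro β ⟨b, m, h1, h2⟩
    refine irr_ez_eq (Eqv.symm ((ez_mk a1).trans (by_contra fun e => ?_)))
    obtain ⟨k, hk⟩ := a5 _ ⟨irr_ez.mpr β.2, b⟩ e
    exact od.mp h2 ⟨k, by exact_mod_cast h1.symm.trans hk⟩
  · exact irr_ez_eq (d.inj _ _ _ m m' ⟨irr_ez.mpr χ.2, h⟩ ⟨irr_ez.mpr χ'.2, h'⟩ ⟨irr_ez.mpr β.2, hβ⟩
      (by exact_mod_cast h1) (by exact_mod_cast h3) (od.mp h2) (od.mp h4))
  · obtain ⟨χ, ⟨a1, a2⟩, a, a3, a4⟩ := d.surj _ ⟨irr_ez.mpr β.2, hβ⟩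
    exact ⟨⟨_, a1⟩, a2.congr hn (ez_mk a1).symm, ex _ _ a (a1.congr (ez_mk a1).symm) (irr_ez.mpr β.2)
      (((ez_mk a1).mono hHG).inn_left.trans a3) a4⟩

end Cfsg.Agent.S4453
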