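import Mathlib
import Cfsg.Statements.S4454
import Cfsg.Agent.Isaacs.PmOne
-- import your own Cfsg.Agent.* helpers here

set_option autoImplicit false
open Cfsg

namespace Cfsg.Agent.S4454

open Cfsg.Agent.Char Cfsg.Agent.Isaacs Subgroup

/-- Let N ≤ G be normal subgroups of the finite group Γ with Γ/G cyclic and Γ/N a Frobenius group with kernel G/N: G ≠ Γ, N ≠ G, and no element of Γ outside G fixes a non-identity coset of N in G under conjugation. Let ϑ be an irreducible character of N invariant under conjugation by Γ and suppose ϑ is fully ramified in G: the character of G induced from ϑ equals e·χ for an irreducible character χ of G and a natural number e. Then the index of G in Γ divides e − 1 or e + 1. -/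
theorem result {Γ : Type*} [Group Γ] [Fintype Γ] (G N : Subgroup Γ) [hG : G.Normal] [hN : N.Normal] [Fintype G] [Fintype N] (hNG : N ≤ G) (hGlt : G ≠ ⊤) (hNlt : N ≠ G) (hcyc : IsCyclic (Γ ⧸ G)) (hfrob : ∀ x : Γ, x ∉ G → ∀ g : Γ, g ∈ G → x * g * x⁻¹ * g⁻¹ ∈ N → g ∈ N) (θ : Cfsg.IrrCharacter N) (hinv : ∀ (x : Γ) (n : N), (θ : N → ℂ) ⟨x * n * x⁻¹, hN.conj_mem n n.2 x⟩ = (θ : N → ℂ) n) (χ : Cfsg.IrrCharacter G) (e : ℕ) (hram : Cfsg.indFun (N.subgroupOf G) (fun n : N.subgroupOf G => (θ : N → ℂ) ⟨(n : G), n.2⟩) = fun g => (e : ℂ) * (χ : G → ℂ) g) : (G.index : ℤ) ∣ (e : ℤ) - 1 ∨ (G.index : ℤ) ∣ (e : ℤ) + 1 := by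
  have h1 := irr_ez.mpr θ.2
  have h2 := irr_ez.mpr χ.2
  have hi : Inv ⊤ N (ez N θ) := fun a _ x hx => by
    rw [ez_mem _ hx, ez_mem _ (hN.conj_mem x hx a)]; exact hinv a ⟨x, hx⟩
  have h3 : Eqv G (ind N G (ez N θ)) ((e : ℂ) • ez G χ) := fun x hx => by
    rw [ind_mem hx, Pi.smul_apply, ez_mem _ hx, smul_eq_mul, ← congrFun hram ⟨x, hx⟩]
    exact congrFun (congrArg _ (funext fun n => ez_mem _ n.2)) _
  have e0 : (e : ℂ) ≠ 0 := fun h => mul_ne_zero (relIndex_ne hNG) h1.one_ne (by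
    rw [← ind_one, h3.one, h, zero_smul]; rfl)
  obtain ⟨s, hs⟩ := exists_sup_zpowers hcyc
  obtain ⟨ψ, a1, a2⟩ := h2.exists_ext_cyc norm_top le_top ((hi.indc norm_top norm_top).of_smul norm_top e0 h3)
    hs.ge trivial
  have a3 : inn N ψ (ez N θ) = e := by
    rw [(a2.mono hNG).inn_left, ← inn_ind_right hNG h2.inv, h3.inn_right, inn_smul_right, h2.inn_self]; simp
  obtain ⟨Γ', Q, _, _, _, _, ⟨t⟩⟩ := h1.exists_tri norm_top le_top hi
  obtain ⟨α, b1, b2⟩ := t.down le_top le_rfl a1 h1 (a3 ▸ e0)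
  have b3 := b2.inn_mu le_top
  have b4 := b1.res_smul t.norm_Z t.le_bar' t.irr_mu t.inv_mu (b3 ▸ a3 ▸ e0)
  have b5 := (b1.chr.res (t.bar_mono (le_top (a := G)))).irr (by
    rw [← (b2.mono le_top).inn_eq (b2.mono le_top) hNG le_top, (h2.congr a2.symm).inn_self])
  rw [t.bar_top] at b1
  rw [← b3, a3] at b4
  obtain ⟨s, rfl⟩ := t.exists_pre (mem_top s)
  have := Core.normal_of_le_normalizer (t.bar_top ▸ t.bar_norm (norm_top (A := ⊤) (N := G)))
  rw [← relIndex_top_right, ← t.index_bar hNG]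
  refine ram_frob_central (s := t.ρ s) t.central t.le_bar' (fun h => hGlt ?_) ?_ (fun x hx g hg h => ?_)
    t.lin t.one b1.chr b5 b4
  · rw [← hs, eq_comm, sup_eq_left, zpowers_le, ← t.mem_bar hNG]; exact h
  · refine eq_top_iff.mpr fun q _ => ?_
    obtain ⟨γ, rfl⟩ := t.surj q
    obtain ⟨u, hu, _, ⟨k, rfl⟩, e⟩ := (Core.mem_sup_of_le_normalizer norm_top).mp (hs.ge (mem_top (t.π γ)))
    have : t.ρ (γ * (s ^ k)⁻¹) ∈ t.bar G := by
      rw [t.mem_bar hNG, map_mul, map_inv, map_zpow, e]; simpa using hu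
    simpa using mul_mem_sup this (zpow_mem (mem_zpowers (t.ρ s)) k)
  · obtain ⟨x, rfl⟩ := t.surj x
    obtain ⟨g, rfl⟩ := t.surj g
    rw [← t.bar_self, t.mem_bar le_rfl]
    refine hfrob _ (by rwa [← t.mem_bar hNG]) _ (by rwa [← t.mem_bar hNG]) ?_
    rw [← map_inv, ← map_inv, ← map_mul, ← map_mul, ← map_mul, ← t.mem_bar le_rfl, t.bar_self]
    simpa using h

end Cfsg.Agent.S4454
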