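import Mathlib
import Cfsg.Statements.S4457
import Cfsg.Agent.Isaacs.CD3
-- import your own Cfsg.Agent.* helpers here

set_option autoImplicit false
open Cfsg

namespace Cfsg.Agent.S4457

open Cfsg.Agent.Char Cfsg.Agent.Isaacs Subgroup

/-- Let G be a finite group whose irreducible character degrees are exactly 1 and m (m ≠ 1). Then either G has an abelian normal subgroup of index m, or m is a power of a prime p and G is the direct product of a p-group and an abelian group: there are normal subgroups P and A with P a p-group, A abelian, P ⊓ A = 1 and P ⊔ A = G. -/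
theorem result {G : Type*} [Group G] [Finite G] (m : ℕ) (hcd : ∀ χ : Cfsg.IrrCharacter G, Cfsg.charDegree (χ : G → ℂ) = 1 ∨ Cfsg.charDegree (χ : G → ℂ) = m) (hm : ∃ χ : Cfsg.IrrCharacter G, Cfsg.charDegree (χ : G → ℂ) = m) (hm1 : m ≠ 1) : (∃ A : Subgroup G, A.Normal ∧ (∀ a ∈ A, ∀ b ∈ A, a * b = b * a) ∧ A.index = m) ∨ ∃ p e : ℕ, p.Prime ∧ m = p ^ e ∧ ∃ P A : Subgroup G, P.Normal ∧ A.Normal ∧ IsPGroup p P ∧ (∀ a ∈ A, ∀ b ∈ A, a * b = b * a) ∧ P ⊓ A = ⊥ ∧ P ⊔ A = ⊤ := by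
  obtain ⟨χ, rfl⟩ := hm
  refine (two_deg (cd_iff.mpr hcd) fun e => hm1 (cd_iff.mp (cd_of_comm e) χ)).imp
    (fun ⟨A, a, b, c⟩ => ⟨A, a, fun _ d _ e => comm_of_commutator_eq_bot b d e, c⟩)
    fun ⟨p, e, a, b, P, A, c, d, f, g, h⟩ => ⟨p, e, a, b, P, A, c, d, f, fun x _ y i => mem_center_iff.mp (g i) x, h⟩

end Cfsg.Agent.S4457
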