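import Mathlib
import Cfsg.Statements.S4459
import Cfsg.Agent.Isaacs.CD5
-- import your own Cfsg.Agent.* helpers here

set_option autoImplicit false
open Cfsg

namespace Cfsg.Agent.S4459

open Cfsg.Agent.Char Cfsg.Agent.Isaacs Subgroup

/-- Let G be a non-abelian finite group and p a prime. Then the irreducible character degrees of G are exactly 1 and p if and only if either G has an abelian normal subgroup of index p or the centre of G has index p³. -/
theorem result {G : Type*} [Group G] [Finite G] (hG : ∃ a b : G, a * b ≠ b * a) (p : ℕ) (hp : p.Prime) : ((∀ χ : Cfsg.IrrCharacter G, Cfsg.charDegree (χ : G → ℂ) = 1 ∨ Cfsg.charDegree (χ : G → ℂ) = p) ∧ ∃ χ : Cfsg.IrrCharacter G, Cfsg.charDegree (χ : G → ℂ) = p) ↔ ((∃ A : Subgroup G, A.Normal ∧ (∀ a ∈ A, ∀ b ∈ A, a * b = b * a) ∧ A.index = p) ∨ (Subgroup.center G).index = p ^ 3) := by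
  have := Fact.mk hp
  obtain ⟨a, b, hab⟩ := hG
  have hn : ¬ commutator G ≤ ⊥ := fun e => hab (comm_of_commutator_eq_bot e trivial trivial)
  refine ⟨fun h => or_iff_not_imp_left.mpr fun c => prime_deg (cd_iff.mpr h.1) hn fun A d e f =>
    c ⟨A, d, fun _ i _ j => comm_of_commutator_eq_bot e i j, f⟩, fun h => ?_⟩
  suffices k : ∀ χ : IrrCharacter G, charDegree χ.1 = 1 ∨ charDegree χ.1 = p from ⟨k, by_contra fun c =>
    hn (CD.comm (cd_iff.mpr fun χ => (k χ).resolve_right fun e => c ⟨χ, e⟩) norm_top le_top)⟩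
  intro χ
  have c := irr_top.mpr χ.2
  have d := (Block.irr_degree_cast χ).symm
  rcases h with ⟨A, _, e, f⟩ | e
  · exact (Nat.dvd_prime hp).mp (by simpa [f] using c.deg_dvd_of_comm norm_top le_top e d)
  · have f := c.deg_dvd_of_comm (L := center G) norm_top le_top (fun x _ y i => mem_center_iff.mp i x) d
    have g := c.sq_le le_top (ker_comm_center _) d
    rw [relIndex_top_right, e] at f g
    obtain ⟨j, -, i⟩ := (Nat.dvd_prime_pow hp).mp f
    rw [i, ← pow_mul, Nat.pow_le_pow_iff_right hp.one_lt] at g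
    rw [i]
    obtain rfl | rfl : j = 0 ∨ j = 1 := by omega
    all_goals simp

end Cfsg.Agent.S4459
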