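import Mathlib
import Cfsg.Statements.S4460
import Cfsg.Agent.Isaacs.CD4
-- import your own Cfsg.Agent.* helpers here

set_option autoImplicit false
open Cfsg

namespace Cfsg.Agent.S4460

open Cfsg.Agent.Char Cfsg.Agent.Isaacs Subgroup

/-- A finite group with exactly three distinct irreducible character degrees is solvable of derived length at most 3: its third derived subgroup is trivial. -/
theorem result {G : Type*} [Group G] [Finite G] (hcd : Nat.card {n : ℕ // ∃ χ : Cfsg.IrrCharacter G, Cfsg.charDegree (χ : G → ℂ) = n} = 3) : derivedSeries G 3 = ⊥ := by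
  change Nat.card {n : ℕ | ∃ χ : Cfsg.IrrCharacter G, Cfsg.charDegree (χ : G → ℂ) = n} = 3 at hcd
  rw [Nat.card_coe_set_eq, Set.ncard_eq_three] at hcd
  obtain ⟨a, b, c, -, -, -, e⟩ := hcd
  have h : ∀ χ : IrrCharacter G, charDegree χ.1 = a ∨ charDegree χ.1 = b ∨ charDegree χ.1 = c :=
    fun χ => e.le ⟨χ, rfl⟩
  have h1 := h ⟨_, irr_top.mp irr_one⟩
  rw [Block.charDegree_of_eq (n := 1) (by simp)] at h1
  rcases h1 with rfl | rfl | rfl
  · exact three_deg G b c (cd_iff.mpr h)
  · exact three_deg G a c (cd_iff.mpr fun χ => by have := h χ; tauto)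
  · exact three_deg G a b (cd_iff.mpr fun χ => by have := h χ; tauto)

end Cfsg.Agent.S4460
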