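import Mathlib
import Cfsg.Statements.S4462
import Cfsg.Agent.Isaacs.CD6
-- import your own Cfsg.Agent.* helpers here

set_option autoImplicit false
open Cfsg

namespace Cfsg.Agent.S4462

open Cfsg.Agent.Char Cfsg.Agent.Isaacs Subgroup

theorem aux.{u} (n : ℕ) : ∀ (G : Type u) [Group G] [Finite G], Group.IsSolvable G → (Subsingleton G ∨
    ∃ s : Finset ℕ, s.card ≤ n ∧ CD (⊥ : Subgroup G) ⊤ (· ∈ s)) → ∃ N : ℕ → Subgroup G, N 0 = ⊥ ∧ N n = ⊤ ∧
      (∀ i, N i ≤ N (i + 1)) ∧ (∀ i, (N i).Normal) ∧ ∀ i, ∀ _ : ((N i).subgroupOf (N (i + 1))).Normal,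
        Group.IsNilpotent (N (i + 1) ⧸ (N i).subgroupOf (N (i + 1))) := by
  induction n with
  | zero =>
    intro G _ _ _ h
    have : Subsingleton G := h.resolve_right fun ⟨s, a, b⟩ => by
      simpa [Finset.card_eq_zero.mp (Nat.le_zero.mp a)] using b _ irr_one ker_bot 1 (by simp)
    exact ⟨fun _ => ⊥, rfl, Subsingleton.elim _ _, fun _ => le_rfl, fun _ => inferInstance, fun _ _ => inferInstance⟩
  | succ n ih =>
    intro G _ _ _ h
    obtain ⟨N, a, b, c, d, e⟩ := ih (G ⧸ fittingSubgroup G) inferInstance (or_iff_not_imp_left.mpr fun a => by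
      obtain ⟨s, b, c⟩ := h.resolve_left fun _ => a inferInstance
      obtain ⟨χ, -, d⟩ := Set.Finite.exists_maximalFor (fun χ : IrrCharacter G => charDegree χ.1) Set.univ
        (Set.toFinite _) ⟨⟨_, irr_top.mp irr_one⟩, trivial⟩
      refine ⟨s.erase (charDegree χ.1), by rw [Finset.card_erase_of_mem (cd_iff.mp c χ)]; omega, CD.quot
        fun ψ e f k g => Finset.mem_erase.mpr ⟨fun i => ?_, c ψ e ker_bot k g⟩⟩
      have := Core.normal_of_le_normalizer (e.chr.normalizes_kerS norm_top e.inv)
      have j := e.chr.le_kerS le_top f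
      obtain ⟨η, u, m, v, w, -⟩ := bg (K := kerS ⊤ ψ) e (fun g => e.chr.mem_kerS.trans (and_iff_right trivial)) g
        (or_iff_not_imp_left.mpr fun l => ⟨(not_not.mp l).antisymm j, inferInstance, fun m =>
          a (QuotientGroup.subsingleton_iff.mpr (top_le_iff.mp (m ▸ not_not.mp l)))⟩)
      have := d (j := ⟨η, irr_top.mp u⟩) trivial
      simp only [Block.charDegree_of_eq v] at this
      omega)
    have hs := QuotientGroup.mk'_surjective (fittingSubgroup G)
    refine ⟨fun i => Nat.casesOn i ⊥ fun i => (N i).comap (QuotientGroup.mk' _), rfl, by simp [b], fun i => ?_,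
      fun i => ?_, fun i _ => ?_⟩
    · cases i
      exacts [bot_le, comap_mono (c _)]
    · cases i
      exacts [normal_bot, (d _).comap _]
    · cases i with
      | zero =>
        have : Group.IsNilpotent ((N 0).comap (QuotientGroup.mk' (fittingSubgroup G))) := by
          rw [a, MonoidHom.comap_bot, QuotientGroup.ker_mk']; exact Core.fitting_nilpotent
        infer_instance
      | succ i =>
        have := d i
        have := e i inferInstance
        let f := (QuotientGroup.mk' ((N i).subgroupOf (N (i + 1)))).comp ((QuotientGroup.mk' _).subgroupComap (N (i + 1)))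
        exact Group.nilpotent_of_mulEquiv ((QuotientGroup.quotientMulEquivOfEq (by ext x; simp [f, mem_subgroupOf]; rfl)).trans
          (QuotientGroup.quotientKerEquivOfSurjective f ((QuotientGroup.mk'_surjective _).comp
            (surj_comap _ fun x _ => hs x)))).symm

/-- Let G be a finite solvable group with exactly n distinct irreducible character degrees. Then G has normal subgroups 1 = N₀ ≤ N₁ ≤ ⋯ ≤ Nₙ = G with every quotient N_{i+1}/N_i nilpotent (the nilpotent length of G is at most n). -/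
theorem result {G : Type*} [Group G] [Finite G] (hsolv : Group.IsSolvable G) (n : ℕ) (hcd : Nat.card {d : ℕ // ∃ χ : Cfsg.IrrCharacter G, Cfsg.charDegree (χ : G → ℂ) = d} = n) : ∃ N : Fin (n + 1) → Subgroup G, N 0 = ⊥ ∧ N (Fin.last n) = ⊤ ∧ Monotone N ∧ (∀ i, (N i).Normal) ∧ ∀ i : Fin n, ∀ h : (N i.castSucc).subgroupOf (N i.succ) |>.Normal, Group.IsNilpotent (↥(N i.succ) ⧸ (N i.castSucc).subgroupOf (N i.succ)) := by
  have hf : {d : ℕ | ∃ χ : IrrCharacter G, charDegree χ.1 = d}.Finite := Set.finite_range _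
  obtain ⟨N, a, b, c, d, e⟩ := aux n G hsolv (.inr ⟨hf.toFinset, by
    rw [← hcd, ← Set.ncard_eq_toFinset_card _ hf, ← Nat.card_coe_set_eq]; rfl, cd_iff.mpr fun χ => hf.mem_toFinset.mpr ⟨χ, rfl⟩⟩)
  exact ⟨fun i => N i, a, b, fun i j h => monotone_nat_of_le_succ c h, fun i => d i, fun i => e i⟩

end Cfsg.Agent.S4462
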