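import Mathlib
import Cfsg.Statements.S4464
import Cfsg.Agent.Isaacs.CD2
-- import your own Cfsg.Agent.* helpers here

set_option autoImplicit false
open Cfsg

namespace Cfsg.Agent.S4464

open Cfsg.Agent.Char Cfsg.Agent.Isaacs Subgroup

/-- Let p be a prime and G a finite group all of whose irreducible character degrees are less than p. Then G has a normal abelian Sylow p-subgroup. -/
theorem result {G : Type*} [Group G] [Finite G] (p : ℕ) (hp : p.Prime) (hb : ∀ χ : Cfsg.IrrCharacter G, Cfsg.charDegree (χ : G → ℂ) < p) : ∃ P : Subgroup G, P.Normal ∧ (∀ x ∈ P, ∀ y ∈ P, x * y = y * x) ∧ IsPGroup p P ∧ ¬ p ∣ P.index := by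
  have := Fact.mk hp
  obtain ⟨P⟩ := (inferInstance : Nonempty (Sylow p G))
  have h := (cd_iff (R := (· < p))).mpr hb
  exact ⟨P, normal_of_lt G h P, fun _ a _ b => comm_of_commutator_eq_bot
    (comm_of_lt P.isPGroup' (h.lt_sub le_top)) a b, P.isPGroup', P.not_dvd_index⟩

end Cfsg.Agent.S4464
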