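import Mathlib
import Cfsg.Statements.S4465
import Cfsg.Agent.Isaacs.Blich
-- import your own Cfsg.Agent.* helpers here

set_option autoImplicit false
open Cfsg

namespace Cfsg.Agent.S4465

open Cfsg.Agent.Char Cfsg.Agent.Isaacs Subgroup

/-- Let the finite group G have a faithful character χ of degree n (G is a linear group of degree n), and let π be the set of primes greater than n + 1. Then G has an abelian Hall π-subgroup: an abelian subgroup A whose order is divisible only by primes greater than n + 1 and whose index is divisible by no prime greater than n + 1. -/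
theorem result {G : Type*} [Group G] [Finite G] (χ : G → ℂ) (hχ : Cfsg.IsCharacter G χ) (hfaith : ∀ g : G, χ g = χ 1 → g = 1) (n : ℕ) (hn : Cfsg.charDegree χ = n) : ∃ A : Subgroup G, (∀ x ∈ A, ∀ y ∈ A, x * y = y * x) ∧ (∀ q : ℕ, q.Prime → q ∣ Nat.card A → n + 1 < q) ∧ ∀ q : ℕ, q.Prime → q ∣ A.index → q ≤ n + 1 := by
  have h : Faith G n := ⟨χ, n, chr_top.mpr hχ, by rw [← hn, Block.charDegree_cast hχ], le_rfl, hfaith⟩
  obtain ⟨A, a, b⟩ := blichfeldt n G h
  exact ⟨A, fun _ i _ j => comm_of_commutator_eq_bot (h.comm fun p c d => Nat.lt_of_succ_lt (a p c d)) i j, a,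
    fun q c d => not_lt.mp fun e => b q c e d⟩

end Cfsg.Agent.S4465
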