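import Mathlib
import Cfsg.Statements.S4471
import Cfsg.Agent.Isaacs.Jordan
import Cfsg.Agent.Isaacs.Cent
import Cfsg.Agent.Isaacs.Misc
import Cfsg.Agent.Block.Omega
import Cfsg.Agent.Core.SylowOf
import Cfsg.Agent.Core.Fitting
import Cfsg.Agent.PGrp.Basic
-- import your own Cfsg.Agent.* helpers here

set_option autoImplicit false
open Cfsg

namespace Cfsg.Agent.S4471

open Cfsg.Agent.Char Cfsg.Agent.Isaacs Cfsg.Agent.Core Subgroup

theorem key {G : Type*} [Group G] [Finite G] {χ : G → ℂ} (h : Irr ⊤ χ) (hf : ∀ g, χ g = χ 1 → g = 1) {n p : ℕ} (hn : χ 1 = n)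
    [hp : Fact p.Prime] (h7 : 7 ≤ p) (hn2 : n < 2 * p) (hnp : n ≠ p) {P : Subgroup G} (hP : IsPGroup p P) (hc : ¬ ⁅P, P⁆ ≤ ⊥) :
    ¬ p ^ 2 ∣ (pCore p G).index := by
  classical
  obtain ⟨θ, a, b, c⟩ : ∃ θ, Irr P θ ∧ inn P χ θ ≠ 0 ∧ θ 1 ≠ 1 := by
    by_contra! i
    exact hc fun x hx => hf x ((h.chr.res le_top).inv.ker_of (commutator_le_self _) (fun ψ u v => u.chr.ker_comm (i ψ u v)) x hx)
  obtain ⟨d, d0, hd⟩ := a.deg
  have d1 := (h.chr.res le_top).deg_le a b hn hd
  obtain ⟨k, hk⟩ := hP.exists_card_eq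
  obtain ⟨j, -, rfl⟩ := (Nat.dvd_prime_pow hp.out).mp (hk ▸ a.deg_dvd hd)
  obtain rfl : j = 1 := by
    rcases j with _ | _ | j
    · exact absurd (by simpa using hd) c
    · rfl
    · have : p ^ 2 ≤ p ^ (j + 1 + 1) := Nat.pow_le_pow_right hp.out.pos (by omega)
      nlinarith
  rw [pow_one] at hd d1
  have hη := (h.chr.res le_top).sub_constit a b
  have hη1 : (χ - θ) 1 = (n - p : ℕ) := by rw [Pi.sub_apply, hn, hd, Nat.cast_sub d1]
  have kη := hη.ker_of_deg_lt hη1 fun q u v => by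
    rw [(Nat.prime_dvd_prime_iff_eq u hp.out).mp (u.dvd_of_dvd_pow (hk ▸ v))]; omega
  obtain ⟨z, z1, z2, z3⟩ := PGrp.exists_mem_center_orderOf_eq hP (commutator P) fun e => hc (by
    rw [← Core.map_commutator_subtype, e, Subgroup.map_bot])
  have zP : zpowers z.1 ≤ ⁅P, P⁆ := zpowers_le.mpr (by rw [← Core.map_commutator_subtype]; exact ⟨z, z1, rfl⟩)
  have zP' : zpowers z.1 ≤ P := zpowers_le.mpr z.2
  have zc : ∀ g ∈ P, ∀ x ∈ zpowers z.1, g * x * g⁻¹ = x := by
    rintro g u _ ⟨i, rfl⟩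
    have : Commute g z.1 := congrArg Subtype.val (mem_center_iff.mp z2 ⟨g, u⟩)
    simp only [(this.zpow_right i).eq, mul_inv_cancel_right]
  obtain ⟨μ, u, v⟩ := a.exists_under zP'
  have μ1 : μ 1 = 1 := u.one_of_comm fun x i y j => by rw [← mul_inv_eq_iff_eq_mul, zc x (zP' i) y j]
  have e := a.res_smul (le_norm fun g i x j => by rwa [zc g i x j]) zP' u (fun g i x j => by rw [zc g i x j]) v
  have e1 := e.one
  rw [Pi.smul_apply, μ1, smul_eq_mul, mul_one, hd] at e1
  rw [← e1] at e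
  have e2 : Eqv (zpowers z.1) χ ((p : ℂ) • μ + ((n - p : ℕ) : ℂ) • fun _ => 1) := fun x i => by
    rw [Pi.add_apply, ← e x i, Pi.smul_apply, smul_eq_mul, mul_one, ← hη1, ← kη x (zP i), Pi.sub_apply, add_sub_cancel]
  obtain ⟨lam, hl⟩ := u.chr.exists_hom μ1
  have hl' : ∀ x : zpowers z.1, μ x = lam x := congrFun hl
  rw [← orderOf_coe] at z3
  have hμ : ¬ Ker (zpowers z.1) μ := fun w => hp.out.ne_one (by
    rw [← z3, hf z (by rw [e2 _ (mem_zpowers _), e2.one]; simp [w _ (mem_zpowers _)]), orderOf_one])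
  have pr : IsPrimitiveRoot (lam ⟨z, mem_zpowers _⟩ : ℂ) p := by
    rw [← z3]
    refine ⟨by rw [← Units.val_pow_eq_pow_val, ← map_pow, show (⟨z, mem_zpowers z.1⟩ : zpowers z.1) ^ orderOf z.1 = 1 from
      Subtype.ext (pow_orderOf_eq_one _), map_one, Units.val_one], fun l i => ?_⟩
    by_contra w
    refine hμ (ker_of_prime u.chr le_rfl (by rw [Nat.card_zpowers, z3]; exact hp.out) (pow_mem (mem_zpowers _) l)
      (fun e => w (orderOf_dvd_of_pow_eq_one e)) ?_)
    rw [μ1, ← i, ← Units.val_pow_eq_pow_val, ← map_pow, ← hl']; rfl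
  have := NeZero.mk hp.out.ne_zero
  obtain ⟨i, -, hi⟩ := pr.eq_pow_of_pow_eq_one (Complex.isPrimitiveRoot_exp p hp.out.ne_zero).pow_eq_one
  obtain ⟨A, _, hA, hs⟩ := exists_small (chr_top.mp h.chr) hf
  set ζ := Complex.exp (2 * Real.pi * Complex.I / p) with hζ
  have s1 : ‖ζ - 1‖ < 1 := by
    rw [hζ, show 2 * Real.pi * Complex.I / p = Complex.I * (2 * Real.pi / p : ℝ) by push_cast; ring]
    refine Real.norm_exp_I_mul_ofReal_sub_one_le.trans_lt ?_
    have : (7 : ℝ) ≤ p := by exact_mod_cast h7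
    rw [Real.norm_of_nonneg (by positivity), div_lt_one (by linarith)]
    linarith [Real.pi_lt_d2]
  have gA := hs (zpowers z.1) (p + (n - p)) (Fin.addCases (fun _ => lam) fun _ => 1) ((1 + ζ) / 2) (⟨z, mem_zpowers _⟩ ^ i)
    (fun x => by rw [e2 x x.2, Fin.sum_univ_add]; simp [hl']) fun l => by
      refine l.addCases (fun l => ?_) fun l => ?_
      · rw [Fin.addCases_left, map_pow, Units.val_pow_eq_pow_val, hi, show ζ - (1 + ζ) / 2 = (ζ - 1) / 2 by ring, norm_div]
        simp only [Complex.norm_ofNat]; linarith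
      · rw [Fin.addCases_right, MonoidHom.one_apply, Units.val_one, show 1 - (1 + ζ) / 2 = -((ζ - 1) / 2) by ring, norm_neg, norm_div]
        simp only [Complex.norm_ofNat]; linarith
  have zA : zpowers z.1 ≤ A := by
    have : ¬ p ∣ i := fun e => (Complex.isPrimitiveRoot_exp p hp.out.ne_zero).ne_one hp.out.one_lt (by
      rw [← hζ, ← hi, (pr.pow_eq_one_iff_dvd i).mpr e])
    exact zpowers_le.mpr (zpowers_le.mpr gA (mem_zpowers_pow_iff.mpr (by
      rw [z3]; exact (hp.out.coprime_iff_not_dvd.mpr this).symm)))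
  obtain ⟨l, l1, l2⟩ := h.exists_under (le_top (a := A))
  obtain ⟨F, f1, -, f3⟩ := exists_orbit (K := ⊤) norm_top (le_top (a := A)) l
  have f4 : Chr A (ez A (∑ α ∈ F, α)) := chr_ez.mpr (isChar_sum _ fun α hα => by
    obtain ⟨g, -, rfl⟩ := (f1 α).mp hα
    exact l1.chr.cjg (norm_top (A := ⊤) trivial))
  obtain ⟨m, hm⟩ := (h.chr.res (le_top (a := A))).inn_nat l1.chr
  obtain ⟨r, hr⟩ := (f4.res zA).inn_nat u.chr
  have f5 : (p : ℂ) = m * r := by
    rw [← hr, ← inn_smul_left, ← hm, ← (show Eqv (zpowers z.1) χ _ from fun x i => by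
      rw [congrFun (f3 χ l1 h l2) ⟨x, zA i⟩, Pi.smul_apply, Pi.smul_apply, ez_mem _ (zA i)]).inn_left, e2.inn_left,
      inn_add_left, inn_smul_left, inn_smul_left, u.inn_self, irr_one.inn_eq_zero u fun e => hμ (Ker.congr (fun _ _ => rfl) e)]
    simp
  have f6 := h.deg_eq norm_top le_top l1 l2
  rw [hn, hm, l1.one_of_comm fun _ a _ b => comm_of_commutator_eq_bot hA a b, mul_one, relIndex_top_right] at f6
  obtain rfl : m = 1 := ((Nat.dvd_prime hp.out).mp ⟨r, by exact_mod_cast f5⟩).resolve_right fun e => by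
    have : n = p * (stab A l).index := by exact_mod_cast e ▸ f6
    rcases hx : (stab A l).index with _ | _ | _ <;> rw [hx] at this
    · have := hp.out.pos; omega
    · omega
    · nlinarith
  obtain ⟨ψ, g1, -, g2⟩ := Irr.exists_ind_of_stab norm_top l1.inv.le_stab le_top l1 inf_le_left h l2
  have g3 := g2.one
  rw [ind_one, hn, f6, relIndex_top_right, Nat.cast_one, one_mul, mul_eq_left₀ (by exact_mod_cast index_ne_zero_of_finite)] at g3
  set K := (stab A l).normalCore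
  have g4 : ⁅K, K⁆ ≤ ⊥ := fun x hx => hf x ((((g1.chr.ker_comm g3).mono (commutator_mono (normalCore_le _) (normalCore_le _))).indc
    ((commutator_le_self _).trans (normalCore_le _)) le_top norm_top).congr (g2.mono le_top) x hx)
  have g5 : K.index ∣ n.factorial := by
    rw [Nat.cast_one, one_mul, Nat.cast_inj] at f6
    rw [f6, show K = _ from normalCore_eq_ker _, index_ker, index_eq_card, ← Nat.card_perm]
    exact card_subgroup_dvd_card _
  obtain ⟨Q, hQ⟩ := exists_isSylowOf p K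
  have := PGrp.isMulCommutative_iff_forall.mpr fun _ a _ b => comm_of_commutator_eq_bot g4 a b
  have g6 := le_pCore_of_le_fitting hQ.isPGroup (hQ.le.trans (le_fitting inferInstance (by
    letI : CommGroup K := { (inferInstance : Group K) with mul_comm := mul_comm' }
    exact CommGroup.isNilpotent)))
  intro w
  have := w.trans (index_dvd_of_le g6)
  rw [← relIndex_mul_index hQ.le] at this
  have := (((hp.out.coprime_iff_not_dvd.mpr hQ.not_dvd).pow_left 2).dvd_of_dvd_mul_left this).trans g5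
  rw [hp.out.pow_dvd_factorial_iff (b := 2) ((Nat.log_lt_iff_lt_pow hp.out.one_lt (by omega)).mpr (by nlinarith))] at this
  simp only [Nat.Ico_succ_singleton, Finset.sum_singleton, pow_one, show (2 : ℕ) = 1 + 1 from rfl] at this
  rw [Nat.le_div_iff_mul_le hp.out.pos] at this
  omega

/-- Let p ≥ 7 be a prime and let the finite group G have a faithful irreducible character of degree n with n < 2p and n ≠ p. If the Sylow p-subgroups of G are non-abelian then p² does not divide the index of O_p(G) in G; consequently, in every case G/O_p(G) has abelian Sylow p-subgroups. -/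
theorem result {G : Type*} [Group G] [Finite G] (χ : Cfsg.IrrCharacter G) (hfaith : ∀ g : G, (χ : G → ℂ) g = (χ : G → ℂ) 1 → g = 1) (n : ℕ) (hn : Cfsg.charDegree (χ : G → ℂ) = n) (p : ℕ) (hp : p.Prime) (h7 : 7 ≤ p) (hn2 : n < 2 * p) (hnp : n ≠ p) : ((∃ P : Sylow p G, ∃ x ∈ (P : Subgroup G), ∃ y ∈ (P : Subgroup G), x * y ≠ y * x) → ¬ p ^ 2 ∣ (Cfsg.pCore p G).index) ∧ ∀ Q : Sylow p (G ⧸ Cfsg.pCore p G), ∀ x ∈ (Q : Subgroup (G ⧸ Cfsg.pCore p G)), ∀ y ∈ (Q : Subgroup (G ⧸ Cfsg.pCore p G)), x * y = y * x := by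
  have := Fact.mk hp
  have k : ∀ P : Sylow p G, ¬ ⁅(P : Subgroup G), (P : Subgroup G)⁆ ≤ ⊥ → ¬ p ^ 2 ∣ (pCore p G).index := fun P =>
    key (irr_top.mpr χ.2) hfaith (by rw [← hn, Block.irr_degree_cast]) h7 hn2 hnp P.isPGroup'
  refine ⟨fun ⟨P, x, a, y, b, c⟩ => k P fun e => c (comm_of_commutator_eq_bot e a b), fun Q x a y b => ?_⟩
  obtain ⟨P, rfl⟩ := Sylow.mapSurjective_surjective (QuotientGroup.mk'_surjective (pCore p G)) p Q
  by_cases e : ⁅(P : Subgroup G), (P : Subgroup G)⁆ ≤ ⊥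
  · obtain ⟨x, a, rfl⟩ := a
    obtain ⟨y, b, rfl⟩ := b
    rw [← map_mul, ← map_mul, comm_of_commutator_eq_bot e a b]
  · set Q := P.mapSurjective (QuotientGroup.mk'_surjective (pCore p G))
    obtain ⟨j, hj⟩ := Q.isPGroup'.exists_card_eq
    have : IsCyclic Q := isCyclic_of_card_dvd_prime (p := p) (by
      rw [hj]
      by_contra c
      refine k P e (((pow_dvd_pow p ?_).trans hj.symm.dvd).trans (card_subgroup_dvd_card _))
      by_contra! d
      exact c ((pow_dvd_pow p (by omega : j ≤ 1)).trans (pow_one p).dvd))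
    exact congrArg Subtype.val (mul_comm' (⟨x, a⟩ : Q) ⟨y, b⟩)

end Cfsg.Agent.S4471
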