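import Mathlib
import Cfsg.Statements.S4474
import Cfsg.Agent.Isaacs.FrobSchur
import Cfsg.Agent.Char.Constit
-- import your own Cfsg.Agent.* helpers here

set_option autoImplicit false
open Cfsg

namespace Cfsg.Agent.S4474

open Cfsg.Agent.Char Cfsg.Agent.Isaacs Matrix
open scoped ComplexConjugate ComplexOrder

/-- Let χ be an irreducible character of the finite group G. Then the Frobenius–Schur indicator of χ (the average over s ∈ G of χ(s²)) equals 1 if and only if χ is afforded by a real representation: there is a representation of G on a real coordinate space whose trace function, viewed in ℂ, is χ. -/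
theorem result {G : Type*} [Group G] [Fintype G] (χ : Cfsg.IrrCharacter G) : ((Nat.card G : ℂ)⁻¹ * ∑ s : G, (χ : G → ℂ) (s * s)) = 1 ↔ ∃ (n : ℕ) (ρ : Representation ℝ G (Fin n → ℝ)), ∀ g : G, ((LinearMap.trace ℝ (Fin n → ℝ) (ρ g) : ℝ) : ℂ) = (χ : G → ℂ) g := by
  obtain ⟨χ, hχ⟩ := χ
  dsimp only
  refine ⟨fun h => ?_, fun ⟨n, σ, h⟩ => ?_⟩
  · obtain ⟨n, ρ, i, rfl⟩ := hχ
    obtain ⟨Y, hY⟩ := exists_real (ρ := ρ) h
    exact ⟨n, (toLinAlgEquiv' (R := ℝ) (n := Fin n)).toAlgHom.toMonoidHom.comp Y, fun g => by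
      rw [← hY]; exact congrArg _ (trace_toLin'_eq _)⟩
  · let r : Matrix (Fin n) (Fin n) ℝ →+* Matrix (Fin n) (Fin n) ℂ := Complex.ofRealHom.mapMatrix
    let ρ : Representation ℂ G (Fin n → ℂ) := (toLinAlgEquiv' (R := ℂ) (n := Fin n)).toAlgHom.toMonoidHom.comp
      (r.toMonoidHom.comp ((LinearMap.toMatrixAlgEquiv' (R := ℝ) (n := Fin n)).toAlgHom.toMonoidHom.comp σ))
    have h1 : ∀ g, mx ρ g = r (LinearMap.toMatrix' (σ g)) := fun g => LinearMap.toMatrix'_toLin' _
    have h2 : ρ.character = χ := funext fun g => by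
      rw [← mx_trace, h1, ← h g, LinearMap.trace_eq_matrix_trace ℝ (Pi.basisFun ℝ (Fin n))]
      simp [r, trace]
    have h3 : ∀ g, (mx ρ g)ᴴ = (mx ρ g)ᵀ := fun g => by
      rw [h1]; ext; simp [r]
    obtain ⟨m, τ, i, e⟩ := hχ
    obtain ⟨φ⟩ := equiv_of_character_eq τ ρ (e.trans h2.symm)
    have := isIrreducible_of_equiv φ
    have h4 := form_transpose (ρ := ρ) (fun g => by rw [h2, ← h g, Complex.ofReal_im]) (form_avg 1)
    have h5 : (fav ρ 1).PosDef := by simpa only [fav, mul_one, ← h3] using posDef_avg (ρ := ρ)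
    have : Nonempty (Fin n) := by
      by_contra! e; exact isIrr_one_ne_zero (isIrr_character ρ) (by simp [← mx_trace])
    have h6 := congrArg trace h4
    rw [trace_transpose, trace_smul, smul_eq_mul, h2, eq_comm, mul_eq_right₀ h5.trace_pos.ne'] at h6
    exact h6

end Cfsg.Agent.S4474
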