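import Mathlib
import Cfsg.Statements.S4476
import Cfsg.Agent.Isaacs.InvCount
-- import your own Cfsg.Agent.* helpers here

set_option autoImplicit false
open Cfsg

namespace Cfsg.Agent.S4476

open Cfsg.Agent.Char Cfsg.Agent.Isaacs Subgroup
open scoped ComplexConjugate

/-- Let G be a finite group of even order g with exactly t involutions, and put α = (g − 1)/t (a rational number). Then (a) some non-identity element x of G has at most α² conjugates; and (b) some non-principal real-valued irreducible character of G has degree at most α. -/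
theorem result {G : Type*} [Group G] [Fintype G] (heven : Even (Nat.card G)) (t : ℕ) (ht : Nat.card {x : G // orderOf x = 2} = t) : (∃ x : G, x ≠ 1 ∧ ((Subgroup.centralizer ({x} : Set G)).index : ℚ) ≤ (((Nat.card G : ℚ) - 1) / t) ^ 2) ∧ ∃ χ : Cfsg.IrrCharacter G, (χ : G → ℂ) ≠ (fun _ => 1) ∧ (∀ g : G, ((χ : G → ℂ) g).im = 0) ∧ (Cfsg.charDegree (χ : G → ℂ) : ℚ) ≤ ((Nat.card G : ℚ) - 1) / t := by
  classical
  have t0 : (0 : ℚ) < t := by
    obtain ⟨x, hx⟩ := exists_prime_orderOf_dvd_card' (G := G) 2 heven.two_dvd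
    have : Nonempty {x : G // orderOf x = 2} := ⟨⟨x, hx⟩⟩
    exact_mod_cast ht ▸ Nat.card_pos
  let o : IrrCharacter G := ⟨_, isIrr_one⟩
  have o1 : charDegree o.1 = 1 := Block.charDegree_of_eq (by simp [o])
  set R := (Finset.univ.erase o).filter fun χ => ∀ g, (χ.1 g).im = 0
  have h1 : (t : ℚ) ≤ ∑ χ ∈ R, (charDegree χ.1 : ℚ) := by
    have := card_invol (G := G)
    rw [ht, ← Finset.add_sum_erase _ _ (Finset.mem_univ o), o1, show fsZ o.1 = 1 by simp [fsZ, o, fsInd_one],
      ← Finset.sum_filter_add_sum_filter_not _ fun χ => ∀ g, (χ.1 g).im = 0,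
      Finset.sum_eq_zero (s := Finset.filter (fun χ => ¬ _) _) fun χ h => by
        simp [fsZ, fsInd_of_not_real χ.2 (Finset.mem_filter.mp h).2]] at this
    have h2 : ∑ χ ∈ R, fsZ χ.1 * charDegree χ.1 ≤ ∑ χ ∈ R, (charDegree χ.1 : ℤ) :=
      Finset.sum_le_sum fun χ _ => by rcases fsZ_cases χ.2 with e | e | e <;> simp [e]
    have h3 : (t : ℤ) ≤ ∑ χ ∈ R, (charDegree χ.1 : ℤ) := by push_cast at this; linarith
    exact_mod_cast h3
  have h2 : ∑ χ ∈ R, (charDegree χ.1 : ℚ) ^ 2 ≤ Nat.card G - 1 := by
    have := sum_degree_sq (G := G)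
    rw [← Finset.add_sum_erase _ _ (Finset.mem_univ o), o1] at this
    rw [← this]; push_cast
    rw [add_sub_cancel_left]
    exact Finset.sum_le_sum_of_subset_of_nonneg (Finset.filter_subset _ _) fun _ _ _ => by positivity
  have h3 : R.Nonempty := Finset.nonempty_of_ne_empty fun e => by rw [e, Finset.sum_empty] at h1; linarith
  constructor
  · by_contra! h
    have := Fintype.ofFinite (ConjClasses G)
    have h4 := sum_eq_sum_conjClasses (classFun_const (G := G) 1)
    have c1 : ∀ C : ConjClasses G, C.out = 1 ↔ C = 1 := fun C => by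
      rw [← isConj_one_right, ← ConjClasses.mk_eq_mk_iff_isConj, eq_comm,
        show ConjClasses.mk C.out = C from Quotient.out_eq C]; rfl
    simp only [mul_one, Finset.sum_const, Finset.card_univ, nsmul_eq_mul, ← Nat.card_eq_fintype_card] at h4
    rw [← Finset.add_sum_erase _ _ (Finset.mem_univ 1), (c1 1).mpr rfl,
      show (centralizer {(1 : G)}).index = 1 from index_eq_one.mpr (eq_top_iff.mpr fun x _ => by
        simp [mem_centralizer_singleton_iff])] at h4
    have h5 : (Nat.card G : ℚ) = 1 + ∑ C ∈ Finset.univ.erase (1 : ConjClasses G),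
        ((centralizer {C.out}).index : ℚ) := by exact_mod_cast h4
    have h6 : R.card ≤ (Finset.univ.erase (1 : ConjClasses G)).card := (Finset.card_filter_le _ _).trans (by
      simp only [Finset.card_erase_of_mem (Finset.mem_univ _), Finset.card_univ, ← Nat.card_eq_fintype_card,
        card_irr_eq_card_conjClasses, le_refl])
    have h7 := Finset.sum_lt_sum_of_nonempty (Finset.card_pos.mp (h3.card_pos.trans_le h6)) fun C hC =>
      h C.out (mt (c1 C).mp (Finset.mem_erase.mp hC).1)
    have h8 := sq_sum_le_card_mul_sum_sq (s := R) (f := fun χ => (charDegree χ.1 : ℚ))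
    have h9 : (R.card : ℚ) ≤ (Finset.univ.erase (1 : ConjClasses G)).card := by exact_mod_cast h6
    rw [Finset.sum_const, nsmul_eq_mul, div_pow, ← mul_div_assoc, div_lt_iff₀ (by positivity),
      ← sub_eq_of_eq_add' h5] at h7
    have h10 : (t : ℚ) ^ 2 ≤ (Finset.univ.erase (1 : ConjClasses G)).card * (Nat.card G - 1) :=
      (pow_le_pow_left₀ t0.le h1 2).trans (h8.trans (mul_le_mul h9 h2 (by positivity) (by positivity)))
    have h11 : (0 : ℚ) ≤ Nat.card G - 1 := le_trans (by positivity) h2
    nlinarith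
  · obtain ⟨χ, a, b⟩ := R.exists_min_image (fun χ => charDegree χ.1) h3
    refine ⟨χ, fun e => (Finset.mem_erase.mp (Finset.mem_filter.mp a).1).1 (Subtype.ext e),
      (Finset.mem_filter.mp a).2, (le_div_iff₀ t0).mpr (le_trans ?_ h2)⟩
    refine (mul_le_mul_of_nonneg_left h1 (by positivity)).trans ?_
    rw [Finset.mul_sum]
    exact Finset.sum_le_sum fun ψ h => by
      rw [pow_two]; exact mul_le_mul_of_nonneg_right (by exact_mod_cast b ψ h) (by positivity)

end Cfsg.Agent.S4476
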