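import Mathlib
import Cfsg.Statements.S4478
import Cfsg.Agent.Isaacs.InvCount
-- import your own Cfsg.Agent.* helpers here

set_option autoImplicit false
open Cfsg

namespace Cfsg.Agent.S4478

open Cfsg.Agent.Char Cfsg.Agent.Isaacs Subgroup
open scoped ComplexConjugate

/-- Let G be a finite group of even order and χ an irreducible character of G whose degree x is divisible by the full power of 2 dividing the order of G and, for every odd prime p such that G has an element of order 2p, by the full power of p dividing the order of G. Then all involutions of G are conjugate, the centralizer of every involution has order exactly x with x coprime to its index, and the Frobenius–Schur indicator of χ equals 1. -/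
theorem result {G : Type*} [Group G] [Fintype G] (heven : Even (Nat.card G)) (χ : Cfsg.IrrCharacter G) (h2 : 2 ^ (Nat.card G).factorization 2 ∣ Cfsg.charDegree (χ : G → ℂ)) (hp : ∀ p : ℕ, p.Prime → p ≠ 2 → (∃ g : G, orderOf g = 2 * p) → p ^ (Nat.card G).factorization p ∣ Cfsg.charDegree (χ : G → ℂ)) : (∀ s t : G, orderOf s = 2 → orderOf t = 2 → IsConj s t) ∧ (∀ s : G, orderOf s = 2 → Nat.card (Subgroup.centralizer ({s} : Set G)) = Cfsg.charDegree (χ : G → ℂ) ∧ (Nat.card (Subgroup.centralizer ({s} : Set G))).Coprime (Subgroup.centralizer ({s} : Set G)).index) ∧ (Nat.card G : ℂ)⁻¹ * ∑ g : G, (χ : G → ℂ) (g * g) = 1 := by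
  classical
  have d0 := Block.irr_degree_ne_zero χ
  have g0 : Nat.card G ≠ 0 := Nat.card_pos.ne'
  have z : ∀ p : ℕ, p.Prime → (p = 2 ∨ ∃ g : G, orderOf g = 2 * p) →
      (Nat.card G).factorization p ≤ (charDegree χ.1).factorization p := fun p h e => by
    rw [← h.pow_dvd_iff_le_factorization d0]
    by_cases a : p = 2
    · exact a ▸ h2
    · exact hp p h a (e.resolve_left a)
  have v : ∀ p : ℕ, p.Prime → (p = 2 ∨ ∃ g : G, orderOf g = 2 * p) → ∀ g, p ∣ orderOf g → χ.1 g = 0 :=
    fun p h e g hg => (Block.exists_isPModular h).elim fun M hM => Block.char_eq_zero_of_defect_zero hM (z p h e) hg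
  obtain ⟨s, hs⟩ := exists_prime_orderOf_dvd_card' (G := G) 2 heven.two_dvd
  have h1 : ∑ g, χ.1 g = 0 := isIrr_sum_eq_zero χ.2 fun e => by
    have := v 2 Nat.prime_two (.inl rfl) s hs.symm.dvd
    rw [e] at this; exact one_ne_zero this
  set T := Finset.univ.filter fun g : G => orderOf g = 2
  have h3 : ∑ g, χ.1 (g * g) = T.card * χ.1 1 := by
    rw [← Finset.sum_filter_add_sum_filter_not _ fun g => Odd (orderOf g), ← zero_add (_ * _), ← h1,
      ← Finset.sum_filter_add_sum_filter_not (f := χ.1) _ fun g => Odd (orderOf g),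
      Finset.sum_eq_zero (f := χ.1) (s := Finset.filter (fun _ => ¬ _) _) fun g hg =>
        v 2 Nat.prime_two (.inl rfl) g (Nat.not_odd_iff_even.mp (Finset.mem_filter.mp hg).2).two_dvd, add_zero]
    congr 1
    · have i1 : ∀ g : G, Odd (orderOf g) → orderOf (g * g) = orderOf g := fun g hg => by
        rw [← pow_two, (Nat.coprime_two_right.mpr hg).orderOf_pow]
      have i2 : ∀ g : G, Odd (orderOf g) → (g * g) ^ ((orderOf g + 1) / 2) = g := fun g hg => by
        rw [← pow_two, ← pow_mul, Nat.mul_div_cancel' hg.add_one.two_dvd, pow_succ, pow_orderOf_eq_one, one_mul]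
      refine Finset.sum_nbij' (fun g => g * g) (fun g => g ^ ((orderOf g + 1) / 2)) (fun g hg => ?_) (fun g hg => ?_)
        (fun g hg => ?_) (fun g hg => ?_) fun _ _ => rfl <;> simp only [Finset.mem_filter, Finset.mem_univ,
          true_and] at hg ⊢
      · rwa [i1 g hg]
      · exact hg.of_dvd_nat (orderOf_pow_dvd _)
      · rw [i1 g hg, i2 g hg]
      · rw [← (Commute.refl g).mul_pow, i2 g hg]
    · rw [← nsmul_eq_mul, ← Finset.sum_const]
      refine (Finset.sum_subset (fun g hg => by simp [(Finset.mem_filter.mp hg).2]) fun g a b => ?_).symm.trans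
        (Finset.sum_congr rfl fun g hg => by rw [mul_self_eq_one_iff.mpr (.inr (Finset.mem_filter.mp hg).2)])
      obtain ⟨m, hm⟩ := (Nat.not_odd_iff_even.mp (Finset.mem_filter.mp a).2).two_dvd
      have m0 : m ≠ 0 := fun e => (orderOf_pos g).ne' (by rw [hm, e, mul_zero])
      obtain ⟨p, c, k, rfl⟩ := Nat.exists_prime_and_dvd (n := m) fun e => b (by simp [T, hm, e])
      refine v p c (.inr ⟨g ^ k, ?_⟩) _ ?_
      · rw [orderOf_pow' _ (right_ne_zero_of_mul m0), hm, ← mul_assoc, Nat.gcd_mul_left_left,
          Nat.mul_div_cancel _ (Nat.pos_of_ne_zero (right_ne_zero_of_mul m0))]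
      · rw [← pow_two, orderOf_pow' _ two_ne_zero, hm, Nat.gcd_mul_right_left, Nat.mul_div_cancel_left _ two_pos]
        exact dvd_mul_right _ _
  have t0 : T.card ≠ 0 := Finset.card_ne_zero.mpr ⟨s, by simpa [T]⟩
  have h4 : Nat.card G * fsInd χ.1 = (T.card * charDegree χ.1 : ℕ) := by
    rw [fsInd, mul_inv_cancel_left₀ card_ne_zero, h3, Nat.cast_mul, Block.irr_degree_cast]
  have h5 : fsInd χ.1 = 1 := by
    rcases fsInd_cases χ.2 with e | e | e
    · rw [e, mul_zero] at h4; exact absurd (by exact_mod_cast h4.symm) (mul_ne_zero t0 d0)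
    · exact e
    · rw [e, mul_neg_one, neg_eq_iff_add_eq_zero] at h4; norm_cast at h4; omega
  rw [h5, mul_one, Nat.cast_inj] at h4
  have h6 : ∀ s : G, orderOf s = 2 → ∀ p : ℕ, p.Prime → p ∣ Nat.card (centralizer {s}) →
      (Nat.card G).factorization p ≤ (charDegree χ.1).factorization p := fun s a p b c => z p b (by
    have := Fact.mk b
    obtain ⟨x, hx⟩ := exists_prime_orderOf_dvd_card' p c
    refine or_iff_not_imp_left.mpr fun e => ⟨s * x, ?_⟩
    rw [← orderOf_coe] at hx
    rw [Commute.orderOf_mul_eq_mul_orderOf_of_coprime (mem_centralizer_singleton_iff.mp x.2).symm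
      (by rw [a, hx]; exact (Nat.coprime_primes Nat.prime_two b).mpr (Ne.symm e)), a, hx])
  have h7 : ∀ s : G, orderOf s = 2 → Finset.univ.filter (IsConj s) = T ∧
      Nat.card (centralizer {s}) = charDegree χ.1 := fun s a => by
    have e1 : Nat.card (centralizer {s}) ∣ charDegree χ.1 :=
      (Nat.factorization_prime_le_iff_dvd Nat.card_pos.ne' d0).mp fun p b => by
        by_cases c : p ∣ Nat.card (centralizer {s})
        · exact ((Nat.factorization_le_iff_dvd Nat.card_pos.ne' g0).mpr (card_subgroup_dvd_card _) p).trans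
            (h6 s a p b c)
        · rw [Nat.factorization_eq_zero_of_not_dvd c]; exact Nat.zero_le _
    have e2 : Finset.univ.filter (IsConj s) ⊆ T := fun x hx => by
      obtain ⟨c, rfl⟩ := isConj_iff.mp (Finset.mem_filter.mp hx).2
      simpa [T] using ((MulAut.conj c).orderOf_eq s).trans a
    have e3 := (centralizer {s}).index_mul_card
    rw [← card_filter_isConj, h4] at e3
    have e4 := Finset.card_le_card e2
    have e5 := Nat.le_of_dvd (Nat.pos_of_ne_zero d0) e1
    have e6 := Nat.pos_of_ne_zero d0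
    have e7 := Nat.pos_of_ne_zero t0
    exact ⟨Finset.eq_of_subset_of_card_le e2 (by nlinarith), by nlinarith⟩
  refine ⟨fun s t a b => (Finset.mem_filter.mp ((h7 s a).1.ge (by simpa [T]))).2, fun s a =>
    ⟨(h7 s a).2, Nat.coprime_of_dvd fun p b c d => ?_⟩, h5⟩
  have := h6 s a p b c
  rw [← (h7 s a).2, ← (centralizer {s}).index_mul_card, Nat.factorization_mul index_ne_zero_of_finite
    Nat.card_pos.ne', Finsupp.add_apply] at this
  have := b.factorization_pos_of_dvd index_ne_zero_of_finite d
  omega

end Cfsg.Agent.S4478
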