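import Mathlib
import Cfsg.Statements.S4479
import Cfsg.Agent.Dih.Order

set_option autoImplicit false
open Cfsg

namespace Cfsg.Agent.S4479

open Cfsg.Agent.Char Cfsg.Agent.Block Cfsg.Agent.Dih
open scoped ComplexConjugate

theorem sum_four {G : Type*} [Group G] [Finite G] {B : Set (IrrCharacter G)}
    [DecidablePred (· ∈ B)] {χ₁ χ₂ χ₃ : IrrCharacter G}
    (hB : B = {χ : IrrCharacter G | (χ : G → ℂ) = (fun _ => 1) ∨ χ = χ₁ ∨ χ = χ₂ ∨ χ = χ₃})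
    (hdist : (χ₁ : G → ℂ) ≠ (fun _ => 1) ∧ (χ₂ : G → ℂ) ≠ (fun _ => 1) ∧
      (χ₃ : G → ℂ) ≠ (fun _ => 1) ∧ χ₁ ≠ χ₂ ∧ χ₁ ≠ χ₃ ∧ χ₂ ≠ χ₃) (f : IrrCharacter G → ℂ) :
    ∑ χ : IrrCharacter G with χ ∈ B, f χ = f (oneIrr G) + f χ₁ + f χ₂ + f χ₃ := by
  classical
  obtain ⟨h1, h2, h3, h12, h13, h23⟩ := hdist
  have ne : ∀ {χ : IrrCharacter G}, (χ : G → ℂ) ≠ (fun _ => 1) → oneIrr G ≠ χ :=
    fun h e => h (by rw [← e]; rfl)
  have : Finset.univ.filter (· ∈ B) = {oneIrr G, χ₁, χ₂, χ₃} := by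
    ext χ
    simp only [Finset.mem_filter, Finset.mem_univ, true_and, Finset.mem_insert,
      Finset.mem_singleton]
    rw [hB, Set.mem_setOf_eq, Subtype.ext_iff (a2 := oneIrr G)]
    rfl
  rw [this, Finset.sum_insert (by simp [ne h1, ne h2, ne h3]), Finset.sum_insert (by simp [h12, h13]),
    Finset.sum_pair h23]
  ring

/-- An order formula from the principal 2-block. Let G be a finite group of order 4·g₀ with g₀ odd having no normal 2-complement (no normal subgroup of order g₀); let P be a Sylow 2-subgroup, J an involution of P, and fix a maximal ideal M of the algebraic integers containing 2. Suppose the principal 2-block consists of the principal character and three further distinct characters χ₁, χ₂, χ₃ of degrees x₁, x₂, x₃, with χ_i(J) = ε_i = ±1. Then, writing c(J) and c(P) for the orders of the centralizers of J and of P, the order of G equals 8·α·c(J)³/c(P)²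 with α = x₁x₂x₃ / ((x₁ + ε₁)(x₂ + ε₂)(x₃ + ε₃)). -/
theorem result {G : Type*} [Group G] [Finite G] (M : Ideal Cfsg.AlgInt) (hM : Cfsg.IsPModular 2 M) (g₀ : ℕ) (hg₀ : Odd g₀) (hG : Nat.card G = 4 * g₀) (hnc : ¬ ∃ N : Subgroup G, N.Normal ∧ Nat.card N = g₀) (P : Sylow 2 G) (J : G) (hJ : J ∈ (P : Subgroup G)) (hJ2 : orderOf J = 2) (χ₁ χ₂ χ₃ : Cfsg.IrrCharacter G) (ε₁ ε₂ ε₃ : ℤ) (hB : Cfsg.principalBlock M G = {χ : Cfsg.IrrCharacter G | (χ : G → ℂ) = (fun _ => 1) ∨ χ = χ₁ ∨ χ = χ₂ ∨ χ = χ₃}) (hdist : (χ₁ : G → ℂ) ≠ (fun _ => 1) ∧ (χ₂ : G → ℂ) ≠ (fun _ => 1) ∧ (χ₃ : G → ℂ) ≠ (fun _ => 1) ∧ χ₁ ≠ χ₂ ∧ χ₁ ≠ χ₃ ∧ χ₂ ≠ χ₃) (hε : (ε₁ = 1 ∨ ε₁ = -1) ∧ (ε₂ = 1 ∨ ε₂ = -1) ∧ (ε₃ = 1 ∨ ε₃ = -1)) (hval : (χ₁ : G → ℂ) J = ε₁ ∧ (χ₂ : G → ℂ) J = ε₂ ∧ (χ₃ : G → ℂ) J = ε₃) : (Nat.card G : ℚ) = 8 * (((Cfsg.charDegree (χ₁ : G → ℂ) : ℚ) * Cfsg.charDegree (χ₂ : G → ℂ) * Cfsg.charDegree (χ₃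 : G → ℂ)) / ((Cfsg.charDegree (χ₁ : G → ℂ) + ε₁) * (Cfsg.charDegree (χ₂ : G → ℂ) + ε₂) * (Cfsg.charDegree (χ₃ : G → ℂ) + ε₃))) * (Nat.card (Subgroup.centralizer ({J} : Set G)) : ℚ) ^ 3 / (Nat.card (Subgroup.centralizer ((P : Subgroup G) : Set G)) : ℚ) ^ 2 := by
  classical
  obtain ⟨y, h, hone⟩ := klein_of_no_complement hg₀ hG hnc P hJ hJ2
  have key := klein_order hM h hone
  have orth := weak_block_orth hM (isV_principal hM) (x := 1) (y := J) (by simp) (by rw [hJ2])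
  rw [sum_four hB hdist] at key orth
  obtain ⟨v1, v2, v3⟩ := hval
  simp only [coe_oneIrr, v1, v2, v3, map_intCast, map_one] at key orth
  rw [← irr_degree_cast χ₁, ← irr_degree_cast χ₂, ← irr_degree_cast χ₃] at key orth
  have n1 : (charDegree χ₁.1 : ℂ) ≠ 0 := Nat.cast_ne_zero.2 (irr_degree_ne_zero _)
  have n2 : (charDegree χ₂.1 : ℂ) ≠ 0 := Nat.cast_ne_zero.2 (irr_degree_ne_zero _)
  have n3 : (charDegree χ₃.1 : ℂ) ≠ 0 := Nat.cast_ne_zero.2 (irr_degree_ne_zero _)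
  have c1 : (Nat.card (Subgroup.centralizer ({J} : Set G)) : ℂ) ≠ 0 :=
    Nat.cast_ne_zero.2 Nat.card_pos.ne'
  have c2 : (Nat.card (Subgroup.centralizer ((P : Subgroup G) : Set G)) : ℂ) ≠ 0 :=
    Nat.cast_ne_zero.2 Nat.card_pos.ne'
  apply Rat.cast_injective (α := ℂ)
  push_cast
  generalize (charDegree χ₁.1 : ℂ) = a at *
  generalize (charDegree χ₂.1 : ℂ) = b at *
  generalize (charDegree χ₃.1 : ℂ) = c at *
  generalize (Nat.card (Subgroup.centralizer ({J} : Set G)) : ℂ) = u at *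
  generalize (Nat.card (Subgroup.centralizer ((P : Subgroup G) : Set G)) : ℂ) = v at *
  generalize (Nat.card G : ℂ) = g at *
  have d1 : (ε₁ : ℂ) ^ 2 = 1 := by rcases hε.1 with e | e <;> simp [e]
  have d2 : (ε₂ : ℂ) ^ 2 = 1 := by rcases hε.2.1 with e | e <;> simp [e]
  have d3 : (ε₃ : ℂ) ^ 2 = 1 := by rcases hε.2.2 with e | e <;> simp [e]
  generalize (ε₁ : ℂ) = e₁ at *
  generalize (ε₂ : ℂ) = e₂ at *
  generalize (ε₃ : ℂ) = e₃ at *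
  have e : 1 ^ 3 / 1 + e₁ ^ 3 / a + e₂ ^ 3 / b + e₃ ^ 3 / c =
      (a + e₁) * (b + e₂) * (c + e₃) / (a * b * c) := by
    field_simp
    linear_combination (e₁ * b * c) * d1
      + (e₂ * a * c) * d2 + (e₃ * a * b) * d3 - e₁ * e₂ * e₃ * orth
      + (a * e₂ * e₃) * d1 + (b * e₁ * e₃) * d2 + (c * e₁ * e₂) * d3
  rw [e] at key
  have n4 : (a + e₁) * (b + e₂) * (c + e₃) ≠ 0 := by
    intro h0
    rw [h0, zero_div, mul_zero] at key
    exact div_ne_zero (mul_ne_zero (by norm_num) (pow_ne_zero _ c1)) (pow_ne_zero _ c2) key.symm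
  generalize (a + e₁) * (b + e₂) * (c + e₃) = w at *
  field_simp at key ⊢
  linear_combination key

end Cfsg.Agent.S4479
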