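import Mathlib
import Cfsg.Statements.S4480
import Cfsg.Agent.Dih.Order
import Cfsg.Agent.S4479

set_option autoImplicit false
open Cfsg

namespace Cfsg.Agent.S4480

open Cfsg.Agent.Char Cfsg.Agent.Block Cfsg.Agent.Dih
open scoped ComplexConjugate

/-- Same setting as the Klein-four order formula: G of order 4·g₀ (g₀ odd) with no normal 2-complement, P a Sylow 2-subgroup, J an involution of P, M over 2, principal 2-block {1, χ₁, χ₂, χ₃} with χ_i(J) = ε_i = ±1. Suppose ε₁ε₂ε₃ = −1 and ε₃ = −1, and put q = x₃ = χ₃(1). Then there is a natural number m with 4·c(J) = m·c(P)·(q + 1), and the order of G equals (m³·c(P)/4)·(q³ − q)/2, that is 8·#G = m³·c(P)·(q³ − q). -/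
theorem result {G : Type*} [Group G] [Finite G] (M : Ideal Cfsg.AlgInt) (hM : Cfsg.IsPModular 2 M) (g₀ : ℕ) (hg₀ : Odd g₀) (hG : Nat.card G = 4 * g₀) (hnc : ¬ ∃ N : Subgroup G, N.Normal ∧ Nat.card N = g₀) (P : Sylow 2 G) (J : G) (hJ : J ∈ (P : Subgroup G)) (hJ2 : orderOf J = 2) (χ₁ χ₂ χ₃ : Cfsg.IrrCharacter G) (ε₁ ε₂ ε₃ : ℤ) (hB : Cfsg.principalBlock M G = {χ : Cfsg.IrrCharacter G | (χ : G → ℂ) = (fun _ => 1) ∨ χ = χ₁ ∨ χ = χ₂ ∨ χ = χ₃}) (hdist : (χ₁ : G → ℂ) ≠ (fun _ => 1) ∧ (χ₂ : G → ℂ) ≠ (fun _ => 1) ∧ (χ₃ : G → ℂ) ≠ (fun _ => 1) ∧ χ₁ ≠ χ₂ ∧ χ₁ ≠ χ₃ ∧ χ₂ ≠ χ₃) (hε : (ε₁ = 1 ∨ ε₁ = -1) ∧ (ε₂ = 1 ∨ ε₂ = -1) ∧ (ε₃ = 1 ∨ ε₃ = -1)) (hval : (χ₁ : G → ℂ) J = ε₁ ∧ (χ₂ : G → ℂ) J = ε₂ ∧ (χ₃ : G → ℂ) J = ε₃) (hprod : ε₁ * ε₂ * ε₃ = -1) (hε₃ : ε₃ = -1) : ∃ m : ℕ, 4 * Nat.card (Subgroup.centralizer ({J} : Set G)) = m * Nat.card (Subgroup.centralizer ((P : Subgroup G) : Set G)) * (Cfsg.charDegree (χ₃ : G → ℂ) + 1) ∧ 8 * Nat.card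 G = m ^ 3 * Nat.card (Subgroup.centralizer ((P : Subgroup G) : Set G)) * (Cfsg.charDegree (χ₃ : G → ℂ) ^ 3 - Cfsg.charDegree (χ₃ : G → ℂ)) := by
  classical
  have := Fintype.ofFinite G
  have key := S4479.result M hM g₀ hg₀ hG hnc P J hJ hJ2 χ₁ χ₂ χ₃ ε₁ ε₂ ε₃ hB hdist hε hval
  obtain ⟨y, h, hone⟩ := klein_of_no_complement hg₀ hG hnc P hJ hJ2
  have orth := weak_block_orth hM (isV_principal hM) (x := 1) (y := J) (by simp) (by rw [hJ2])
  rw [S4479.sum_four hB hdist] at orth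
  obtain ⟨v1, v2, v3⟩ := hval
  simp only [coe_oneIrr, v1, v2, v3, map_intCast, map_one] at orth
  rw [← irr_degree_cast χ₁, ← irr_degree_cast χ₂, ← irr_degree_cast χ₃] at orth
  subst hε₃
  have orth' : 1 + (charDegree χ₁.1 : ℤ) * ε₁ + charDegree χ₂.1 * ε₂ - charDegree χ₃.1 = 0 := by
    apply Int.cast_injective (α := ℂ)
    push_cast at orth ⊢
    linear_combination orth
  have n3 := Nat.pos_of_ne_zero (irr_degree_ne_zero χ₃)
  have n1 := Nat.pos_of_ne_zero (irr_degree_ne_zero χ₁)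
  obtain ⟨rfl, rfl⟩ : ε₁ = 1 ∧ ε₂ = 1 := by
    rcases hε.1 with e1 | e1 <;> rcases hε.2.1 with e2 | e2 <;> rw [e1, e2] at hprod orth' <;> omega
  have hmem : ∀ χ, χ ∈ principalBlock M G ↔ χ = oneIrr G ∨ χ = χ₁ ∨ χ = χ₂ ∨ χ = χ₃ := by
    intro χ
    rw [hB, Set.mem_setOf_eq, Subtype.ext_iff (a2 := oneIrr G)]
    rfl
  have hodd : ∀ χ ∈ principalBlock M G, Odd (charDegree χ.1) := by
    intro χ hχ
    have hP := h.card
    rcases (klein_block hM h hone).1 χ hχ with e | e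
    · have := dvd_degree_sub_of_const (P := P) (irr_isChar χ) (n := 1) fun s hs hs1 => by
        rw [klein_const hM h hone hχ (by rw [Inv.four_two (isKleinFour_of_dih h) hs hs1]), e]; simp
      rw [hP] at this
      rw [Nat.odd_iff]; omega
    · have := dvd_degree_sub_of_const (P := P) (irr_isChar χ) (n := -1) fun s hs hs1 => by
        rw [klein_const hM h hone hχ (by rw [Inv.four_two (isKleinFour_of_dih h) hs hs1]), e]; simp
      rw [hP] at this
      rw [Nat.odd_iff]; omega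
  have hbar : ∀ χ : IrrCharacter G, (barIrr χ).1 J = χ.1 J := fun χ => by
    rw [barIrr_apply, conj_irr_of_mul_self (Inv.mul_self_of_two hJ2)]
  have fs : 1 + fsInd χ₁.1 + fsInd χ₂.1 - fsInd χ₃.1 = 0 := by
    have hθ : (fun g : G => (Nat.card {s : G // s * s = g} : ℂ)) =
        ∑ χ : IrrCharacter G, fsInd χ.1 • χ.1 := by
      funext g
      simp only [card_sqrt_eq_sum, Finset.sum_apply, Pi.smul_apply, smul_eq_mul]
    have a := blockPart_principal_centralizer hM (x := J) ⟨1, hJ2⟩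
      (npc_of_mem h (Subgroup.mem_zpowers J) (Inv.ne_one_of_two hJ2))
      (hθ ▸ classFun_sum_smul_irr _ _)
    rw [Finset.sum_eq_zero, mul_eq_zero, or_iff_right (card_filter_regular_ne_zero hM.1 _),
      blockPart_eq_sum, S4479.sum_four hB hdist, hθ] at a
    · simp only [classInner_sum_univ_smul_irr, v1, v2, v3] at a
      rw [fsInd_eq_one_of_odd (oneIrr G).2 (by simp) (hodd _ ((hmem _).2 (Or.inl rfl))),
        coe_oneIrr] at a
      push_cast at a
      linear_combination a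
    · intro v hv
      obtain ⟨hv1, hv2⟩ := (Finset.mem_filter.1 hv).2
      rw [Nat.cast_eq_zero, Nat.card_eq_zero]
      refine Or.inl ⟨fun ⟨s, hs⟩ => ?_⟩
      have hc : Commute J v := (Subgroup.mem_centralizer_singleton_iff.1 hv1).symm
      have hJJ := Inv.mul_self_of_two hJ2
      have e1 : (s ^ orderOf v) ^ 2 ^ 1 = J := by
        obtain ⟨k, hk⟩ : Odd (orderOf v) := by rwa [← Nat.not_even_iff_odd, even_iff_two_dvd]
        rw [← pow_mul, mul_comm, pow_mul, pow_one, pow_two, hs, hc.mul_pow, pow_orderOf_eq_one,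
          mul_one, hk, pow_succ, pow_mul, pow_two, hJJ, one_pow, one_mul]
      have e2 : orderOf (s ^ orderOf v) = 2 ^ (1 + 1) :=
        orderOf_eq_prime_pow (by rw [e1]; exact Inv.ne_one_of_two hJ2)
          (by rw [pow_succ, pow_mul, e1, pow_two, hJJ])
      obtain ⟨g, hg⟩ := Inv.exists_conj_mem_sylow_of_pow P e2
      have e3 := orderOf_dvd_of_pow_eq_one
        ((pow_two _).trans (Inv.four_mul_self (isKleinFour_of_dih h) hg))
      rw [Inv.orderOf_conj, e2] at e3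
      norm_num at e3
  have m1 := (hmem χ₁).2 (by simp)
  have m2 := (hmem χ₂).2 (by simp)
  have m3 := (hmem χ₃).2 (by simp)
  have f3 : fsInd χ₃.1 = 1 := by
    refine fsInd_eq_one_of_odd χ₃.2 (barIrr_eq_iff.1 ?_) (hodd _ m3)
    have := hbar χ₃
    rcases (hmem _).1 (barIrr_mem_principal m3) with e | e | e | e
    · rw [e, v3] at this; norm_num at this
    · rw [e, v3, v1] at this; norm_num at this
    · rw [e, v3, v2] at this; norm_num at this
    · exact e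
  have f12 : ∀ χ ∈ principalBlock M G, fsInd χ.1 = 0 ∨ fsInd χ.1 = 1 := by
    intro χ hχ
    by_cases hr : ∀ g, (χ.1 g).im = 0
    · exact Or.inr (fsInd_eq_one_of_odd χ.2 hr (hodd _ hχ))
    · exact Or.inl (fsInd_of_not_real χ.2 hr)
  have x12 : charDegree χ₂.1 = charDegree χ₁.1 := by
    have := hbar χ₁
    rcases (hmem _).1 (barIrr_mem_principal m1) with e | e | e | e
    · exact absurd (by rw [← barIrr_barIrr χ₁, e, barIrr_one]; rfl) hdist.1
    · have f1 := fsInd_eq_one_of_odd χ₁.2 (barIrr_eq_iff.1 e) (hodd _ m1)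
      rcases f12 _ m2 with f2 | f2 <;> rw [f1, f2, f3] at fs <;> norm_num at fs
    · rw [← e, charDegree_barIrr]
    · rw [e, v3, v1] at this; norm_num at this
  obtain ⟨s, hs⟩ := hodd _ m1
  have hq : charDegree χ₃.1 = 4 * s + 3 := by omega
  rw [x12, hq, hs] at key
  rw [hq]
  obtain ⟨r, hr⟩ := Subgroup.card_dvd_of_le
    (Subgroup.centralizer_le (Set.singleton_subset_iff.2 hJ) :
      Subgroup.centralizer ((P : Subgroup G) : Set G) ≤ Subgroup.centralizer {J})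
  have hI := (Subgroup.centralizer ({J} : Set G)).card_mul_index
  have c1 : 0 < Nat.card (Subgroup.centralizer ({J} : Set G)) := Nat.card_pos
  have c2 : 0 < Nat.card (Subgroup.centralizer ((P : Subgroup G) : Set G)) := Nat.card_pos
  rw [← hI] at key ⊢
  generalize (Subgroup.centralizer ({J} : Set G)).index = I at *
  generalize Nat.card (Subgroup.centralizer ((P : Subgroup G) : Set G)) = c at *
  rw [hr] at key c1 ⊢
  have r0 : 0 < r := Nat.pos_of_mul_pos_left c1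
  have k2 : I * (s + 1) ^ 2 = (4 * s + 3) * (2 * s + 1) * r ^ 2 := by
    apply Nat.cast_injective (R := ℚ)
    push_cast at key ⊢
    rw [show (4 * s + 3 + -1 : ℚ) = 2 * (2 * s + 1) by ring,
      show (2 * s + 1 + 1 : ℚ) = 2 * (s + 1) by ring] at key
    field_simp at key
    linear_combination key / 8
  have hc : Nat.Coprime (s + 1) ((4 * s + 3) * (2 * s + 1)) := by
    refine Nat.Coprime.mul_right ?_ ?_
    · rw [← Nat.isCoprime_iff_coprime]; exact ⟨4, -1, by push_cast; ring⟩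
    · rw [← Nat.isCoprime_iff_coprime]; exact ⟨2, -1, by push_cast; ring⟩
  obtain ⟨m, rfl⟩ : s + 1 ∣ r := by
    rw [← Nat.pow_dvd_pow_iff two_ne_zero]
    exact (hc.pow_left 2).dvd_of_dvd_mul_left ⟨I, by rw [← k2, mul_comm]⟩
  refine ⟨m, by ring, ?_⟩
  have k3 : I = (4 * s + 3) * (2 * s + 1) * m ^ 2 := by
    refine Nat.eq_of_mul_eq_mul_right (show 0 < (s + 1) ^ 2 by positivity) ?_
    rw [k2]; ring
  rw [k3, show (4 * s + 3) ^ 3 - (4 * s + 3) = (4 * s + 3) * (4 * s + 2) * (4 * s + 4) from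
    Nat.sub_eq_of_eq_add (by ring)]
  ring

end Cfsg.Agent.S4480
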