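import Mathlib
import Cfsg.Statements.S4482
import Cfsg.Agent.Dih.Order

set_option autoImplicit false
open Cfsg

namespace Cfsg.Agent.S4482

open Cfsg.Agent.Char Cfsg.Agent.Block Cfsg.Agent.Dih

/-- An order formula for groups with dihedral Sylow 2-subgroups and one class of involutions. Let G be a finite group whose Sylow 2-subgroup P = ⟨σ, τ⟩ is dihedral of order 2^n ≥ 8 (σ of order 2^(n−1), τ an involution inverting σ), let J be the central involution σ^(2^(n−2)), and suppose J, τ and στ are conjugate in G. Fix M over 2 and let χ₁ be an irreducible character in the principal 2-block taking one constant value δ₁ = ±1 at every non-identity power of σ, with χ₁ ≠ 1. Then, with x₁ = χ₁(1) and c(·) denoting orders of centralizers, x₁ ≠ δ₁ and #G · (x₁ − δ₁)² = 2·x₁(x₁ + δ₁)·c(J)³·(1/c(J, τ) + 1/c(J, στ))², where c(J, y) is the order of the joint centralizer of J and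 y. -/
theorem result {G : Type*} [Group G] [Finite G] (M : Ideal Cfsg.AlgInt) (hM : Cfsg.IsPModular 2 M) (n : ℕ) (hn : 3 ≤ n) (P : Sylow 2 G) (σ τ : G) (hσ : σ ∈ (P : Subgroup G)) (hτ : τ ∈ (P : Subgroup G)) (hσo : orderOf σ = 2 ^ (n - 1)) (hτo : orderOf τ = 2) (hrel : τ * σ * τ⁻¹ = σ⁻¹) (hgen : Subgroup.closure ({σ, τ} : Set G) = (P : Subgroup G)) (hconj : IsConj (σ ^ (2 ^ (n - 2))) τ ∧ IsConj (σ ^ (2 ^ (n - 2))) (σ * τ)) (χ₁ : Cfsg.IrrCharacter G) (hχ₁ : χ₁ ∈ Cfsg.principalBlock M G) (h1 : (χ₁ : G → ℂ) ≠ (fun _ => 1)) (δ₁ : ℤ) (hδ₁ : δ₁ = 1 ∨ δ₁ = -1) (hval : ∀ l : ℕ, 0 < l → l < 2 ^ (n - 1) → (χ₁ : G → ℂ) (σ ^ l) = δ₁) : (Cfsg.charDegree (χ₁ : G → ℂ) : ℤ) ≠ δ₁ ∧ (Nat.card G : ℚ) * ((Cfsg.charDegree (χ₁ : G → ℂ) : ℚ) - δ₁) ^ 2 = 2 * (Cfsg.charDegree (χ₁ : G → ℂ) : ℚ) * ((Cfsg.charDegree (χ₁ : G → ℂ) : ℚ) + δ₁) * (Nat.card (Subgroup.centralizer ({σ ^ (2 ^ (n -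 2))} : Set G)) : ℚ) ^ 3 * (1 / (Nat.card (Subgroup.centralizer ({σ ^ (2 ^ (n - 2)), τ} : Set G)) : ℚ) + 1 / (Nat.card (Subgroup.centralizer ({σ ^ (2 ^ (n - 2)), σ * τ} : Set G)) : ℚ)) ^ 2 := by
  obtain ⟨k, rfl⟩ : ∃ k, n = k + 3 := ⟨n - 3, by omega⟩
  have e1 : k + 3 - 1 = k + 2 := rfl
  have e2 : k + 3 - 2 = k + 1 := rfl
  simp only [e1, e2] at *
  have h : Inv.Dih (P : Subgroup G) σ τ (k + 1) :=
    hgen ▸ dih_of_gens hσo (Inv.mul_self_of_two hτo) hrel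
  have hone := isConj_of_y_xy h hconj.1 hconj.2
  have hζ := Complex.isPrimitiveRoot_exp (2 * 2 ^ (k + 1)) (by positivity)
  obtain ⟨ψ₁, ψ₂, ψ₃, χ', d₁, d₂, d₃, H⟩ := exists_dihBlock hM h (by omega) hζ
  have hN : 2 ≤ 2 ^ (k + 1) := le_self_pow₀ one_le_two (by omega)
  obtain ⟨rfl, rfl⟩ := H.const_unique hN hζ hχ₁ (fun e => h1 (by rw [e]; rfl)) hδ₁
    fun l h0 hl => hval l h0 (by rwa [pow_succ'])
  have key := H.order rfl hM h (by omega) hζ hone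
  have hd := H.degree' ⟨0, by omega⟩
  have hne := irr_one_ne_zero (χ' ⟨0, by omega⟩)
  rw [hd] at hne
  have hne1 := irr_one_ne_zero χ₁
  rw [← irr_degree_cast] at key hne hne1
  have key' : (Nat.card G : ℚ) * ((Cfsg.charDegree (χ₁ : G → ℂ) : ℚ) - δ₁) ^ 2 = 2 * (Cfsg.charDegree (χ₁ : G → ℂ) : ℚ) * ((Cfsg.charDegree (χ₁ : G → ℂ) : ℚ) + δ₁) * (Nat.card (Subgroup.centralizer ({σ ^ (2 ^ (k + 1))} : Set G)) : ℚ) ^ 3 * (1 / (Nat.card (Subgroup.centralizer ({σ ^ (2 ^ (k + 1)), τ} : Set G)) : ℚ) + 1 / (Nat.card (Subgroup.centralizer ({σ ^ (2 ^ (k + 1)), σ * τ} : Set G)) : ℚ)) ^ 2 := by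
    apply Rat.cast_injective (α := ℂ)
    push_cast
    exact key
  refine ⟨fun e => ?_, key'⟩
  have e' : ((Cfsg.charDegree (χ₁ : G → ℂ) : ℚ)) = δ₁ := by exact_mod_cast e
  rw [e', sub_self, zero_pow two_ne_zero, mul_zero] at key'
  have h0 : ∀ H : Subgroup G, (0 : ℚ) < Nat.card H := fun H => Nat.cast_pos.2 Nat.card_pos
  have h2 : (0 : ℚ) < δ₁ := by
    rw [← e']; exact Nat.cast_pos.2 (Nat.pos_of_ne_zero (irr_degree_ne_zero χ₁))
  have := h0 (Subgroup.centralizer ({σ ^ (2 ^ (k + 1))} : Set G))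
  have := h0 (Subgroup.centralizer ({σ ^ (2 ^ (k + 1)), τ} : Set G))
  have := h0 (Subgroup.centralizer ({σ ^ (2 ^ (k + 1)), σ * τ} : Set G))
  exact absurd key' (ne_of_lt (by positivity))

end Cfsg.Agent.S4482
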