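import Mathlib
import Cfsg.Statements.S4484
import Cfsg.Agent.Block.Misc
import Cfsg.Agent.LinP.Blich

set_option autoImplicit false
open Cfsg

namespace Cfsg.Agent.S4484

open Cfsg.Agent.Block Cfsg.Agent.Char Subgroup
open scoped ComplexConjugate

theorem val_sub_lt {G : Type*} [Group G] [Finite G] {p : ℕ} {M : Ideal AlgInt}
    (hM : IsPModular p M) {χ : IrrCharacter G} (hχ : χ ∈ principalBlock M G)
    {c : G} (hc : ¬ p ∣ (centralizer ({c} : Set G)).index) :
    val M ((χ : G → ℂ) c / (χ : G → ℂ) 1 - 1) < 1 := by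
  have h1 := (sameBlock_iff_val hM χ (oneIrr G)).1 (block_sameBlock hM isPBlock_principalBlock hχ
    (oneIrr_mem_principalBlock hM)) c
  have h2 := (val_natCast_eq_one_iff hM _).2 hc
  have h3 : ((centralizer ({c} : Set G)).index : ℂ) ≠ 0 := by
    exact_mod_cast index_ne_zero_of_finite
  have h4 := irr_one_ne_zero χ
  have h5 : (χ : G → ℂ) c / (χ : G → ℂ) 1 - 1 = (centralChar (χ : G → ℂ) c -
      centralChar (oneIrr G : G → ℂ) c) * ((centralizer ({c} : Set G)).index : ℂ)⁻¹ := by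
    simp only [centralChar, coe_oneIrr]
    field_simp
  rwa [h5, map_mul, map_inv₀, h2, inv_one, mul_one]

theorem pow_dvd_inner {K : Type*} [Group K] [Fintype K] {p : ℕ} {M : Ideal AlgInt}
    (hM : IsPModular p M) (hK : Nat.card K = p) {θ : K → ℂ} {d : ℕ} (hd : d ≠ 0)
    (h : ∀ k, val M (θ k / d - 1) < 1) (ψ : IrrCharacter K) {n : ℕ}
    (hn : classInner θ ψ = n) : p ^ d.factorization p ∣ n := by
  rcases eq_or_ne n 0 with rfl | h0
  · exact dvd_zero _
  have hp := hM.1
  have hp0 : (p : ℂ) ≠ 0 := by exact_mod_cast hp.ne_zero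
  have hd0 : (d : ℂ) ≠ 0 := by exact_mod_cast hd
  obtain ⟨m, hm⟩ : ∃ m : ℕ, classInner (oneIrr K : K → ℂ) ψ = m := by
    by_cases e : oneIrr K = ψ
    · exact ⟨1, by rw [e, classInner_irr_self]; simp⟩
    · exact ⟨0, by rw [classInner_irr_ne e]; simp⟩
  have h1 : ((n * p : ℕ) : ℂ) = d * (∑ k, (θ k / d - 1) * conj (ψ.1 k) + (p * m : ℕ)) := by
    simp only [classInner, hK, coe_oneIrr, one_mul] at hn hm
    push_cast
    rw [← hn, ← hm]
    simp only [sub_mul, Finset.sum_sub_distrib, one_mul, div_mul_eq_mul_div, ← Finset.sum_div]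
    field_simp
    ring
  have h2 : val M (∑ k, (θ k / d - 1) * conj (ψ.1 k) + (p * m : ℕ)) < 1 := by
    refine Valuation.map_add_lt _ (val_sum_lt_one _ fun k _ => ?_)
      ((val_natCast_lt_one_iff hM _).2 (dvd_mul_right _ _))
    rw [map_mul, ← isIrr_inv ψ.2]
    exact mul_lt_one_of_lt_of_le (h k) (mem_V_iff.1 (irr_mem_V ψ _))
  have h3 : val M ((n * p : ℕ) : ℂ) < val M (d : ℂ) := by
    rw [h1, map_mul]
    exact mul_lt_of_lt_one_right (zero_lt_iff.2 (by simpa using hd)) h2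
  rw [val_natCast_lt_iff hM (mul_ne_zero h0 hp.ne_zero) hd,
    Nat.factorization_mul h0 hp.ne_zero, Finsupp.add_apply, hp.factorization_self] at h3
  exact (hp.pow_dvd_iff_le_factorization h0).2 (Nat.le_of_lt_succ h3)

/-- A refinement of Burnside's result on simple groups of order divisible by only two primes. Let G be a finite simple group of order p^a · q^b · g₀ with p, q distinct primes, a > 0, g₀ coprime to p and q, and the order of G different from p. Then g₀ − 1 > log p / log 6, that is 6^(g₀ − 1) > p. -/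
theorem result {G : Type*} [Group G] [Finite G] [IsSimpleGroup G] (p q a b g₀ : ℕ) (hp : p.Prime) (hq : q.Prime) (hpq : p ≠ q) (ha : 0 < a) (hg : Nat.card G = p ^ a * q ^ b * g₀) (hcop : ¬ p ∣ g₀) (hcoq : ¬ q ∣ g₀) (hne : Nat.card G ≠ p) : p < 6 ^ (g₀ - 1) := by
  classical
  have := Fact.mk hp
  have := Fintype.ofFinite G
  have hpG : p ∣ Nat.card G := hg ▸ ((dvd_pow_self p ha.ne').mul_right _).mul_right _
  have hna : ∃ a b : G, a * b ≠ b * a := by
    by_contra hc
    push Not at hc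
    letI : CommGroup G := { ‹Group G› with mul_comm := hc }
    exact hne ((Nat.prime_dvd_prime_iff_eq hp IsSimpleGroup.prime_card).1 hpG).symm
  obtain ⟨z, ho, hz⟩ := exists_pCentral hp hpG
  obtain ⟨M, hM⟩ := exists_isPModular hp
  obtain ⟨M', hM'⟩ := exists_isPModular hq
  obtain ⟨χ, hχ, hχ1, hχq⟩ : ∃ χ ∈ principalBlock M G, χ ≠ oneIrr G ∧
      ¬ q ∣ charDegree (χ : G → ℂ) := by
    by_contra hc
    push Not at hc
    have h := weak_block_orth hM (isV_blockIdem hM isPBlock_principalBlock) (x := 1) (y := z)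
      (by simpa using hp.one_lt.ne') (ho ▸ dvd_rfl)
    rw [← Finset.add_sum_erase _ _ (a := oneIrr G) (by simpa using oneIrr_mem_principalBlock hM),
      add_eq_zero_iff_eq_neg] at h
    have h2 := congrArg (val M') h
    simp only [coe_oneIrr, map_one, mul_one, Valuation.map_neg] at h2
    refine absurd h2 (val_sum_lt_one _ fun ψ hψ => ?_).ne'
    simp only [Finset.mem_erase, Finset.mem_filter, Finset.mem_univ, true_and] at hψ
    rw [map_mul, ← isIrr_inv ψ.2, ← irr_degree_cast]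
    exact mul_lt_one_of_lt_of_le ((val_natCast_lt_one_iff hM' _).2 (hc ψ hψ.2 hψ.1))
      (mem_V_iff.1 (irr_mem_V ψ _))
  obtain ⟨K, hKz⟩ : ∃ K, K = zpowers z := ⟨_, rfl⟩
  have hK : Nat.card K = p := by rw [hKz, Nat.card_zpowers, ho]
  have := Fintype.ofFinite K
  have := isCyclic_of_prime_card hK
  have hdG := irr_degree_dvd χ
  have hd1 := irr_degree_cast χ
  generalize charDegree (χ : G → ℂ) = d at hχq hdG hd1
  have hd0 : d ≠ 0 := fun e => irr_one_ne_zero χ (by rw [← hd1, e, Nat.cast_zero])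
  obtain ⟨n, hn, e⟩ := Constit.isChar_expand_nat (isChar_res K (irr_isChar χ))
  have h2 : ∀ ψ, p ^ d.factorization p ∣ n ψ := fun ψ =>
    pow_dvd_inner hM hK hd0 (fun k : K => by
      rw [hd1]
      refine val_sub_lt hM hχ fun c => hz (c.trans (index_dvd_of_le fun x hx => ?_))
      obtain ⟨m, hm⟩ : (k : G) ∈ zpowers z := hKz ▸ k.2
      rw [mem_centralizer_singleton_iff] at hx ⊢
      exact hm ▸ (Commute.zpow_right hx m).eq) ψ (hn ψ)
  have h3 : ∑ ψ, n ψ = d := by
    have := congrFun e 1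
    simp only [Finset.sum_apply, Pi.smul_apply, isIrr_degree_one_of_comm (Subtype.prop _),
      smul_eq_mul, mul_one] at this
    rw [show (χ : G → ℂ) 1 = _ from this] at hd1
    exact_mod_cast hd1.symm
  obtain ⟨T, hT⟩ : ∃ T : Finset (IrrCharacter K), ∀ ψ, ψ ∈ T ↔ n ψ ≠ 0 :=
    ⟨Finset.univ.filter fun ψ => n ψ ≠ 0, by simp⟩
  have h4 : T.card * p ^ d.factorization p ≤ d := by
    refine le_trans ?_ ((Finset.sum_le_sum_of_subset (Finset.subset_univ T)).trans h3.le)
    rw [← smul_eq_mul]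
    exact Finset.card_nsmul_le_sum _ _ _ fun ψ hψ =>
      Nat.le_of_dvd (Nat.pos_of_ne_zero ((hT ψ).1 hψ)) (h2 ψ)
  have h5 : d / p ^ d.factorization p ∣ g₀ := by
    have a1 := (Nat.ordCompl_dvd d p).trans (hdG.trans hg.dvd)
    refine Nat.Coprime.dvd_of_dvd_mul_left (Nat.Coprime.mul_right ?_ ?_) a1
    · exact (Nat.coprime_ordCompl hp hd0).symm.pow_right _
    · exact (((Nat.Prime.coprime_iff_not_dvd hq).2 hχq).symm.coprime_dvd_left
        (Nat.ordCompl_dvd d p)).pow_right _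
  have h6 : T.card ≤ g₀ := ((Nat.le_div_iff_mul_le (pow_pos hp.pos _)).2 h4).trans
    (Nat.le_of_dvd (Nat.pos_of_ne_zero fun e => hcop (e ▸ dvd_zero _)) h5)
  have h8 : classInner (χ : G → ℂ) (fun _ => 1) = 0 := by
    rw [← classInner_irr_ne hχ1, coe_oneIrr]
  have h7 := LinP.prime_le_six_pow hna (irr_isChar χ) h8 K hK T
    (fun ψ => by rw [hT, hn, Nat.cast_ne_zero]) (by
      by_contra c
      exact hd0 (h3.symm.trans (Finset.sum_eq_zero fun ψ _ => by_contra fun h => c ⟨ψ, (hT ψ).2 h⟩)))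
  refine lt_of_le_of_ne (h7.trans (Nat.pow_le_pow_right (by norm_num) (by omega))) fun c => ?_
  rcases Nat.eq_zero_or_pos (g₀ - 1) with c0 | c0
  · rw [c0] at c; exact hp.one_lt.ne' c
  · have a2 : 6 ∣ p := c ▸ dvd_pow_self 6 c0.ne'
    have := (Nat.dvd_prime hp).1 a2
    rcases this with h | h
    · omega
    · exact absurd (h ▸ hp) (by norm_num)

end Cfsg.Agent.S4484
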