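import Mathlib
import Cfsg.Statements.S4486
import Cfsg.Agent.Block.Leon
-- import your own Cfsg.Agent.* helpers here

set_option autoImplicit false
open Cfsg

namespace Cfsg.Agent.S4486

open Cfsg.Agent.Block Cfsg.Agent.Char Subgroup in

/-- Let G be a finite group and p a prime dividing its order such that every non-identity element of a Sylow p-subgroup P has the same centralizer as P; let p^n be the order of P. If G has a non-principal irreducible character χ of degree x with x² < p^n − 1, then either G has a proper normal subgroup containing P, or G has a normal subgroup of index p^n and x = 1. -/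
theorem result {G : Type*} [Group G] [Finite G] (p : ℕ) (hp : p.Prime) (hpG : p ∣ Nat.card G) (P : Sylow p G) (hstar : ∀ x ∈ (P : Subgroup G), x ≠ 1 → Subgroup.centralizer ({x} : Set G) = Subgroup.centralizer ((P : Subgroup G) : Set G)) (n : ℕ) (hn : Nat.card P = p ^ n) (χ : Cfsg.IrrCharacter G) (h1 : (χ : G → ℂ) ≠ fun _ => 1) (hdeg : Cfsg.charDegree (χ : G → ℂ) ^ 2 + 1 < p ^ n) : (∃ K : Subgroup G, K.Normal ∧ K ≠ ⊤ ∧ (P : Subgroup G) ≤ K) ∨ ((∃ N : Subgroup G, N.Normal ∧ N.index = p ^ n) ∧ Cfsg.charDegree (χ : G → ℂ) = 1) := by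
  have := Fintype.ofFinite G
  have := Fact.mk hp
  have h := star_sylow P hstar
  by_cases hk : (P : Subgroup G) ≤ charKer χ.1
  · exact Or.inl ⟨_, charKer_normal (irr_classFun χ),
      fun e => h1 (isIrr_eq_one_of_charKer_eq_top χ.2 e), hk⟩
  by_cases hg : normalClosure ((P : Subgroup G) : Set G) = ⊤
  swap
  · exact Or.inl ⟨_, inferInstance, hg, le_normalClosure⟩
  have hc := h.le_centralizer hg hk (hn ▸ hdeg)
  refine Or.inr ⟨⟨(MonoidHom.transferSylow P hc).ker, inferInstance,
    (MonoidHom.ker_transferSylow_isComplement' P hc).symm.index_eq_card.trans hn⟩, ?_⟩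
  have hi := Isaacs.ti_irr P h.ti le_rfl (Isaacs.irr_top.2 χ.2) (irr_degree_cast χ).symm
    (by omega)
  have := charCenter_normal (irr_classFun χ)
  have h2 : normalClosure ((P : Subgroup G) : Set G) ≤ charCenter χ.1 :=
    normalClosure_le_normal fun x hx => (mem_charCenter_iff (irr_isChar χ)).2
      (hi.norm_of_comm (le_normalizer hx) fun g hg => by
        rw [commutatorElement_eq_one_iff_mul_comm.2 (hc hg x hx).symm])
  have h3 := classInner_self χ.1
  rw [classInner_irr_self, Finset.sum_congr rfl fun g _ => by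
    rw [(mem_charCenter_iff (irr_isChar χ)).1 (h2 (hg ▸ mem_top g))], Finset.sum_const,
    Finset.card_univ, ← Nat.card_eq_fintype_card, nsmul_eq_mul,
    inv_mul_cancel_left₀ (Nat.cast_ne_zero.2 Nat.card_pos.ne'), ← irr_degree_cast,
    Complex.norm_natCast] at h3
  have h4 : 1 = charDegree χ.1 ^ 2 := by exact_mod_cast h3
  exact (pow_eq_one_iff.1 h4.symm).resolve_right two_ne_zero

end Cfsg.Agent.S4486
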