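import Mathlib
import Cfsg.Statements.S4487
import Cfsg.Agent.Block.Kernel
import Cfsg.Agent.Core.Cores

set_option autoImplicit false
open Cfsg

namespace Cfsg.Agent.S4487

open Cfsg.Agent.Block Cfsg.Agent.Char

/-- Let G be a finite group and p a prime such that G has no non-trivial normal subgroup of order prime to p and C_G(O_p(G)) ≤ O_p(G). Then G has a single p-block: any two irreducible characters lie in the same block relative to every maximal ideal M of the algebraic integers containing p. -/
theorem result {G : Type*} [Group G] [Finite G] (p : ℕ) [Fact p.Prime] (M : Ideal Cfsg.AlgInt) (hM : Cfsg.IsPModular p M) (hcore : Cfsg.pPrimeCore p G = ⊥) (hconstr : Subgroup.centralizer ((Cfsg.pCore p G) : Set G) ≤ Cfsg.pCore p G) (χ ψ : Cfsg.IrrCharacter G) : Cfsg.SameBlock M (χ : G → ℂ) (ψ : G → ℂ) := by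
  have hP : IsPGroup p (pCore p G) := Cfsg.Agent.Core.pCore_isPGroup p
  have h := block_eq_univ_of_centralizer_le hM hP (hP.to_le hconstr) (isPBlock_blockOf (M := M) χ)
  exact mem_blockOf.1 (h ▸ Set.mem_univ ψ)

end Cfsg.Agent.S4487
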