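import Mathlib
import Cfsg.Statements.S4489
import Cfsg.Agent.Isaacs.Roq
import Cfsg.Agent.Block.Omega
-- import your own Cfsg.Agent.* helpers here

set_option autoImplicit false
open Cfsg

namespace Cfsg.Agent.S4489

open Cfsg.Agent.Char Cfsg.Agent.Isaacs Cfsg.Agent.Core Subgroup MulAction

/-- Let P be a finite p-group of order p^a with a > 0, and χ a faithful irreducible character of P of degree f whose field of values ℚ(χ) has degree (p − 1)·p^t over ℚ. Then a ≤ (f − 1)/(p − 1) + (t + 1)·f; in integer form, (p − 1)·a ≤ (f − 1) + (p − 1)(t + 1)·f. -/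
theorem result {P : Type*} [Group P] [Finite P] (p a : ℕ) (hp : p.Prime) (ha : 0 < a) (hP : Nat.card P = p ^ a) (χ : Cfsg.IrrCharacter P) (hfaith : ∀ g : P, (χ : P → ℂ) g = (χ : P → ℂ) 1 → g = 1) (f t : ℕ) (hf : Cfsg.charDegree (χ : P → ℂ) = f) (hfield : Module.finrank ℚ (IntermediateField.adjoin ℚ (Set.range (χ : P → ℂ))) = (p - 1) * p ^ t) : (p - 1) * a ≤ (f - 1) + (p - 1) * (t + 1) * f := by
  have := Fact.mk hp
  have h := irr_top.mpr χ.2
  set F := IntermediateField.adjoin ℚ (Set.range (χ : P → ℂ))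
  have : FiniteDimensional ℚ F := Module.finite_of_finrank_pos (by
    rw [hfield]; exact Nat.mul_pos (Nat.sub_pos_of_lt hp.one_lt) (pow_pos hp.pos t))
  let v : (F →ₐ[ℚ] ℂ) → P → ℂ := fun τ g => τ ⟨_, IntermediateField.subset_adjoin ℚ _ ⟨g, rfl⟩⟩
  have e : orbit (RingAut ℂ) (χ : P → ℂ) ⊆ Set.range v := by
    rintro _ ⟨σ, rfl⟩
    exact ⟨(σ.toRingHom.comp F.val.toRingHom).toRatAlgHom, rfl⟩
  have := order_bound (p := p) (t := t) (Δ := stabilizer (RingAut ℂ) (χ : P → ℂ)) (by
    rw [index_stabilizer]; exact Set.ncard_ne_zero_of_mem (mem_orbit_self _) ((Set.finite_range v).subset e)) (by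
    rw [index_stabilizer, ← hfield, ← AlgHom.natCard_of_splits ℚ F ℂ fun _ => IsAlgClosed.splits _]
    exact (Set.ncard_le_ncard e (Set.finite_range v)).trans (Finite.card_range_le v)) P (IsPGroup.of_card hP) χ h
    (fun σ i g => congrFun i g) a f (by
      rw [show kerS ⊤ (χ : P → ℂ) = ⊥ from eq_bot_iff.mpr fun g i => hfaith g (h.chr.mem_kerS.mp i).2, index_bot, hP])
    (by rw [← hf, Block.irr_degree_cast])
  have f0 := hf ▸ Block.irr_degree_ne_zero χ
  omega

end Cfsg.Agent.S4489
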