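import Mathlib
import Cfsg.Statements.S4491
import Cfsg.Agent.Block.Rank

set_option autoImplicit false
open Cfsg

namespace Cfsg.Agent.S4491

open Cfsg.Agent.Block Cfsg.Agent.Char
open scoped ComplexConjugate

/-- Let B be a p-block of defect d of the finite group G (relative to a maximal ideal M of the algebraic integers containing p), and let p^a be the p-part of the order of G. Then the exact power of p dividing the sum of the squares of the degrees of the irreducible characters in B is p^(2a − d). -/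
theorem result {G : Type*} [Group G] [Finite G] (p : ℕ) [Fact p.Prime] (M : Ideal Cfsg.AlgInt) (hM : Cfsg.IsPModular p M) (B : Set (Cfsg.IrrCharacter G)) (hB : Cfsg.IsPBlock M B) : (∑ᶠ χ ∈ B, Cfsg.charDegree (χ : G → ℂ) ^ 2).factorization p = 2 * (Nat.card G).factorization p - Cfsg.blockDefect p B := by
  classical
  have := Fintype.ofFinite G
  have hp := hM.1
  have hV := isV_blockIdem hM hB
  obtain ⟨χ₀, hχ₀⟩ := block_nonempty hM hB
  set η : G → ℂ := fun x => blockCoeff B x⁻¹ with hη
  have hη' : η = ∑ χ : IrrCharacter G with χ ∈ B,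
      ((Nat.card G : ℂ)⁻¹ * (χ : G → ℂ) 1) • (χ : G → ℂ) := by
    funext x
    rw [hη]
    simp only [blockCoeff_eq_sum, Finset.mul_sum, Finset.sum_apply, Pi.smul_apply, smul_eq_mul]
    refine Finset.sum_congr rfl fun χ _ => ?_
    rw [isChar_inv (irr_isChar χ), Complex.conj_conj, mul_assoc]
  have hηc : IsClassFunction G η := hη' ▸ classFun_sum_smul_irr _ _
  have hηr : pRegularPart p η = η := by
    funext x
    rw [pRegularPart_apply]
    split_ifs with h
    · exact (blockCoeff_eq_zero_of_dvd hM hV (by rwa [orderOf_inv])).symm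
    · rfl
  obtain ⟨θ, hθ, hθB, hθr⟩ := exists_mem_VC_pReg_eq hM hV hηc
    (fun x _ => blockCoeff_mem_V hM hB _) (by
      rw [hηr, blockPart_eq_sum_smul]
      conv_rhs => rw [hη']
      refine Finset.sum_congr rfl fun χ hχ => ?_
      rw [hη', classInner_sum_smul_irr, if_pos hχ])
  obtain ⟨x, hx⟩ := exists_isDefectClass hM hB
  have hxr := isDefectClass_regular hM hB hx
  have hC : Subgroup.centralizer ({x⁻¹} : Set G) = Subgroup.centralizer ({x} : Set G) := by
    ext y
    simp only [Subgroup.mem_centralizer_singleton_iff]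
    exact ⟨fun h => (Commute.inv_right_iff.1 h), fun h => Commute.inv_right h⟩
  have hd := factorization_centralizer_of_isDefectClass hM hB hx
  set c : ℂ := (Nat.card (Subgroup.centralizer ({x} : Set G)) : ℂ) with hc
  have hvc : val M c = val M (p : ℂ) ^ blockDefect p B := by
    rw [hc, val_natCast hM Nat.card_pos.ne', hd]
  have hc0 : c ≠ 0 := card_ne_zero
  have hG0 : (Nat.card G : ℂ) ≠ 0 := card_ne_zero
  have hu : ∀ χ ∈ B, (χ : G → ℂ) 1 * c / Nat.card G ∈ V M := fun χ hχ => by
    have h1 := val_pow_mul_degree_div hM χ (factorization_degree_add_defect (p := p) hχ)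
    rw [mem_V_iff, mul_div_right_comm, map_mul, hvc, mul_comm, ← map_pow, ← map_mul, h1]
    exact pow_le_one' (val_p_lt_one hM).le _
  have hval : ∀ χ : IrrCharacter G, (χ : G → ℂ) x⁻¹ =
      centralChar (χ : G → ℂ) x⁻¹ * ((χ : G → ℂ) 1 * c / Nat.card G) := fun χ => by
    rw [centralChar_eq_div, hC, ← hc]
    have := irr_one_ne_zero χ
    field_simp
  have h1 : θ x⁻¹ = blockCoeff B x := by
    rw [← pRegularPart_of_not_dvd (p := p) (χ := θ) (by rwa [orderOf_inv]), hθr, hηr, hη]
    simp only [inv_inv]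
  have h2 : θ 1 = blockCoeff B 1 := by
    rw [← pRegularPart_of_not_dvd (p := p) (χ := θ) (by rw [orderOf_one]; exact hp.not_dvd_one),
      hθr, hηr, hη]
    simp only [inv_one]
  have hin : ∀ χ : IrrCharacter G, classInner θ χ ∈ V M := fun χ =>
    inner_mem_V_of_mem_VC hθ (irr_isChar χ)
  have h3 : θ 1 * c / Nat.card G = ∑ χ : IrrCharacter G with χ ∈ B,
      classInner θ χ * ((χ : G → ℂ) 1 * c / Nat.card G) := by
    conv_lhs => rw [← hθB, blockPart_eq_sum]
    rw [Finset.sum_mul, Finset.sum_div]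
    exact Finset.sum_congr rfl fun χ _ => by ring
  have h4 : θ 1 * c / Nat.card G ∈ V M := by
    rw [h3]
    exact sum_mem fun χ hχ => mul_mem (hin χ) (hu χ (Finset.mem_filter.1 hχ).2)
  have h5 : red M (θ x⁻¹) =
      red M (centralChar (χ₀ : G → ℂ) x⁻¹) * red M (θ 1 * c / Nat.card G) := by
    rw [h3, red_sum _ fun χ hχ => mul_mem (hin χ) (hu χ (Finset.mem_filter.1 hχ).2),
      Finset.mul_sum]
    conv_lhs => rw [← hθB, blockPart_eq_sum]
    rw [red_sum _ fun χ _ => mul_mem (hin χ) (irr_mem_V χ _)]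
    refine Finset.sum_congr rfl fun χ hχ => ?_
    have hχ' := (Finset.mem_filter.1 hχ).2
    rw [hval χ, red_mul (hin χ) (mul_mem (centralChar_mem_V χ _) (hu χ hχ')),
      red_mul (centralChar_mem_V χ _) (hu χ hχ'), red_mul (hin χ) (hu χ hχ'),
      (sameBlock_iff_red hM χ χ₀).1 (block_sameBlock hM hB hχ' hχ₀)]
    ring
  have h6 : val M (θ 1 * c / Nat.card G) = 1 := by
    rw [← red_ne_zero_iff h4]
    intro h
    rw [h, mul_zero, h1, ← coeff_eB] at h5
    exact ((isDefectClass_iff hM hB hχ₀ x).1 hx).1 h5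
  set n := ∑ᶠ χ ∈ B, charDegree (χ : G → ℂ) ^ 2 with hn
  have h7 : blockCoeff B 1 = (Nat.card G : ℂ)⁻¹ * n := by
    rw [blockCoeff_eq_sum, hn, finsum_mem_irr]
    push_cast
    congr 1
    refine Finset.sum_congr rfl fun χ _ => ?_
    rw [isChar_conj_one (irr_isChar χ), irr_degree_cast, sq]
  have hn0 : n ≠ 0 := by
    intro h
    rw [h2, h7, h] at h6
    simp at h6
  rw [h2, h7, map_div₀, map_mul, map_mul, map_inv₀, hvc, val_natCast hM hn0,
    val_natCast hM Nat.card_pos.ne'] at h6
  have h0 := val_p_ne_zero hM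
  have h8 : val M (p : ℂ) ^ (n.factorization p + blockDefect p B) =
      val M (p : ℂ) ^ (2 * (Nat.card G).factorization p) := by
    field_simp at h6
    rw [pow_add, h6, mul_comm, pow_mul]
  have := (val_p_pow_inj hM).1 h8
  omega

end Cfsg.Agent.S4491
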