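import Mathlib
import Cfsg.Statements.S4731
import Cfsg.Agent.Block.Form

set_option autoImplicit false
open Cfsg

namespace Cfsg.Agent.S4731

open Cfsg.Agent.Block Cfsg.Agent.Char Subgroup

theorem not_dvd_of {G : Type*} [Group G] [Finite G] {p q : ℕ} (hp : p.Prime) (hq : q.Prime)
    (hpq : p ≠ q) (hno : ∀ g : G, orderOf g ≠ p * q) {g : G} (h : q ∣ orderOf g) :
    ¬ p ∣ orderOf g := by
  intro h'
  have hd : p * q ∣ orderOf g :=
    Nat.Coprime.mul_dvd_of_dvd_of_dvd ((Nat.coprime_primes hp hq).2 hpq) h' h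
  refine hno (g ^ (orderOf g / (p * q))) ?_
  exact orderOf_pow_orderOf_div (orderOf_pos g).ne' hd

/-- Let p ≠ q be primes, M_p and M_q maximal ideals of the algebraic integers containing p and q respectively, and G a finite group with no element of order pq; let q^b be the q-part of the order of G. For a p-block B_p (relative to M_p), a q-block B_q (relative to M_q) and a p-singular element y, the sum of χ(1)χ(y) over the irreducible characters χ lying in both B_p and B_q is q^b times an algebraic integer. -/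
theorem result {G : Type*} [Group G] [Finite G] (p q : ℕ) [Fact p.Prime] [Fact q.Prime] (hpq : p ≠ q) (Mp Mq : Ideal Cfsg.AlgInt) (hMp : Cfsg.IsPModular p Mp) (hMq : Cfsg.IsPModular q Mq) (hno : ∀ g : G, orderOf g ≠ p * q) (b : ℕ) (hb : (Nat.card G).factorization q = b) (Bp : Set (Cfsg.IrrCharacter G)) (hBp : Cfsg.IsPBlock Mp Bp) (Bq : Set (Cfsg.IrrCharacter G)) (hBq : Cfsg.IsPBlock Mq Bq) (y : G) (hy : p ∣ orderOf y) : ∃ ω : Cfsg.AlgInt, ∑ᶠ χ ∈ Bp ∩ Bq, (Cfsg.charDegree (χ : G → ℂ) : ℂ) * (χ : G → ℂ) y = (q : ℂ) ^ b * (ω : ℂ) := by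
  classical
  have := Fintype.ofFinite G
  have hp := hMp.1
  have hq := hMq.1
  let θ : G → ℂ := ∑ χ : IrrCharacter G with χ ∈ Bp, (χ : G → ℂ) y • (χ : G → ℂ)
  have hθc : IsClassFunction G θ := classFun_sum_smul_irr _ _
  have hθ0 : ∀ g, q ∣ orderOf g → θ g = 0 := by
    intro g hg
    have h1 := weak_block_orth hMp (isV_blockIdem hMp hBp) (x := g) (y := y⁻¹)
      (not_dvd_of hp hq hpq hno hg) (by rwa [orderOf_inv])
    rw [← h1]
    simp only [θ, Finset.sum_apply, Pi.smul_apply, smul_eq_mul]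
    refine Finset.sum_congr rfl fun χ _ => ?_
    rw [← isIrr_inv χ.2, inv_inv, mul_comm]
  have hin : ∀ ψ : IrrCharacter G, classInner θ ψ = if ψ ∈ Bp then (ψ : G → ℂ) y else 0 := by
    intro ψ
    rw [classInner_sum_smul_irr]
    simp
  have hreg : pRegularPart q θ = θ := by
    funext g
    rw [pRegularPart_apply]
    split_ifs with h
    · exact (hθ0 g h).symm
    · rfl
  have h0 : ∀ g, q ∣ orderOf g → blockPart Bq θ g = 0 := by
    intro g hg
    rw [← hreg, blockPart_pRegularPart hMq (isV_blockIdem hMq hBq), pRegularPart_of_dvd hg]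
  have hint : ∀ ψ : IrrCharacter G, IsIntegral ℤ (classInner (blockPart Bq θ) ψ) := by
    intro ψ
    rw [classInner_blockPart, hin]
    split_ifs
    · exact isIrr_isIntegral ψ.2 y
    · exact isIntegral_zero
    · exact isIntegral_zero
  have e : ∑ᶠ χ ∈ Bp ∩ Bq, (charDegree (χ : G → ℂ) : ℂ) * (χ : G → ℂ) y = blockPart Bq θ 1 := by
    rw [finsum_mem_irr, blockPart_eq_sum, Finset.sum_filter, Finset.sum_filter]
    refine Finset.sum_congr rfl fun χ _ => ?_
    rw [hin, irr_degree_cast]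
    by_cases h1 : χ ∈ Bp <;> by_cases h2 : χ ∈ Bq <;> simp [h1, h2, mul_comm]
  have hq0 : ((q : ℂ) ^ b) ≠ 0 := pow_ne_zero _ (Nat.cast_ne_zero.2 hq.ne_zero)
  have hI : IsIntegral ℤ (blockPart Bq θ 1 / (q : ℂ) ^ b) := by
    refine isIntegral_of_forall_mem_V (n := q ^ b) (pow_ne_zero _ hq.ne_zero) ?_ ?_
    · rw [Nat.cast_pow, mul_div_cancel₀ _ hq0]
      exact isIntegral_apply_of_mem_IntC (mem_IntC_of_inner (classFun_blockPart _ _) hint) 1
    · intro r M hM hr
      obtain rfl : r = q := (Nat.prime_dvd_prime_iff_eq hM.1 hq).1 (hM.1.dvd_of_dvd_pow hr)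
      have k := val_div_card_centralizer_le hM (classFun_blockPart Bq θ) h0 (γ := 1)
        (fun χ => val_le_one_of_isIntegral M (hint χ)) 1
      rw [map_div₀, val_natCast hM Nat.card_pos.ne'] at k
      rw [mem_V_iff, map_div₀, map_pow, ← hb]
      have : centralizer ({1} : Set G) = ⊤ := by
        ext x; simp [mem_centralizer_singleton_iff]
      rwa [this, Subgroup.card_top] at k
  refine ⟨⟨_, hI⟩, ?_⟩
  rw [e]
  change _ = _ * (_ / _)
  rw [mul_div_cancel₀ _ hq0]

end Cfsg.Agent.S4731
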