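import Mathlib
import Cfsg.Statements.S4498
import Cfsg.Agent.S4731

set_option autoImplicit false
open Cfsg

namespace Cfsg.Agent.S4498

open Cfsg.Agent.Block Cfsg.Agent.Char Subgroup

/-- Let p and q be distinct primes dividing the order of the finite group G, and suppose G has no element of order p·q. Fix maximal ideals M_p over p and M_q over q of the algebraic integers. Then the principal p-block and the principal q-block of G have a non-principal irreducible character in common. -/
theorem result {G : Type*} [Group G] [Finite G] (p q : ℕ) [Fact p.Prime] [Fact q.Prime] (hpq : p ≠ q) (hp : p ∣ Nat.card G) (hq : q ∣ Nat.card G) (hno : ∀ g : G, orderOf g ≠ p * q) (Mp Mq : Ideal Cfsg.AlgInt) (hMp : Cfsg.IsPModular p Mp) (hMq : Cfsg.IsPModular q Mq) : ∃ χ : Cfsg.IrrCharacter G, (χ : G → ℂ) ≠ (fun _ => 1) ∧ χ ∈ Cfsg.principalBlock Mp G ∧ χ ∈ Cfsg.principalBlock Mq G := by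
  classical
  have hq' := hMq.1
  obtain ⟨y, hy⟩ := exists_prime_orderOf_dvd_card' p hp
  obtain ⟨ω, h⟩ := S4731.result p q hpq Mp Mq hMp hMq hno _ rfl _ isPBlock_principalBlock _
    isPBlock_principalBlock y (by rw [hy])
  by_contra hcon
  push Not at hcon
  have e : principalBlock Mp G ∩ principalBlock Mq G = {oneIrr G} := by
    ext χ
    constructor
    · intro hχ
      by_contra hne
      exact hcon χ (fun e => hne (Subtype.ext e)) hχ.1 hχ.2
    · rintro rfl
      exact ⟨oneIrr_mem_principalBlock hMp, oneIrr_mem_principalBlock hMq⟩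
  rw [e, finsum_mem_singleton, irr_degree_cast, coe_oneIrr, one_mul] at h
  beta_reduce at h
  have h1 : val Mq (1 : ℂ) < 1 := by
    rw [h]
    refine val_mul_lt_one_left ?_ (algInt_mem_V Mq ω)
    rw [map_pow]
    exact pow_lt_one₀ zero_le (val_p_lt_one hMq)
      (hq'.factorization_pos_of_dvd Nat.card_pos.ne' hq).ne'
  simp at h1

end Cfsg.Agent.S4498
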