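import Mathlib
import Cfsg.Statements.S4502
import Cfsg.Agent.Block.Cyc5
-- import your own Cfsg.Agent.* helpers here

set_option autoImplicit false
open Cfsg

namespace Cfsg.Agent.S4502

open Cfsg.Agent.Block Cfsg.Agent.Char Cfsg.Agent.LocalEven Subgroup in
theorem defect_of_not_dvd {G : Type*} [Group G] [Finite G] {p : ℕ} [Fact p.Prime] {M : Ideal AlgInt}
    (hM : IsPModular p M) (P : Sylow p G) {χ : IrrCharacter G}
    (h : ¬ p ∣ charDegree (χ : G → ℂ)) : IsDefectGroup p M (blockOf M (χ : G → ℂ)) P := by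
  have hB := isPBlock_blockOf (M := M) χ
  obtain ⟨D, hD⟩ := exists_isDefectGroup hM hB
  have h1 := factorization_degree_add_defect (p := p) (self_mem_blockOf hM χ)
  rw [blockHeight_eq_zero_of_not_dvd h, Nat.factorization_eq_zero_of_not_dvd h, zero_add,
    add_zero] at h1
  obtain ⟨Q, hQ⟩ := (isDefectGroup_isPGroup hD).exists_le_sylow
  obtain rfl : D = Q := eq_of_le_of_card_ge hQ (by
    rw [card_defectGroup hM hB hD, h1, Q.card_eq_multiplicity])
  obtain ⟨g, rfl⟩ := MulAction.exists_smul_eq G Q P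
  exact isDefectGroup_cj hD g

open Cfsg.Agent.Block Cfsg.Agent.Char Subgroup in

/-- Let G be a finite group whose order is divisible by the prime p exactly once, and let P be a Sylow p-subgroup. Then the number of irreducible characters of G of degree not divisible by p equals the number of conjugacy classes of the normalizer of P. -/
theorem result {G : Type*} [Group G] [Finite G] (p : ℕ) [Fact p.Prime] (hdiv : p ∣ Nat.card G) (hsq : ¬ p ^ 2 ∣ Nat.card G) (P : Sylow p G) : Nat.card {χ : Cfsg.IrrCharacter G // ¬ p ∣ Cfsg.charDegree (χ : G → ℂ)} = Nat.card (ConjClasses (Subgroup.normalizer ((P : Subgroup G) : Set G))) := by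
  classical
  have hp : p.Prime := Fact.out
  obtain ⟨M, hM⟩ := exists_isPModular hp
  have hν : (Nat.card G).factorization p = 1 := le_antisymm
    (Nat.lt_succ_iff.1 (not_le.1 fun h => hsq ((hp.pow_dvd_iff_le_factorization Nat.card_pos.ne').2 h)))
    ((hp.dvd_iff_one_le_factorization Nat.card_pos.ne').1 hdiv)
  have hP : Nat.card P = p := by rw [P.card_eq_multiplicity, hν, pow_one]
  have hZ : CycP p (P : Subgroup G) P :=
    ⟨hp, P.isPGroup', isCyclic_of_prime_card hP, le_rfl, hP⟩
  set N := normalizer ((P : Subgroup G) : Set G) with hN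
  have key : ∀ b : Set (IrrCharacter N), ∃ (B : Set (IrrCharacter G)) (I : _ → _), IsPBlock M b →
      IsInducedBlock M N b B ∧ IsDefectGroup p M b ((P : Subgroup G).subgroupOf N) ∧
      Set.BijOn I b B ∧ ∀ χ ∈ B, ¬ p ∣ charDegree (χ : G → ℂ) := fun b => by
    by_cases hb : IsPBlock M b
    swap
    · exact ⟨∅, fun _ => oneIrr G, fun h => absurd h hb⟩
    obtain ⟨B, hB⟩ := exists_induced hM P.isPGroup' le_normalizer (centralizer_le_normalizer _)
      le_rfl hb
    obtain ⟨D, hD⟩ := exists_isDefectGroup hM hb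
    have h1 : (P : Subgroup G).subgroupOf N ≤ D :=
      normal_le_defect hM hb hD (P.subtype le_normalizer).isPGroup'
    obtain rfl : D = (P : Subgroup G).subgroupOf N :=
      (P.subtype le_normalizer).is_maximal' (isDefectGroup_isPGroup hD) h1
    have h2 := first_main_defect hM hB hD
    obtain ⟨d, c, h3, h4, hd, hc, he⟩ := exists_max_lift hM hB h2 le_rfl hD
    have h5 : Nat.card c.1 = p := by
      rw [h4, Nat.card_congr (subgroupOfEquivOfLe le_normalizer).toEquiv, hP]
    obtain ⟨I, ε, h⟩ := cyc_perfect hM hd (h3 ▸ hZ) hc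
      ⟨hp, hc.bp.1, isCyclic_of_prime_card h5, le_rfl, h5⟩ (by rw [h5, h3, hP]) he
    refine ⟨B, I, fun _ => ⟨hB, hD, h.1, fun χ hχ h6 => ?_⟩⟩
    have h7 := factorization_degree_add_defect (p := p) hχ
    have h8 := card_defectGroup hM hB.2.1 h2
    rw [hP, eq_comm, Nat.pow_eq_self_iff hp.one_lt] at h8
    have := Fintype.ofFinite G
    have := (h3 ▸ hZ : CycP p d.1 P).nontrivial
    obtain ⟨E, Δ, h9, h10⟩ := exists_locSys_cyc hM hd (h3 ▸ hZ)
    rw [(h9.structure_of_rank hM (h10 ▸ cyc_le_blockRank hM hd (h3 ▸ hZ)) (n := 0) (by simp)).1 χ hχ,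
      h8, hν] at h7
    have := (hp.dvd_iff_one_le_factorization (irr_degree_ne_zero χ)).1 h6
    omega
  choose B I h using key
  replace h := fun η : IrrCharacter N => h _ (isPBlock_blockOf (M := M) η)
  have hm := fun η : IrrCharacter N => (h η).2.2.1.1 (self_mem_blockOf hM η)
  rw [← card_irr_eq_card_conjClasses]
  refine (Nat.card_congr (Equiv.ofBijective (fun η : IrrCharacter N =>
    (⟨I _ η, (h η).2.2.2 _ (hm η)⟩ : {χ : IrrCharacter G // ¬ p ∣ charDegree (χ : G → ℂ)}))
    ⟨fun η η' e => ?_, ?_⟩)).symm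
  · have e' : I _ η = I _ η' := congrArg Subtype.val e
    have h1 := block_eq_of_mem hM (h η).1.2.1 (h η').1.2.1 (hm η) (e' ▸ hm η')
    have h2 := first_main_unique hM (h η).1 (h1 ▸ (h η').1) (h η).2.1
    rw [← h2] at e'
    exact (h η).2.2.1.2.1 (self_mem_blockOf hM η) (h2 ▸ self_mem_blockOf hM η') e'
  · rintro ⟨χ, hχ⟩
    obtain ⟨b, hb, -⟩ := first_main_exists hM (isPBlock_blockOf χ) (defect_of_not_dvd hM P hχ)
    obtain ⟨ξ, rfl⟩ := hb.1
    obtain ⟨η, hη, e⟩ := (h ξ).2.2.1.2.2 (induced_unique hM hb (h ξ).1 ▸ self_mem_blockOf hM χ)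
    exact ⟨η, Subtype.ext (by rwa [blockOf_eq_of_sameBlock hM hη] at e)⟩

end Cfsg.Agent.S4502
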