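import Mathlib
import Cfsg.Statements.S4505
import Cfsg.Agent.Block.Robin

set_option autoImplicit false
open Cfsg

namespace Cfsg.Agent.S4505

open Cfsg.Agent.Block Cfsg.Agent.Char Subgroup

/-- Let G be a finite group, p a prime and M a maximal ideal of the algebraic integers containing p. For every σ, the number of p-blocks of defect exactly σ is at most the number of conjugacy classes of p-regular elements whose centralizer has order divisible by p^σ but not by p^(σ+1). -/
theorem result {G : Type*} [Group G] [Finite G] (p : ℕ) [Fact p.Prime] (M : Ideal Cfsg.AlgInt) (hM : Cfsg.IsPModular p M) (σ : ℕ) : Nat.card {B : Set (Cfsg.IrrCharacter G) // Cfsg.IsPBlock M B ∧ Cfsg.blockDefect p B = σ} ≤ Nat.card {C : ConjClasses G // ∃ g : G, ConjClasses.mk g = C ∧ ¬ p ∣ orderOf g ∧ (Nat.card (Subgroup.centralizer ({g} : Set G))).factorization p = σ} := by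
  classical
  set κ := {B : Set (IrrCharacter G) // IsPBlock M B ∧ blockDefect p B = σ}
  set ι := {C : ConjClasses G // ∃ g : G, ConjClasses.mk g = C ∧ ¬ p ∣ orderOf g ∧
    (Nat.card (Subgroup.centralizer ({g} : Set G))).factorization p = σ}
  have := Fintype.ofFinite ι
  have := Fintype.ofFinite κ
  choose x hx h1 h2 using fun i : ι => i.2
  rw [Nat.card_eq_fintype_card, Nat.card_eq_fintype_card]
  refine card_le_of_det_mul_ne_zero (K := F M)
    (Matrix.of fun (B : κ) (i : ι) => lamB M B.1 (classSum (F M) (x i)))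
    (Matrix.of fun (i : ι) (B : κ) => (eB M B.1).coeff (x i))
    (ne_of_eq_of_ne (congrArg Matrix.det (?_ : _ = (1 : Matrix κ κ (F M)))) (by simp))
  ext B B'
  obtain ⟨D, hD⟩ := exists_isDefectGroup hM B.2.1
  have h3 := sum_coeff_eB_mul_lamB hM B.2.1 B'.2.1 (by rw [B.2.2, B'.2.2]) hD x (fun i j h =>
    Subtype.ext (by rw [← hx, ← hx]; exact ConjClasses.mk_eq_mk_iff_isConj.2 h)) fun g hg hS =>
      ⟨⟨_, g, rfl, hg, by
        have h4 := hS.card_eq
        rw [card_defectGroup hM B.2.1 hD, B.2.2] at h4
        exact (Nat.pow_right_injective hM.1.two_le h4).symm⟩,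
        ConjClasses.mk_eq_mk_iff_isConj.1 (hx _)⟩
  rw [Matrix.mul_apply, Matrix.one_apply]
  simp only [Matrix.of_apply, mul_comm (lamB _ _ _), h3]
  exact if_congr Subtype.ext_iff.symm rfl rfl

end Cfsg.Agent.S4505
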