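import Mathlib
import Cfsg.Statements.S4506
import Cfsg.Agent.Isaacs.Amb2
import Cfsg.Agent.Block.Height
import Cfsg.Agent.Block.Brauer
import Cfsg.Agent.Block.Ind
import Cfsg.Agent.S0928
-- import your own Cfsg.Agent.* helpers here

set_option autoImplicit false
open Cfsg

namespace Cfsg.Agent.S4506

open Cfsg.Agent.Char Cfsg.Agent.Isaacs Cfsg.Agent.Core Cfsg.Agent.Block Subgroup MulAction
open scoped ComplexConjugate

/-- Let G be a finite group, p a prime, p^a the p-part of the order of G and g′ its p′-part. Call two irreducible characters p-conjugate when one is obtained from the other by applying a field automorphism of ℂ that fixes the g′-th roots of unity, and let r be the number of characters p-conjugate to the irreducible character χ (χ included). Then the exponent of p in r·χ(1) is at most a; and if p^a divides r·χ(1) then p^a already divides χ(1). -/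
theorem result {G : Type*} [Group G] [Finite G] (p : ℕ) (hp : p.Prime) (χ : Cfsg.IrrCharacter G) (r : ℕ) (hr : Nat.card {ψ : Cfsg.IrrCharacter G // ∃ σ : ℂ ≃+* ℂ, σ (Complex.exp (2 * Real.pi * Complex.I / ((Nat.card G / p ^ (Nat.card G).factorization p) : ℕ))) = Complex.exp (2 * Real.pi * Complex.I / ((Nat.card G / p ^ (Nat.card G).factorization p) : ℕ)) ∧ (ψ : G → ℂ) = fun g => σ ((χ : G → ℂ) g)} = r) : (r * Cfsg.charDegree (χ : G → ℂ)).factorization p ≤ (Nat.card G).factorization p ∧ (p ^ (Nat.card G).factorization p ∣ r * Cfsg.charDegree (χ : G → ℂ) → p ^ (Nat.card G).factorization p ∣ Cfsg.charDegree (χ : G → ℂ)) := by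
  classical
  have := Fintype.ofFinite G
  have := Fact.mk hp
  set a := (Nat.card G).factorization p
  set m := Nat.card G / p ^ a
  have hm : p ^ a * m = Nat.card G := Nat.ordProj_mul_ordCompl_eq_self _ _
  have m0 : m ≠ 0 := fun e => Nat.card_pos.ne' (by rw [← hm, e, mul_zero])
  have pm : ¬ p ∣ m := Nat.not_dvd_ordCompl hp Nat.card_pos.ne'
  have hζ := Complex.isPrimitiveRoot_exp m m0
  set ζ := Complex.exp (2 * Real.pi * Complex.I / m)
  let O : Finset (IrrCharacter G) := Finset.univ.filter fun ψ => ∃ σ : ℂ ≃+* ℂ, σ ζ = ζ ∧ (ψ : G → ℂ) = fun g => σ ((χ : G → ℂ) g)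
  have hO : ∀ ψ, ψ ∈ O ↔ ∃ σ : ℂ ≃+* ℂ, σ ζ = ζ ∧ (ψ : G → ℂ) = fun g => σ ((χ : G → ℂ) g) := fun ψ => by simp [O]
  have hr' : O.card = r := by rw [← hr, ← Nat.card_eq_finsetCard]; exact Nat.card_congr (Equiv.subtypeEquivRight hO)
  have h1 : ∀ ψ ∈ O, ∀ g, ¬ p ∣ orderOf g → (ψ : G → ℂ) g = (χ : G → ℂ) g := fun ψ hψ g hg => by
    obtain ⟨σ, u, v⟩ := (hO ψ).mp hψ
    have := NeZero.mk m0
    rw [v, ← pow_one g]
    refine (congrArg σ (by rw [pow_one])).trans (Galois.isChar_map_eq_pow σ.toRingHom (irr_isChar χ) fun z hz => ?_)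
    obtain ⟨i, -, rfl⟩ := hζ.eq_pow_of_pow_eq_one (ξ := z) (by
      obtain ⟨k, hk⟩ := ((hp.coprime_iff_not_dvd.mpr hg).symm.pow_right a).dvd_of_dvd_mul_left (hm ▸ orderOf_dvd_natCard g)
      rw [hk, pow_mul, hz, one_pow])
    rw [map_pow, pow_one]; exact congrArg (· ^ i) u
  set θ := pRegularPart p (χ : G → ℂ) with hθ
  have h2 : ∀ f : G → ℂ, (∀ g, ¬ p ∣ orderOf g → f g = (χ : G → ℂ) g) → classInner θ f = classInner θ χ := fun f e => by
    rw [classInner_def, classInner_def]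
    congr 1
    refine Finset.sum_congr rfl fun g _ => ?_
    by_cases c : p ∣ orderOf g
    · rw [hθ, pRegularPart_of_dvd c, zero_mul, zero_mul]
    · rw [e g c]
  have h3 := h2 θ fun g c => pRegularPart_of_not_dvd c
  obtain ⟨t', ht'⟩ := (gen_top.mpr (isGenChar_pow_smul_pRegularPart hp (irr_isGenChar χ))).inn_int (irr_top.mpr χ.2).gen
  rw [inn_smul_left, inn_top] at ht'
  set d := charDegree (χ : G → ℂ)
  have d0 : d ≠ 0 := irr_degree_ne_zero χ
  have hd : (χ : G → ℂ) 1 = d := (irr_degree_cast χ).symm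
  set b := d.factorization p
  have ba : b ≤ a := factorization_degree_le χ
  have p0 : (p : ℂ) ≠ 0 := Nat.cast_ne_zero.mpr hp.ne_zero
  obtain ⟨t, rfl⟩ : (p : ℤ) ^ b ∣ t' := by
    have := isIntegral_omega_of_coeff χ (isCentral_aReg (p := p) (isChar_classFun (irr_isChar χ))) fun g => by
      rw [coeff_aReg]; split_ifs
      exacts [isIntegral_zero, isChar_isIntegral (irr_isChar χ) _]
    rw [omega_aReg, ← hm, Nat.cast_mul, mul_right_comm, ht', hd, show (t' : ℂ) * m / d = algebraMap ℚ ℂ (t' * m / d) by simp,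
      isIntegral_algebraMap_iff (algebraMap ℚ ℂ).injective, IsIntegrallyClosed.isIntegral_iff] at this
    obtain ⟨w, hw⟩ := this
    rw [eq_div_iff (by exact_mod_cast d0), eq_intCast] at hw
    have hw' : w * d = t' * m := by exact_mod_cast hw
    refine IsCoprime.dvd_of_dvd_mul_right (Nat.isCoprime_iff_coprime.mpr ((hp.coprime_iff_not_dvd.mpr pm).pow_left b)) ?_
    rw [← hw']
    exact Dvd.dvd.mul_left (by exact_mod_cast Nat.ordProj_dvd d p) _
  have h4 : classInner θ χ = ((t / p ^ (a - b) : ℝ) : ℂ) := by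
    push_cast at ht' ⊢
    rw [eq_div_iff (pow_ne_zero _ p0), ← mul_right_inj' (pow_ne_zero b p0), ← ht', mul_comm (classInner _ _), ← mul_assoc, ← pow_add,
      Nat.add_sub_cancel' ba]
  set μ : ℝ := t / p ^ (a - b) with hμ
  have q0 : (0 : ℝ) < p ^ (a - b) := pow_pos (by exact_mod_cast hp.pos) _
  have h5 : 0 < μ := by
    have := classInner_self_re_nonneg θ
    rw [h3, h4, Complex.ofReal_re] at this
    refine this.lt_of_ne fun e => d0 ?_
    rw [h4, ← e, Complex.ofReal_zero, classInner_self_eq_zero] at h3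
    have := congrFun h3 1
    rw [hθ, pRegularPart_of_not_dvd (by simpa using hp.ne_one), hd, Pi.zero_apply] at this
    exact_mod_cast this
  have t1 : (1 : ℝ) ≤ t := by
    have : (0 : ℝ) < t := (div_pos_iff_of_pos_right q0).mp h5
    exact_mod_cast this
  have h6 := classInner_self_re_eq_sum (classFun_pRegularPart (p := p) (isChar_classFun (irr_isChar χ)))
  rw [← hθ, h3, h4, Complex.ofReal_re, ← Finset.sum_add_sum_compl O, Finset.sum_congr rfl (g := fun _ => μ ^ 2) fun ψ e => by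
    rw [h2 _ (h1 ψ e), h4, Complex.norm_real, Real.norm_of_nonneg h5.le], Finset.sum_const, hr', nsmul_eq_mul] at h6
  have h7 : 0 ≤ ∑ ψ ∈ Oᶜ, ‖classInner θ (ψ : G → ℂ)‖ ^ 2 := Finset.sum_nonneg fun _ _ => by positivity
  have h8 : (r : ℝ) * t ≤ p ^ (a - b) := by
    rw [← div_le_one q0, mul_div_assoc, ← hμ]
    nlinarith
  have h9 : r ≤ p ^ (a - b) := by
    have : (r : ℝ) ≤ p ^ (a - b) := (le_mul_of_one_le_right (Nat.cast_nonneg _) t1).trans h8
    exact_mod_cast this
  have r0 : r ≠ 0 := hr' ▸ Finset.card_ne_zero.mpr ⟨χ, (hO χ).mpr ⟨RingEquiv.refl ℂ, rfl, rfl⟩⟩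
  refine ⟨?_, fun h => ?_⟩
  · rw [Nat.factorization_mul r0 d0, Finsupp.add_apply]
    have := (Nat.pow_le_pow_iff_right hp.one_lt).mp ((Nat.ordProj_le p r0).trans h9)
    omega
  have h10 : r = p ^ (a - b) := h9.antisymm (Nat.le_of_dvd (Nat.pos_of_ne_zero r0) (by
    rw [hp.pow_dvd_iff_le_factorization (mul_ne_zero r0 d0), Nat.factorization_mul r0 d0, Finsupp.add_apply] at h
    rw [hp.pow_dvd_iff_le_factorization r0]; omega))
  have h11 : (r : ℝ) * μ = 1 := by
    have e : (r : ℝ) = p ^ (a - b) := by exact_mod_cast h10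
    rw [e] at h8
    rw [e, hμ, mul_div_cancel₀ _ q0.ne']
    exact t1.antisymm' (le_of_mul_le_mul_left (h8.trans_eq (mul_one _).symm) q0)
  have h12 := (Finset.sum_eq_zero_iff_of_nonneg fun _ _ => by positivity).mp
    (show ∑ ψ ∈ Oᶜ, ‖classInner θ (ψ : G → ℂ)‖ ^ 2 = 0 by nlinarith)
  refine (hp.pow_dvd_iff_le_factorization d0).mpr (S0928.result p χ fun x hx => ?_).ge
  let Γ := stabilizer (RingAut ℂ) ζ
  have e1 : Nat.card (orbit Γ (χ : G → ℂ)) = r := by
    rw [← hr]
    refine (Nat.card_congr (Equiv.ofBijective (fun ψ => ⟨ψ.1, ψ.2.elim fun σ e => ⟨⟨σ, e.1⟩, e.2.symm⟩⟩) ⟨fun u v e => ?_, ?_⟩)).symm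
    · exact Subtype.ext (Subtype.ext (Subtype.mk.inj e))
    · rintro ⟨_, σ, rfl⟩
      exact ⟨⟨⟨_, irr_top.mp ((irr_top.mpr χ.2).map σ.1.toRingHom)⟩, σ.1, σ.2, rfl⟩, rfl⟩
  have e2 : Nat.card (orbit Γ ((χ : G → ℂ) x)) ∣ p ^ (a - b) := by
    rw [← h10, ← e1, Nat.card_coe_set_eq, Nat.card_coe_set_eq, ← index_stabilizer, ← index_stabilizer]
    exact index_dvd_of_le fun σ e => congrFun e x
  have e3 : Nat.card (orbit Γ ((χ : G → ℂ) x)) < p := by
    have : orbit Γ ((χ : G → ℂ) x) ⊆ ((Finset.Ioo 0 p).image fun k => (χ : G → ℂ) (x ^ k) : Finset ℂ) := by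
      rintro _ ⟨σ, rfl⟩
      obtain ⟨k, u, v⟩ := GaloisAut.exists_pow_of_ringHom σ.1.toRingHom hp.ne_zero
      refine Finset.mem_coe.mpr (Finset.mem_image.mpr ⟨k % p, Finset.mem_Ioo.mpr ⟨Nat.pos_of_ne_zero fun e =>
        hp.coprime_iff_not_dvd.mp u.symm (Nat.dvd_of_mod_eq_zero e), Nat.mod_lt _ hp.pos⟩, ?_⟩)
      rw [← hx, pow_mod_orderOf]
      exact (Galois.isChar_map_eq_pow σ.1.toRingHom (irr_isChar χ) (hx ▸ v)).symm
    refine (Nat.card_mono (Set.toFinite _) this).trans_lt ?_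
    rw [Nat.card_coe_set_eq, Set.ncard_coe_finset]
    exact Finset.card_image_le.trans_lt (by simpa using hp.pos)
  obtain ⟨j, -, e4⟩ := (Nat.dvd_prime_pow hp).mp e2
  obtain rfl : j = 0 := by
    by_contra c
    exact (e4 ▸ e3).not_ge (Nat.le_self_pow c p)
  have := (Nat.card_eq_one_iff_unique.mp e4).1
  have e5 := congrFun (classFun_eq_sum (classFun_pRegularPart (p := p) (isChar_classFun (irr_isChar χ)))) x
  rw [pRegularPart_of_dvd hx.symm.dvd, Finset.sum_apply, ← Finset.sum_add_sum_compl O, Finset.sum_eq_zero (s := Oᶜ) fun ψ e => by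
    rw [Pi.smul_apply, norm_eq_zero.mp (pow_eq_zero_iff two_ne_zero |>.mp (h12 ψ e)), zero_smul], add_zero,
    Finset.sum_congr rfl (g := fun _ => (μ : ℂ) * (χ : G → ℂ) x) fun ψ e => by
      obtain ⟨σ, u, v⟩ := (hO ψ).mp e
      rw [Pi.smul_apply, h2 _ (h1 ψ e), h4, smul_eq_mul, v]
      exact congrArg _ (congrArg Subtype.val (this.elim ⟨_, ⟨σ, u⟩, rfl⟩ ⟨_, mem_orbit_self _⟩)),
    Finset.sum_const, hr', nsmul_eq_mul, ← mul_assoc] at e5
  rw [show (r : ℂ) * μ = 1 by exact_mod_cast h11, one_mul] at e5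
  exact e5.symm

end Cfsg.Agent.S4506
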