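import Mathlib
import Cfsg.Statements.S4507
import Cfsg.Agent.Block.OrdP2
-- import your own Cfsg.Agent.* helpers here

set_option autoImplicit false
open Cfsg

namespace Cfsg.Agent.S4507

open Cfsg.Agent.Block in

/-- Let G be a finite group whose order g is divisible by the prime p exactly once, g′ = g/p, and fix a maximal ideal M of the algebraic integers containing p. Call two irreducible characters p-conjugate when a field automorphism of ℂ fixing the g′-th roots of unity carries one to the other. Let B be a p-block of positive defect (its defect group is a Sylow p-subgroup). Then B contains a subset Y (the exceptional family) such that: Y is a full p-conjugacy class (its members are pairwise p-conjugate and every p-conjugate of a member of Y lies in Y); every member of B outside Y is p-conjugate only to itself; the size t of Y divides p − 1 and B has exactly t + (p − 1)/t members; and there are signs δ_χ = ±1 (χ ∈ B) such that for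 every p-regular element x and every θ ∈ Y, Σ_{χ ∈ B ∖ Y} δ_χ χ(x) + δ_θ θ(x) = 0. -/
theorem result {G : Type*} [Group G] [Finite G] (p : ℕ) [Fact p.Prime] (M : Ideal Cfsg.AlgInt) (hM : Cfsg.IsPModular p M) (hdiv : p ∣ Nat.card G) (hsq : ¬ p ^ 2 ∣ Nat.card G) (B : Set (Cfsg.IrrCharacter G)) (hB : Cfsg.IsPBlock M B) (hd : 0 < Cfsg.blockDefect p B) : ∃ Y : Set (Cfsg.IrrCharacter G), Y ⊆ B ∧ Y.Nonempty ∧ (∀ θ ∈ Y, ∀ ψ : Cfsg.IrrCharacter G, (∃ σ : ℂ ≃+* ℂ, σ (Complex.exp (2 * Real.pi * Complex.I / ((Nat.card G / p ^ (Nat.card G).factorization p) : ℕ))) = Complex.exp (2 * Real.pi * Complex.I / ((Nat.card G / p ^ (Nat.card G).factorization p) : ℕ)) ∧ (ψ : G → ℂ) = fun g => σ ((θ : G → ℂ) g)) ↔ ψ ∈ Y) ∧ (∀ χ ∈ B, χ ∉ Y → ∀ ψ : Cfsg.IrrCharacter G, (∃ σ : ℂ ≃+* ℂ, σ (Complex.exp (2 * Real.pi * Complex.I / ((Nat.card G / p ^ (Nat.card G).factorization p) : ℕ))) = Complex.exp (2 * Real.pi * Complex.I / ((Nat.card G / p ^ (Nat.card G).factorization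 p) : ℕ)) ∧ (ψ : G → ℂ) = fun g => σ ((χ : G → ℂ) g)) → ψ = χ) ∧ Nat.card Y ∣ p - 1 ∧ Nat.card B = Nat.card Y + (p - 1) / Nat.card Y ∧ ∃ δ : Cfsg.IrrCharacter G → ℤ, (∀ χ ∈ B, δ χ = 1 ∨ δ χ = -1) ∧ ∀ x : G, ¬ p ∣ orderOf x → ∀ θ ∈ Y, (∑ᶠ χ ∈ B \ Y, (δ χ : ℂ) * (χ : G → ℂ) x) + (δ θ : ℂ) * (θ : G → ℂ) x = 0 := by
  classical
  have := Fintype.ofFinite G
  let P : Sylow p G := default
  have h := ordP_sylow P (card_sylow_of_not_sq_dvd hdiv hsq P)
  obtain ⟨f, θ, hf, hm, hθ⟩ := h.exists_root hM hB hd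
  obtain ⟨δ, ζ, a, X, hd⟩ := h.exists_defOne hM hf hm hθ
  have hi : Nat.card G / p ^ (Nat.card G).factorization p = (P : Subgroup G).index := by
    rw [h.factorization, pow_one, h.card_eq, Nat.mul_div_cancel_left _ h.prime.pos]
  have h0 : (P : Subgroup G).index ≠ 0 := Subgroup.index_ne_zero_of_finite
  have hω := Complex.isPrimitiveRoot_exp _ h0
  have hfix : ∀ σ : ℂ ≃+* ℂ, σ (Complex.exp (2 * Real.pi * Complex.I / (P : Subgroup G).index)) =
      Complex.exp (2 * Real.pi * Complex.I / (P : Subgroup G).index) →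
      ∀ z : ℂ, z ^ (P : Subgroup G).index = 1 → (σ : ℂ →+* ℂ) z = z := by
    intro σ hσ z hz
    have := NeZero.mk h0
    obtain ⟨k, -, rfl⟩ := hω.eq_pow_of_pow_eq_one hz
    rw [map_pow]
    exact congrArg (· ^ k) hσ
  have ht : 0 < Nat.card (Set.range ζ) := by
    have := hd.cardY
    have := h.prime.one_lt
    exact Nat.pos_of_ne_zero fun e => by simp_all
  rw [hi]
  refine ⟨Set.range ζ, hd.union ▸ Set.subset_union_right, ?_, ?_, ?_, ?_, ?_,
    fun χ => if χ ∈ X then a χ else -δ, fun χ _ => ?_, ?_⟩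
  · exact Set.nonempty_coe_sort.1 (Nat.card_pos_iff.1 ht).1
  · rintro _ ⟨lam, rfl⟩ ψ
    constructor
    · rintro ⟨σ, h1, h2⟩
      exact ⟨_, Subtype.ext ((hd.mapY (hfix σ h1) lam).symm.trans h2.symm)⟩
    · rintro ⟨μ, rfl⟩
      obtain ⟨σ, h1, rfl⟩ := h.exists_ntMap lam μ
      exact ⟨σ, h1 _ hω.pow_eq_one, (hd.mapY h1 lam).symm⟩
  · rintro χ h1 h2 ψ ⟨σ, h3, h4⟩
    exact Subtype.ext (h4.trans (hd.mapX (hfix σ h3) (hd.sdiff ▸ ⟨h1, h2⟩)))
  · exact ⟨_, (Nat.eq_sub_of_add_eq hd.cardY).symm⟩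
  · rw [hd.card, ← hd.cardY', ← Nat.eq_sub_of_add_eq hd.cardY, Nat.mul_div_cancel_left _ ht,
      add_comm]
  · dsimp only
    split_ifs with h1
    · exact hd.a_sign χ h1
    · rcases hd.sign with e | e <;> simp [e]
  · rintro x hx _ ⟨lam, rfl⟩
    dsimp only
    rw [hd.sdiff, if_neg (fun e => Set.disjoint_left.1 hd.disj e ⟨lam, rfl⟩), Int.cast_neg, neg_mul,
      hd.rel lam x hx, ← finsum_mem_coe_finset, add_neg_eq_zero]
    refine finsum_mem_congr (by simp) fun χ hχ => ?_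
    rw [if_pos (by simpa using hχ)]

end Cfsg.Agent.S4507
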