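import Mathlib
import Cfsg.Statements.S4510
import Cfsg.Agent.Block.Robin

set_option autoImplicit false
open Cfsg

namespace Cfsg.Agent.S4510

open Cfsg.Agent.Block Cfsg.Agent.Char Subgroup

/-- Let G be a finite group, p a prime, M a maximal ideal of the algebraic integers containing p, and call the defect of a conjugacy class the exponent of p in the order of the centralizer of its elements. Two irreducible characters lying in p-blocks of defect exactly d lie in the same block if and only if their central characters (class size times χ(x)/χ(1)) agree modulo the local ideal at M at every p-regular element x whose class has defect exactly d. -/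
theorem result {G : Type*} [Group G] [Finite G] (p : ℕ) [Fact p.Prime] (M : Ideal Cfsg.AlgInt) (hM : Cfsg.IsPModular p M) (d : ℕ) (χ ψ : Cfsg.IrrCharacter G) (hχ : Cfsg.blockDefect p (Cfsg.blockOf M (χ : G → ℂ)) = d) (hψ : Cfsg.blockDefect p (Cfsg.blockOf M (ψ : G → ℂ)) = d) : Cfsg.SameBlock M (χ : G → ℂ) (ψ : G → ℂ) ↔ ∀ x : G, ¬ p ∣ orderOf x → (Nat.card (Subgroup.centralizer ({x} : Set G))).factorization p = d → Cfsg.MemLocalIdeal M (Cfsg.centralChar (χ : G → ℂ) x - Cfsg.centralChar (ψ : G → ℂ) x) := by
  refine ⟨fun h x _ _ => h x, fun h => ?_⟩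
  have hB := isPBlock_blockOf (M := M) χ
  have hV := isV_blockIdem hM hB
  rw [← mem_blockOf, mem_iff_lam_eB hV, ← linear_eq_of_classSum (lam M (χ : G → ℂ))
    (lam M (ψ : G → ℂ)) (isCentral_eB _) fun g hg => ?_,
    lam_eB_of_mem hV (self_mem_blockOf hM χ)]
  · exact one_ne_zero
  rcases (factorization_centralizer_le_defect hM hB hg).eq_or_lt with e | e
  · rw [lam_classSum, lam_classSum, red_eq_iff (centralChar_mem_V χ g) (centralChar_mem_V ψ g)]
    exact val_lt_one_of_memLocalIdeal hM.2.1 (h g (regular_of_coeff_eB hM hV hg) (e.trans hχ))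
  · have h1 : lam M (χ : G → ℂ) (classSum (F M) g) = 0 := by
      by_contra h1
      exact e.not_ge (defect_le_factorization_centralizer hM hB (self_mem_blockOf hM χ) h1)
    have h2 : lam M (ψ : G → ℂ) (classSum (F M) g) = 0 := by
      by_contra h2
      have := defect_le_factorization_centralizer hM (isPBlock_blockOf ψ)
        (self_mem_blockOf hM ψ) h2
      omega
    rw [h1, h2]

end Cfsg.Agent.S4510
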