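import Mathlib
import Cfsg.Statements.S4513
import Cfsg.Agent.Block.Quot3

set_option autoImplicit false
open Cfsg

namespace Cfsg.Agent.S4513

open Cfsg.Agent.Block Cfsg.Agent.Char Subgroup
open scoped ComplexConjugate

theorem card_eq_two {G : Type*} [Group G] [Finite G] {M : Ideal AlgInt} (hM : IsPModular 2 M)
    {B : Set (IrrCharacter G)} (hB : IsPBlock M B) {D : Subgroup G} (hD : IsDefectGroup 2 M B D)
    (h : Nat.card D = 2) : Nat.card B = 2 := by
  have h1 : blockDefect 2 B = 1 := by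
    rw [← factorization_card_defect hM hB hD, h, Nat.prime_two.factorization_self]
  have h2 := brauer_feit hM hB
  have h3 := (defect_eq_zero_iff_card_eq_one hM hB).not.1 (by omega)
  have := (block_nonempty hM hB).to_subtype
  have h4 : 0 < Nat.card B := Nat.card_pos
  rw [h1] at h2
  omega

/-- Blocks of defect one for p = 2. Let M be a maximal ideal of the algebraic integers containing 2, B a 2-block of the finite group G whose defect group is the subgroup generated by an involution x, C = C_G(x), b a block of C inducing B and θ a member of b taking the same value at x as at 1 (there is exactly one). Then B consists of exactly two irreducible characters, which agree on every element of odd order, and they can be labelled χ₁, χ₂ with signs ε₁, ε₂ = ±1, ε₁ε₂ = −1, such that χᵢ(x y) = εᵢ θ(y) for every element y of C of odd order. -/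
theorem result {G : Type*} [Group G] [Finite G] (M : Ideal Cfsg.AlgInt) (hM : Cfsg.IsPModular 2 M) (x : G) (hx : orderOf x = 2)
    (B : Set (Cfsg.IrrCharacter G)) (hB : Cfsg.IsPBlock M B) (hBD : Cfsg.IsDefectGroup 2 M B (Subgroup.zpowers x))
    (b : Set (Cfsg.IrrCharacter ↥(Subgroup.centralizer ({x} : Set G)))) (hb : Cfsg.IsInducedBlock M (Subgroup.centralizer ({x} : Set G)) b B)
    (θ : Cfsg.IrrCharacter ↥(Subgroup.centralizer ({x} : Set G))) (hθ : θ ∈ b)
    (hθx : ∀ z : ↥(Subgroup.centralizer ({x} : Set G)), (z : G) = x → (θ : ↥(Subgroup.centralizer ({x} : Set G)) → ℂ) z = (θ : ↥(Subgroup.centralizer ({x} : Set G)) → ℂ) 1) :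
    Nat.card B = 2 ∧ (∀ χ ∈ B, ∀ ψ ∈ B, ∀ g : G, ¬ 2 ∣ orderOf g → (χ : G → ℂ) g = (ψ : G → ℂ) g) ∧
      ∃ χ₁ ∈ B, ∃ χ₂ ∈ B, χ₁ ≠ χ₂ ∧ ∃ ε₁ ε₂ : ℤ, (ε₁ = 1 ∨ ε₁ = -1) ∧ (ε₂ = 1 ∨ ε₂ = -1) ∧ ε₁ * ε₂ = -1 ∧
        ∀ y : ↥(Subgroup.centralizer ({x} : Set G)), ¬ 2 ∣ orderOf y →
          (χ₁ : G → ℂ) (x * y) = (ε₁ : ℂ) * (θ : ↥(Subgroup.centralizer ({x} : Set G)) → ℂ) y ∧ (χ₂ : G → ℂ) (x * y) = (ε₂ : ℂ) * (θ : ↥(Subgroup.centralizer ({x} : Set G)) → ℂ) y := by
  classical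
  let C := centralizer ({x} : Set G)
  have := Fintype.ofFinite C
  let x' : C := ⟨x, mem_centralizer_singleton_iff.2 rfl⟩
  have hxk : ∃ k : ℕ, orderOf x = 2 ^ k := ⟨1, by rw [hx, pow_one]⟩
  have hmem : ∀ y ∈ zpowers x, y = 1 ∨ y = x := fun y hy => by
    rw [mem_zpowers_iff_mem_range_orderOf, hx] at hy
    obtain ⟨k, hk, rfl⟩ := Finset.mem_image.1 hy
    rw [Finset.mem_range] at hk
    interval_cases k <;> simp
  have hN : C = normalizer (zpowers x : Set G) := by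
    refine le_antisymm ((centralizer_zpowers x).ge.trans (centralizer_le_normalizer _)) fun g hg => ?_
    rcases hmem _ ((mem_normalizer_iff.1 hg x).1 (mem_zpowers x)) with h | h
    · rw [mul_inv_eq_one, mul_eq_left] at h
      simp [h] at hx
    · exact mem_centralizer_singleton_iff.2 (mul_inv_eq_iff_eq_mul.1 h)
  have hle : zpowers x ≤ C := zpowers_le.2 x'.2
  have hind : indSet M C B = b := Set.ext fun ξ => by
    rw [mem_indSet_iff hM hB]
    exact ⟨fun h => first_main_unique' hM hN h hb hBD ▸ self_mem_blockOf hM ξ,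
      fun h => block_eq_blockOf hM hb.1 h ▸ hb⟩
  have hbD := defect_of_induced_of_le_normalizer hM hle hN.le hb hBD
  have hZ : (zpowers x).subgroupOf C ≤ center C := fun z hz => by
    obtain ⟨k, hk⟩ := mem_subgroupOf.1 hz
    refine mem_center_iff.2 fun c => Subtype.ext ?_
    rw [coe_mul, coe_mul, ← hk]
    exact (Commute.zpow_right (mem_centralizer_singleton_iff.1 c.2) k).eq
  obtain ⟨Φ, hΦ⟩ := exists_equiv_of_sup hM hb.1 hbD (by
    rw [centralizer_eq_top_iff_subset.2 hZ, sup_top_eq]) hθ (le_charKer_iff'.2 fun z hz => by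
      rcases hmem _ (mem_subgroupOf.1 hz) with h | h
      · rw [show z = 1 from Subtype.ext h]
      · exact hθx z h)
  have h1 : ∀ ξ ∈ b, ∃ ε : ℤ, ε ^ 2 = 1 ∧ ∀ s : C, ¬ 2 ∣ orderOf s → ξ.1 (x' * s) = ε * θ.1 s := by
    intro ξ hξ
    obtain ⟨ζ, h⟩ := Φ.surjective ⟨ξ, hξ⟩
    have : IsMulCommutative ((zpowers x).subgroupOf C) :=
      ⟨⟨fun a c => Subtype.ext (mem_center_iff.1 (hZ c.2) a)⟩⟩
    obtain ⟨μ, hμ⟩ := isIrr_linear_of_comm ζ.2
    have h2 := hΦ ζ ⟨x', mem_zpowers x⟩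
    rw [h, hμ] at h2
    have h3 : (μ ⟨x', mem_zpowers x⟩ : ℂ) ^ 2 = 1 := by
      rw [← Units.val_pow_eq_pow_val, ← map_pow, show (⟨x', mem_zpowers x⟩ :
        (zpowers x).subgroupOf C) ^ 2 = 1 from Subtype.ext (Subtype.ext (by
          simp [x', ← hx])), map_one, Units.val_one]
    rcases mul_self_eq_one_iff.1 ((pow_two _).symm.trans h3) with h4 | h4
    · exact ⟨1, rfl, fun s hs => by rw [h2 s hs]; simp only [h4, Int.cast_one]⟩
    · exact ⟨-1, rfl, fun s hs => by rw [h2 s hs]; simp only [h4, Int.cast_neg, Int.cast_one]⟩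
  choose! ε hε h1 using h1
  have h2 : ∀ χ ∈ B, ∃ c : ℤ, ∀ s : C, ¬ 2 ∣ orderOf s → χ.1 (x * s) = c * θ.1 s := by
    intro χ hχ
    choose m hm using fun ξ : IrrCharacter C =>
      classInner_isChar_nat (isChar_res C (irr_isChar χ)) (irr_isChar ξ)
    refine ⟨∑ ξ with ξ ∈ b, m ξ * ε ξ, fun s hs => ?_⟩
    have h3 := blockPart_eq_blockPart_indSet hM (isV_blockIdem hM hB) (x' * s)
      (isPPart_mul_coe hxk hs) (irr_classFun χ)
    rw [blockPart_irr_of_mem hχ, hind, blockPart_eq_sum] at h3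
    refine h3.trans ?_
    push_cast
    rw [Finset.sum_mul]
    exact Finset.sum_congr rfl fun ξ hξ => by
      rw [hm, h1 ξ (Finset.mem_filter.1 hξ).2 s hs, mul_assoc]
  choose! c hc using h2
  have hB2 := card_eq_two hM hB hBD (by rw [Nat.card_zpowers, hx])
  have hb2 := card_eq_two hM hb.1 hbD (by
    rw [Nat.card_congr (subgroupOfEquivOfLe hle).toEquiv, Nat.card_zpowers, hx])
  have hθ0 := irr_one_ne_zero θ
  have hcx : ∀ χ ∈ B, χ.1 x = c χ * θ.1 1 := fun χ hχ => by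
    simpa using hc χ hχ 1 (one_regular hM.1)
  obtain ⟨χ₁, χ₂, hne, hBe⟩ := Finset.card_eq_two.1 ((card_eq_card_filter B).symm.trans hB2)
  have k1 : χ₁ ∈ B := (Finset.mem_filter.1 (hBe ▸ Finset.mem_insert_self _ _)).2
  have k2 : χ₂ ∈ B := (Finset.mem_filter.1 (hBe ▸ Finset.mem_insert_of_mem
    (Finset.mem_singleton_self _))).2
  have h3 : c χ₁ ^ 2 + c χ₂ ^ 2 = 2 := by
    have h4 := sum_block_mul_conj hM (isV_blockIdem hM hB) (g := x') (h := x')
      (isPPart_self hM.1 hxk) (isPPart_self hM.1 hxk)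
    have h5 : ∀ ξ ∈ Finset.univ.filter (· ∈ b), ξ.1 x' * conj (ξ.1 x') = θ.1 1 * θ.1 1 := by
      intro ξ hξ
      have h6 := h1 ξ (Finset.mem_filter.1 hξ).2 1 (one_regular hM.1)
      have h7 : (ε ξ : ℂ) ^ 2 = 1 := by exact_mod_cast hε ξ (Finset.mem_filter.1 hξ).2
      rw [mul_one] at h6
      rw [h6, map_mul, map_intCast, isChar_conj_one (irr_isChar θ)]
      linear_combination θ.1 1 * θ.1 1 * h7
    rw [hBe, Finset.sum_pair hne, Finset.sum_congr (s₂ := Finset.univ.filter (· ∈ b))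
      (by ext; simp [← hind, C]) h5, Finset.sum_const,
      ← card_eq_card_filter, hb2, hcx _ k1, hcx _ k2, map_mul, map_mul, map_intCast, map_intCast,
      isChar_conj_one (irr_isChar θ)] at h4
    have : (c χ₁ : ℂ) ^ 2 + c χ₂ ^ 2 = 2 := mul_right_cancel₀ (mul_ne_zero hθ0 hθ0) (by
      rw [nsmul_eq_mul, Nat.cast_ofNat] at h4; linear_combination h4)
    exact_mod_cast this
  have h4 : ∀ g, ¬ 2 ∣ orderOf g → χ₁.1 g * c χ₁ + χ₂.1 g * c χ₂ = 0 := fun g hg => by
    have h5 := weak_block_orth hM (isV_blockIdem hM hB) hg (y := x) (by rw [hx])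
    rw [hBe, Finset.sum_pair hne, hcx _ k1, hcx _ k2, map_mul, map_mul, map_intCast, map_intCast,
      isChar_conj_one (irr_isChar θ)] at h5
    exact mul_right_cancel₀ hθ0 (by linear_combination h5)
  have h5 : (charDegree χ₁.1 : ℤ) * c χ₁ + charDegree χ₂.1 * c χ₂ = 0 := by
    have := h4 1 (one_regular hM.1)
    rw [← irr_degree_cast, ← irr_degree_cast] at this
    exact_mod_cast this
  have h6 := Nat.pos_of_ne_zero (irr_degree_ne_zero χ₁)
  have h7 := Nat.pos_of_ne_zero (irr_degree_ne_zero χ₂)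
  have h8 : (c χ₁ = 1 ∧ c χ₂ = -1) ∨ (c χ₁ = -1 ∧ c χ₂ = 1) := by
    have e1 : c χ₁ ≤ 1 := by nlinarith
    have e2 : -1 ≤ c χ₁ := by nlinarith
    have e3 : c χ₂ ≤ 1 := by nlinarith
    have e4 : -1 ≤ c χ₂ := by nlinarith
    generalize c χ₁ = u at *
    generalize c χ₂ = v at *
    interval_cases u <;> interval_cases v <;> omega
  have h9 : ∀ g, ¬ 2 ∣ orderOf g → χ₁.1 g = χ₂.1 g := fun g hg => by
    have := h4 g hg
    rcases h8 with ⟨e1, e2⟩ | ⟨e1, e2⟩ <;> rw [e1, e2] at this <;> push_cast at this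
    · linear_combination this
    · linear_combination -this
  have h10 : ∀ χ ∈ B, χ = χ₁ ∨ χ = χ₂ := fun χ hχ => by
    simpa using (hBe ▸ Finset.mem_filter.2 ⟨Finset.mem_univ χ, hχ⟩ : χ ∈ ({χ₁, χ₂} : Finset _))
  refine ⟨hB2, fun χ hχ ψ hψ g hg => ?_, χ₁, k1, χ₂, k2, hne, c χ₁, c χ₂, by omega, by omega, ?_,
    fun y hy => ⟨hc _ k1 y hy, hc _ k2 y hy⟩⟩
  · rcases h10 χ hχ with rfl | rfl <;> rcases h10 ψ hψ with rfl | rfl <;> simp only [h9 g hg]
  · rcases h8 with ⟨e1, e2⟩ | ⟨e1, e2⟩ <;> rw [e1, e2] <;> rfl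

end Cfsg.Agent.S4513
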