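import Mathlib
import Cfsg.Statements.S4634
import Cfsg.Agent.Block.Cyc5
import Cfsg.Agent.Block.Dade
-- import your own Cfsg.Agent.* helpers here

set_option autoImplicit false
open Cfsg

namespace Cfsg.Agent.S4634

open Cfsg.Agent.Block Cfsg.Agent.Char Subgroup in

/-- Let B be a block of the finite group G relative to a maximal ideal M of the algebraic integers containing the prime p, with a nontrivial cyclic defect group P, let c be a block of C_G(P) inducing B, T the stabilizer of c in N_G(P) and e the index of C_G(P) in T. Let F be any finite group of order #P · e having a cyclic subgroup Q of order #P that is its own centralizer (F is then the semidirect product of Q by a cyclic group of order e acting faithfully). Then there is a perfect isometry from the set of all irreducible characters of F onto B whose signs agree on all the characters of F that do not contain Q in their kernel. -/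
theorem result {G : Type*} [Group G] [Finite G] (p : ℕ) [Fact p.Prime] (M : Ideal Cfsg.AlgInt) (hM : Cfsg.IsPModular p M) (B : Set (Cfsg.IrrCharacter G)) (hB : Cfsg.IsPBlock M B) (P : Subgroup G) (hPD : Cfsg.IsDefectGroup p M B P) (hP1 : P ≠ ⊥) (hcyc : IsCyclic P) (c : Set (Cfsg.IrrCharacter (Subgroup.centralizer (P : Set G)))) (hc : Cfsg.IsInducedBlock M (Subgroup.centralizer (P : Set G)) c B) (T : Subgroup G) (hT : ∀ g : G, g ∈ T ↔ (g ∈ Subgroup.normalizer (P : Set G) ∧ Cfsg.StabilizesBlock (Subgroup.centralizer (P : Set G)) c g)) (e : ℕ) (he : (Subgroup.centralizer (P : Set G)).relIndex T = e) (F : Type*) [Group F] [Finite F] (hF : Nat.card F = Nat.card P * e) (Q : Subgroup F) (hQ : IsCyclic Q) (hQcard : Nat.card Q = Nat.card P) (hQC : Subgroup.centralizer (Q : Set F) = Q) : ∃ (I : Cfsg.IrrCharacter F → Cfsg.IrrCharacter G) (ε : Cfsg.IrrCharacter F → ℤ), Cfsg.IsPerfectIsometry p M (Set.univ : Set (Cfsg.IrrCharacter F)) B I ε ∧ ∀ η η' : Cfsg.IrrCharacter F, (∃ x ∈ Q, (η : F → ℂ) x ≠ (η : F → ℂ)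 1) → (∃ x ∈ Q, (η' : F → ℂ) x ≠ (η' : F → ℂ) 1) → ε η = ε η' := by
  have hd := isMaxBP_of_induced hM hPD hc
  obtain rfl := is_stabilizer_of (a := ⟨P, c⟩) hT
  obtain ⟨Z, hZ⟩ := exists_cycP hM.1 hd.bp.1 hP1 hcyc
  have h1 : e ∣ p - 1 :=
    he ▸ hZ.relIndex_dvd (stabilizer_le_normalizer _) (hd.not_dvd_of_abelian hM hZ.comm)
  have hp := hM.1.two_le
  have h2 : e < p := (Nat.le_of_dvd (by omega) h1).trans_lt (by omega)
  have hi : Q.index = e := by
    have := Q.card_mul_index
    rw [hF, hQcard] at this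
    exact Nat.eq_of_mul_eq_mul_left Nat.card_pos this
  have h3 : ¬ p ∣ Q.index := Nat.not_dvd_of_pos_of_lt (Nat.pos_of_ne_zero index_ne_zero_of_finite)
    (hi ▸ h2)
  have hQp : IsPGroup p Q := by
    obtain ⟨n, hn⟩ := IsPGroup.iff_card.1 hZ.pg
    exact IsPGroup.of_card (hQcard.trans hn)
  let S : Sylow p F := hQp.toSylow h3
  have hn : Q.Normal := by
    have h4 : Nat.card (Sylow p F) = 1 := (card_sylow_modEq_one p F).eq_of_lt_of_lt
      ((Nat.le_of_dvd (Nat.pos_of_ne_zero index_ne_zero_of_finite) S.card_dvd_index).trans_lt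
        (hi ▸ h2)) hp
    have := (Nat.card_eq_one_iff_unique.1 h4).1
    exact Sylow.normal_of_subsingleton S
  have hC : IsPGroup p (centralizer (Q : Set F)) := hQC.symm ▸ hQp
  have hu := block_eq_univ_of_centralizer_le hM hQp hC (isPBlock_principalBlock (M := M) (G := F))
  obtain ⟨b, rfl, hb⟩ := exists_isMaxBP hM (hu ▸ isPBlock_principalBlock)
    (show IsDefectGroup p M Set.univ Q from hu ▸ isDefectGroup_principal_sylow hM S)
  have hs : MulAction.stabilizer F b = ⊤ := by
    have h5 : b.2 = Set.univ := block_eq_univ_of_centralizer_le hM (Q := ⊤)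
      (hC.to_subgroup _) (hC.to_subgroup _) hb.bp.2
    refine (eq_stabilizer_of fun g => ?_).symm
    simp [h5, normalizer_eq_top]
  obtain ⟨Y, hY⟩ := exists_cycP hM.1 hQp (fun h => hP1 (card_eq_one.1 (by
    rw [← hQcard, h, card_bot]))) hQ
  obtain ⟨I, ε, h⟩ := cyc_perfect hM hd hZ hb hY hQcard (by
    rw [hs, relIndex_top_right, hQC, hi, he])
  refine ⟨I, ε, h, fun η η' ⟨x, hx, hη⟩ ⟨x', hx', hη'⟩ => sign_eq_of_perfect hM.1 h hQp
    (fun g hg n hn e => by_contra fun h1 => hg ?_) (fun h => hη (apply_eq_of_mem_charKer (h hx)))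
    fun h => hη' (apply_eq_of_mem_charKer (h hx'))⟩
  rw [← hQC]
  exact hY.mem_centralizer (T := ⊤) (by rw [normalizer_eq_top])
    (by rwa [relIndex_top_right, hQC]) trivial (hY.mem_centralizer_of_commute hn h1 e.symm)

end Cfsg.Agent.S4634
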