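import Mathlib
import Cfsg.Statements.S4636
import Cfsg.Agent.Block.CycDef
-- import your own Cfsg.Agent.* helpers here

set_option autoImplicit false
open scoped Pointwise
open Cfsg

namespace Cfsg.Agent.S4636

open Cfsg.Agent.Block in

/-- Let P be a nontrivial cyclic p-subgroup of the finite group G and Z its subgroup of order p. For every x outside N_G(Z), P meets its conjugate xPx⁻¹ trivially; consequently N_G(Q) ≤ N_G(Z) for every nontrivial subgroup Q of P. -/
theorem result {G : Type*} [Group G] [Finite G] (p : ℕ) [Fact p.Prime] (P : Subgroup G) (hP : IsPGroup p P) (hP1 : P ≠ ⊥) (hcyc : IsCyclic P) (Z : Subgroup G) (hZ : Z ≤ P) (hZcard : Nat.card Z = p) : (∀ x : G, x ∉ Subgroup.normalizer (Z : Set G) → P ⊓ MulAut.conj x • P = ⊥) ∧ ∀ Q : Subgroup G, Q ≤ P → Q ≠ ⊥ → Subgroup.normalizer (Q : Set G) ≤ Subgroup.normalizer (Z : Set G) := by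
  have h : CycP p P Z := ⟨Fact.out, hP, hcyc, hZ, hZcard⟩
  refine ⟨fun x hx => by_contra fun hne => hx ?_, fun Q hQ h1 => h.normalizer_le hQ h1⟩
  have h1 := h.le_of_ne_bot inf_le_left hne
  have h2 : CycP p (LocalEven.cj x P) (LocalEven.cj x Z) :=
    ⟨h.prime, hP.map _, isCyclic_of_surjective _
      (Subgroup.equivMapOfInjective P _ (MulAut.conj x).injective).surjective,
      Subgroup.map_mono hZ, (LocalEven.card_cj x Z).trans hZcard⟩
  have h3 : LocalEven.cj x Z ≤ Z := h2.le_of_ne_bot (h1.trans inf_le_right) h.ne_bot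
  exact LocalEven.cj_eq_self_iff.1
    (Subgroup.eq_of_le_of_card_ge h3 (LocalEven.card_cj x Z).ge)

end Cfsg.Agent.S4636
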