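import Mathlib
import Cfsg.Statements.S4637
import Cfsg.Agent.Block.LocSys3

set_option autoImplicit false
open Cfsg

namespace Cfsg.Agent.S4637

open Cfsg.Agent.Block Cfsg.Agent.Char Subgroup

/-- Let B be a block of the finite group G relative to a maximal ideal M of the algebraic integers containing 2, with a Klein four defect group P. Let c be a block of C_G(P) inducing B, T the stabilizer of c in N_G(P) and e the index of C_G(P) in T (the inertial index). Then e is 1 or 3, B contains exactly four irreducible characters, and the 2-regular rank of B (its number of irreducible Brauer characters) equals e. -/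
theorem result {G : Type*} [Group G] [Finite G] (M : Ideal Cfsg.AlgInt) (hM : Cfsg.IsPModular 2 M) (B : Set (Cfsg.IrrCharacter G)) (hB : Cfsg.IsPBlock M B) (P : Subgroup G) (hPD : Cfsg.IsDefectGroup 2 M B P) (hV : IsKleinFour P) (c : Set (Cfsg.IrrCharacter (Subgroup.centralizer (P : Set G)))) (hc : Cfsg.IsInducedBlock M (Subgroup.centralizer (P : Set G)) c B) (T : Subgroup G) (hT : ∀ g : G, g ∈ T ↔ (g ∈ Subgroup.normalizer (P : Set G) ∧ Cfsg.StabilizesBlock (Subgroup.centralizer (P : Set G)) c g)) (e : ℕ) (he : (Subgroup.centralizer (P : Set G)).relIndex T = e) : (e = 1 ∨ e = 3) ∧ Nat.card B = 4 ∧ Cfsg.blockRank 2 B = e := by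
  have hd := isMaxBP_of_induced hM hPD hc
  obtain rfl := is_stabilizer_of (a := ⟨P, c⟩) hT
  have h4 : Nat.card P = 4 := hV.card_four
  obtain ⟨h1, h2⟩ := hd.abFree_two hM IsKleinFour.isMulCommutative
    ((Finite.card_subtype_le _).trans h4.le)
  have h3 := h1.rank_eq hM hd (fun e => by simp [show P = ⊥ from e] at h4) (by omega)
  have h5 := h1.card_eq hM hd
  rw [h3, card_inert, he] at *
  refine ⟨h2, ?_, rfl⟩
  rw [show Nat.card (⟨P, c⟩ : BrauerPairIdx G).1 = 4 from h4] at h5
  rcases h2 with rfl | rfl <;> omega

end Cfsg.Agent.S4637
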