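import Mathlib
import Cfsg.Statements.S4638
import Cfsg.Agent.Block.LocSys3

set_option autoImplicit false
open Cfsg

namespace Cfsg.Agent.S4638

open Cfsg.Agent.Block Cfsg.Agent.Char Subgroup

/-- Let B be a block of the finite group G relative to a maximal ideal M of the algebraic integers containing 2, with a Klein four defect group P, and let c be its Brauer correspondent: the block of N_G(P) with defect group P that induces B. Then there is a perfect isometry from c onto B. -/
theorem result {G : Type*} [Group G] [Finite G] (M : Ideal Cfsg.AlgInt) (hM : Cfsg.IsPModular 2 M) (B : Set (Cfsg.IrrCharacter G)) (hB : Cfsg.IsPBlock M B) (P : Subgroup G) (hPD : Cfsg.IsDefectGroup 2 M B P) (hV : IsKleinFour P) (c : Set (Cfsg.IrrCharacter (Subgroup.normalizer (P : Set G)))) (hcD : Cfsg.IsDefectGroup 2 M c (P.subgroupOf (Subgroup.normalizer (P : Set G)))) (hc : Cfsg.IsInducedBlock M (Subgroup.normalizer (P : Set G)) c B) : ∃ (I : Cfsg.IrrCharacter (Subgroup.normalizer (P : Set G)) → Cfsg.IrrCharacter G) (ε : Cfsg.IrrCharacter (Subgroup.normalizer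 (P : Set G)) → ℤ), Cfsg.IsPerfectIsometry 2 M c B I ε := by
  obtain ⟨d, b, rfl, h1, hd, hb, h2⟩ := exists_max_lift' hM hc hPD le_rfl hcD
  have h4 : Nat.card d.1 = 4 := hV.card_four
  obtain ⟨h3, h5⟩ := hd.abFree_two hM IsKleinFour.isMulCommutative
    ((Finite.card_subtype_le _).trans h4.le)
  exact h2.perfect hM le_rfl h1 hd hb h3 (fun e => by simp [e] at h4) (by omega)

end Cfsg.Agent.S4638
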