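import Mathlib
import Cfsg.Statements.S4640
import Cfsg.Agent.Block.AbCov

set_option autoImplicit false
open Cfsg

namespace Cfsg.Agent.S4640

open Cfsg.Agent.Block Cfsg.Agent.Char Subgroup

/-- Let N be a normal subgroup of the finite group G of index a power of the prime p, M a maximal ideal of the algebraic integers containing p, b a block of N stabilized by every element of G, and B a block of G covering b (some member of B has a member of b as a constituent of its restriction to N). Suppose that B has a commutative defect group P. Then G = NP and P ∩ N is a defect group of b; every member of B restricts to a member of b; every member of b is the restriction of exactly [G : N] members of B; B contains exactly [G : N] times as many irreducible characters as b; and B and b have the same p-regular rank. -/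
theorem result {G : Type*} [Group G] [Fintype G] (p : ℕ) [Fact p.Prime] (M : Ideal Cfsg.AlgInt) (hM : Cfsg.IsPModular p M) (N : Subgroup G) [N.Normal] [Fintype N] (hNi : ∃ k : ℕ, N.index = p ^ k) (b : Set (Cfsg.IrrCharacter N)) (hb : Cfsg.IsPBlock M b) (hstab : ∀ g : G, Cfsg.StabilizesBlock N b g) (B : Set (Cfsg.IrrCharacter G)) (hB : Cfsg.IsPBlock M B) (hcov : ∃ χ ∈ B, ∃ θ ∈ b, Cfsg.classInner (fun n : N => (χ : G → ℂ) n) (θ : N → ℂ) ≠ 0) (P : Subgroup G) (hPD : Cfsg.IsDefectGroup p M B P) (hPab : ∀ x ∈ P, ∀ y ∈ P, x * y = y * x) : N ⊔ P = ⊤ ∧ Cfsg.IsDefectGroup p M b ((P ⊓ N).subgroupOf N) ∧ (∀ χ ∈ B, ∃ θ ∈ b, ∀ n : N, (χ : G → ℂ) n = (θ : N → ℂ) n) ∧ (∀ θ ∈ b, Nat.card {χ : Cfsg.IrrCharacter G // χ ∈ B ∧ ∀ n : N, (χ : G → ℂ) n = (θ : N → ℂ) n} = N.index) ∧ Nat.card B = N.index * Nat.card b ∧ Cfsg.blockRank p B = Cfsg.blockRank p b := by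
  have hinv : GInv b := gInv_iff_stab.2 (eq_top_iff.2 fun g _ => stabilizesBlock_iff.1 (hstab g))
  have hu : ∀ B', IsPBlock M B' → Covers B' b → B' = B := fun B' hB' h =>
    Covers.unique_of_index hM hNi hB' hB hb h hcov
  obtain ⟨h1, h2, -⟩ := Covers.defect_of_unique hM hB hb hcov hinv hu hPD
  have hsup : N ⊔ P = ⊤ := by
    obtain ⟨k, hk⟩ := hNi
    obtain ⟨j, -, hj⟩ := (Nat.dvd_prime_pow hM.1).1 (hk ▸ index_dvd_of_le (le_sup_left : N ≤ N ⊔ P))
    rw [← index_eq_one, hj]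
    rcases j with _ | j
    · rfl
    · exact absurd (hj ▸ dvd_pow_self p j.succ_ne_zero) h1
  have hO := Covers.is_overSet_of_unique hM hB hb hcov hu
  have h3 : ∀ χ ∈ B, ∀ θ : IrrCharacter N, classInner (fun n : N => (χ : G → ℂ) n) θ ≠ 0 →
      ∀ n : N, (χ : G → ℂ) n = (θ : N → ℂ) n := fun χ hχ θ h => congrFun
    (isIrr_eq_of_classInner_ne_zero (isIrr_res_of_abelian hM hB hNi hPD
      (fun x hx y hy => hPab y hy x hx) hsup hχ) θ.2 h)
  have h4 : ∀ χ ∈ B, ∃ θ ∈ b, ∀ n : N, (χ : G → ℂ) n = (θ : N → ℂ) n := fun χ hχ => by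
    obtain ⟨θ, hθ, h⟩ := Covers.exists_under hM hB (isV_blockIdem hM hb) hcov hχ
    exact ⟨θ, hθ, h3 χ hχ θ h⟩
  have h5 : ∀ θ ∈ b, Nat.card {χ : IrrCharacter G // χ ∈ B ∧
      ∀ n : N, (χ : G → ℂ) n = (θ : N → ℂ) n} = N.index := fun θ hθ => by
    rw [← card_ext_eq_index (θ := θ) fun χ h => h3 χ (hO ▸ ⟨θ, hθ, h⟩) θ h]
    refine Nat.card_congr (Equiv.subtypeEquivRight fun χ => ⟨fun h => h.2, fun h => ⟨?_, h⟩⟩)
    rw [hO]
    exact ⟨θ, hθ, by rw [funext h, classInner_irr_self]; exact one_ne_zero⟩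
  refine ⟨hsup, h2, h4, h5, card_eq_mul_of_res h4 h5, blockRank_eq_of_res
    (fun g hg => mem_of_index_pow hM.1 hNi hg) h4 fun θ hθ => ?_⟩
  obtain ⟨χ, hχ, h⟩ := Covers.exists_over hM (isV_blockIdem hM hB) hb hcov hθ
  exact ⟨χ, hχ, h3 χ hχ θ h⟩

end Cfsg.Agent.S4640
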