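import Mathlib
import Cfsg.Statements.S4644
import Cfsg.Agent.Block.Wat

set_option autoImplicit false
open Cfsg

namespace Cfsg.Agent.S4644

open Cfsg.Agent.Block Subgroup

/-- Let B be a block of the finite group G relative to a maximal ideal M of the algebraic integers containing the prime p, with a commutative defect group P; let c be a block of C_G(P) inducing B and T the stabilizer of c in N_G(P). Let u be an element of P fixed under conjugation by every element of T, H = C_G(u) (so C_G(P) ≤ H), and f the block of H induced by c inside H. Then B and f have the same p-regular rank and the same number of irreducible characters. -/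
theorem result {G : Type*} [Group G] [Finite G] (p : ℕ) [Fact p.Prime] (M : Ideal Cfsg.AlgInt) (hM : Cfsg.IsPModular p M) (B : Set (Cfsg.IrrCharacter G)) (hB : Cfsg.IsPBlock M B) (P : Subgroup G) (hPD : Cfsg.IsDefectGroup p M B P) (hPab : ∀ x ∈ P, ∀ y ∈ P, x * y = y * x) (c : Set (Cfsg.IrrCharacter (Subgroup.centralizer (P : Set G)))) (hc : Cfsg.IsInducedBlock M (Subgroup.centralizer (P : Set G)) c B) (T : Subgroup G) (hT : ∀ g : G, g ∈ T ↔ (g ∈ Subgroup.normalizer (P : Set G) ∧ Cfsg.StabilizesBlock (Subgroup.centralizer (P : Set G)) c g)) (u : G) (hu : u ∈ P) (huT : ∀ g ∈ T, g * u * g⁻¹ = u) (H : Subgroup G) (hH : H = Subgroup.centralizer ({u} : Set G)) (f : Set (Cfsg.IrrCharacter H)) (hf : Cfsg.IsInducedBlockIn M H (Subgroup.centralizer (P : Set G)) c f) : Cfsg.blockRank p B = Cfsg.blockRank p f ∧ Nat.card B = Nat.card f := by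
  have hH' : H = centralizer (zpowers u : Set G) := by
    rw [hH, zpowers_eq_closure, centralizer_closure]
  subst hH'
  have hQP : zpowers u ≤ P := zpowers_le.2 hu
  have hab : P ≤ centralizer (P : Set G) := fun x hx y hy => hPab y hy x hx
  have hd := isMaxBP_of_induced hM hPD hc
  have hf' := (isInducedBlockIn_iff_indAlong hM (centralizer_le hQP)).1 hf
  have ha : IsBP p M ⟨zpowers u, f⟩ := ⟨hd.bp.1.to_le hQP, hf'.2.1⟩
  have hle : PLe p M ⟨zpowers u, f⟩ ⟨P, c⟩ :=
    ((nsub_iff_indAlong hM ha hd.bp hQP (hab.trans (centralizer_le hQP))).2 hf').ple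
  have h1 := subAt_spec hM hd.bp hu
  have h2 := hd.watanabe hM hab hu fun g hg => mem_centralizer_singleton_iff.2
    (mul_inv_eq_iff_eq_mul.1 (huT g (is_stabilizer_of (a := ⟨P, c⟩) hT ▸ hg)))
  rw [ple_unique hM hd.bp h1.2 hle h1.1] at h2
  exact ⟨h2.1.symm, h2.2.symm⟩

end Cfsg.Agent.S4644
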