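import Mathlib
import Cfsg.Statements.S4645
import Cfsg.Agent.Block.CycDef
import Cfsg.Agent.Block.Nilp
-- import your own Cfsg.Agent.* helpers here

set_option autoImplicit false
open Cfsg

namespace Cfsg.Agent.S4645

open Cfsg.Agent.Block in

/-- Let B be a block of the finite group G relative to a maximal ideal M of the algebraic integers containing the prime p, with a nontrivial cyclic defect group P; let c be a block of C_G(P) inducing B and T the stabilizer of c in N_G(P). Let Q be a nontrivial subgroup of P (so C_G(P) ≤ C_G(Q)), f the block of C_G(Q) induced by c inside C_G(Q), and T' the stabilizer of f in N_G(Q). Then T' = T·C_G(Q), the index of C_G(Q) in T' equals the index of C_G(P) in T, f has p-regular rank 1, and f is a nilpotent block of C_G(Q). -/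
theorem result {G : Type*} [Group G] [Finite G] (p : ℕ) [Fact p.Prime] (M : Ideal Cfsg.AlgInt) (hM : Cfsg.IsPModular p M) (B : Set (Cfsg.IrrCharacter G)) (hB : Cfsg.IsPBlock M B) (P : Subgroup G) (hPD : Cfsg.IsDefectGroup p M B P) (hP1 : P ≠ ⊥) (hcyc : IsCyclic P) (c : Set (Cfsg.IrrCharacter (Subgroup.centralizer (P : Set G)))) (hc : Cfsg.IsInducedBlock M (Subgroup.centralizer (P : Set G)) c B) (T : Subgroup G) (hT : ∀ g : G, g ∈ T ↔ (g ∈ Subgroup.normalizer (P : Set G) ∧ Cfsg.StabilizesBlock (Subgroup.centralizer (P : Set G)) c g)) (Q : Subgroup G) (hQP : Q ≤ P) (hQ1 : Q ≠ ⊥) (f : Set (Cfsg.IrrCharacter (Subgroup.centralizer (Q : Set G)))) (hf : Cfsg.IsInducedBlockIn M (Subgroup.centralizer (Q : Set G)) (Subgroup.centralizer (P : Set G)) c f) (T' : Subgroup G) (hT' : ∀ g : G, g ∈ T' ↔ (g ∈ Subgroup.normalizer (Q : Set G) ∧ Cfsg.StabilizesBlock (Subgroup.centralizer (Q : Set G)) f g)) : T' = T ⊔ Subgroup.centralizer (Q : Set G) ∧ (Subgroup.centralizer (Q : Set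 G)).relIndex T' = (Subgroup.centralizer (P : Set G)).relIndex T ∧ Cfsg.blockRank p f = 1 ∧ Cfsg.IsNilpotentBlock p M f := by
  obtain ⟨Z, h⟩ := exists_cycP Fact.out (isDefectGroup_isPGroup hPD) hP1 hcyc
  have hd := isMaxBP_of_induced hM hPD hc
  have hf' := (isInducedBlockIn_iff_indAlong hM (Subgroup.centralizer_le hQP)).1 hf
  have ha : IsBP p M ⟨Q, f⟩ := ⟨h.pg.to_le hQP, hf'.2.1⟩
  have hle : PLe p M ⟨Q, f⟩ ⟨P, c⟩ :=
    ((nsub_iff_indAlong hM ha hd.bp hQP (h.le_centralizer hQP)).2 hf').ple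
  have hn := hd.cyc_nilpotent hM h hle hQ1
  rw [is_stabilizer_of (a := ⟨P, c⟩) hT, is_stabilizer_of (a := ⟨Q, f⟩) hT']
  exact ⟨hd.cyc_stabilizer hM h hle, hd.cyc_relIndex hM h hle hQ1, blockRank_of_nilpotent hM hn, hn⟩

end Cfsg.Agent.S4645
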