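import Mathlib
import Cfsg.Statements.S4691
import Cfsg.Agent.Block.PairFS
import Cfsg.Agent.Transfer.Frobenius

set_option autoImplicit false
open Cfsg

namespace Cfsg.Agent.S4691

open Cfsg.Agent.Block

/-- Fix a prime p and a maximal ideal M of the algebraic integers containing p. A finite group G has a normal p-complement if and only if its principal p-block is nilpotent. -/
theorem result {G : Type*} [Group G] [Fintype G] (p : ℕ) [Fact p.Prime] (M : Ideal Cfsg.AlgInt) (hM : Cfsg.IsPModular p M) : Cfsg.HasNormalPComplement p G ↔ Cfsg.IsNilpotentBlock p M (Cfsg.principalBlock M G) := by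
  have hp := hM.1
  refine ⟨fun h => ⟨isPBlock_principalBlock, fun Q e hQ x h1 _ hx =>
    Transfer.mem_centralizer_of_hasNormalPComplement h hQ.1.1 h1
      ((Nat.Prime.coprime_iff_not_dvd hp).2 hx).symm⟩,
    fun h => Transfer.hasNormalPComplement_of_forall_isPGroup fun Q hQ x h1 hx => ?_⟩
  have ha : IsBPOf p M (principalBlock M G) ⟨Q, principalBlock M _⟩ :=
    (isBPOf_principal_iff hM ⟨hQ, isPBlock_principalBlock⟩).2 rfl
  exact (pmod_iff_regular hp).1 (((isNilpotentBlock_iff hM).1 h).2 _ ha) x
    (by rwa [stabilizer_principal hM ha]) ((Nat.Prime.coprime_iff_not_dvd hp).1 hx.symm)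

end Cfsg.Agent.S4691
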