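import Mathlib
import Cfsg.Statements.S4646
import Cfsg.Agent.Block.Knorr2
import Cfsg.Agent.S4691
import Cfsg.Agent.Core.Cores

set_option autoImplicit false
open Cfsg

namespace Cfsg.Agent.S4646

open Cfsg.Agent.Block Cfsg.Agent.Char Subgroup

/-- For a finite group G, a prime p and a maximal ideal M of the algebraic integers containing p: the principal block of G is nilpotent if and only if its p-regular rank is 1 (the trivial Brauer character is its only irreducible Brauer character). -/
theorem result {G : Type*} [Group G] [Finite G] (p : ℕ) [Fact p.Prime] (M : Ideal Cfsg.AlgInt) (hM : Cfsg.IsPModular p M) : Cfsg.IsNilpotentBlock p M (Cfsg.principalBlock M G) ↔ Cfsg.blockRank p (Cfsg.principalBlock M G) = 1 := by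
  have := Fintype.ofFinite G
  have hp := hM.1
  refine ⟨blockRank_of_nilpotent hM, fun h => (S4691.result p M hM).1
    (Transfer.hasNormalPComplement_of_forall_isPGroup fun Q hQ x h1 hx => ?_)⟩
  have hx' := regular_mem_pPrimeCore_of_rank_one hM h ((Nat.Prime.coprime_iff_not_dvd hp).1 hx.symm)
  rw [mem_centralizer_iff]
  intro y hy
  have h2 : x * y * x⁻¹ * y⁻¹ ∈ Q := Q.mul_mem ((mem_normalizer_iff.1 h1 y).1 hy) (Q.inv_mem hy)
  have h3 : x * y * x⁻¹ * y⁻¹ ∈ pPrimeCore p G := by
    rw [mul_assoc, mul_assoc]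
    refine Subgroup.mul_mem _ hx' ?_
    have := (inferInstance : (pPrimeCore p G).Normal).conj_mem _ (Subgroup.inv_mem _ hx') y
    rwa [mul_assoc] at this
  obtain ⟨k, hk⟩ := hQ ⟨_, h2⟩
  have h4 : orderOf (x * y * x⁻¹ * y⁻¹) ∣ p ^ k := orderOf_dvd_of_pow_eq_one (congrArg Subtype.val hk)
  have h5 := (Core.pPrimeCore_coprime (G := G) p).coprime_dvd_left (Subgroup.orderOf_dvd_natCard _ h3)
  have h6 : orderOf (x * y * x⁻¹ * y⁻¹) = 1 := (Nat.coprime_self _).1
    ((h5.pow_right k).coprime_dvd_right h4)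
  rw [orderOf_eq_one_iff, mul_inv_eq_one, mul_inv_eq_iff_eq_mul] at h6
  exact h6.symm

end Cfsg.Agent.S4646
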