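import Mathlib
import Cfsg.Statements.S4647
import Cfsg.Agent.Block.MinDim

set_option autoImplicit false
open Cfsg

namespace Cfsg.Agent.S4647

open Cfsg.Agent.Block Cfsg.Agent.Char Subgroup Cfsg.Agent.LocalEven

/-- Let B be a block of the finite group G relative to a maximal ideal M of the algebraic integers containing the prime p, p^a the p-part of the order of G and p^d the order of a defect group D of B. If Σ_{χ ∈ B} χ(1)² = p^(2a−d) (the least possible value), then B is nilpotent. -/
theorem result {G : Type*} [Group G] [Finite G] (p : ℕ) [Fact p.Prime] (M : Ideal Cfsg.AlgInt) (hM : Cfsg.IsPModular p M) (B : Set (Cfsg.IrrCharacter G)) (hB : Cfsg.IsPBlock M B) (D : Subgroup G) (hD : Cfsg.IsDefectGroup p M B D) (a d : ℕ) (ha : (Nat.card G).factorization p = a) (hd : Nat.card D = p ^ d) (hmin : ∑ᶠ χ ∈ B, Cfsg.charDegree (χ : G → ℂ) ^ 2 = p ^ (2 * a - d)) : Cfsg.IsNilpotentBlock p M B := by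
  classical
  obtain ⟨δ, rfl, hδ⟩ := exists_isMaxBP hM hB hD
  obtain ⟨S, hS⟩ := hδ.bp.1.exists_le_sylow
  refine (hδ.nilpotent_iff hM).2 fun c hc => (pmod_iff_regular hM.1).2 fun x hx hr => ?_
  have hx' := stabilizer_le_normalizer c hx
  have h1 : p ^ d ≤ p ^ a := by
    rw [← hd, ← ha, ← S.card_eq_multiplicity]
    exact card_le_of_le hS
  rw [Nat.pow_le_pow_iff_right hM.1.one_lt] at h1
  obtain ⟨s, hs, h2⟩ := exists_mem_of_min_dim (p_eq_zero_F hM) S.isPGroup' (isCentral_eB B)
    (eB_mul_self (isV_blockIdem hM hB)) hS (hc.le.trans hS) (hδ.of.br_ne_zero hM)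
    ((hδ.of.down hM hc).br_ne_zero hM) (fun R hR h => by
      obtain ⟨y, hy⟩ := (br_eB_ne_zero_iff hM hB hD hR).1 h
      exact (card_cj y R).ge.trans (card_le_of_le hy)) (by
      rw [finrank_range_eB (isV_blockIdem hM hB), ← finsum_mem_irr, hmin, hd,
        S.card_eq_multiplicity, ha, ← pow_add, ← pow_mul]
      exact Nat.pow_le_pow_right hM.1.pos (by omega)) hx'
  have h3 : s ∈ normalizer (c.1 : Set G) := by
    simpa using mul_mem (centralizer_le_normalizer _ h2) (inv_mem hx')
  refine (pmod_iff_regular hM.1).1 ((Fusion.PMod.of_pg (S.isPGroup'.to_le (inf_le_left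
    (b := normalizer (c.1 : Set G)))) _).sup_self
    (inf_le_right.trans (normalizer_le_normalizer_centralizer _))) x ?_ hr
  rw [← inv_mul_cancel_left s x]
  exact mul_mem (mem_sup_left (inv_mem ⟨hs, h3⟩)) (mem_sup_right h2)

end Cfsg.Agent.S4647
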