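import Mathlib
import Cfsg.Statements.S4648
import Cfsg.Agent.Block.BasicAlg

set_option autoImplicit false
open Cfsg

namespace Cfsg.Agent.S4648

open Cfsg.Agent.Block Cfsg.Agent.Char Subgroup

/-- Let B be a block of the finite group G relative to a maximal ideal M of the algebraic integers containing the prime p, with a nontrivial defect group D. If B has p-regular rank 1 and at most four irreducible characters, then B is nilpotent, D has exactly as many elements as B has irreducible characters, and p is 2 or 3. -/
theorem result {G : Type*} [Group G] [Finite G] (p : ℕ) [Fact p.Prime] (M : Ideal Cfsg.AlgInt) (hM : Cfsg.IsPModular p M) (B : Set (Cfsg.IrrCharacter G)) (hB : Cfsg.IsPBlock M B) (D : Subgroup G) (hD : Cfsg.IsDefectGroup p M B D) (hD1 : D ≠ ⊥) (hl : Cfsg.blockRank p B = 1) (hk : Nat.card B ≤ 4) : Cfsg.IsNilpotentBlock p M B ∧ Nat.card D = Nat.card B ∧ (p = 2 ∨ p = 3) := by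
  have hu := unif_of_card_le_four hM hB hl hk
  have h1 := hu.card_eq hM hB
  have h2 := card_defectGroup hM hB hD
  refine ⟨hu.nilpotent hM hB, h2.trans h1.symm, ?_⟩
  have h3 : blockDefect p B ≠ 0 := fun h => hD1 (card_eq_one.1 (by rw [h2, h, pow_zero]))
  have h4 : p ≤ 4 := (Nat.le_self_pow h3 p).trans (h1 ▸ hk)
  have h5 := hM.1.two_le
  have h6 : p ≠ 4 := fun h => by
    have := hM.1
    rw [h] at this
    norm_num at this
  omega

end Cfsg.Agent.S4648
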