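import Mathlib
import Cfsg.Statements.S4649
import Cfsg.Agent.Block.Cyc3
-- import your own Cfsg.Agent.* helpers here

set_option autoImplicit false
open Cfsg

namespace Cfsg.Agent.S4649

open Cfsg.Agent.Block in

/-- A block with cyclic defect group, of a finite group relative to a maximal ideal M of the algebraic integers containing the prime p, is nilpotent if and only if its p-regular rank is 1 (it has a unique irreducible Brauer character). -/
theorem result {G : Type*} [Group G] [Finite G] (p : ℕ) [Fact p.Prime] (M : Ideal Cfsg.AlgInt) (hM : Cfsg.IsPModular p M) (B : Set (Cfsg.IrrCharacter G)) (hB : Cfsg.IsPBlock M B) (P : Subgroup G) (hPD : Cfsg.IsDefectGroup p M B P) (hcyc : IsCyclic P) : Cfsg.IsNilpotentBlock p M B ↔ Cfsg.blockRank p B = 1 := by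
  refine ⟨blockRank_of_nilpotent hM, fun h => ?_⟩
  obtain ⟨d, rfl, hd⟩ := exists_isMaxBP hM hB hPD
  haveI := hcyc
  have hab : d.1 ≤ Subgroup.centralizer (d.1 : Set G) := fun x hx y hy =>
    congrArg Subtype.val (IsMulCommutative.is_comm.comm (⟨y, hy⟩ : d.1) ⟨x, hx⟩)
  rw [hd.nilpotent_iff_of_abelian hM hab]
  by_cases h1 : d.1 = ⊥
  · intro x _ y hy
    rw [h1] at hy
    rw [Subgroup.mem_bot.1 hy, one_mul, mul_one]
  obtain ⟨Z, hZ⟩ := exists_cycP hM.1 hd.bp.1 h1 hcyc
  have h2 := cyc_le_blockRank hM hd hZ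
  rw [h] at h2
  rw [← Subgroup.relIndex_eq_one]
  have : (Subgroup.centralizer (d.1 : Set G)).relIndex (MulAction.stabilizer G d) ≠ 0 :=
    Subgroup.index_ne_zero_of_finite
  omega

end Cfsg.Agent.S4649
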