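import Mathlib
import Cfsg.Statements.S4650
import Cfsg.Agent.Block.Pair4

set_option autoImplicit false
open Cfsg

namespace Cfsg.Agent.S4650

open Cfsg.Agent.Block

/-- Let B be a block of the finite group G relative to a maximal ideal M of the algebraic integers containing the prime p, with a nontrivial commutative defect group P; let c be a block of C_G(P) inducing B and T the stabilizer of c in N_G(P). Then T/C_G(P) acts freely on the non-identity elements of P (an element of T fixing a non-identity element of P under conjugation lies in C_G(P)) if and only if, for every nontrivial subgroup Q of P, the block of C_G(Q) induced by c inside C_G(Q) is a nilpotent block of C_G(Q). -/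
theorem result {G : Type*} [Group G] [Finite G] (p : ℕ) [Fact p.Prime] (M : Ideal Cfsg.AlgInt) (hM : Cfsg.IsPModular p M) (B : Set (Cfsg.IrrCharacter G)) (hB : Cfsg.IsPBlock M B) (P : Subgroup G) (hPD : Cfsg.IsDefectGroup p M B P) (hPab : ∀ x ∈ P, ∀ y ∈ P, x * y = y * x) (hP1 : P ≠ ⊥) (c : Set (Cfsg.IrrCharacter (Subgroup.centralizer (P : Set G)))) (hc : Cfsg.IsInducedBlock M (Subgroup.centralizer (P : Set G)) c B) (T : Subgroup G) (hT : ∀ g : G, g ∈ T ↔ (g ∈ Subgroup.normalizer (P : Set G) ∧ Cfsg.StabilizesBlock (Subgroup.centralizer (P : Set G)) c g)) : (∀ g ∈ T, ∀ x ∈ P, x ≠ 1 → g * x * g⁻¹ = x → g ∈ Subgroup.centralizer (P : Set G)) ↔ ∀ Q : Subgroup G, Q ≤ P → Q ≠ ⊥ → ∀ f : Set (Cfsg.IrrCharacter (Subgroup.centralizer (Q : Set G))), Cfsg.IsInducedBlockIn M (Subgroup.centralizer (Q : Set G)) (Subgroup.centralizer (P : Set G)) c f → Cfsg.IsNilpotentBlock p M f := by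
  have hd : IsMaxBP p M B ⟨P, c⟩ := (isMaxBP_iff hM).2
    ⟨(isBrauerPairOf_iff_induced hM).2 ⟨isDefectGroup_isPGroup hPD, hc⟩, hPD⟩
  obtain rfl : T = MulAction.stabilizer G (⟨P, c⟩ : BrauerPairIdx G) := is_stabilizer_of hT
  have hab : P ≤ Subgroup.centralizer (P : Set G) := fun x hx y hy => hPab y hy x hx
  constructor
  · intro h Q hQ hQ1 f hf
    rw [isInducedBlockIn_iff_indAlong hM (Subgroup.centralizer_le hQ)] at hf
    have h1 := (nsub_iff_indAlong hM (a := ⟨Q, f⟩) ⟨hd.bp.1.to_le hQ, hf.2.1⟩ hd.bp hQ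
      (hab.trans (Subgroup.centralizer_le hQ))).2 hf
    obtain ⟨⟨x, hx⟩, hx1⟩ := (Subgroup.ne_bot_iff_exists_ne_one).1 hQ1
    exact (hd.nilpotent_local_iff_of_abelian hM hab h1.ple).2 fun g hg =>
      h g hg.1 x (hQ hx) (fun e => hx1 (Subtype.ext e)) (by rw [← hg.2 x hx, mul_inv_cancel_right])
  · intro h g hg x hx hx1 e
    obtain ⟨⟨Q, f⟩, rfl, h1⟩ := exists_ple hM hd.bp (Q := Subgroup.zpowers x)
      (Subgroup.zpowers_le.2 hx)
    have hC := hab.trans (Subgroup.centralizer_le h1.le)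
    refine (hd.nilpotent_local_iff_of_abelian hM hab h1).1 (h _ h1.le (by simpa using hx1) f
      ((isInducedBlockIn_iff_indAlong hM (Subgroup.centralizer_le h1.le)).2
        ((nsub_iff_indAlong hM (h1.left hd.bp) hd.bp h1.le hC).1
          (h1.nsub hM hd.bp (hC.trans (Subgroup.centralizer_le_normalizer _)))))) ⟨hg, ?_⟩
    rw [centralizer_zpowers]
    exact Subgroup.mem_centralizer_singleton_iff.2 (mul_inv_eq_iff_eq_mul.1 e)

end Cfsg.Agent.S4650
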