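import Mathlib
import Cfsg.Statements.S4651
import Cfsg.Agent.Block.KR

set_option autoImplicit false
open Cfsg

namespace Cfsg.Agent.S4651

open Cfsg.Agent.Block Subgroup

/-- An alternating-sum identity over chains of p-subgroups (the character-count form behind the chain reformulation of Alperin's weight conjecture, which holds unconditionally for the difference k − l). Let b be a block of the finite group G relative to a maximal ideal M of the algebraic integers containing the prime p. Consider the nonempty chains s = {Q_0 < Q_1 < ⋯ < Q_m} of nontrivial p-subgroups of G in which every member is normal in the largest member; let N_G(s) be the intersection of the normalizers of the members (the stabilizer of the chain), and let b_s be the set of irreducible characters of N_G(s) lying in blocks of N_G(s) that induce b. Then #G · (k(b) − l(b)) equals the sum over all such chains s of (−1)^m · #N_G(s) · (k(b_s) − l(b_s)), where k counts irreducible characters and l is the p-regular rank; equivalently,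 k(b) − l(b) is the alternating sum of k(b_s) − l(b_s) over representatives of the conjugacy classes of such chains. -/
theorem result {G : Type*} [Group G] [Finite G] (p : ℕ) [Fact p.Prime] (M : Ideal Cfsg.AlgInt) (hM : Cfsg.IsPModular p M) (b : Set (Cfsg.IrrCharacter G)) (hb : Cfsg.IsPBlock M b) : (Nat.card G : ℤ) * ((Nat.card b : ℤ) - (Cfsg.blockRank p b : ℤ)) = ∑ᶠ s ∈ {s : Finset (Subgroup G) | s.Nonempty ∧ (∀ Q ∈ s, ∀ R ∈ s, Q ≤ R ∨ R ≤ Q) ∧ (∀ Q ∈ s, Q ≠ ⊥ ∧ IsPGroup p Q) ∧ ∃ T ∈ s, ∀ Q ∈ s, Q ≤ T ∧ T ≤ Subgroup.normalizer ((Q : Subgroup G) : Set G)}, (-1 : ℤ) ^ (s.card - 1) * (Nat.card (((⨅ Q ∈ s, Subgroup.normalizer ((Q : Subgroup G) : Set G) : Subgroup G))) : ℤ) * ((Nat.card {ψ : Cfsg.IrrCharacter (((⨅ Q ∈ s, Subgroup.normalizer ((Q : Subgroup G) : Set G) : Subgroup G))) | ∃ β : Set (Cfsg.IrrCharacter (((⨅ Q ∈ s, Subgroup.normalizer ((Q : Subgroup G) : Set G) : Subgroup G)))), ψ ∈ β ∧ Cfsg.IsInducedBlock M (((⨅ Q ∈ s, Subgroup.normalizer ((Q : Subgroup G) : Set G) : Subgroup G)))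 β b} : ℤ) - (Cfsg.blockRank p {ψ : Cfsg.IrrCharacter (((⨅ Q ∈ s, Subgroup.normalizer ((Q : Subgroup G) : Set G) : Subgroup G))) | ∃ β : Set (Cfsg.IrrCharacter (((⨅ Q ∈ s, Subgroup.normalizer ((Q : Subgroup G) : Set G) : Subgroup G)))), ψ ∈ β ∧ Cfsg.IsInducedBlock M (((⨅ Q ∈ s, Subgroup.normalizer ((Q : Subgroup G) : Set G) : Subgroup G))) β b} : ℤ)) := by
  classical
  have := Fintype.ofFinite (Finset (Subgroup G))
  have hV := isV_blockIdem hM hb
  have h1 : ∀ H : Subgroup G, {ψ : IrrCharacter H | ∃ β : Set (IrrCharacter H),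
      ψ ∈ β ∧ IsInducedBlock M H β b} = indSet M H b := fun H => Set.ext fun ψ => by
    rw [mem_indSet_iff hM hb]
    exact ⟨fun ⟨β, h1, h2⟩ => block_eq_blockOf hM h2.1 h1 ▸ h2,
      fun h => ⟨_, self_mem_blockOf hM ψ, h⟩⟩
  simp only [h1]
  have h2 := sum_chain_card_sub_rank hM hV
  have h3 : (∅ : Finset (Subgroup G)) ∈ Finset.univ.filter (NCh p) :=
    Finset.mem_filter.2 ⟨Finset.mem_univ _, by simp, by simp, by simp⟩
  rw [← Finset.add_sum_erase _ _ h3, show chN (∅ : Finset (Subgroup G)) = ⊤ by simp [chN],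
    indSet_top hM hV, card_compSet, blockRank_compSet, card_top, Finset.card_empty, pow_zero,
    one_mul, add_eq_zero_iff_eq_neg, ← Finset.sum_neg_distrib] at h2
  rw [h2, ← finsum_mem_coe_finset]
  refine finsum_mem_congr (Set.ext fun s => ?_) fun s hs => ?_
  · rw [Set.mem_ofPred_eq, ← nCh_iff]
    simp [Finset.nonempty_iff_ne_empty, and_comm]
  · obtain ⟨n, hn⟩ := Nat.exists_eq_succ_of_ne_zero (Finset.card_pos.2 hs.1).ne'
    rw [hn, Nat.succ_sub_one, pow_succ]
    ring

end Cfsg.Agent.S4651
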