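import Mathlib
import Cfsg.Statements.S4652
import Cfsg.Agent.Block.Rank2

set_option autoImplicit false
open Cfsg

namespace Cfsg.Agent.S4652

open Cfsg.Agent.Block Cfsg.Agent.Char

/-- Fix a prime p and a maximal ideal M of the algebraic integers containing p. The defect groups of the principal p-block of a finite group G are exactly the Sylow p-subgroups of G: a subgroup D is a defect group of the principal block if and only if D is a Sylow p-subgroup. -/
theorem result {G : Type*} [Group G] [Fintype G] (p : ℕ) [Fact p.Prime] (M : Ideal Cfsg.AlgInt) (hM : Cfsg.IsPModular p M) (D : Subgroup G) : Cfsg.IsDefectGroup p M (Cfsg.principalBlock M G) D ↔ ∃ S : Sylow p G, (S : Subgroup G) = D := by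
  have hB := isPBlock_principalBlock (M := M) (G := G)
  have h1 := factorization_degree_add_defect (p := p) (oneIrr_mem_principalBlock (G := G) hM)
  rw [blockHeight_oneIrr, charDegree_of_eq (n := 1) (by simp [coe_oneIrr]), Nat.factorization_one,
    Finsupp.zero_apply, zero_add, add_zero] at h1
  constructor
  · intro h
    have h2 := card_defectGroup hM hB h
    rw [h1] at h2
    exact ⟨Sylow.ofCard D h2, rfl⟩
  · rintro ⟨S, rfl⟩
    obtain ⟨E, hE⟩ := exists_isDefectGroup hM hB
    have h2 := card_defectGroup hM hB hE
    rw [h1] at h2
    obtain ⟨x, hx⟩ := MulAction.exists_smul_eq G (Sylow.ofCard E h2) S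
    rw [← hx]
    exact isDefectGroup_cj hE x

end Cfsg.Agent.S4652
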