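import Mathlib
import Cfsg.Statements.S4653
import Cfsg.Agent.Block.Pair3

set_option autoImplicit false
open Cfsg

namespace Cfsg.Agent.S4653

open Cfsg.Agent.Block

/-- Fix a prime p and a maximal ideal M of the algebraic integers containing p. Let P be a normal p-subgroup of the finite group G and B a p-block of G. Then the idempotent of B is supported on C_G(P): its coefficient at every element of G outside C_G(P) is zero. -/
theorem result {G : Type*} [Group G] [Fintype G] (p : ℕ) [Fact p.Prime] (M : Ideal Cfsg.AlgInt) (hM : Cfsg.IsPModular p M) (P : Subgroup G) [P.Normal] (hP : IsPGroup p P) (B : Set (Cfsg.IrrCharacter G)) (hB : Cfsg.IsPBlock M B) (g : G) (hg : g ∉ Subgroup.centralizer (P : Set G)) : Cfsg.blockCoeff B g = 0 := by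
  have hH : Mid P ⊤ := ⟨le_top, le_top, by rw [Subgroup.normalizer_eq_top]⟩
  obtain ⟨a, rfl, ha, h⟩ := exists_ovr_eq hM hP hH (isPBlock_compSet Subgroup.topEquiv hB)
  have h1 := incl_blockIdem_ovr hM ha hH
  rw [h] at h1
  rw [← coeff_osum_of_notMem hH.len hg, ← h1, coeff_incl_of_mem _ _ (Subgroup.mem_top g),
    blockIdem_compSet, coeff_resHom, coeff_blockIdem]
  rfl

end Cfsg.Agent.S4653
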