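import Mathlib
import Cfsg.Statements.S4654
import Cfsg.Agent.Block.Pair3

set_option autoImplicit false
open Cfsg

namespace Cfsg.Agent.S4654

open Cfsg.Agent.Block

/-- Fix a prime p and a maximal ideal M of the algebraic integers containing p. Let P be a normal p-subgroup of the finite group G, B a p-block of G and e a p-block of C_G(P) such that (P, e) is a Brauer pair of B (as P is normal, this says that e occurs in the idempotent of B, which is supported on C_G(P)). Let T be the stabilizer of e in G under conjugation. Then the idempotent of e is a block idempotent of T: some block E of T has, at every element of T, the same idempotent coefficient as e (zero off C_G(P)); and the idempotent of B is the sum of the distinct G-conjugates of the idempotent of e: its coefficient at g is the sum over all x in G of the coefficient of e at x⁻¹ g x, divided by the order of T. -/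
theorem result {G : Type*} [Group G] [Fintype G] (p : ℕ) [Fact p.Prime] (M : Ideal Cfsg.AlgInt) (hM : Cfsg.IsPModular p M) (P : Subgroup G) [P.Normal] (hP : IsPGroup p P) (B : Set (Cfsg.IrrCharacter G)) (e : Set (Cfsg.IrrCharacter (Subgroup.centralizer (P : Set G)))) (hBe : Cfsg.IsBrauerPairOf p M B P e) (T : Subgroup G) (hT : ∀ x : G, x ∈ T ↔ Cfsg.StabilizesBlock (Subgroup.centralizer (P : Set G)) e x) : (∃ E : Set (Cfsg.IrrCharacter T), Cfsg.IsPBlock M E ∧ ∀ t : T, Cfsg.blockCoeff E t = Cfsg.subgroupBlockCoeff (Subgroup.centralizer (P : Set G)) e (t : G)) ∧ ∀ g : G, Cfsg.blockCoeff B g = (Nat.card T : ℂ)⁻¹ * ∑ x : G, Cfsg.subgroupBlockCoeff (Subgroup.centralizer (P : Set G)) e (x⁻¹ * g * x) := by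
  classical
  let a : BrauerPairIdx G := ⟨P, e⟩
  have ha : IsBPOf p M B a := hBe
  obtain rfl : T = MulAction.stabilizer G a := is_stabilizer_of fun x => by
    rw [hT, and_iff_right (by simp [a, Subgroup.normalizer_eq_top])]
  refine ⟨⟨_, isPBlock_ovr hM ha.bp (mid_stabilizer _),
    blockCoeff_ovr_of_stab hM ha.bp (mid_stabilizer _) fun _ hx => hx⟩, fun g => ?_⟩
  have : a.1.Normal := ‹P.Normal›
  have hc : (Nat.card (MulAction.stabilizer G a) : ℂ) ≠ 0 := Nat.cast_ne_zero.2 Nat.card_pos.ne'
  rw [eq_inv_mul_iff_mul_eq₀ hc, ← coeff_blockIdem, ← osum_top_eq_blockIdem hM ha, osum,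
    coeff_sum_apply, ← Finset.sum_fiberwise_of_maps_to (s := Finset.univ) (t := orb ⊤ a)
      (g := fun x : G => x • a) fun x _ => mem_orb.2 ⟨x, trivial, rfl⟩, Finset.mul_sum]
  refine Finset.sum_congr rfl fun b hb => ?_
  obtain ⟨y, -, rfl⟩ := mem_orb.1 hb
  rw [Finset.sum_congr rfl (g := fun _ => (cid (y • a)).coeff g) fun x hx => by
    rw [← (Finset.mem_filter.1 hx).2, cid_smul, coeff_cjA, coeff_cid], Finset.sum_const,
    nsmul_eq_mul]
  congr 2
  rw [← Fintype.card_subtype, ← Nat.card_eq_fintype_card]
  refine Nat.card_congr ⟨fun s => ⟨y * s, by rw [mul_smul, s.2]⟩,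
    fun x => ⟨y⁻¹ * x, by rw [MulAction.mem_stabilizer_iff, mul_smul, x.2, inv_smul_smul]⟩,
    fun s => by simp, fun x => by simp⟩

end Cfsg.Agent.S4654
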