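import Mathlib
import Cfsg.Statements.S4657
import Cfsg.Agent.Block.Pair3

set_option autoImplicit false
open Cfsg

namespace Cfsg.Agent.S4657

open Cfsg.Agent.Block

/-- Fix a prime p and a maximal ideal M of the algebraic integers containing p. Every Brauer pair (P, e) of the finite group G is a Brauer pair of exactly one p-block B of G. -/
theorem result {G : Type*} [Group G] [Fintype G] (p : ℕ) [Fact p.Prime] (M : Ideal Cfsg.AlgInt) (hM : Cfsg.IsPModular p M) (P : Subgroup G) (e : Set (Cfsg.IrrCharacter (Subgroup.centralizer (P : Set G)))) (hPe : Cfsg.IsBrauerPair p M P e) : ∃! B : Set (Cfsg.IrrCharacter G), Cfsg.IsBrauerPairOf p M B P e := by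
  obtain ⟨B, hB⟩ := exists_isBPOf hM (a := ⟨P, e⟩) hPe
  exact ⟨B, hB, fun B' hB' => IsBPOf.unique hM (a := ⟨P, e⟩) hB' hB⟩

end Cfsg.Agent.S4657
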