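import Mathlib
import Cfsg.Statements.S4661
import Cfsg.Agent.Block.Pair3

set_option autoImplicit false
open Cfsg

namespace Cfsg.Agent.S4661

open Cfsg.Agent.Block Cfsg.Agent.LocalEven

/-- Fix a prime p and a maximal ideal M of the algebraic integers containing p. Let (P, e) be a maximal Brauer pair of the p-block B of the finite group G, Q ≤ P, and f the p-block of C_G(Q) with (Q, f) ≤ (P, e). Then C_P(Q) is contained in a defect group of f (as a block of the group C_G(Q)); and for some x in G the conjugate pair (x Q x⁻¹, conjugate of f) again lies below (P, e) and C_P(x Q x⁻¹) is a defect group of the conjugate of f in C_G(x Q x⁻¹). -/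
theorem result {G : Type*} [Group G] [Fintype G] (p : ℕ) [Fact p.Prime] (M : Ideal Cfsg.AlgInt) (hM : Cfsg.IsPModular p M) (B : Set (Cfsg.IrrCharacter G)) (P Q : Subgroup G) (e : Set (Cfsg.IrrCharacter (Subgroup.centralizer (P : Set G)))) (f : Set (Cfsg.IrrCharacter (Subgroup.centralizer (Q : Set G)))) (hmax : Cfsg.IsMaximalBrauerPair p M B P e) (hQP : Q ≤ P) (hf : Cfsg.IsPBlock M f) (hle : Cfsg.SubpairLE p M Q f P e) : (∃ D : Subgroup (Subgroup.centralizer (Q : Set G)), Cfsg.IsDefectGroup p M f D ∧ (P ⊓ Subgroup.centralizer (Q : Set G)).subgroupOf (Subgroup.centralizer (Q : Set G)) ≤ D) ∧ ∃ x : G, Cfsg.SubpairLE p M (Q.map (MulAut.conj x).toMonoidHom) (Cfsg.conjBlock Q x f) P e ∧ Cfsg.IsDefectGroup p M (Cfsg.conjBlock Q x f) ((P ⊓ Subgroup.centralizer ((Q.map (MulAut.conj x).toMonoidHom) : Set G)).subgroupOf (Subgroup.centralizer ((Q.map (MulAut.conj x).toMonoidHom) : Set G))) := by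
  have hd : IsMaxBP p M B ⟨P, e⟩ := hmax
  have h : PLe p M ⟨Q, f⟩ ⟨P, e⟩ := hle
  obtain ⟨D, hD, h1⟩ := exists_defIn_ge inf_le_right (hd.bp.1.to_le inf_le_left)
    (h.br_inf_ne_zero hM hd.bp (Subgroup.centralizer_le_normalizer _))
  refine ⟨⟨D.subgroupOf _, (isDefectGroup_iff_defIn hM hf hD.le).2 hD,
    Subgroup.subgroupOf_mono _ h1⟩, ?_⟩
  obtain ⟨x, h2, h3⟩ := hd.exists_smul_defIn hM (hd.of.down hM h) (centralizer_le_stabilizer _) hD
  refine ⟨x, h2, (isDefectGroup_iff_defIn hM (h2.left hd.bp).2 inf_le_right).2 ?_⟩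
  have h4 := hD.cj x
  rw [h3, ← fid_smul, cj_centralizer] at h4
  exact h4

end Cfsg.Agent.S4661
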