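import Mathlib
import Cfsg.Statements.S4662
import Cfsg.Agent.Block.Pair3

set_option autoImplicit false
open Cfsg

namespace Cfsg.Agent.S4662

open Cfsg.Agent.Block Cfsg.Agent.LocalEven

/-- Fix a prime p and a maximal ideal M of the algebraic integers containing p. Let (P, e) be a maximal Brauer pair of the p-block B of the finite group G, Q ≤ P, and f the p-block of C_G(Q) with (Q, f) ≤ (P, e). Let T be the stabilizer of f in N_G(Q). Then the idempotent of f is a block idempotent of T, and N_P(Q) is contained in a defect group of that block of T; moreover for some x in G the conjugate pair (x Q x⁻¹, conjugate of f) again lies below (P, e) and, with T' the stabilizer of the conjugate of f in N_G(x Q x⁻¹), N_P(x Q x⁻¹) is a defect group of the block of T' whose idempotent is that of the conjugate of f. -/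
theorem result {G : Type*} [Group G] [Fintype G] (p : ℕ) [Fact p.Prime] (M : Ideal Cfsg.AlgInt) (hM : Cfsg.IsPModular p M) (B : Set (Cfsg.IrrCharacter G)) (P Q : Subgroup G) (e : Set (Cfsg.IrrCharacter (Subgroup.centralizer (P : Set G)))) (f : Set (Cfsg.IrrCharacter (Subgroup.centralizer (Q : Set G)))) (hmax : Cfsg.IsMaximalBrauerPair p M B P e) (hQP : Q ≤ P) (hf : Cfsg.IsPBlock M f) (hle : Cfsg.SubpairLE p M Q f P e) (T : Subgroup G) (hT : ∀ y : G, y ∈ T ↔ y ∈ Subgroup.normalizer (Q : Set G) ∧ Cfsg.StabilizesBlock (Subgroup.centralizer (Q : Set G)) f y) : (∃ F : Set (Cfsg.IrrCharacter T), Cfsg.IsPBlock M F ∧ (∀ t : T, Cfsg.blockCoeff F t = Cfsg.subgroupBlockCoeff (Subgroup.centralizer (Q : Set G)) f (t : G)) ∧ ∃ D : Subgroup T, Cfsg.IsDefectGroup p M F D ∧ (P ⊓ Subgroup.normalizer (Q : Set G)).subgroupOf T ≤ D) ∧ ∃ x : G, Cfsg.SubpairLE p M (Q.map (MulAut.conj x).toMonoidHom) (Cfsg.conjBlock Q x f) P e ∧ ∀ (T' : Subgroup G), (∀ y : G, y ∈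 T' ↔ y ∈ Subgroup.normalizer ((Q.map (MulAut.conj x).toMonoidHom) : Set G) ∧ Cfsg.StabilizesBlock (Subgroup.centralizer ((Q.map (MulAut.conj x).toMonoidHom) : Set G)) (Cfsg.conjBlock Q x f) y) → ∃ F' : Set (Cfsg.IrrCharacter T'), Cfsg.IsPBlock M F' ∧ (∀ t : T', Cfsg.blockCoeff F' t = Cfsg.subgroupBlockCoeff (Subgroup.centralizer ((Q.map (MulAut.conj x).toMonoidHom) : Set G)) (Cfsg.conjBlock Q x f) (t : G)) ∧ Cfsg.IsDefectGroup p M F' ((P ⊓ Subgroup.normalizer ((Q.map (MulAut.conj x).toMonoidHom) : Set G)).subgroupOf T') := by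
  have hd : IsMaxBP p M B ⟨P, e⟩ := hmax
  have h : PLe p M ⟨Q, f⟩ ⟨P, e⟩ := hle
  obtain rfl : T = MulAction.stabilizer G (⟨Q, f⟩ : BrauerPairIdx G) :=
    is_stabilizer_of hT
  have ha := h.left hd.bp
  obtain ⟨D, hD, h1⟩ := exists_defIn_ge inf_le_right (hd.bp.1.to_le inf_le_left)
    (h.br_inf_ne_zero hM hd.bp (stabilizer_le_normalizer _))
  rw [h.inf_stabilizer hM hd.bp] at h1
  refine ⟨⟨_, isPBlock_ovr hM ha (mid_stabilizer _),
    blockCoeff_ovr_of_stab hM ha (mid_stabilizer _) fun _ hx => hx, D.subgroupOf _,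
    (isDefectGroup_iff_defIn hM (isPBlock_ovr hM ha (mid_stabilizer _)) hD.le).2
      (by rw [incl_eB_ovr_stabilizer hM ha]; exact hD), Subgroup.subgroupOf_mono _ h1⟩, ?_⟩
  obtain ⟨x, h2, h3⟩ := hd.exists_smul_defIn hM (hd.of.down hM h) le_rfl hD
  refine ⟨x, h2, fun T' hT' => ?_⟩
  obtain rfl : T' = MulAction.stabilizer G (x • (⟨Q, f⟩ : BrauerPairIdx G)) :=
    is_stabilizer_of hT'
  have hb := h2.left hd.bp
  have h4 := hD.cj x
  rw [h3, ← fid_smul, ← stabilizer_smul', h2.inf_stabilizer hM hd.bp,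
    ← incl_eB_ovr_stabilizer hM hb] at h4
  exact ⟨_, isPBlock_ovr hM hb (mid_stabilizer _),
    blockCoeff_ovr_of_stab hM hb (mid_stabilizer _) fun _ hx => hx,
    (isDefectGroup_iff_defIn hM (isPBlock_ovr hM hb (mid_stabilizer _)) h4.le).2 h4⟩

end Cfsg.Agent.S4662
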