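import Mathlib
import Cfsg.Statements.S4664
import Cfsg.Agent.Block.Gens

set_option autoImplicit false
open Cfsg

namespace Cfsg.Agent.S4664

open Cfsg.Agent.Block Cfsg.Agent.Char Subgroup

/-- Fix a prime p and a maximal ideal M of the algebraic integers containing p, and let B be a p-block of the finite group G. Let m be the p'-part of the order of G and η = exp(2πi/m). Then every coefficient of the idempotent of B lies in the cyclotomic field ℚ(η). -/
theorem result {G : Type*} [Group G] [Fintype G] (p : ℕ) [Fact p.Prime] (M : Ideal Cfsg.AlgInt) (hM : Cfsg.IsPModular p M) (B : Set (Cfsg.IrrCharacter G)) (hB : Cfsg.IsPBlock M B) (g : G) : Cfsg.blockCoeff B g ∈ IntermediateField.adjoin ℚ ({Complex.exp (2 * Real.pi * Complex.I / ((Nat.card G / p ^ (Nat.card G).factorization p : ℕ) : ℂ))} : Set ℂ) := by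
  classical
  have hp := hM.1
  by_cases hg : p ∣ orderOf g
  · rw [blockCoeff_eq_zero_of_dvd hM (isV_blockIdem hM hB) hg]
    exact zero_mem _
  have hm : Nat.card G / p ^ (Nat.card G).factorization p ≠ 0 :=
    (Nat.ordCompl_pos p Nat.card_pos.ne').ne'
  have hζ := Complex.isPrimitiveRoot_exp _ hm
  have hd : orderOf g ∣ Nat.card G / p ^ (Nat.card G).factorization p := by
    have h1 : orderOf g ∣ p ^ (Nat.card G).factorization p *
        (Nat.card G / p ^ (Nat.card G).factorization p) := by
      rw [Nat.ordProj_mul_ordCompl_eq_self]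
      exact orderOf_dvd_natCard g
    exact (Nat.Coprime.pow_right _
      ((Nat.Prime.coprime_iff_not_dvd hp).2 hg).symm).dvd_of_dvd_mul_left h1
  refine mem_adjoin_of_forall_aut ((hζ.isIntegral (Nat.pos_of_ne_zero hm)).tower_top)
    ((blockCoeff_isAlgebraic B g).extendScalars (RingHom.injective_int _)).isIntegral ?_
  intro σ hσ
  have hz : ∀ z : ℂ, z ^ orderOf g⁻¹ = 1 → σ.toRingHom z = z := by
    intro z hz
    rw [orderOf_inv] at hz
    obtain ⟨c, hc⟩ := hd
    have : NeZero (Nat.card G / p ^ (Nat.card G).factorization p) := ⟨hm⟩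
    obtain ⟨i, -, rfl⟩ := hζ.eq_pow_of_pow_eq_one (ξ := z) (by rw [hc, pow_mul, hz, one_pow])
    change σ _ = _
    rw [map_pow, hσ]
  rw [blockCoeff_eq_sum, map_mul, map_inv₀, map_natCast, map_sum]
  congr 1
  refine Finset.sum_congr rfl fun χ _ => ?_
  rw [map_mul, ← isIrr_inv χ.2]
  congr 1
  · exact Galois.map_apply_one σ.toRingHom (irr_isGenChar χ)
  · exact Galois.isGenChar_map_eq_self σ.toRingHom (irr_isGenChar χ) hz

end Cfsg.Agent.S4664
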