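import Mathlib
import Cfsg.Statements.S4665
import Cfsg.Agent.Block.Rank2

set_option autoImplicit false
open Cfsg

namespace Cfsg.Agent.S4665

open Cfsg.Agent.Block Cfsg.Agent.Char

/-- Fix a prime p, a maximal ideal M of the algebraic integers containing p, and a p-block B of the finite group G, and let p^a be the p-part of the order of G. Let χ be an integer combination of the irreducible characters in B. If the function that agrees with χ on p-regular elements and vanishes on p-singular elements is again an integer combination of the irreducible characters in B, then p^a divides χ(1). -/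
theorem result {G : Type*} [Group G] [Fintype G] (p : ℕ) [Fact p.Prime] (M : Ideal Cfsg.AlgInt) (hM : Cfsg.IsPModular p M) (B : Set (Cfsg.IrrCharacter G)) (hB : Cfsg.IsPBlock M B) (χ : G → ℂ) (hχ : (∃ n : Cfsg.IrrCharacter G → ℤ, ∀ g : G, χ g = ∑ᶠ ψ ∈ B, (n ψ : ℂ) * (ψ : G → ℂ) g)) (h0 : (∃ n : Cfsg.IrrCharacter G → ℤ, ∀ g : G, Cfsg.pRegularPart p χ g = ∑ᶠ ψ ∈ B, (n ψ : ℂ) * (ψ : G → ℂ) g)) : ∃ k : ℤ, χ 1 = (p ^ (Nat.card G).factorization p : ℂ) * k := by
  classical
  obtain ⟨n, hn⟩ := h0
  have hg : IsGeneralizedCharacter G (pRegularPart p χ) := by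
    have : pRegularPart p χ = ∑ ψ : IrrCharacter G with ψ ∈ B, (n ψ : ℂ) • (ψ : G → ℂ) := by
      funext g
      rw [hn, finsum_mem_irr, Finset.sum_apply]
      rfl
    rw [this]
    exact isGenChar_sum _ fun ψ _ => isGenChar_intCast_smul _ (irr_isGenChar ψ)
  have h1 := val_div_card_centralizer_le hM (isGenChar_classFun hg)
    (fun g hg => pRegularPart_of_dvd hg) (γ := 1) (fun ψ => by
      obtain ⟨n, hn⟩ := classInner_isGenChar_int hg (irr_isGenChar ψ)
      rw [hn]; exact val_intCast_le_one M n) 1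
  have h2 : Subgroup.centralizer ({1} : Set G) = ⊤ := by
    ext x; simp [Subgroup.mem_centralizer_singleton_iff]
  obtain ⟨m, hm⟩ := isGenChar_degree hg
  rw [h2, Subgroup.card_top, hm, map_div₀, val_natCast hM Nat.card_pos.ne',
    div_le_one₀ (pow_pos (val_p_pos hM) _)] at h1
  obtain ⟨k, rfl⟩ := pow_dvd_int_of_val_le hM h1
  rw [pRegularPart_of_not_dvd (by rw [orderOf_one]; exact hM.1.not_dvd_one)] at hm
  exact ⟨k, by rw [hm]; push_cast; rfl⟩

end Cfsg.Agent.S4665
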