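import Mathlib
import Cfsg.Statements.S4666
import Cfsg.Agent.Block.Rank2

set_option autoImplicit false
open Cfsg

namespace Cfsg.Agent.S4666

open Cfsg.Agent.Block Cfsg.Agent.Char

/-- Fix a prime p and a maximal ideal M of the algebraic integers containing p, and a p-block B of the finite group G of defect d. For every integer combination χ of the irreducible characters in B, p^d times the function that agrees with χ on p-regular elements and vanishes elsewhere is again an integer combination of the irreducible characters in B. -/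
theorem result {G : Type*} [Group G] [Fintype G] (p : ℕ) [Fact p.Prime] (M : Ideal Cfsg.AlgInt) (hM : Cfsg.IsPModular p M) (B : Set (Cfsg.IrrCharacter G)) (hB : Cfsg.IsPBlock M B) (χ : G → ℂ) (hχ : (∃ n : Cfsg.IrrCharacter G → ℤ, ∀ g : G, χ g = ∑ᶠ ψ ∈ B, (n ψ : ℂ) * (ψ : G → ℂ) g)) : (∃ n : Cfsg.IrrCharacter G → ℤ, ∀ g : G, (p ^ Cfsg.blockDefect p B : ℂ) * Cfsg.pRegularPart p χ g = ∑ᶠ ψ ∈ B, (n ψ : ℂ) * (ψ : G → ℂ) g) := by
  classical
  obtain ⟨n, hn⟩ := hχ
  obtain ⟨m, -, hm⟩ := exists_contrib hM hB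
  have hV := isV_blockIdem hM hB
  have h1 : χ = ∑ ψ : IrrCharacter G with ψ ∈ B, (n ψ : ℂ) • (ψ : G → ℂ) := by
    funext g
    rw [hn, finsum_mem_irr, Finset.sum_apply]
    rfl
  refine ⟨fun φ => ∑ ψ : IrrCharacter G with ψ ∈ B, n ψ * m ψ φ, fun g => ?_⟩
  rw [finsum_mem_irr, h1, pReg_sum, Finset.sum_apply, Finset.mul_sum]
  push_cast
  simp only [Finset.sum_mul]
  rw [Finset.sum_comm]
  refine Finset.sum_congr rfl fun ψ hψ => ?_
  have hψ' := (Finset.mem_filter.1 hψ).2
  rw [pReg_smul, Pi.smul_apply, smul_eq_mul, ← blockPart_irr_of_mem hψ',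
    ← blockPart_pRegularPart hM hV, blockPart_eq_sum, Finset.mul_sum, Finset.mul_sum]
  refine Finset.sum_congr rfl fun φ _ => ?_
  rw [hm ψ hψ']
  ring

end Cfsg.Agent.S4666
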