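import Mathlib
import Cfsg.Statements.S4668
import Cfsg.Agent.Block.Pair3
import Cfsg.Agent.Core.Coprime

set_option autoImplicit false
open Cfsg

namespace Cfsg.Agent.S4668

open Cfsg.Agent.Block Cfsg.Agent.Char Subgroup
open scoped commutatorElement

theorem mem_centralizer_of_blockCoeff {G : Type*} [Group G] [Finite G] {p : ℕ} {M : Ideal AlgInt}
    (hM : IsPModular p M) {B : Set (IrrCharacter G)} (hB : IsPBlock M B) {Q : Subgroup G}
    [Q.Normal] (hQ : IsPGroup p Q) {g : G} (h : blockCoeff B g ≠ 0) :
    g ∈ centralizer (Q : Set G) := by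
  obtain ⟨D, hD⟩ := exists_isDefectGroup hM hB
  obtain ⟨a, rfl, ha⟩ := exists_isBPOf_of_br hM hB hQ (br_ne_zero_of_le
    (normal_le_defect hM hB hD hQ) (br_eB_ne_zero_of_isDefectGroup hM hB hD))
  by_contra hg
  apply h
  rw [← coeff_blockIdem, ← osum_top_eq_blockIdem hM ha]
  exact coeff_osum_of_notMem (by rw [normalizer_eq_top]) hg

/-- Fix a prime p and a maximal ideal M of the algebraic integers containing p. Let Q₀ < Q₁ < ⋯ < Q_m be a strictly increasing chain of p-subgroups of the finite group G and N the intersection of their normalizers. Then every block idempotent of N is supported on C_G(Q_m): for every p-block E of N, the idempotent coefficient of E vanishes at every element of N outside C_G(Q_m). -/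
theorem result {G : Type*} [Group G] [Fintype G] (p : ℕ) [Fact p.Prime] (M : Ideal Cfsg.AlgInt) (hM : Cfsg.IsPModular p M) (m : ℕ) (Q : Fin (m + 1) → Subgroup G) (hQ : StrictMono Q) (hQp : ∀ i, IsPGroup p (Q i)) (N : Subgroup G) (hN : ∀ g : G, g ∈ N ↔ ∀ i, g ∈ Subgroup.normalizer (Q i : Set G)) (E : Set (Cfsg.IrrCharacter N)) (hE : Cfsg.IsPBlock M E) (n : N) (hn : (n : G) ∉ Subgroup.centralizer (Q (Fin.last m) : Set G)) : Cfsg.blockCoeff E n = 0 := by
  classical
  have hp := hM.1
  by_contra h0
  apply hn
  have hreg : ¬ p ∣ orderOf (n : G) := fun h =>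
    h0 (blockCoeff_eq_zero_of_dvd hM (isV_blockIdem hM hE) (by rwa [← Subgroup.orderOf_coe]))
  have h1 : ∀ i, ∀ y ∈ Q i, y ∈ N → y * n = n * y := by
    intro i y hy hyN
    have : ((Q i).subgroupOf N).Normal :=
      (normal_subgroupOf_iff_le_normalizer_inf.2 fun g hg => by
        exact Core.le_normalizer_inf (A := N) (fun g hg => (hN g).1 hg i) le_normalizer hg)
    have := mem_centralizer_of_blockCoeff hM hE (Q := (Q i).subgroupOf N)
      (hQp i).comap_subtype h0
    exact congrArg Subtype.val (this ⟨y, hyN⟩ hy)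
  have key : ∀ k : ℕ, ∀ i : Fin (m + 1), i.val = k → (n : G) ∈ centralizer (Q i : Set G) := by
    intro k
    induction k using Nat.strong_induction_on with
    | _ k ih =>
    intro i hi
    let D : Subgroup G := Q i ⊓ centralizer ({(n : G)} : Set G)
    by_contra hc
    have hlt : D < Q i := by
      refine lt_of_le_of_ne inf_le_left fun e => hc fun y hy => ?_
      have : y ∈ D := e ▸ hy
      exact mem_centralizer_singleton_iff.1 this.2
    have hlt2 := LocalEven.lt_inf_normalizer (hQp i) hlt
    have hAD : zpowers (n : G) ≤ centralizer (D : Set G) :=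
      zpowers_le.2 fun y hy => mem_centralizer_singleton_iff.1 hy.2
    have hcop : (Nat.card (zpowers (n : G))).Coprime (Nat.card D) := by
      obtain ⟨j, hj⟩ := ((hQp i).to_le (inf_le_left : D ≤ Q i)).exists_card_eq
      rw [hj, Nat.card_zpowers]
      exact Nat.Coprime.pow_right _ ((Nat.Prime.coprime_iff_not_dvd hp).2 hreg).symm
    have hcomm : ⁅Q i ⊓ normalizer (D : Set G), zpowers (n : G)⁆ ≤ D := by
      rw [commutator_le]
      intro y hy a ha
      have haN : a ∈ N := zpowers_le.2 n.2 ha
      have m1 : ⁅y, a⁆ ∈ Q i := by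
        rw [commutatorElement_def, mul_assoc, mul_assoc, ← mul_assoc a]
        exact mul_mem hy.1 ((mem_normalizer_iff.1 ((hN a).1 haN i) _).1 (inv_mem hy.1))
      have m2 : ⁅y, a⁆ ∈ centralizer (D : Set G) := by
        rw [commutatorElement_def]
        exact mul_mem ((mem_normalizer_iff.1
          (Core.normalizer_le_normalizer_centralizer _ hy.2) _).1 (hAD ha)) (inv_mem (hAD ha))
      have m3 : ⁅y, a⁆ ∈ N := by
        rw [hN]
        intro j
        rcases lt_or_ge j i with hj | hj
        · refine centralizer_le_normalizer _ (centralizer_le (fun z hz => ?_) m2)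
          exact ⟨(hQ hj).le hz, mem_centralizer_singleton_iff.2 (ih j (hi ▸ hj) j rfl z hz)⟩
        · exact le_normalizer (hQ.monotone hj m1)
      exact ⟨m1, mem_centralizer_singleton_iff.2 (h1 i _ m1 m3)⟩
    have := Core.le_centralizer_of_commutator_le_of_centralizes _ _ _ hcop hAD hcomm
      (mem_zpowers _)
    exact hlt2.not_ge fun y hy => ⟨hy.1, mem_centralizer_singleton_iff.2 (this y hy)⟩
  exact key _ _ rfl

end Cfsg.Agent.S4668
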