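import Mathlib
import Cfsg.Statements.S4670
import Cfsg.Agent.Block.Corr

set_option autoImplicit false
open Cfsg

namespace Cfsg.Agent.S4670

open Cfsg.Agent.Block Cfsg.Agent.Char Subgroup

/-- Fix a prime p and a maximal ideal M of the algebraic integers containing p. Let P be a p-subgroup of the finite group G and H a subgroup containing N_G(P). For every p-block B of G with defect group P there is exactly one p-block c of H with defect group P whose idempotent agrees with that of B, modulo the local ideal at M, at every element of C_G(P) (their Brauer-map images at P coincide); and every p-block c of H with defect group P arises in this way from exactly one such B. This is the Brauer correspondence over H. -/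
theorem result {G : Type*} [Group G] [Fintype G] (p : ℕ) [Fact p.Prime] (M : Ideal Cfsg.AlgInt) (hM : Cfsg.IsPModular p M) (P H : Subgroup G) (hP : IsPGroup p P) (hH : Subgroup.normalizer (P : Set G) ≤ H) : (∀ B : Set (Cfsg.IrrCharacter G), Cfsg.IsPBlock M B → Cfsg.IsDefectGroup p M B P → ∃! c : Set (Cfsg.IrrCharacter H), Cfsg.IsPBlock M c ∧ Cfsg.IsDefectGroup p M c (P.subgroupOf H) ∧ ∀ x : G, x ∈ Subgroup.centralizer (P : Set G) → Cfsg.MemLocalIdeal M (Cfsg.blockCoeff B x - Cfsg.subgroupBlockCoeff H c x)) ∧ (∀ c : Set (Cfsg.IrrCharacter H), Cfsg.IsPBlock M c → Cfsg.IsDefectGroup p M c (P.subgroupOf H) → ∃! B : Set (Cfsg.IrrCharacter G), Cfsg.IsPBlock M B ∧ Cfsg.IsDefectGroup p M B P ∧ ∀ x : G, x ∈ Subgroup.centralizer (P : Set G) → Cfsg.MemLocalIdeal M (Cfsg.blockCoeff B x - Cfsg.subgroupBlockCoeff H c x)) := by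
  have hC := (centralizer_le_normalizer _).trans hH
  have hle : P ≤ H := le_normalizer.trans hH
  refine ⟨fun B hB hD => ?_, fun c hc hD => ?_⟩
  · obtain ⟨a, rfl, ha⟩ := exists_isMaxBP hM hB hD
    obtain ⟨c, hc, h⟩ := exists_rp hM ha.bp hle hC
    refine ⟨c, ⟨hc, (isDefectGroup_iff_defIn hM hc hle).2 (h.defIn_of_isMaxBP hM hc ha),
      (br_eq_iff_memLocalIdeal hM hB hc).2 (h.br_eq hM hc ha hH)⟩, fun c' ⟨h1, _, h3⟩ => ?_⟩
    refine block_eq_of_mu hM ha.bp hle hC h1 hc ?_ (h.mu ▸ one_ne_zero)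
    rw [← mu_congr_br ((br_eq_iff_memLocalIdeal hM hB h1).1 h3), ha.of.mu_eq_one hM]
    exact one_ne_zero
  · replace hD := (isDefectGroup_iff_defIn hM hc hle).1 hD
    obtain ⟨a, rfl, h⟩ := exists_rp_of_br hM hc hP hle hC hD.ne
    obtain ⟨B, hB⟩ := exists_isBPOf hM h.bp
    have ha := h.isMaxBP_of_defIn hM ((stabilizer_le_normalizer a).trans hH) hB hD
    refine ⟨B, ⟨hB.block, ha.defect hM, (br_eq_iff_memLocalIdeal hM hB.block hc).2
      (h.br_eq hM hc ha hH)⟩, fun B' ⟨h1, _, h3⟩ => (isBPOf_of hM h.bp h1 ?_).unique hM hB⟩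
    rw [mu_congr_br ((br_eq_iff_memLocalIdeal hM h1 hc).1 h3), h.mu]
    exact one_ne_zero

end Cfsg.Agent.S4670
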