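import Mathlib
import Cfsg.Statements.S4671
import Cfsg.Agent.Block.Pair4
import Cfsg.Agent.Block.Knorr
import Cfsg.Agent.Core.Basic

set_option autoImplicit false
open Cfsg

namespace Cfsg.Agent.S4671

open Cfsg.Agent.Block Cfsg.Agent.Char Subgroup

/-- Fix a prime p and a maximal ideal M of the algebraic integers containing p. Let N be a normal subgroup of the finite group G, B a p-block of G and P a defect group of B. Then there is a p-block c of N, stable under conjugation by P and covered by B (some member of B has a constituent in c on restriction to N), such that P ∩ N is a defect group of c. -/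
theorem result {G : Type*} [Group G] [Fintype G] (p : ℕ) [Fact p.Prime] (M : Ideal Cfsg.AlgInt) (hM : Cfsg.IsPModular p M) (N : Subgroup G) [N.Normal] [Fintype N] (B : Set (Cfsg.IrrCharacter G)) (hB : Cfsg.IsPBlock M B) (P : Subgroup G) (hP : Cfsg.IsDefectGroup p M B P) : ∃ c : Set (Cfsg.IrrCharacter N), Cfsg.IsPBlock M c ∧ (∀ x ∈ P, Cfsg.StabilizesBlock N c x) ∧ (∃ χ ∈ B, ∃ θ ∈ c, Cfsg.classInner (fun n : N => (χ : G → ℂ) n) (θ : N → ℂ) ≠ 0) ∧ Cfsg.IsDefectGroup p M c ((P ⊓ N).subgroupOf N) := by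
  classical
  have hpg := isDefectGroup_isPGroup hP
  obtain ⟨b, hb, hcov⟩ := exists_covered (N := N) hM (block_nonempty hM hB)
  have h0 := hcov.br_incl_ne_zero hM hB (isV_blockIdem hM hb) hpg
    (br_eB_ne_zero_of_isDefectGroup hM hB hP)
  obtain ⟨h, hh, h1⟩ := br_ne_zero_iff.1 h0
  have hsat := saturated_orbSet (saturated_of_isPBlock hM hb)
  rw [eB_eq_sum_blocksIn hM hsat, map_sum, coeff_sum_apply] at h1
  letI : MulAction P (Set (IrrCharacter N)) :=
    { smul := fun x c => conjSet (x : G)⁻¹ c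
      one_smul := fun c => by
        change conjSet ((1 : P) : G)⁻¹ c = c
        rw [OneMemClass.coe_one, inv_one, conjSet_one]
      mul_smul := fun x y c => by
        change conjSet ((x * y : P) : G)⁻¹ c = conjSet (x : G)⁻¹ (conjSet (y : G)⁻¹ c)
        rw [Subgroup.coe_mul, mul_inv_rev, conjSet_mul] }
  have hsm : ∀ (x : P) (c : Set (IrrCharacter N)), x • c = conjSet (x : G)⁻¹ c := fun _ _ => rfl
  have hmem : ∀ (g : G) (c : Set (IrrCharacter N)), c ∈ blocksIn M (orbSet b) →
      conjSet g c ∈ blocksIn M (orbSet b) := by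
    intro g c hc
    rw [mem_blocksIn_iff hM hsat] at hc ⊢
    refine ⟨isPBlock_compSet _ hc.1, fun θ hθ => ?_⟩
    exact ((gInv_orbSet b).conjIrr_mem_iff g⁻¹ θ).1 (hc.2 (mem_conjSet.1 hθ))
  have key := sum_eq_sum_fixedPoints (p_eq_zero_F hM) hpg
    (fun c : Set (IrrCharacter N) =>
      if c ∈ blocksIn M (orbSet b) then (incl N (eB M c)).coeff h else 0) (by
      intro x c
      rw [hsm]
      by_cases hc : c ∈ blocksIn M (orbSet b)
      · rw [if_pos hc, if_pos (hmem _ c hc), incl_eB_conjSet, inv_inv, coeff_cjA,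
          mul_assoc, ← hh x x.2, inv_mul_cancel_left]
      · rw [if_neg hc, if_neg]
        intro h'
        have := hmem x _ h'
        rw [← conjSet_mul, inv_mul_cancel, conjSet_one] at this
        exact hc this)
  rw [Finset.sum_ite_mem, Finset.univ_inter] at key
  rw [key] at h1
  obtain ⟨c, hc, h2⟩ := Finset.exists_ne_zero_of_sum_ne_zero h1
  have hc1 := (Finset.mem_filter.1 hc).2
  have hc2 : c ∈ blocksIn M (orbSet b) := by
    by_contra h'
    exact h2 (if_neg h')
  rw [if_pos hc2] at h2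
  obtain ⟨hc3, hc4⟩ := (mem_blocksIn_iff hM hsat).1 hc2
  obtain ⟨g, rfl⟩ := eq_conjSet_of_subset_orbSet hM hb hc3 hc4
  refine ⟨_, hc3, fun x hx => stabilizesBlock_iff.2 (mem_stab.2 ?_), hcov.conjSet g, ?_⟩
  · simpa [hsm] using hc1 ⟨x⁻¹, inv_mem hx⟩
  · refine isDefectGroup_of_pow_le hM hc3 ((hpg.to_le inf_le_left).comap_subtype) ?_ ?_
    · exact br_subgroupOf_ne_zero (br_ne_zero_of_le inf_le_left (br_ne_zero_iff.2 ⟨h, hh, h2⟩))
    · rw [← (hcov.conjSet g).card_inf_eq hM hB hc3 hP, Core.card_subgroupOf_of_le inf_le_right]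

end Cfsg.Agent.S4671
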