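import Mathlib
import Cfsg.Statements.S4672
import Cfsg.Agent.Block.FongReynolds

set_option autoImplicit false
open Cfsg

namespace Cfsg.Agent.S4672

open Cfsg.Agent.Block

/-- Fix a prime p and a maximal ideal M of the algebraic integers containing p. Let N be a normal subgroup of the finite group G of p-power index and c a p-block of N stable under conjugation by G. Then the idempotent of c is a block idempotent of G: there is a p-block B of G whose idempotent coefficients agree with those of c on N and vanish off N; and for every defect group P of such a block B, G = NP and P ∩ N is a defect group of c. -/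
theorem result {G : Type*} [Group G] [Fintype G] (p : ℕ) [Fact p.Prime] (M : Ideal Cfsg.AlgInt) (hM : Cfsg.IsPModular p M) (N : Subgroup G) [N.Normal] (hN : ∃ k : ℕ, N.index = p ^ k) (c : Set (Cfsg.IrrCharacter N)) (hc : Cfsg.IsPBlock M c) (hst : ∀ x : G, Cfsg.StabilizesBlock N c x) : (∃ B : Set (Cfsg.IrrCharacter G), Cfsg.IsPBlock M B ∧ ∀ g : G, Cfsg.blockCoeff B g = Cfsg.subgroupBlockCoeff N c g) ∧ ∀ B : Set (Cfsg.IrrCharacter G), Cfsg.IsPBlock M B → (∀ g : G, Cfsg.blockCoeff B g = Cfsg.subgroupBlockCoeff N c g) → ∀ P : Subgroup G, Cfsg.IsDefectGroup p M B P → N ⊔ P = ⊤ ∧ Cfsg.IsDefectGroup p M c ((P ⊓ N).subgroupOf N) := by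
  have := Fintype.ofFinite N
  have hi : GInv c := gInv_iff_stab.2 (eq_top_iff.2 fun g _ => stabilizesBlock_iff.1 (hst g))
  have hB₀ := isPBlock_overSet_of_index hM hN hc
  have hco : ∀ g : G, blockCoeff (overSet c) g = subgroupBlockCoeff N c g := fun g => by
    rw [← coeff_blockIdem, ← hi.incl_blockIdem, subgroupBlockCoeff]
    split_ifs with h
    · rw [coeff_incl_of_mem _ _ h, coeff_blockIdem]
    · exact coeff_incl_of_notMem _ _ h
  refine ⟨⟨_, hB₀, hco⟩, fun B hB h P hP => ?_⟩
  have hid : blockIdem B = blockIdem (overSet c) :=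
    ga_ext fun g => by rw [coeff_blockIdem, coeff_blockIdem, h, hco]
  obtain ⟨χ, hχ⟩ := block_nonempty hM hB
  have hχ' : χ ∈ overSet c := by
    by_contra h'
    have := omega_blockIdem_of_notMem h'
    rw [← hid, omega_blockIdem_of_mem hχ] at this
    exact one_ne_zero this
  have hcov : Covers B c := ⟨χ, hχ, hχ'⟩
  obtain ⟨h1, h2, -⟩ := hcov.defect_of_unique hM hB hc hi
    (fun B' hB' h' => h'.unique_of_index hM hN hB' hB hc hcov) hP
  refine ⟨?_, h2⟩
  obtain ⟨k, hk⟩ := hN
  obtain ⟨j, -, hj⟩ := (Nat.dvd_prime_pow hM.1).1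
    (hk ▸ Subgroup.index_dvd_of_le (le_sup_left : N ≤ N ⊔ P))
  rw [← Subgroup.index_eq_one, hj]
  rcases j with _ | j
  · rfl
  · exact absurd (hj ▸ dvd_pow_self p j.succ_ne_zero) h1

end Cfsg.Agent.S4672
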