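import Mathlib
import Cfsg.Statements.S4673
import Cfsg.Agent.Block.Pair4
import Cfsg.Agent.Block.Knorr2
import Cfsg.Agent.Core.PSolvable

set_option autoImplicit false
open Cfsg

namespace Cfsg.Agent.S4673

open Cfsg.Agent.Block Cfsg.Agent.Char Subgroup MonoidAlgebra

/-- Fix a prime p and a maximal ideal M of the algebraic integers containing p. Let N ≤ L be normal subgroups of the finite group G with L/N a p-group, let B be a p-block of G covering the p-block c of N (some member of B has a constituent in c on restriction to N), and suppose that N contains a defect group of B. Then the stabilizer T of c in G satisfies T ∩ L = N. -/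
theorem result {G : Type*} [Group G] [Fintype G] (p : ℕ) [Fact p.Prime] (M : Ideal Cfsg.AlgInt) (hM : Cfsg.IsPModular p M) (N L : Subgroup G) [N.Normal] [L.Normal] [Fintype N] (hNL : N ≤ L) (hLN : ∃ k : ℕ, (N.subgroupOf L).index = p ^ k) (B : Set (Cfsg.IrrCharacter G)) (hB : Cfsg.IsPBlock M B) (c : Set (Cfsg.IrrCharacter N)) (hc : Cfsg.IsPBlock M c) (hcov : (∃ χ ∈ B, ∃ θ ∈ c, Cfsg.classInner (fun n : N => (χ : G → ℂ) n) (θ : N → ℂ) ≠ 0)) (hD : ∃ D : Subgroup G, Cfsg.IsDefectGroup p M B D ∧ D ≤ N) (T : Subgroup G) (hT : ∀ x : G, x ∈ T ↔ Cfsg.StabilizesBlock N c x) : T ⊓ L = N := by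
  classical
  have hp := hM.1
  have := Fintype.ofFinite L
  obtain rfl : T = stab c := by
    ext g
    rw [hT, stabilizesBlock_iff]
  obtain ⟨D, hD, hDN⟩ := hD
  let K : Subgroup G := stab c ⊓ L
  have hNK : N ≤ K := le_inf (le_stab c) hNL
  have := Fintype.ofFinite (N.subgroupOf K)
  obtain ⟨k, hk⟩ := hLN
  have hidx : ∃ j, N.relIndex K = p ^ j := by
    have : N.relIndex K ∣ p ^ k := hk ▸ Core.relIndex_dvd_of_le_right_normal N (inf_le_right : K ≤ L)
    obtain ⟨j, -, hj⟩ := (Nat.dvd_prime_pow hp).1 this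
    exact ⟨j, hj⟩
  have hE := isPBlock_overSet_of_index hM hidx (b := subSet hNK c) (isPBlock_compSet _ hc)
  have hEc : incl N (eB M c) = incl K (eB M (overSet (subSet hNK c))) := by
    rw [← (gInv_subSet hNK (inf_le_left : K ≤ stab c)).incl_eB, eB_compSet,
      incl_subgroupOf_resHom hNK, incl_resTo]
    exact fun g hg => coeff_incl_of_notMem _ _ fun h => hg (hNK h)
  obtain ⟨R, hR, -⟩ := exists_defIn_ge (p := p) (ε := incl K (eB M (overSet (subSet hNK c))))
    (bot_le : ⊥ ≤ K) IsPGroup.of_bot (by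
      obtain ⟨D', hD'⟩ := exists_isDefectGroup hM hE
      exact br_ne_zero_of_le bot_le ((isDefectGroup_iff_defIn_map hM hE).1 hD').ne)
  have h1 := (hR.of_incl_eq hM hNK (by rw [normalizer_eq_top]; exact le_top) hc hE hEc).1
  have hRL : R ≤ L := hR.le.trans inf_le_right
  have hinv : InvUnder R (incl N (eB M c)) := by
    rw [hEc]
    exact (isCentral_eB _).invUnder_incl.mono hR.le
  obtain ⟨μ, hμ⟩ : ∃ μ : (F M)[L] →ₗ[F M] (F M)[centralizer (R : Set G)],
      ∀ y, μ y = br R (incl L y * incl N (eB M c)) :=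
    ⟨(br R).comp ((LinearMap.mulRight (F M) (incl N (eB M c))).comp (incl L).toLinearMap),
      fun _ => rfl⟩
  obtain ⟨β, hβ, -, h2⟩ := exists_block_map_ne_zero hM (saturated_univ (G := L)) μ (by
      rw [hμ, eB_univ, map_one, one_mul, hEc]
      exact hR.ne)
  rw [hμ] at h2
  have h3 : incl L (eB M β) * incl N (eB M c) ≠ 0 := fun h => h2 (by rw [h, map_zero])
  have h4 : br R (incl L (eB M β)) ≠ 0 := by
    intro h
    rw [br_mul (p_eq_zero_F hM) hR.pg ((isCentral_eB _).invUnder_incl.mono hRL) hinv, h,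
      zero_mul] at h2
    exact h2 rfl
  obtain ⟨w, hw, h5⟩ := exists_block_mul_ne_zero hM L (Covers.mul_ne_zero hM hB hc hcov)
  have hcm : incl N (eB M c) * incl L (eB M w) = incl L (eB M w) * incl N (eB M c) := by
    have := (isCentral_eB (M := M) w).invUnder_incl.commute_incl (resTo L (incl N (eB M c)))
    rw [incl_resTo _ fun g hg => coeff_incl_of_notMem _ _ fun h => hg (hNL h)] at this
    exact this.eq.symm
  have h6 : incl L (eB M w) * incl N (eB M c) ≠ 0 := fun h => h5 (by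
    rw [mul_assoc, hcm, h, mul_zero])
  have h7 : eB M B * incl L (eB M w) ≠ 0 := fun h => h5 (by
    rw [mul_assoc, hcm, ← mul_assoc, h, zero_mul])
  obtain rfl : β = w := block_eq_of_mul_ne_zero hM hNL (by rw [normalizer_eq_top]; exact le_top)
    ⟨k, hk⟩ hβ hw hc h3 h6
  obtain ⟨Q, hQ, hRQ⟩ := exists_defIn_ge hRL hR.pg h4
  have h8 := (covers_of_mul_ne_zero hM hB hβ h7).br_eB_ne_zero hM hB hβ hQ.le
    ((isDefectGroup_iff_defIn hM hβ hQ.le).2 hQ)
  obtain ⟨x, hx⟩ := (br_eB_ne_zero_iff hM hB hD hQ.pg).1 h8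
  have hRN : R ≤ N := fun y hy => by
    have : x * y * x⁻¹ ∈ N := hDN (hx (mem_map_of_mem _ (hRQ hy)))
    simpa [mul_assoc] using Subgroup.Normal.conj_mem inferInstance _ this x⁻¹
  rw [sup_eq_left.2 hRN] at h1
  obtain ⟨j, hj⟩ := hidx
  refine le_antisymm (relIndex_eq_one.1 ?_) hNK
  rcases j with _ | j
  · exact hj
  · exact absurd (hj ▸ dvd_pow_self p j.succ_ne_zero) h1

end Cfsg.Agent.S4673
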