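import Mathlib
import Cfsg.Statements.S4674
import Cfsg.Agent.Block.HK

set_option autoImplicit false
open Cfsg

namespace Cfsg.Agent.S4674

open Cfsg.Agent.Block Cfsg.Agent.Char Subgroup

/-- Fix a prime p and a maximal ideal M of the algebraic integers containing p. Let N be a normal subgroup of the finite group G, Q a p-subgroup of N, H = N_G(Q) and L = H ∩ N = N_N(Q). Let d be a p-block of N with defect group Q and e the p-block of L with defect group Q that induces d inside N (its Brauer correspondent). Then block induction from H to G is a bijection from the p-blocks of H covering e onto the p-blocks of G covering d: every block of H covering e induces exactly one block of G, and that block covers d; and every block of G covering d is induced by exactly one block of H covering e. -/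
theorem result {G : Type*} [Group G] [Fintype G] (p : ℕ) [Fact p.Prime] (M : Ideal Cfsg.AlgInt) (hM : Cfsg.IsPModular p M) (N : Subgroup G) [N.Normal] [Fintype N] (Q : Subgroup G) (hQ : IsPGroup p Q) (hQN : Q ≤ N) [Fintype ↥(Subgroup.normalizer (Q : Set G) ⊓ N)] (d : Set (Cfsg.IrrCharacter N)) (hd : Cfsg.IsPBlock M d) (hdQ : Cfsg.IsDefectGroup p M d (Q.subgroupOf N)) (e : Set (Cfsg.IrrCharacter ↥(Subgroup.normalizer (Q : Set G) ⊓ N))) (he : Cfsg.IsPBlock M e) (heQ : Cfsg.IsDefectGroup p M e (Q.subgroupOf (Subgroup.normalizer (Q : Set G) ⊓ N))) (hed : Cfsg.IsInducedBlockIn M N (Subgroup.normalizer (Q : Set G) ⊓ N) e d) : (∀ c : Set (Cfsg.IrrCharacter ↥(Subgroup.normalizer (Q : Set G))), Cfsg.IsPBlock M c → (∃ ψ ∈ c, ∃ ξ ∈ e, Cfsg.classInner (fun l : ↥(Subgroup.normalizer (Q : Set G) ⊓ N) => (ψ : ↥(Subgroup.normalizer (Q : Set G)) → ℂ) (Subgroup.inclusion inf_le_left l)) (ξ : ↥(Subgroup.normalizer (Q : Set G) ⊓ N) → ℂ) ≠ 0) → ∃! B : Set (Cfsg.IrrCharacter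 G), Cfsg.IsInducedBlock M (Subgroup.normalizer (Q : Set G)) c B ∧ (∃ χ ∈ B, ∃ θ ∈ d, Cfsg.classInner (fun n : N => (χ : G → ℂ) n) (θ : N → ℂ) ≠ 0)) ∧ (∀ B : Set (Cfsg.IrrCharacter G), Cfsg.IsPBlock M B → (∃ χ ∈ B, ∃ θ ∈ d, Cfsg.classInner (fun n : N => (χ : G → ℂ) n) (θ : N → ℂ) ≠ 0) → ∃! c : Set (Cfsg.IrrCharacter ↥(Subgroup.normalizer (Q : Set G))), (Cfsg.IsPBlock M c ∧ ∃ ψ ∈ c, ∃ ξ ∈ e, Cfsg.classInner (fun l : ↥(Subgroup.normalizer (Q : Set G) ⊓ N) => (ψ : ↥(Subgroup.normalizer (Q : Set G)) → ℂ) (Subgroup.inclusion inf_le_left l)) (ξ : ↥(Subgroup.normalizer (Q : Set G) ⊓ N) → ℂ) ≠ 0) ∧ Cfsg.IsInducedBlock M (Subgroup.normalizer (Q : Set G)) c B) := by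
  have hLH : normalizer (Q : Set G) ⊓ N ≤ normalizer (Q : Set G) := inf_le_left
  have hQL : Q ≤ normalizer (Q : Set G) ⊓ N := le_inf le_normalizer hQN
  have : ((normalizer (Q : Set G) ⊓ N).subgroupOf (normalizer (Q : Set G))).Normal := by
    rw [inf_subgroupOf_left]
    infer_instance
  have := Fintype.ofFinite ((normalizer (Q : Set G) ⊓ N).subgroupOf (normalizer (Q : Set G)))
  have hde := incl_br_of_first_main hM inf_le_right (inf_comm _ _) hQN hdQ
    ((isInducedBlockIn_iff_indAlong hM inf_le_right).1 hed)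
  refine ⟨fun c hc h => ?_, fun B hB h => ?_⟩
  · obtain ⟨B, hB⟩ := exists_induced hM hQ le_normalizer (centralizer_le_normalizer _) le_rfl hc
    rw [← covers_compSet_iff hLH, covers_iff_mul_ne_zero' hM hLH hc he] at h
    exact ⟨B, ⟨hB, hk_covers hM hQ hQN rfl hd hde hB h⟩, fun B' h' => induced_unique hM h'.1 hB⟩
  · obtain ⟨c, hc, h0⟩ := hk_exists hM hQN rfl hd hdQ hde hB h
    refine ⟨c, ⟨⟨hc.1, ?_⟩, hc⟩, fun c' h' => hk_unique hM rfl hLH rfl hQL he heQ h'.2 hc ?_ h0⟩
    · rwa [← covers_compSet_iff hLH, covers_iff_mul_ne_zero' hM hLH hc.1 he]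
    · rw [← covers_iff_mul_ne_zero' hM hLH h'.1.1 he, covers_compSet_iff hLH]
      exact h'.1.2

end Cfsg.Agent.S4674
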