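import Mathlib
import Cfsg.Statements.S4675
import Cfsg.Agent.Block.Knorr2
import Cfsg.Agent.Block.Nilp

set_option autoImplicit false
open Cfsg

namespace Cfsg.Agent.S4675

open Cfsg.Agent.Block Cfsg.Agent.Char Subgroup

/-- Fix a prime p and a maximal ideal M of the algebraic integers containing p. Let B be a p-block of the finite group G with defect group P and p-regular rank one (a single irreducible Brauer character). Then there are a function φ on G that is, on the p-regular elements, an integer combination of the members of B, and natural numbers d_χ (χ ∈ B), such that every χ ∈ B agrees with d_χ·φ on the p-regular elements and Σ_{χ ∈ B} d_χ² equals the order of P (the single Cartan invariant of B is the order of P). -/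
theorem result {G : Type*} [Group G] [Fintype G] (p : ℕ) [Fact p.Prime] (M : Ideal Cfsg.AlgInt) (hM : Cfsg.IsPModular p M) (B : Set (Cfsg.IrrCharacter G)) (hB : Cfsg.IsPBlock M B) (P : Subgroup G) (hP : Cfsg.IsDefectGroup p M B P) (hl : Cfsg.blockRank p B = 1) : ∃ φ : G → ℂ, ∃ d : Cfsg.IrrCharacter G → ℕ, (∃ n : Cfsg.IrrCharacter G → ℤ, ∀ x : G, Cfsg.IsPRegular p x → φ x = ∑ᶠ ψ ∈ B, (n ψ : ℂ) * (ψ : G → ℂ) x) ∧ (∀ χ ∈ B, ∀ x : G, Cfsg.IsPRegular p x → (χ : G → ℂ) x = (d χ : ℂ) * φ x) ∧ ∑ᶠ χ ∈ B, d χ ^ 2 = Nat.card P := by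
  classical
  have hp := hM.1
  obtain ⟨χ₀, hχ₀, h0⟩ := exists_height_zero (p := p) (block_nonempty hM hB)
  let s : Finset (IrrCharacter G) := Finset.univ.filter (· ∈ B)
  have hs : ∀ {χ}, χ ∈ s ↔ χ ∈ B := by simp [s]
  let g : ℤ := s.gcd fun χ => (charDegree (χ : G → ℂ) : ℤ)
  obtain ⟨n, hn⟩ := Finset.gcd_eq_sum_mul s fun χ => (charDegree (χ : G → ℂ) : ℤ)
  have hg0 : 0 ≤ g := by
    have : normalize g = g := Finset.normalize_gcd
    rw [← this, ← Int.abs_eq_normalize]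
    exact abs_nonneg g
  have hgd : ∀ χ ∈ B, g ∣ (charDegree (χ : G → ℂ) : ℤ) := fun χ hχ => Finset.gcd_dvd (hs.2 hχ)
  have hgne : g ≠ 0 := by
    intro h
    have := hgd χ₀ hχ₀
    rw [h, zero_dvd_iff] at this
    exact irr_degree_ne_zero χ₀ (by exact_mod_cast this)
  have hgc : (g : ℂ) ≠ 0 := Int.cast_ne_zero.2 hgne
  have hd : ∀ χ : IrrCharacter G, ∃ d : ℕ, χ ∈ B → (χ : G → ℂ) 1 = d * g := by
    intro χ
    by_cases hχ : χ ∈ B
    · obtain ⟨c, hc⟩ := hgd χ hχ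
      have hc0 : 0 ≤ c := by
        by_contra h
        push Not at h
        have : g * c < 0 := mul_neg_of_pos_of_neg (lt_of_le_of_ne hg0 hgne.symm) h
        omega
      refine ⟨c.toNat, fun _ => ?_⟩
      rw [← irr_degree_cast, ← Int.cast_natCast, hc, ← Int.cast_natCast,
        Int.toNat_of_nonneg hc0]
      push_cast
      ring
    · exact ⟨0, fun h => absurd h hχ⟩
  choose d hd using hd
  have hreg : ∀ ψ ∈ B, ∀ x, ¬ p ∣ orderOf x →
      (ψ : G → ℂ) x = (ψ : G → ℂ) 1 * ((χ₀ : G → ℂ) x / (χ₀ : G → ℂ) 1) := by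
    intro ψ hψ x hx
    obtain ⟨c, hc⟩ := exists_mul_of_blockRank_one hp hl hχ₀ hψ
    rw [hc x hx, hc 1 (one_regular hp)]
    have := irr_one_ne_zero χ₀
    field_simp
  let φ : G → ℂ := ∑ ψ ∈ s, (n ψ : ℂ) • (ψ : G → ℂ)
  have hφ : ∀ x, ¬ p ∣ orderOf x → φ x = g * ((χ₀ : G → ℂ) x / (χ₀ : G → ℂ) 1) := by
    intro x hx
    have e : (g : ℂ) = ∑ ψ ∈ s, (ψ : G → ℂ) 1 * n ψ := by
      have := congrArg (Int.cast : ℤ → ℂ) hn
      push_cast at this
      simpa only [irr_degree_cast] using this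
    rw [e, Finset.sum_mul]
    simp only [φ, Finset.sum_apply, Pi.smul_apply, smul_eq_mul]
    refine Finset.sum_congr rfl fun ψ hψ => ?_
    rw [hreg ψ (hs.1 hψ) x hx]
    ring
  have hχφ : ∀ χ ∈ B, ∀ x, ¬ p ∣ orderOf x → (χ : G → ℂ) x = d χ * φ x := by
    intro χ hχ x hx
    rw [hφ x hx, hreg χ hχ x hx, hd χ hχ]
    ring
  have hφg : IsGeneralizedCharacter G φ :=
    isGenChar_sum _ fun ψ _ => isGenChar_intCast_smul _ (irr_isGenChar ψ)
  refine ⟨φ, d, ⟨n, fun x _ => ?_⟩, hχφ, ?_⟩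
  · rw [finsum_mem_irr]
    simp only [φ, Finset.sum_apply, Pi.smul_apply, smul_eq_mul, s]
  have hbf : ∀ χ ∈ B, ∀ ψ ∈ B, bf p (χ : G → ℂ) ψ = d χ * (d ψ * bf p φ φ) := by
    intro χ hχ ψ hψ
    rw [bf_congr_left (f' := (d χ : ℂ) • φ) (hχφ χ hχ), bf_smul_left,
      bf_congr_right φ (g' := (d ψ : ℂ) • φ) (hχφ ψ hψ), bf_smul_right]
  have hsum : ((∑ χ ∈ s, d χ ^ 2 : ℕ) : ℂ) * bf p φ φ = 1 := by
    have := blockRank_eq_sum hM (isV_blockIdem hM hB)
    rw [hl, Nat.cast_one] at this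
    rw [this]
    push_cast
    rw [Finset.sum_mul]
    refine Finset.sum_congr rfl fun χ hχ => ?_
    rw [← bf_irr_right, hbf χ (hs.1 hχ) χ (hs.1 hχ)]
    ring
  have hbp : blockPart B φ = φ := blockPart_sum_smul_of_mem (fun χ hχ => hs.1 hχ) _
  obtain ⟨m, hm⟩ := exists_int_pow_mul_bf hM (e := B) le_rfl hφg hφg
  rw [hbp] at hm
  have hv := val_pow_mul_inner hM χ₀ χ₀ (factorization_degree_add_defect (p := p) hχ₀)
  rw [val_omega_aReg_eq_one hM hB hχ₀ hχ₀ h0, h0, pow_zero, one_mul, ← bf_irr_right,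
    hbf χ₀ hχ₀ χ₀ hχ₀, show (p : ℂ) ^ blockDefect p B * (d χ₀ * (d χ₀ * bf p φ φ)) =
      ((d χ₀ * d χ₀ * m : ℤ) : ℂ) by push_cast; rw [← hm]; ring,
    val_intCast_eq_one_iff hM] at hv
  have hpm : ¬ (p : ℤ) ∣ m := fun h => hv (Dvd.dvd.mul_left h _)
  have e : ((∑ χ ∈ s, d χ ^ 2 : ℕ) : ℤ) * m = p ^ blockDefect p B := by
    have : (((∑ χ ∈ s, d χ ^ 2 : ℕ) : ℤ) * m : ℤ) = ((p ^ blockDefect p B : ℤ) : ℂ) := by
      rw [Int.cast_mul, Int.cast_natCast, ← hm, mul_left_comm, hsum]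
      push_cast
      ring
    exact_mod_cast this
  rw [finsum_mem_irr, card_defectGroup hM hB hP]
  have e2 : (∑ χ ∈ s, d χ ^ 2) * m.natAbs = p ^ blockDefect p B := by
    have := congrArg Int.natAbs e
    rwa [Int.natAbs_mul, Int.natAbs_natCast, Int.natAbs_pow, Int.natAbs_natCast] at this
  have e3 : m.natAbs = 1 := by
    refine Nat.Coprime.eq_one_of_dvd (Nat.Coprime.pow_right (blockDefect p B)
      ((Nat.Prime.coprime_iff_not_dvd hp).2 fun h => hpm (Int.natCast_dvd.2 h)).symm) ?_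
    exact Dvd.intro_left _ e2
  rw [e3, mul_one] at e2
  exact e2

end Cfsg.Agent.S4675
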