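import Mathlib
import Cfsg.Statements.S4679
import Cfsg.Agent.Block.PairFS

set_option autoImplicit false
open Cfsg

namespace Cfsg.Agent.S4679

open Cfsg.Agent.Block

/-- Fix a prime p and a maximal ideal M of the algebraic integers containing p, a p-block B of the finite group G with maximal Brauer pair (P, e), its fusion system F on P, a Brauer pair (Q, f) ≤ (P, e), and let T be the stabilizer of f in N_G(Q). Then Q is fully normalized in F if and only if N_P(Q) is a defect group of the block of T whose idempotent is that of f. -/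
theorem result {G : Type*} [Group G] [Fintype G] (p : ℕ) [Fact p.Prime] (M : Ideal Cfsg.AlgInt) (hM : Cfsg.IsPModular p M) (B : Set (Cfsg.IrrCharacter G)) (P : Subgroup G) (e : Set (Cfsg.IrrCharacter (Subgroup.centralizer (P : Set G)))) (hmax : Cfsg.IsMaximalBrauerPair p M B P e) (F : Cfsg.FusionSystem P) (hF : Cfsg.IsBlockFusionSystemOn p M B P e F) (Q : Subgroup G) (f : Set (Cfsg.IrrCharacter (Subgroup.centralizer (Q : Set G)))) (hQP : Q ≤ P) (hf : Cfsg.IsPBlock M f) (hle : Cfsg.SubpairLE p M Q f P e) (T : Subgroup G) (hT : ∀ y : G, y ∈ T ↔ y ∈ Subgroup.normalizer (Q : Set G) ∧ Cfsg.StabilizesBlock (Subgroup.centralizer (Q : Set G)) f y) : F.IsFullyNormalized Q ↔ ∃ F' : Set (Cfsg.IrrCharacter T), Cfsg.IsPBlock M F' ∧ (∀ t : T, Cfsg.blockCoeff F' t = Cfsg.subgroupBlockCoeff (Subgroup.centralizer (Q : Set G)) f (t : G)) ∧ Cfsg.IsDefectGroup p M F' ((P ⊓ Subgroup.normalizer (Q : Set G)).subgroupOf T) := by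
  have hd : IsMaxBP p M B ⟨P, e⟩ := hmax
  have h : PLe p M ⟨Q, f⟩ ⟨P, e⟩ := hle
  have ha := h.left hd.bp
  obtain rfl : T = MulAction.stabilizer G (⟨Q, f⟩ : BrauerPairIdx G) := is_stabilizer_of hT
  have hle' := (h.inf_stabilizer hM hd.bp).ge.trans inf_le_right
  have key := isDefectGroup_iff_defIn hM (isPBlock_ovr hM ha (mid_stabilizer _)) hle'
  rw [incl_eB_ovr_stabilizer hM ha] at key
  rw [(rep_blockFS (hM := hM) (hd := hd.bp) hF).fn_iff le_top, Fusion.im_subtype_top]
  refine (hd.fn_iff hM h).trans ⟨fun hD => ⟨_, isPBlock_ovr hM ha (mid_stabilizer _),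
    blockCoeff_ovr_of_stab hM ha (mid_stabilizer _) fun _ hx => hx, key.2 hD⟩, ?_⟩
  rintro ⟨F', -, h1, h2⟩
  obtain rfl := ovr_eq_of_blockCoeff hM ha (mid_stabilizer _) (fun _ hx => hx) h1
  exact key.1 h2

end Cfsg.Agent.S4679
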