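import Mathlib
import Cfsg.Statements.S4681
import Cfsg.Agent.Block.PairFS
import Cfsg.Agent.S4652

set_option autoImplicit false
open Cfsg

namespace Cfsg.Agent.S4681

open Cfsg.Agent.Block

/-- Fix a prime p and a maximal ideal M of the algebraic integers containing p. Let B₀ be the principal p-block of the finite group G, P a Sylow p-subgroup and e₀ the principal p-block of C_G(P). Then (P, e₀) is a maximal Brauer pair of B₀, and the fusion system of B₀ on (P, e₀) is the fusion system of G on P: its maps from each subgroup of P are exactly the conjugation maps into P by elements of G. -/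
theorem result {G : Type*} [Group G] [Fintype G] (p : ℕ) [Fact p.Prime] (M : Ideal Cfsg.AlgInt) (hM : Cfsg.IsPModular p M) (S : Sylow p G) : Cfsg.IsMaximalBrauerPair p M (Cfsg.principalBlock M G) (S : Subgroup G) (Cfsg.principalBlock M (Subgroup.centralizer ((S : Subgroup G) : Set G))) ∧ ∀ F : Cfsg.FusionSystem (S : Subgroup G), Cfsg.IsBlockFusionSystemOn p M (Cfsg.principalBlock M G) (S : Subgroup G) (Cfsg.principalBlock M (Subgroup.centralizer ((S : Subgroup G) : Set G))) F → ∀ Q : Subgroup G, F.Hom Q = (Cfsg.groupFusionSystem (S : Subgroup G)).Hom Q := by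
  have hd : IsBPOf p M (principalBlock M G) ⟨S, principalBlock M _⟩ :=
    (isBPOf_principal_iff hM ⟨S.isPGroup', isPBlock_principalBlock⟩).2 rfl
  refine ⟨(isMaxBP_iff hM).2 ⟨hd, (S4652.result p M hM _).2 ⟨S, rfl⟩⟩, fun F hF => ?_⟩
  rw [(Fusion.rep_group (S : Subgroup G)).eq_iff (rep_blockFS (hM := hM) (hd := hd.bp) hF)]
  exact blockFS_principal hM hd

end Cfsg.Agent.S4681
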