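import Mathlib
import Cfsg.Statements.S4682
import Cfsg.Agent.Block.PairFS

set_option autoImplicit false
open Cfsg

namespace Cfsg.Agent.S4682

open Cfsg.Agent.Block

/-- Fix a prime p and a maximal ideal M of the algebraic integers containing p, a p-block B of the finite group G with maximal Brauer pair (P, e), P abelian, and a Brauer pair (Q, f) ≤ (P, e). Let T_Q be the stabilizer of f in N_G(Q) and T_P the stabilizer of e in N_G(P). Then every element of T_Q is a product of an element of T_P and an element of C_G(Q); and the index of C_G(Q) in T_Q equals the index of T_P ∩ C_G(Q) in T_P ∩ N_G(Q). -/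
theorem result {G : Type*} [Group G] [Fintype G] (p : ℕ) [Fact p.Prime] (M : Ideal Cfsg.AlgInt) (hM : Cfsg.IsPModular p M) (B : Set (Cfsg.IrrCharacter G)) (P : Subgroup G) (e : Set (Cfsg.IrrCharacter (Subgroup.centralizer (P : Set G)))) (hmax : Cfsg.IsMaximalBrauerPair p M B P e) (hab : ∀ x ∈ P, ∀ y ∈ P, x * y = y * x) (Q : Subgroup G) (f : Set (Cfsg.IrrCharacter (Subgroup.centralizer (Q : Set G)))) (hQP : Q ≤ P) (hf : Cfsg.IsPBlock M f) (hle : Cfsg.SubpairLE p M Q f P e) (TQ : Subgroup G) (hTQ : ∀ y : G, y ∈ TQ ↔ y ∈ Subgroup.normalizer (Q : Set G) ∧ Cfsg.StabilizesBlock (Subgroup.centralizer (Q : Set G)) f y) (TP : Subgroup G) (hTP : ∀ y : G, y ∈ TP ↔ y ∈ Subgroup.normalizer (P : Set G) ∧ Cfsg.StabilizesBlock (Subgroup.centralizer (P : Set G)) e y) : (∀ x ∈ TQ, ∃ y ∈ TP, ∃ c ∈ Subgroup.centralizer (Q : Set G), x = y * c) ∧ ((Subgroup.centralizer (Q : Set G)).subgroupOf TQ).index = ((TP ⊓ Subgroup.centralizer (Q : Set G)).subgroupOf (TP ⊓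 Subgroup.normalizer (Q : Set G))).index := by
  have hd : IsMaxBP p M B ⟨P, e⟩ := hmax
  have h : PLe p M ⟨Q, f⟩ ⟨P, e⟩ := hle
  obtain rfl : TQ = MulAction.stabilizer G (⟨Q, f⟩ : BrauerPairIdx G) := is_stabilizer_of hTQ
  obtain rfl : TP = MulAction.stabilizer G (⟨P, e⟩ : BrauerPairIdx G) := is_stabilizer_of hTP
  have hN := inf_le_right.trans (LocalEven.normalizer_le_normalizer_centralizer Q)
    (a := MulAction.stabilizer G (⟨P, e⟩ : BrauerPairIdx G) ⊓ Subgroup.normalizer (Q : Set G))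
  rw [hd.stabilizer_eq_of_abelian hM (fun x hx y hy => hab y hy x hx) h]
  refine ⟨fun x hx => ?_, (Fusion.relIndex_sup_of_nz hN).trans ?_⟩
  · obtain ⟨y, hy, c, hc, rfl⟩ := (Fusion.mem_sup_of_nz hN).1 hx
    exact ⟨y, hy.1, c, hc, rfl⟩
  · rw [Subgroup.relIndex]
    congr 1
    ext x
    exact ⟨fun h => ⟨x.2.1, h⟩, fun h => h.2⟩

end Cfsg.Agent.S4682
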