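import Mathlib
import Cfsg.Statements.S4685
import Cfsg.Agent.Block.Nilp

set_option autoImplicit false
open Cfsg

namespace Cfsg.Agent.S4685

open Cfsg.Agent.Block

/-- Fix a prime p and a maximal ideal M of the algebraic integers containing p, a p-block B of the finite group G with maximal Brauer pair (P, e) and fusion system F on P. Then for every h the number of irreducible characters of height h in B is divisible by the index of Z(P) ∩ foc(F) in Z(P), where foc(F) is the focal subgroup of F. -/
theorem result {G : Type*} [Group G] [Fintype G] (p : ℕ) [Fact p.Prime] (M : Ideal Cfsg.AlgInt) (hM : Cfsg.IsPModular p M) (B : Set (Cfsg.IrrCharacter G)) (P : Subgroup G) (e : Set (Cfsg.IrrCharacter (Subgroup.centralizer (P : Set G)))) (hmax : Cfsg.IsMaximalBrauerPair p M B P e) (F : Cfsg.FusionSystem P) (hF : Cfsg.IsBlockFusionSystemOn p M B P e F) (h : ℕ) : ((P ⊓ Subgroup.centralizer (P : Set G) ⊓ F.focalSubgroup).subgroupOf (P ⊓ Subgroup.centralizer (P : Set G))).index ∣ Nat.card {χ : Cfsg.IrrCharacter G // χ ∈ B ∧ Cfsg.blockHeight p B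 (χ : G → ℂ) = h} := by
  have hd : IsMaxBP p M B ⟨P, e⟩ := hmax
  have hN := focLe_focal hM hd.bp hF
  have h1 := hN.relIndex_dvd_card hM hd (q := fun χ => blockHeight p B (χ : G → ℂ) = h)
    fun _ _ e h0 => (blockHeight_congr (e 1 (one_regular hM.1))).trans h0
  have hc := hN.commutator_le hM hd.bp
  have : (F.focalSubgroup.subgroupOf P).Normal := ⟨fun n hn g => by
    simpa [commutatorElement_def] using Subgroup.mul_mem _ (hc (Subgroup.commutator_mem_commutator
      (Subgroup.mem_top g) (Subgroup.mem_top n))) hn⟩
  rw [Subgroup.relIndex_sup_left] at h1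
  have h2 : Subgroup.center P = (P ⊓ Subgroup.centralizer (P : Set G)).subgroupOf P := by
    ext x
    simp only [Subgroup.mem_center_iff, Subgroup.mem_subgroupOf, Subgroup.mem_inf, x.2, true_and,
      Subgroup.mem_centralizer_iff, Subtype.ext_iff]
    exact ⟨fun h g hg => h ⟨g, hg⟩, fun h g => h g g.2⟩
  rw [h2, Subgroup.relIndex_subgroupOf inf_le_left, ← Subgroup.inf_relIndex_left] at h1
  exact h1

end Cfsg.Agent.S4685
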