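import Mathlib
import Cfsg.Statements.S4690
import Cfsg.Agent.Block.Nilp

set_option autoImplicit false
open Cfsg

namespace Cfsg.Agent.S4690

open Cfsg.Agent.Block Cfsg.Agent.Char

/-- Fix a prime p and a maximal ideal M of the algebraic integers containing p, and a nilpotent p-block B of the finite group G with defect group P. Then there is a bijection from B onto the irreducible characters of P carrying the height of each χ ∈ B to the exponent of p in the degree of its image. -/
theorem result {G : Type*} [Group G] [Fintype G] (p : ℕ) [Fact p.Prime] (M : Ideal Cfsg.AlgInt) (hM : Cfsg.IsPModular p M) (B : Set (Cfsg.IrrCharacter G)) (hnil : Cfsg.IsNilpotentBlock p M B) (P : Subgroup G) (hP : Cfsg.IsDefectGroup p M B P) : ∃ Φ : B ≃ Cfsg.IrrCharacter P, ∀ χ : B, Cfsg.blockHeight p B ((χ : Cfsg.IrrCharacter G) : G → ℂ) = (Cfsg.charDegree ((Φ χ : Cfsg.IrrCharacter P) : P → ℂ)).factorization p := by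
  obtain ⟨χ, hχ, h0⟩ := exists_height_zero (p := p) (block_nonempty hM hnil.1)
  obtain ⟨d, rfl, hd⟩ := exists_isMaxBP hM hnil.1 hP
  obtain ⟨Φ, hΦ⟩ := hd.exists_equiv_of_nilpotent hM hnil hχ h0
  refine ⟨Φ.symm, fun ψ => ?_⟩
  obtain ⟨l, rfl⟩ := Φ.surjective ψ
  rw [Φ.symm_apply_apply, blockHeight_of_degree hM.1 hχ (Φ l).2 (n := charDegree (l : d.1 → ℂ)),
    h0, add_zero]
  rw [hΦ, (hd.stable_of_nilpotent hM hnil (irr_classFun l)).bstar_one_apply hM hd hχ,
    irr_degree_cast]

end Cfsg.Agent.S4690
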