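import Mathlib
import Cfsg.Statements.S4693
import Cfsg.Agent.Block.Pair4

set_option autoImplicit false
open Cfsg

namespace Cfsg.Agent.S4693

open Cfsg.Agent.Block

/-- Fix a prime p and a maximal ideal M of the algebraic integers containing p, a p-block B of the finite group G with maximal Brauer pair (P, e) and fusion system F on P, and a Brauer pair (Q, f) ≤ (P, e) with Q centric in F. Suppose every element of G normalizes Q and stabilizes f. Then the idempotent of B agrees with that of f modulo M at every element of G, and f is the idempotent of a nilpotent block of Q·C_G(Q): some p-block of Q·C_G(Q) has the idempotent coefficients of f and is nilpotent. -/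
theorem result {G : Type*} [Group G] [Fintype G] (p : ℕ) [Fact p.Prime] (M : Ideal Cfsg.AlgInt) (hM : Cfsg.IsPModular p M) (B : Set (Cfsg.IrrCharacter G)) (P : Subgroup G) (e : Set (Cfsg.IrrCharacter (Subgroup.centralizer (P : Set G)))) (hmax : Cfsg.IsMaximalBrauerPair p M B P e) (F : Cfsg.FusionSystem P) (hF : Cfsg.IsBlockFusionSystemOn p M B P e F) (Q : Subgroup G) (f : Set (Cfsg.IrrCharacter (Subgroup.centralizer (Q : Set G)))) (hQP : Q ≤ P) (hf : Cfsg.IsPBlock M f) (hle : Cfsg.SubpairLE p M Q f P e) (hcen : F.IsCentric Q) (hG : ∀ x : G, x ∈ Subgroup.normalizer (Q : Set G) ∧ Cfsg.StabilizesBlock (Subgroup.centralizer (Q : Set G)) f x) : (∀ g : G, Cfsg.MemLocalIdeal M (Cfsg.blockCoeff B g - Cfsg.subgroupBlockCoeff (Subgroup.centralizer (Q : Set G)) f g)) ∧ ∃ F' : Set (Cfsg.IrrCharacter ↥(Q ⊔ Subgroup.centralizer (Q : Set G))), Cfsg.IsPBlock M F' ∧ (∀ t : ↥(Q ⊔ Subgroup.centralizer (Q : Set G)), Cfsg.blockCoeff F' t = Cfsg.subgroupBlockCoeff (Subgroup.centralizer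 (Q : Set G)) f (t : G)) ∧ Cfsg.IsNilpotentBlock p M F' := by
  have hd : IsMaxBP p M B ⟨P, e⟩ := hmax
  have h : PLe p M ⟨Q, f⟩ ⟨P, e⟩ := hle
  have ha := hd.of.down hM h
  rw [(rep_blockFS (hM := hM) (hd := hd.bp) hF).cent_iff le_top, Fusion.im_subtype_top] at hcen
  have h1 := isNilpotentBlock_ovr_sup hM ha.bp ((hd.cent_iff hM h).1 hcen)
  have h2 := blockCoeff_ovr_of_stab hM ha.bp (mid_sup Q)
    fun _ hx => sup_le_stabilizer (⟨Q, f⟩ : BrauerPairIdx G) hx
  refine ⟨fun g => ?_, _, h1.1, h2, h1⟩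
  have : (⟨Q, f⟩ : BrauerPairIdx G).1.Normal :=
    Subgroup.normalizer_eq_top_iff.1 (eq_top_iff.2 fun x _ => (hG x).1)
  have h3 := osum_of_stab (H := ⊤) (a := ⟨Q, f⟩) fun x _ => pair_smul_eq_iff.2 (hG x)
  rw [← coeff_blockIdem, ← osum_top_eq_blockIdem hM ha, h3, coeff_cid, sub_self]
  exact (memLocalIdeal_iff hM isAlgebraic_zero).2 (by simp)

end Cfsg.Agent.S4693
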