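import Mathlib
import Cfsg.Statements.S4694
import Cfsg.Agent.Block.Pair4
import Cfsg.Agent.Block.Quot3
import Cfsg.Agent.Block.HK
import Cfsg.Agent.Block.Robin

set_option autoImplicit false
open Cfsg

namespace Cfsg.Agent.S4694

open Cfsg.Agent.Block Cfsg.Agent.Char Subgroup

/-- Fix a prime p and a maximal ideal M of the algebraic integers containing p, a p-block B of the finite group G and a Brauer pair (Q, e) of B. Let T be the stabilizer of e in N_G(Q) and suppose that (Q, e) carries a weight: the block of T whose idempotent is that of e contains an irreducible character χ that is constant on the cosets of Q and whose degree has p-part equal to the p-part of the index of Q in T. Then Z(Q) is a defect group of e as a block of C_G(Q), and Q is the largest normal p-subgroup of T: every p-subgroup of T normalized by T lies in Q. -/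
theorem result {G : Type*} [Group G] [Fintype G] (p : ℕ) [Fact p.Prime] (M : Ideal Cfsg.AlgInt) (hM : Cfsg.IsPModular p M) (B : Set (Cfsg.IrrCharacter G)) (Q : Subgroup G) (e : Set (Cfsg.IrrCharacter (Subgroup.centralizer (Q : Set G)))) (hQe : Cfsg.IsBrauerPairOf p M B Q e) (T : Subgroup G) (hT : ∀ y : G, y ∈ T ↔ y ∈ Subgroup.normalizer (Q : Set G) ∧ Cfsg.StabilizesBlock (Subgroup.centralizer (Q : Set G)) e y) (F' : Set (Cfsg.IrrCharacter T)) (hF' : Cfsg.IsPBlock M F') (hF'e : ∀ t : T, Cfsg.blockCoeff F' t = Cfsg.subgroupBlockCoeff (Subgroup.centralizer (Q : Set G)) e (t : G)) (χ : Cfsg.IrrCharacter T) (hχ : χ ∈ F') (hχQ : ∀ q : G, q ∈ Q → ∀ t : T, ∀ t' : T, (t' : G) = q * (t : G) → (χ : T → ℂ) t' = (χ : T → ℂ) t) (hdeg : (Cfsg.charDegree (χ : T → ℂ)).factorization p + (Nat.card Q).factorization p = (Nat.card T).factorization p) : Cfsg.IsDefectGroup p M e ((Q ⊓ Subgroup.centralizer (Q : Set G)).subgroupOf (Subgroup.centralizer (Q : Set G))) ∧ ∀ R : Subgroup G, R ≤ T → IsPGroup p R → (∀ t ∈ T, t ∈ Subgroup.normalizer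 (R : Set G)) → R ≤ Q := by
  classical
  have hp := hM.1
  let a : BrauerPairIdx G := ⟨Q, e⟩
  have ha : IsBP p M a := hQe.1
  obtain rfl : T = MulAction.stabilizer G a := is_stabilizer_of hT
  let T := MulAction.stabilizer G a
  have hm : Mid Q T := mid_stabilizer a
  obtain rfl : ovr T a = F' := ovr_eq_of_blockCoeff hM ha hm (fun _ h => h) hF'e
  let Q' := Q.subgroupOf T
  have hQ'n : Q'.Normal := (normal_subgroupOf_iff_le_normalizer hm.le).2 hm.len
  let f := QuotientGroup.mk' Q'
  have hf : Function.Surjective f := QuotientGroup.mk'_surjective _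
  obtain ⟨ψ, hψ⟩ := exists_inflIrr_of_ker_le f hf (χ := χ) (by
    rw [QuotientGroup.ker_mk', le_charKer_iff']
    intro x hx
    exact hχQ x hx 1 x (by simp))
  have := Fintype.ofFinite (T ⧸ Q')
  have hc : Nat.card T = Nat.card (T ⧸ Q') * Nat.card Q := by
    rw [card_eq_card_quotient_mul_card_subgroup Q',
      Nat.card_congr (subgroupOfEquivOfLe hm.le).toEquiv]
  have hb := isPBlock_blockOf (M := M) ψ
  have hbot : IsDefectGroup p M (blockOf M (ψ : T ⧸ Q' → ℂ)) ⊥ :=
    laradji hM hb IsPGroup.of_bot bot_le (self_mem_blockOf hM _) (by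
      change _ = (Nat.card T).factorization p at hdeg
      rw [hψ, charDegree_inflIrr, hc, Nat.factorization_mul Nat.card_pos.ne' Nat.card_pos.ne',
        Finsupp.add_apply] at hdeg
      rw [index_bot]
      omega)
  refine ⟨?_, fun R hRT hR hn => ?_⟩
  · let C := centralizer (Q : Set G)
    have hCT : C ≤ T := hm.cle
    have hCn : (C.subgroupOf T).Normal := ⟨fun c hc t q hq => by
      have h1 : (t : G)⁻¹ * q * t ∈ Q := by
        simpa using (mem_normalizer_iff.1 (hm.len (T.inv_mem t.2)) q).1 hq
      have h2 := hc _ h1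
      change q * (t * c * (t : G)⁻¹) = t * c * (t : G)⁻¹ * q
      calc q * (t * c * (t : G)⁻¹) = t * ((t : G)⁻¹ * q * t * c) * (t : G)⁻¹ := by group
        _ = _ := by
          rw [show (t : G)⁻¹ * q * t * c = c * ((t : G)⁻¹ * q * t) from h2]
          group⟩
    let N := (C.subgroupOf T).map f
    have hNn : N.Normal := hCn.map f hf
    have := Fintype.ofFinite N
    have := Fintype.ofFinite C
    have := Fintype.ofFinite (C.subgroupOf T)
    let g : C →* N := (f.comp (inclusion hCT)).codRestrict N fun c =>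
      mem_map_of_mem _ (by simp [mem_subgroupOf])
    have hg : Function.Surjective g := by
      rintro ⟨_, y, hy, rfl⟩
      exact ⟨⟨y, hy⟩, rfl⟩
    have hker : g.ker = (Q ⊓ C).subgroupOf C := by
      ext c
      rw [MonoidHom.mem_ker, mem_subgroupOf, mem_inf, Subtype.ext_iff]
      change f (inclusion hCT c) = 1 ↔ _
      rw [← MonoidHom.mem_ker, QuotientGroup.ker_mk', mem_subgroupOf]
      simp
    obtain ⟨θ, hθ⟩ := Block.exists_under N ψ
    have hb' := isPBlock_blockOf (M := M) θ
    have hcov : Covers (blockOf M (ψ : T ⧸ Q' → ℂ)) (blockOf M (θ : N → ℂ)) :=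
      ⟨ψ, self_mem_blockOf hM _, θ, self_mem_blockOf hM _, hθ⟩
    have h0 := hcov.card_inf_eq hM hb hb' hbot
    rw [bot_inf_eq, card_bot, eq_comm, Nat.pow_eq_one, or_iff_right hp.ne_one] at h0
    have h1 := (eq_singleton_of_defect_zero hM hb' h0 (self_mem_blockOf hM _)).2
    have hθ' : classInner (fun c : C => (χ : T → ℂ) (inclusion hCT c))
        (inflIrr g hg θ : C → ℂ) ≠ 0 := by
      rw [← classInner_comp_surjective g hg] at hθ
      rw [hψ]
      exact hθ
    have hb'' := isPBlock_blockOf (M := M) (inflIrr g hg θ)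
    have h2 := (covers_iff_mul_ne_zero' hM hCT hF' hb'').1
      ((covers_compSet_iff hCT).2 ⟨χ, hχ, _, self_mem_blockOf hM _, hθ'⟩)
    rw [incl_eB_ovr_stabilizer hM ha] at h2
    change incl C (eB M e) * _ ≠ 0 at h2
    rw [← map_mul, eB_mul_eB (A := e) (isV_blockIdem hM ha.2) (isV_blockIdem hM hb'')] at h2
    obtain ⟨ξ, h3, h4⟩ : (e ∩ blockOf M (inflIrr g hg θ : C → ℂ)).Nonempty := by
      rw [Set.nonempty_iff_ne_empty]
      intro h
      rw [h, eB_empty, map_zero] at h2
      exact h2 rfl
    have h5 : inflIrr g hg θ ∈ e := by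
      rw [block_eq_of_mem hM (B := e) ha.2 hb'' h3 h4]
      exact self_mem_blockOf hM _
    refine laradji hM ha.2 ((ha.1.to_inf_left).comap_subtype) (fun c hc => ?_) h5 ?_
    · rw [mem_center_iff]
      intro y
      exact Subtype.ext (y.2 c hc.1).symm
    · rw [← hker, index_ker, MonoidHom.range_eq_top.2 hg, card_top, charDegree_inflIrr]
      exact h1
  · have : (R.subgroupOf T).Normal := (normal_subgroupOf_iff_le_normalizer hRT).2 hn
    have : ((R.subgroupOf T).map f).Normal := this.map f hf
    have h1 := normal_le_defect hM hb hbot (Q := (R.subgroupOf T).map f)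
      ((hR.comap_subtype).map f)
    rw [map_le_iff_le_comap, MonoidHom.comap_bot, QuotientGroup.ker_mk'] at h1
    intro x hx
    exact h1 (x := ⟨x, hRT hx⟩) hx

end Cfsg.Agent.S4694
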