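import Mathlib
import Cfsg.Statements.S4697
import Cfsg.Agent.Block.KB

set_option autoImplicit false
open Cfsg

namespace Cfsg.Agent.S4697

open Cfsg.Agent.Block Cfsg.Agent.Char Subgroup

/-- Let p be a prime, M a maximal ideal of the algebraic integers containing p, and B a p-block of the finite group G with an abelian defect group D of order p^d. If D has rank 2 (its least number of generators is 2) then B contains at most p^d irreducible characters; if D has rank 3 then the number k of irreducible characters in B satisfies k^3 ≤ p^(5d). -/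
theorem result {G : Type*} [Group G] [Finite G] (p : ℕ) [Fact p.Prime] (M : Ideal Cfsg.AlgInt) (hM : Cfsg.IsPModular p M) (B : Set (Cfsg.IrrCharacter G)) (hB : Cfsg.IsPBlock M B) (D : Subgroup G) (hBD : Cfsg.IsDefectGroup p M B D) (hab : IsMulCommutative D) (d : ℕ) (hDd : Nat.card D = p ^ d) : (Group.rank D = 2 → Nat.card B ≤ p ^ d) ∧ (Group.rank D = 3 → Nat.card B ^ 3 ≤ p ^ (5 * d)) := by
  classical
  have hc : ∀ v : D, v ∈ center D := fun v => mem_center_iff.2 fun g => mul_comm' g v
  obtain ⟨S, h1, h2⟩ := Group.rank_spec D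
  refine ⟨fun h => ?_, fun h => ?_⟩
  · obtain ⟨v, w, -, rfl⟩ := Finset.card_eq_two.1 (h1.trans h)
    exact hDd ▸ card_le_of_two_gen hM hB hBD (hc v) (by simpa using h2)
  obtain ⟨v, hv, h3⟩ := S.exists_max_image orderOf (Finset.card_pos.1 (by omega))
  have h4 : ∀ g : D, g ^ orderOf v = 1 := fun g => by
    induction h2 ▸ mem_top g using closure_induction with
    | mem x hx =>
      obtain ⟨a, ha⟩ := IsPGroup.iff_orderOf.1 (isDefectGroup_isPGroup hBD) x
      obtain ⟨b, hb⟩ := IsPGroup.iff_orderOf.1 (isDefectGroup_isPGroup hBD) v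
      have := h3 x hx
      rw [ha, hb, Nat.pow_le_pow_iff_right hM.1.one_lt] at this
      rw [← orderOf_dvd_iff_pow_eq_one, ha, hb]
      exact pow_dvd_pow p this
    | one => exact one_pow _
    | mul x y _ _ hx hy => rw [(show Commute x y from mul_comm' x y).mul_pow, hx, hy, one_mul]
    | inv x _ hx => rw [inv_pow, hx, inv_one]
  have h5 : Nat.card D ≤ orderOf v ^ 3 := by
    letI : CommGroup D := { mul_comm := mul_comm' }
    exact h ▸ Nat.le_of_dvd (pow_pos (orderOf_pos v) _) (card_dvd_exponent_pow_rank' D h4)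
  obtain ⟨e, rfl, he⟩ := exists_isMaxBP hM hB hBD
  obtain ⟨Q, _, _, f, c, -, f1, f2, f3, f4, -, f5, -⟩ := he.exists_quot hM (hc v)
  obtain ⟨a, b, -, hab⟩ := Finset.card_eq_two.1 (show (S.erase v).card = 2 by
    rw [Finset.card_erase_of_mem hv]; omega)
  have h6 := card_le_of_two_gen hM f2 f3 (v := f.rangeRestrict a) (w := f.rangeRestrict b)
    (mem_center_iff.2 fun g => by
      obtain ⟨g, rfl⟩ := f.rangeRestrict_surjective g
      rw [← map_mul, ← map_mul, mul_comm']) (by
      rw [← map_top_of_surjective _ f.rangeRestrict_surjective, ← h2, ← Finset.insert_erase hv, hab,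
        MonoidHom.map_closure, Finset.coe_insert, Set.image_insert_eq,
        show f.rangeRestrict v = 1 from Subtype.ext f1, closure_insert_one]
      simp [Set.image_pair])
  have h7 : Nat.card f.range ^ 3 ≤ Nat.card e.1 ^ 2 := Nat.le_of_mul_le_mul_right
    ((Nat.mul_le_mul_left _ h5).trans_eq (by rw [← mul_pow, f4]; ring)) Nat.card_pos
  refine (Nat.pow_le_pow_left (f5.trans (Nat.mul_le_mul_left _ h6)) 3).trans ?_
  rw [mul_pow]
  refine (Nat.mul_le_mul_left _ h7).trans_eq ?_
  rw [hDd]; ring

end Cfsg.Agent.S4697
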