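import Mathlib
import Cfsg.Statements.S4699
import Cfsg.Agent.Block.Cyc3
-- import your own Cfsg.Agent.* helpers here

set_option autoImplicit false
open Cfsg

namespace Cfsg.Agent.S4699

theorem dvd_trace {k A : Type*} [Field k] [Ring A] [Algebra k A] {p : ℕ} [Fact p.Prime]
    (hp : (p : k) = 0) {x y : A} {n d j : ℕ}
    (hd : (y - 1) ^ d = 0) (h : j + d ≤ p ^ n) (u : A) :
    (x - 1) ^ j ∣ ∑ i ∈ Finset.range (p ^ n), x ^ i * u * y ^ i := by
  let L : Module.End k A := LinearMap.mulLeft k x
  let R : Module.End k A := LinearMap.mulRight k y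
  have hLR : Commute L R := LinearMap.commute_mulLeft_right x y
  have h2 := Cfsg.Agent.Block.sub_one_pow_eq_geom_sum hp n (L * R)
  have hb : (R - 1) ^ d = 0 := by
    have : R - 1 = LinearMap.mulRight k (y - 1) := LinearMap.ext fun a => by simp [R, mul_sub]
    rw [this, LinearMap.pow_mulRight, hd, LinearMap.mulRight_zero_eq_zero]
  have hc : Commute ((L - 1) * R) (R - 1) :=
    Commute.mul_left ((hLR.sub_right (Commute.one_right _)).sub_left (Commute.one_left _))
      ((Commute.refl R).sub_right (Commute.one_right _))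
  have hq : 1 ≤ p ^ n := Nat.one_le_pow _ _ (Fact.out : p.Prime).pos
  obtain ⟨W, hW⟩ := hc.pow_dvd_add_pow_of_pow_eq_zero_right (m := j) (p := p ^ n - 1)
    (by omega) hb
  rw [show (L - 1) * R + (R - 1) = L * R - 1 by rw [sub_mul, one_mul, sub_add_sub_cancel], h2,
    (hLR.sub_left (Commute.one_left _)).mul_pow] at hW
  have h3 := congrArg (fun z : Module.End k A => z u) hW
  have : L - 1 = LinearMap.mulLeft k (x - 1) := LinearMap.ext fun a => by simp [L, sub_mul]
  simp only [this, LinearMap.sum_apply, hLR.mul_pow, L, R, LinearMap.pow_mulLeft,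
    LinearMap.pow_mulRight, Module.End.mul_apply, LinearMap.mulLeft_apply,
    LinearMap.mulRight_apply, ← mul_assoc] at h3
  exact ⟨_, h3.trans (mul_assoc _ _ _)⟩

open Cfsg.Agent.Block Subgroup in

/-- Let p be a prime and G a finite group whose Sylow p-subgroup P is cyclic of order p^n with n ≥ 2 and meets every other Sylow p-subgroup trivially. Then every faithful irreducible representation of G on a finite-dimensional space over a finite field of characteristic p has dimension at least p^n − (p − 1). -/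
theorem result {G : Type*} [Group G] [Finite G] (p : ℕ) [Fact p.Prime] (P : Sylow p G) (hcyc : IsCyclic P) (n : ℕ) (hn : 2 ≤ n) (hPn : Nat.card P = p ^ n) (hTI : ∀ Q : Sylow p G, Q ≠ P → (P : Subgroup G) ⊓ (Q : Subgroup G) = ⊥) (F : Type*) [Field F] [Finite F] [CharP F p] (V : Type*) [AddCommGroup V] [Module F V] [FiniteDimensional F V] (ρ : Representation F G V) (hfaith : Function.Injective ρ) (hirr : ρ.IsIrreducible) : p ^ n - (p - 1) ≤ Module.finrank F V := by
  classical
  by_contra hlt
  have hpp : p.Prime := Fact.out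
  have hp : (p : F) = 0 := CharP.cast_eq_zero F p
  obtain ⟨⟨x, hxP⟩, hx⟩ := isCyclic_iff_exists_zpowers_eq_top.1 hcyc
  have hP : (P : Subgroup G) = zpowers x := by
    rw [← (P : Subgroup G).range_subtype, MonoidHom.range_eq_map, ← hx, MonoidHom.map_zpowers]
    rfl
  have ho : orderOf x = p ^ n := by rw [← Nat.card_zpowers, ← hP, hPn]
  have hinv : ∀ g, ρ g * ρ g⁻¹ = 1 := fun g => by rw [← map_mul, mul_inv_cancel, map_one]
  have hinv' : ∀ g, ρ g⁻¹ * ρ g = 1 := fun g => by rw [← map_mul, inv_mul_cancel, map_one]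
  have hnil : ∀ y ∈ zpowers x, (ρ y - 1) ^ Module.finrank F V = 0 := fun y hy => by
    have h1 : IsNilpotent (ρ y - 1) := isNilpotent_sub_one (k := F) hp (n := n) (by
      rw [← map_pow, ← ho, orderOf_dvd_iff_pow_eq_one.1 (orderOf_dvd_of_mem_zpowers hy), map_one])
    have := LinearMap.aeval_self_charpoly (ρ y - 1)
    rwa [h1.charpoly_eq_X_pow_finrank, map_pow, Polynomial.aeval_X] at this
  set t := ρ x - 1 with ht
  set φ := t ^ (p - 1) with hφ
  have hφP : ∀ y ∈ zpowers x, Commute (ρ y) φ := by
    intro y hy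
    obtain ⟨m, rfl⟩ := exists_pow_of_mem_zpowers hy
    rw [map_pow]
    exact (((Commute.refl _).sub_right (Commute.one_right _)).pow_right _).pow_left m
  let Φ : G ⧸ zpowers x → Module.End F V := Quotient.lift (fun g => ρ g * φ * ρ g⁻¹) (by
    intro a b hab
    have hab' : a⁻¹ * b ∈ zpowers x := QuotientGroup.leftRel_apply.1 hab
    obtain ⟨y, rfl⟩ : ∃ y, b = a * y := ⟨a⁻¹ * b, by group⟩
    rw [inv_mul_cancel_left] at hab'
    rw [mul_inv_rev, map_mul, map_mul, mul_assoc (ρ a) (ρ y), (hφP _ hab').eq, mul_assoc, mul_assoc,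
      mul_assoc, ← mul_assoc (ρ y), hinv, one_mul])
  have hF : ∀ g : G, Φ (g : G ⧸ zpowers x) = ρ g * φ * ρ g⁻¹ := fun g => rfl
  have hFs : ∀ (g : G) (q : G ⧸ zpowers x), Φ (g • q) = ρ g * Φ q * ρ g⁻¹ := by
    intro g q
    obtain ⟨a, rfl⟩ := QuotientGroup.mk_surjective q
    rw [MulAction.Quotient.smul_mk, hF, hF, smul_eq_mul, mul_inv_rev, map_mul, map_mul]
    simp only [mul_assoc]
  letI : Fintype (G ⧸ zpowers x) := Fintype.ofFinite _
  letI : Fintype (zpowers x) := Fintype.ofFinite _
  have hc : ∀ g, ρ g * ∑ q, Φ q = (∑ q, Φ q) * ρ g := fun g => by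
    have : ∑ q, Φ q = ρ g * (∑ q, Φ q) * ρ g⁻¹ := by
      rw [Finset.mul_sum, Finset.sum_mul]
      simp_rw [← hFs]
      exact (Equiv.sum_comp (MulAction.toPerm g) Φ).symm
    conv_rhs => rw [this]
    rw [mul_assoc, hinv', mul_one]
  let π := (LinearMap.range (t ^ p)).mkQ
  have hπ : ∀ (a : Module.End F V) v, t ^ p ∣ a → π (a v) = 0 := by
    rintro _ v ⟨b, rfl⟩
    exact (Submodule.Quotient.mk_eq_zero _).2 ⟨b v, rfl⟩
  have hPp : IsPGroup p (zpowers x) := hP ▸ P.isPGroup'
  let m := (Finset.univ.filter fun q : G ⧸ zpowers x =>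
    q ∈ MulAction.fixedPoints (zpowers x) (G ⧸ zpowers x)).card
  have hm : (m : F) ≠ 0 := by
    rw [Ne, CharP.cast_eq_zero_iff F p]
    intro hd
    have h1 := hPp.card_modEq_card_fixedPoints (G ⧸ zpowers x)
    have h2 : Nat.card (MulAction.fixedPoints (zpowers x) (G ⧸ zpowers x)) = m := by
      rw [Nat.card_eq_fintype_card, Fintype.card_subtype]
    rw [h2] at h1
    exact (hP ▸ P.not_dvd_index) (Nat.modEq_zero_iff_dvd.1 (h1.trans (Nat.modEq_zero_iff_dvd.2 hd)))
  have hpt : t ^ p = φ * t := by rw [hφ, ← pow_succ, Nat.sub_add_cancel hpp.one_le]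
  have key : ∀ v, π ((∑ q, Φ q) v) = (m : F) • π (φ v) := fun v => by
    rw [LinearMap.sum_apply, map_sum, ← Finset.sum_filter_add_sum_filter_not _
      (fun q => q ∈ MulAction.fixedPoints (zpowers x) (G ⧸ zpowers x))]
    rw [sum_eq_zero_of_free (P := zpowers x) (fun q => π (Φ q v)) (Finset.univ.filter fun q =>
      q ∉ MulAction.fixedPoints (zpowers x) (G ⧸ zpowers x)), add_zero]
    · rw [Finset.sum_congr rfl (g := fun _ => π (φ v)), Finset.sum_const, Nat.cast_smul_eq_nsmul]
      intro q hq
      obtain ⟨g, rfl⟩ := QuotientGroup.mk_surjective q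
      have hn : g ∈ normalizer (zpowers x : Set G) :=
        Sylow.mem_fixedPoints_mul_left_cosets_iff_mem_normalizer.1 (Finset.mem_filter.1 hq).2
      obtain ⟨a, ha⟩ := exists_pow_of_mem_zpowers ((mem_normalizer_iff.1 hn x).1 (mem_zpowers x))
      have h1 : (a : F) ≠ 0 := by
        rw [Ne, CharP.cast_eq_zero_iff F p]
        rintro ⟨b, rfl⟩
        have h2 : orderOf (g * x * g⁻¹) = p ^ n := ho ▸ (MulAut.conj g).orderOf_eq x
        have h3 : p ^ n ∣ p ^ (n - 1) := by
          rw [← h2, ha, orderOf_dvd_iff_pow_eq_one, ← pow_mul, ← orderOf_dvd_iff_pow_eq_one, ho,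
            mul_right_comm, ← pow_succ', Nat.sub_add_cancel (by omega)]
          exact dvd_mul_right _ _
        have := (Nat.pow_dvd_pow_iff_le_right hpp.one_lt).1 h3
        omega
      have h2 : (a : F) ^ (p - 1) = 1 := mul_right_cancel₀ h1 (by
        rw [← pow_succ, Nat.sub_add_cancel hpp.one_le, one_mul]
        exact map_natCast (frobenius F p) a)
      set w := ∑ i ∈ Finset.range a, ρ x ^ i with hw
      have h3 : Commute t w := Commute.sum_right _ _ _ fun i _ =>
        ((Commute.refl _).sub_left (Commute.one_left _)).pow_right i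
      have h4 : ρ g * φ * ρ g⁻¹ = φ * w ^ (p - 1) := by
        have : ρ g * t * ρ g⁻¹ = t * w := by
          rw [hw, ht, mul_geom_sum, ← map_pow, ← ha, map_mul, map_mul, mul_sub, sub_mul, mul_one,
            hinv]
        rw [hφ, ← h3.mul_pow, ← this]
        exact (Units.conj_pow (ρ.asGroupHom g) t (p - 1)).symm
      have h5 : t ∣ w ^ (p - 1) - 1 := by
        have h6 : t ∣ w - a := by
          rw [hw, show (a : Module.End F V) = ∑ i ∈ Finset.range a, 1 by simp,
            ← Finset.sum_sub_distrib]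
          exact Finset.dvd_sum fun i _ => sub_one_dvd_pow_sub_one _ _
        have h7 := h6.trans ((Nat.cast_commute a w).symm.sub_dvd_pow_sub_pow (p - 1))
        rwa [← map_natCast (algebraMap F (Module.End F V)), ← map_pow, h2, map_one] at h7
      rw [hF, h4, ← sub_eq_zero, ← map_sub, ← LinearMap.sub_apply, ← mul_sub_one]
      exact hπ _ _ (hpt ▸ mul_dvd_mul_left _ h5)
    · intro y q hq
      simp only [Finset.mem_filter, Finset.mem_univ, true_and, MulAction.mem_fixedPoints] at hq ⊢
      intro h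
      apply hq
      intro y'
      have := h (y * y' * y⁻¹)
      rw [mul_smul, mul_smul, inv_smul_smul] at this
      exact smul_left_cancel y this
    · intro q hq y hy
      obtain ⟨g, rfl⟩ := QuotientGroup.mk_surjective q
      by_contra hy1
      refine (Finset.mem_filter.1 hq).2
        (Sylow.mem_fixedPoints_mul_left_cosets_iff_mem_normalizer.2 ?_)
      rw [← hP]
      refine Sylow.smul_eq_iff_mem_normalizer.1 (by_contra fun h => hy1 (Subtype.ext ?_))
      have h1 : g⁻¹ * y * g ∈ zpowers x := by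
        simpa [mul_assoc] using QuotientGroup.eq.1 (hy.symm : (g : G ⧸ zpowers x) = ((y * g : G) : _))
      refine mem_bot.1 (hTI _ h ▸ mem_inf.2 ⟨by rw [hP]; exact y.2, ?_⟩)
      rw [Sylow.coe_subgroup_smul, mem_pointwise_smul_iff_inv_smul_mem, hP]
      simpa using h1
    · intro q _
      have h1 : ∀ y : zpowers x, Φ (y • q) = ρ y * Φ q * ρ (y : G)⁻¹ := fun y => by
        rw [← hFs]
        obtain ⟨a, rfl⟩ := QuotientGroup.mk_surjective q
        rfl
      rw [← map_sum, ← LinearMap.sum_apply]
      refine hπ _ _ ?_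
      have h2 := dvd_trace hp (x := ρ x) (y := ρ x⁻¹)
        (hnil _ (inv_mem (mem_zpowers x))) (n := n) (j := p) (by have := hpp.pos; omega) (Φ q)
      convert h2 using 1
      rw [← ho, Finset.sum_range, ← (finEquivZPowers (isOfFinOrder_of_finite x)).sum_comp]
      exact Finset.sum_congr rfl fun i _ => by
        rw [h1, finEquivZPowers_apply, ← inv_pow, map_pow, map_pow]
  have h0 : ∀ v, π (φ v) = 0 := by
    let c : ρ.IntertwiningMap ρ := ⟨∑ q, Φ q, fun g => (hc g).symm⟩
    rcases Representation.IsIrreducible.surjective_or_eq_zero c with h | h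
    · have h1 : Function.Surjective φ := fun v => by
        obtain ⟨u, rfl⟩ := h v
        have h2 : π (c u - φ ((m : F) • u)) = 0 := by
          rw [map_sub, map_smul, map_smul, ← key, sub_eq_zero]
          rfl
        obtain ⟨w, hw⟩ := (Submodule.Quotient.mk_eq_zero _).1 h2
        exact ⟨t w + (m : F) • u, by rw [map_add, ← Module.End.mul_apply, ← hpt, hw, sub_add_cancel]⟩
      intro v
      have h2 := Module.End.surjective_of_iterate_surjective (n := p - 1)
        (by have := hpp.two_le; omega) h1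
      exact (Submodule.Quotient.mk_eq_zero _).2 (Module.End.iterate_surjective h2 p _)
    · intro v
      have := key v
      rw [show (∑ q, Φ q) v = c v from rfl, h] at this
      simpa [hm] using this.symm
  have h1 : ∀ k v, ∃ w, φ v = φ ((t ^ k) w) := fun k => by
    induction k with
    | zero => exact fun v => ⟨v, rfl⟩
    | succ k ih =>
      intro v
      obtain ⟨w, hw⟩ := ih v
      obtain ⟨u, hu⟩ := (Submodule.Quotient.mk_eq_zero _).1 (h0 w)
      refine ⟨u, ?_⟩
      rw [hw, ← Module.End.mul_apply, ((Commute.refl t).pow_pow _ _).eq, Module.End.mul_apply, ← hu,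
        ← Module.End.mul_apply, ← Module.End.mul_apply, hφ, ← pow_add, ← pow_add]
      congr 2
      have := hpp.pos
      omega
  have h2 : φ = 0 := LinearMap.ext fun v => by
    obtain ⟨w, hw⟩ := h1 (Module.finrank F V) v
    rw [hw, hnil x (mem_zpowers x)]
    simp
  have h3 : x ^ p = 1 := hfaith (by
    rcases subsingleton_or_nontrivial (Module.End F V) with hA | hA
    · exact Subsingleton.elim _ _
    haveI : CharP (Module.End F V) p := charP_of_injective_algebraMap (algebraMap F _).injective p
    rw [map_pow, map_one, ← sub_eq_zero, ← one_pow p, ← sub_pow_char_of_commute p (Commute.one_right _),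
      hpt, h2, zero_mul])
  have h4 := (Nat.pow_dvd_pow_iff_le_right hpp.one_lt).1
    (by rw [← ho, pow_one]; exact orderOf_dvd_of_pow_eq_one h3 : p ^ n ∣ p ^ 1)
  omega

end Cfsg.Agent.S4699
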