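import Mathlib
import Cfsg.Statements.S4708
import Cfsg.Agent.Block.Cover2

set_option autoImplicit false
open Cfsg

namespace Cfsg.Agent.S4708

open Cfsg.Agent.Block Cfsg.Agent.Char Subgroup

/-- Let p be a prime, M a maximal ideal of the algebraic integers containing p, G a finite group and H a normal subgroup. Write λ(X) for the sum of the squares of the degrees of the irreducible characters in the principal p-block of a group X. Then λ(H) ≤ λ(G) ≤ [G : H]·λ(H). -/
theorem result {G : Type*} [Group G] [Finite G] (p : ℕ) [Fact p.Prime] (M : Ideal Cfsg.AlgInt) (hM : Cfsg.IsPModular p M) (H : Subgroup G) [H.Normal] : (∑ᶠ θ ∈ Cfsg.principalBlock M H, Cfsg.charDegree (θ : H → ℂ) ^ 2) ≤ (∑ᶠ χ ∈ Cfsg.principalBlock M G, Cfsg.charDegree (χ : G → ℂ) ^ 2) ∧ (∑ᶠ χ ∈ Cfsg.principalBlock M G, Cfsg.charDegree (χ : G → ℂ) ^ 2) ≤ H.index * ∑ᶠ θ ∈ Cfsg.principalBlock M H, Cfsg.charDegree (θ : H → ℂ) ^ 2 := by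
  classical
  have := Fintype.ofFinite G
  have := Fintype.ofFinite H
  choose a ha using fun (χ : IrrCharacter G) (θ : IrrCharacter H) =>
    classInner_isChar_nat (isChar_res H (irr_isChar χ)) (irr_isChar θ)
  have h1 : ∀ χ ∈ principalBlock M G, charDegree (χ : G → ℂ) =
      ∑ θ with θ ∈ principalBlock M H, a χ θ * charDegree (θ : H → ℂ) := by
    intro χ hχ
    have e := classFun_apply_eq_sum (classFun_res H (irr_classFun χ)) 1
    have : (charDegree (χ : G → ℂ) : ℂ) =
        ((∑ θ with θ ∈ principalBlock M H, a χ θ * charDegree (θ : H → ℂ) : ℕ) : ℂ) := by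
      rw [irr_degree_cast, ← OneMemClass.coe_one H, e, Finset.sum_filter]
      push_cast
      refine Finset.sum_congr rfl fun θ _ => ?_
      split_ifs with h
      · rw [ha, irr_degree_cast]
      · have : classInner (fun n : H => (χ : G → ℂ) n) θ = 0 := by
          by_contra h'
          exact h (mem_principal_of_under hM hχ h')
        rw [this, zero_mul]
    exact_mod_cast this
  have h2 : ∀ θ : IrrCharacter H, ∑ χ : IrrCharacter G, a χ θ * charDegree (χ : G → ℂ) =
      H.index * charDegree (θ : H → ℂ) := by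
    intro θ
    have e := classFun_apply_eq_sum (Ind.indFun_classFun H (θ : H → ℂ)) 1
    rw [Ind.indFun_one] at e
    have : ((∑ χ : IrrCharacter G, a χ θ * charDegree (χ : G → ℂ) : ℕ) : ℂ) =
        ((H.index * charDegree (θ : H → ℂ) : ℕ) : ℂ) := by
      push_cast
      rw [irr_degree_cast, e]
      refine Finset.sum_congr rfl fun χ _ => ?_
      rw [irr_degree_cast, Ind.inner_indFun_left H _ (irr_classFun χ),
        classInner_comm_of_natCast (ha χ θ)]
    exact_mod_cast this
  have h3 : ∑ χ with χ ∈ principalBlock M G, charDegree (χ : G → ℂ) ^ 2 =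
      ∑ θ with θ ∈ principalBlock M H, charDegree (θ : H → ℂ) *
        ∑ χ with χ ∈ principalBlock M G, a χ θ * charDegree (χ : G → ℂ) := by
    simp only [Finset.mul_sum]
    rw [Finset.sum_comm]
    refine Finset.sum_congr rfl fun χ hχ => ?_
    rw [sq]
    nth_rw 1 [h1 χ (Finset.mem_filter.1 hχ).2]
    rw [Finset.sum_mul]
    exact Finset.sum_congr rfl fun θ _ => by ring
  rw [finsum_mem_irr, finsum_mem_irr, h3, Finset.mul_sum]
  constructor
  · refine Finset.sum_le_sum fun θ hθ => ?_
    have hθ := (Finset.mem_filter.1 hθ).2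
    obtain ⟨χ, hχ, hne⟩ := (covers_principal (N := H) hM).exists_over hM
      (isV_blockIdem hM isPBlock_principalBlock) isPBlock_principalBlock hθ
    rw [sq]
    refine Nat.mul_le_mul_left _ (le_trans ?_ (Finset.single_le_sum
      (f := fun χ => a χ θ * charDegree (χ : G → ℂ)) (fun _ _ => Nat.zero_le _)
      (Finset.mem_filter.2 ⟨Finset.mem_univ χ, hχ⟩)))
    have k1 : a χ θ ≠ 0 := by
      intro h0
      rw [ha, h0, Nat.cast_zero] at hne
      exact hne rfl
    have k2 : charDegree (θ : H → ℂ) ≤ charDegree (χ : G → ℂ) :=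
      Constit.degree_le_of_inner_ne_zero (isChar_res H (irr_isChar χ)) θ.2 hne
        (irr_degree_cast χ).symm (irr_degree_cast θ).symm
    exact k2.trans (Nat.le_mul_of_pos_left _ (Nat.pos_of_ne_zero k1))
  · refine Finset.sum_le_sum fun θ _ => ?_
    calc _ ≤ charDegree (θ : H → ℂ) * (H.index * charDegree (θ : H → ℂ)) := by
          rw [← h2]
          exact Nat.mul_le_mul_left _ (Finset.sum_le_sum_of_subset (Finset.filter_subset _ _))
      _ = _ := by ring

end Cfsg.Agent.S4708
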