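import Mathlib
import Cfsg.Statements.S4712
import Cfsg.Agent.Block.OT
import Cfsg.Agent.Block.Quot4

set_option autoImplicit false
open Cfsg

namespace Cfsg.Agent.S4712

open Cfsg.Agent.Block Cfsg.Agent.Char Subgroup
open scoped ComplexConjugate

theorem exists_gen {p : ℕ} (hp : p.Prime) (hodd : p ≠ 2) {n : ℕ} (hn : n ≠ 0) :
    ∃ k : ℕ, k.Coprime n ∧ k ≡ 1 [MOD n / p ^ n.factorization p] ∧ ∀ l : ℕ, l.Coprime n →
      l ≡ 1 [MOD n / p ^ n.factorization p] → ∃ j, k ^ j ≡ l [MOD n] := by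
  obtain ⟨γ, hγ⟩ := (ZMod.isCyclic_units_of_prime_pow p hp hodd (n.factorization p)).exists_generator
  have hc : (p ^ n.factorization p).Coprime (n / p ^ n.factorization p) :=
    (Nat.coprime_ordCompl hp hn).pow_left _
  have : NeZero (p ^ n.factorization p) := ⟨pow_ne_zero _ hp.ne_zero⟩
  obtain ⟨k, h1, h2⟩ := Nat.chineseRemainder hc (γ : ZMod (p ^ n.factorization p)).val 1
  have he := Nat.ordProj_mul_ordCompl_eq_self n p
  refine ⟨k, ?_, h2, fun l hl h3 => ?_⟩
  · rw [← he]
    refine Nat.Coprime.mul_right ?_ ?_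
    · rw [Nat.Coprime, h1.gcd_eq]
      exact ZMod.val_coe_unit_coprime γ
    · rw [Nat.Coprime, h2.gcd_eq, Nat.gcd_one_left]
  · obtain ⟨j, hj⟩ := mem_powers_iff_mem_zpowers.2
      (hγ (ZMod.unitOfCoprime l (hl.coprime_dvd_right (Nat.ordProj_dvd n p))))
    refine ⟨j, ?_⟩
    rw [← he, ← Nat.modEq_and_modEq_iff_modEq_mul hc]
    refine ⟨?_, ((h2.pow j).trans (by rw [one_pow])).trans h3.symm⟩
    rw [← ZMod.natCast_eq_natCast_iff, Nat.cast_pow, (ZMod.natCast_eq_natCast_iff _ _ _).2 h1,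
      ZMod.natCast_zmod_val, ← Units.val_pow_eq_pow_val, show γ ^ j = _ from hj,
      ZMod.coe_unitOfCoprime]

open Classical in
theorem fiber_nat {G : Type*} [Group G] [Fintype G] {p : ℕ} {M : Ideal AlgInt}
    (hM : IsPModular p M) {B : Set (IrrCharacter G)} (hB : IsV M (blockIdem B)) {k : ℕ}
    (hk : k.Coprime (Nat.card G)) (h1 : ∀ s : G, ¬ p ∣ orderOf s → s ^ k = s) (u : G) :
    ∃ n : ℕ, ∑ g with pp p g = u, ∑ χ with χ ∈ B, χ.1 (g ^ k) * conj (χ.1 g) = n := by
  by_cases hu : ∃ k : ℕ, orderOf u = p ^ k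
  swap
  · refine ⟨0, ?_⟩
    rw [Nat.cast_zero]
    exact Finset.sum_eq_zero fun g hg => (hu ((Finset.mem_filter.1 hg).2 ▸ pp_order hM.1 g)).elim
  by_cases hc : IsConj (u ^ k) u
  swap
  · refine ⟨0, ?_⟩
    rw [Nat.cast_zero]
    refine Finset.sum_eq_zero fun g hg => block_orth_conj hM hB ?_ ?_ hc
    · rw [← pp_eq_iff hM.1, pp_pow hM.1, (Finset.mem_filter.1 hg).2]
    · rw [← pp_eq_iff hM.1, (Finset.mem_filter.1 hg).2]
  obtain ⟨x, hx⟩ := isConj_iff.1 hc
  have hN : ∀ s ∈ centralizer ({u} : Set G), x * s * x⁻¹ ∈ centralizer ({u} : Set G) :=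
    fun s hs => by
      rw [mem_centralizer_singleton_iff] at hs ⊢
      conv_lhs => rw [← hx]
      conv_rhs => rw [← hx]
      have := (Commute.pow_right hs k).eq
      calc _ = x * (s * u ^ k) * x⁻¹ := by group
        _ = _ := by rw [this]; group
  let α : centralizer ({u} : Set G) →* centralizer ({u} : Set G) :=
    ((MulAut.conj x).toMonoidHom.comp (Subgroup.subtype _)).codRestrict _ fun s => hN s s.2
  obtain ⟨n, hn⟩ := MS.exists_nat_sum_bf_comp hM (isV_blockIdem_indSet hM _ B) α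
  refine ⟨Nat.card (centralizer ({u} : Set G)) * n, ?_⟩
  rw [sum_filter_pp hM.1 hu rfl, Nat.cast_mul, ← hn, Finset.mul_sum]
  simp only [bf_eq_sum, ← mul_assoc, mul_inv_cancel₀ (card_ne_zero (G := centralizer ({u} : Set G))),
    one_mul]
  rw [Finset.sum_comm' (t' := Finset.univ.filter fun s : centralizer ({u} : Set G) =>
    ¬ p ∣ orderOf s) (s' := fun _ => Finset.univ.filter (· ∈ indSet M _ B)) (by simp [and_comm])]
  refine Finset.sum_congr rfl fun s hs => ?_
  have hs := (Finset.mem_filter.1 hs).2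
  have h2 : ∀ χ : IrrCharacter G, χ.1 ((u * s) ^ k) = χ.1 (u * α s) := fun χ => by
    rw [(Commute.symm (mem_centralizer_singleton_iff.1 s.2)).mul_pow, h1 s (by rwa [orderOf_coe]),
      ← irr_classFun χ _ x]
    exact congrArg χ.1 (Eq.trans (by simp [α, mul_assoc]) (congrArg (· * (α s : G)) hx))
  simp only [h2]
  refine (sum_block_mul_conj hM hB (g := ⟨u, mem_centralizer_singleton_iff.2 rfl⟩ * α s)
    (h := ⟨u, mem_centralizer_singleton_iff.2 rfl⟩ * s)
    (isPPart_mul_coe hu (regular_map_of_regular α hs)) (isPPart_mul_coe hu hs)).trans ?_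
  exact Finset.sum_congr rfl fun ξ _ => by
    rw [irr_central_mul_conj ξ (conj_self_centralizer u), isChar_inv (irr_isChar ξ)]

/-- Let p be an odd prime, M a maximal ideal of the algebraic integers containing p, G a finite group of order n with p-part p^a, and B a p-block of G. Call an irreducible character χ p-rational when χ(g^k) = χ(g) for every g and every k coprime to n with k ≡ 1 modulo n/p^a (χ is fixed by the Galois automorphisms fixing the roots of unity of order prime to p). Then the number of p-rational irreducible characters in B is at least the p-regular rank of B (the number of irreducible Brauer characters in B). -/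
theorem result {G : Type*} [Group G] [Finite G] (p : ℕ) [Fact p.Prime] (hodd : p ≠ 2) (M : Ideal Cfsg.AlgInt) (hM : Cfsg.IsPModular p M) (B : Set (Cfsg.IrrCharacter G)) (hB : Cfsg.IsPBlock M B) : Cfsg.blockRank p B ≤ Nat.card {χ : Cfsg.IrrCharacter G // χ ∈ B ∧ ∀ k : ℕ, Nat.Coprime k (Nat.card G) → k ≡ 1 [MOD Nat.card G / p ^ (Nat.card G).factorization p] → ∀ g : G, (χ : G → ℂ) (g ^ k) = (χ : G → ℂ) g} := by
  classical
  have := Fintype.ofFinite G
  have hV := isV_blockIdem hM hB
  obtain ⟨k, hk, h1, h2⟩ := exists_gen hM.1 hodd (Nat.card_pos (α := G)).ne'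
  have h3 : ∀ s : G, ¬ p ∣ orderOf s → s ^ k = s := fun s hs => by
    conv_rhs => rw [← pow_one s]
    refine pow_eq_pow_iff_modEq.2 (h1.of_dvd ?_)
    refine ((hM.1.coprime_iff_not_dvd.2 hs).pow_left ((Nat.card G).factorization p)).symm
      |>.dvd_of_dvd_mul_left ?_
    rw [Nat.ordProj_mul_ordCompl_eq_self]
    exact orderOf_dvd_natCard s
  choose n hn using fiber_nat hM hV hk h3
  have h4 : (n 1 : ℂ) = Nat.card G * blockRank p B := by
    rw [← hn, card_mul_blockRank hM hV]
    refine Finset.sum_congr (Finset.filter_congr fun g _ => ⟨fun h => ?_, pp_of_regular hM.1⟩)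
      fun g hg => by rw [h3 g (Finset.mem_filter.1 hg).2]
    have := pr_regular hM.1 g
    rwa [pr, h, inv_one, one_mul] at this
  have h5 : (Nat.card G * (Finset.univ.filter fun χ : IrrCharacter G =>
      χ ∈ B ∧ (fun g => χ.1 (g ^ k)) = χ.1).card : ℕ) = ((∑ u, n u : ℕ) : ℂ) := by
    push_cast
    simp only [← hn]
    refine Eq.trans ?_ (@Finset.sum_fiberwise _ _ _ _ (Classical.decEq G) _ Finset.univ (pp p) _).symm
    rw [Finset.sum_comm, ← Finset.filter_filter, Finset.card_filter,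
      Nat.cast_sum, Finset.mul_sum]
    refine Finset.sum_congr rfl fun χ _ => ?_
    rw [← card_mul_classInner, classInner_isIrr (Galois.isIrr_pow_arg χ.2 hk) χ.2]
    simp
  have h6 := Finset.single_le_sum (f := n) (fun _ _ => Nat.zero_le _) (Finset.mem_univ 1)
  rw [← Nat.cast_injective h5, show n 1 = Nat.card G * blockRank p B by exact_mod_cast h4] at h6
  refine (Nat.le_of_mul_le_mul_left h6 Nat.card_pos).trans ?_
  rw [Nat.card_eq_fintype_card, Fintype.card_subtype]
  refine Finset.card_le_card (Finset.monotone_filter_right _ fun χ _ h => ⟨h.1, fun l hl e g => ?_⟩)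
  obtain ⟨j, hj⟩ := h2 l hl e
  rw [← pow_eq_pow_iff_modEq.2 (hj.of_dvd (orderOf_dvd_natCard g))]
  clear hj
  induction j with
  | zero => simp
  | succ j ih => rw [pow_succ, pow_mul, congrFun h.2, ih]

end Cfsg.Agent.S4712
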