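import Mathlib
import Cfsg.Statements.S4714
import Cfsg.Agent.Block.Quot2

set_option autoImplicit false
open Cfsg

namespace Cfsg.Agent.S4714

open Cfsg.Agent.Block Cfsg.Agent.Char Subgroup

/-- Let p be a prime, M a maximal ideal of the algebraic integers containing p, D a p-subgroup of the finite group G with G = D·C_G(D), and B a p-block with defect group D. Let χ be a member of B having D in its kernel (there is exactly one, the canonical character of B). Then the irreducible characters in B are exactly the functions θ on G for which there is an irreducible character ζ of D such that θ(yx) = ζ(y)χ(x) whenever y ∈ D, x has order prime to p and x commutes with y, and θ(z) = 0 whenever the p-part of z does not lie in D. -/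
theorem result {G : Type*} [Group G] [Finite G] (p : ℕ) [Fact p.Prime] (M : Ideal Cfsg.AlgInt) (hM : Cfsg.IsPModular p M) (D : Subgroup G) (hD : IsPGroup p D) (hG : D ⊔ Subgroup.centralizer (D : Set G) = ⊤) (B : Set (Cfsg.IrrCharacter G)) (hB : Cfsg.IsPBlock M B) (hBD : Cfsg.IsDefectGroup p M B D) (χ : Cfsg.IrrCharacter G) (hχ : χ ∈ B) (hχD : ∀ y ∈ D, (χ : G → ℂ) y = (χ : G → ℂ) 1) : (∀ θ : Cfsg.IrrCharacter G, θ ∈ B ↔ ∃ ζ : Cfsg.IrrCharacter D, (∀ (y : D) (x : G), ¬ p ∣ orderOf x → Commute (y : G) x → (θ : G → ℂ) ((y : G) * x) = (ζ : D → ℂ) y * (χ : G → ℂ) x) ∧ (∀ z : G, (∀ y : G, Cfsg.IsPPart p z y → y ∉ D) → (θ : G → ℂ) z = 0)) ∧ ∀ ζ : Cfsg.IrrCharacter D, ∃ θ ∈ B, (∀ (y : D) (x : G), ¬ p ∣ orderOf x → Commute (y : G) x → (θ : G → ℂ) ((y : G) * x) = (ζ : D → ℂ) y * (χ : G → ℂ) x) ∧ (∀ z : G, (∀ y : G, Cfsg.IsPPart p z y → y ∉ D) → (θ : G → ℂ) z = 0) := by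
  have := normal_of_sup_centralizer hG
  obtain ⟨Φ, hΦ⟩ := exists_equiv_of_sup hM hB hBD hG hχ (le_charKer_iff'.2 hχD)
  have h0 : ∀ θ ∈ B, ∀ z : G, (∀ y : G, IsPPart p z y → y ∉ D) → (θ : G → ℂ) z = 0 :=
    fun θ hθ z hz => char_eq_zero_of_notMem hM hB hBD hθ (isPPart_pp hM.1 z)
      (hz _ (isPPart_pp hM.1 z))
  refine ⟨fun θ => ⟨fun hθ => ⟨Φ.symm ⟨θ, hθ⟩, fun y x hx _ => ?_, h0 θ hθ⟩, ?_⟩,
    fun ζ => ⟨_, (Φ ζ).2, fun y x hx _ => hΦ ζ y x hx, h0 _ (Φ ζ).2⟩⟩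
  · rw [← hΦ _ y x hx, Equiv.apply_symm_apply]
  · rintro ⟨ζ, h1, -⟩
    refine block_mem_of_sameBlock hM hB (Φ ζ).2 (sameBlock_of_eq_regular hM fun g hg => ?_)
    have h2 := h1 1 g hg (Commute.one_left g)
    rw [← hΦ ζ 1 g hg, OneMemClass.coe_one, one_mul] at h2
    exact h2

end Cfsg.Agent.S4714
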