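import Mathlib
import Cfsg.Statements.S4718
import Cfsg.Agent.Block.Landau
import Cfsg.Agent.S4494
import Cfsg.Agent.Block.Height

set_option autoImplicit false
universe u
open Cfsg

namespace Cfsg.Agent.S4718

open Cfsg.Agent.Block Cfsg.Agent.Char Subgroup

theorem aux (p : ℕ) [Fact p.Prime] (a : ℕ) : ∃ N : ℕ, ∀ (G : Type u) [Group G] [Finite G]
    (M : Ideal AlgInt), IsPModular p M → (Nat.card G).factorization p ≤ a →
    (∀ B : Set (IrrCharacter G), IsPBlock M B → B = principalBlock M G) → Nat.card G ≤ N := by
  obtain ⟨N, hN⟩ := landau.{u} (p ^ (2 * a) + 4)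
  refine ⟨N, fun G _ _ M hM ha h => hN G ?_⟩
  have hB := isPBlock_principalBlock (G := G) (M := M)
  have h1 := S4494.result p M hM _ hB
  have h2 : principalBlock M G = Set.univ := Set.eq_univ_of_forall fun χ =>
    h _ (isPBlock_blockOf χ) ▸ self_mem_blockOf hM χ
  have h3 : p ^ (2 * blockDefect p (principalBlock M G)) ≤ p ^ (2 * a) :=
    Nat.pow_le_pow_right hM.1.pos (by have := blockDefect_le (p := p) (principalBlock M G); omega)
  rw [← card_irr_eq_card_conjClasses, ← Nat.card_univ, ← h2]
  omega

/-- Let p be a prime and a a natural number. There is a bound N such that every finite group whose Sylow p-subgroups have order p^a and whose only p-block (relative to a maximal ideal of the algebraic integers containing p) is the principal block has order at most N. -/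
theorem result (p : ℕ) [Fact p.Prime] (a : ℕ) : ∃ N : ℕ, ∀ (G : Type u) [Group G] [Finite G] (M : Ideal Cfsg.AlgInt), Cfsg.IsPModular p M → (Nat.card G).factorization p = a → (∀ B : Set (Cfsg.IrrCharacter G), Cfsg.IsPBlock M B → B = Cfsg.principalBlock M G) → Nat.card G ≤ N := by
  obtain ⟨N, hN⟩ := aux.{u} p a
  exact ⟨N, fun G _ _ M hM ha h => hN G M hM ha.le h⟩

end Cfsg.Agent.S4718
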