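import Mathlib
import Cfsg.Statements.S4719
import Cfsg.Agent.S4718
import Cfsg.Agent.S4717
import Cfsg.Agent.Inv.Four

set_option autoImplicit false
universe u
open Cfsg

namespace Cfsg.Agent.S4719

open Cfsg.Agent.Block Cfsg.Agent.Char Subgroup

theorem defic_quot {G : Type*} [Group G] [Finite G] {M : Ideal AlgInt} (hM : IsPModular 2 M)
    {r : ℕ} {t : G} (ht : orderOf t = 2) [(zpowers t).Normal] (hc : ∀ g, Commute g t)
    (h : ∀ B : Set (IrrCharacter G), IsPBlock M B → B ≠ principalBlock M G →
      blockDefect 2 B < r + 1) (b : Set (IrrCharacter (G ⧸ zpowers t))) (hb : IsPBlock M b)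
    (hne : b ≠ principalBlock M _) : blockDefect 2 b < r := by
  have hf := QuotientGroup.mk'_surjective (zpowers t)
  obtain ⟨χ, hχ, h0⟩ := exists_height_zero (p := 2) (block_nonempty hM hb)
  have h1 := h _ (isPBlock_blockOf (inflIrr _ hf χ)) fun e => hne (by
    have h2 : SameBlock M (inflIrr _ hf χ : G → ℂ) (inflIrr _ hf (oneIrr _)) := by
      rw [inflIrr_oneIrr, ← mem_blockOf, e]
      exact oneIrr_mem_principalBlock hM
    rw [sameBlock_inflIrr_iff_of_centralizer hM hf (by
      rw [QuotientGroup.ker_mk']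
      exact IsPGroup.of_card (n := 1) (by rw [Nat.card_zpowers, ht, pow_one])) (fun g _ => by
      rw [QuotientGroup.ker_mk']
      rintro _ ⟨k, rfl⟩
      exact ((hc g).zpow_right k).symm.eq)] at h2
    exact block_eq_of_mem hM hb isPBlock_principalBlock
      (block_mem_of_sameBlock hM hb hχ h2) (oneIrr_mem_principalBlock hM))
  have h2 := factorization_degree_add_defect (p := 2) hχ
  have h3 := factorization_degree_add_defect (p := 2) (self_mem_blockOf hM (inflIrr _ hf χ))
  rw [show charDegree (inflIrr _ hf χ : G → ℂ) = charDegree (χ : G ⧸ zpowers t → ℂ) by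
    simp [charDegree, coe_inflIrr]] at h3
  have h4 := PGrp.card_quotient_mul_card (zpowers t)
  rw [Nat.card_zpowers, ht] at h4
  rw [← h4, Nat.factorization_mul Nat.card_pos.ne' two_ne_zero, Finsupp.add_apply,
    Nat.prime_two.factorization_self] at h3
  omega

theorem aux (a : ℕ) : ∃ N : ℕ, ∀ (G : Type u) [Group G] [Finite G] (M : Ideal AlgInt) (r : ℕ),
    IsPModular 2 M → (Nat.card G).factorization 2 ≤ a →
    (∀ B : Set (IrrCharacter G), IsPBlock M B → B ≠ principalBlock M G → blockDefect 2 B < r) →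
    ∀ E : Subgroup G, (∀ x ∈ E, x * x = 1) → Nat.card E = 2 ^ (r + 1) → Nat.card G ≤ N := by
  induction a with
  | zero =>
    refine ⟨0, fun G _ _ M r _ ha _ E _ hE => ?_⟩
    have := (Nat.prime_two.pow_dvd_iff_le_factorization Nat.card_pos.ne').1
      (hE ▸ card_subgroup_dvd_card E)
    omega
  | succ a ih =>
    obtain ⟨N₁, h₁⟩ := ih
    obtain ⟨N₀, h₀⟩ := S4718.aux.{u} 2 (a + 1)
    obtain ⟨N₂, h₂⟩ := exists_bound_four.{u} (a + 1) (N₁ * 2)
    refine ⟨max N₀ N₂, fun G _ _ M r hM ha h E hE2 hE => ?_⟩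
    rcases r with _ | r
    · exact le_max_of_le_left (h₀ G M hM ha fun B hB => by
        by_contra hne
        exact absurd (h B hB hne) (Nat.not_lt_zero _))
    have hcm : ∀ x ∈ E, ∀ y ∈ E, Commute x y := fun x hx y hy =>
      Inv.commute_of_mul_self (hE2 x hx) (hE2 y hy) (hE2 _ (E.mul_mem hx hy))
    have key : ∀ t ∈ E, t ≠ 1 → Nat.card (centralizer ({t} : Set G)) ≤ N₁ * 2 := by
      intro t htE ht1
      have ht := Inv.two_of_mul_self ht1 (hE2 t htE)
      set C := centralizer ({t} : Set G)
      let t' : C := ⟨t, mem_centralizer_singleton_iff.2 rfl⟩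
      have ht' : orderOf t' = 2 := by rw [← orderOf_coe]; exact ht
      have hc : ∀ g : C, Commute g t' := fun g =>
        Subtype.ext (mem_centralizer_singleton_iff.1 g.2)
      have : (zpowers t').Normal := ⟨by
        rintro _ ⟨k, rfl⟩ g
        rw [((hc g).zpow_right k).eq, mul_inv_cancel_right]
        exact ⟨k, rfl⟩⟩
      have hEC : E ≤ C := fun x hx => mem_centralizer_singleton_iff.2 (hcm x hx t htE).eq
      have h4 := PGrp.card_quotient_mul_card (zpowers t')
      rw [Nat.card_zpowers, ht'] at h4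
      rw [← h4]
      refine Nat.mul_le_mul_right _ (h₁ _ M r hM ?_ (defic_quot hM ht' hc
        ((S4717.result 2 M hM (r + 1)).1 h t ⟨1, by rw [ht, pow_one]⟩))
        ((E.subgroupOf C).map (QuotientGroup.mk' _)) ?_ ?_)
      · have h5 := (Nat.factorization_le_iff_dvd Nat.card_pos.ne' Nat.card_pos.ne').2
          (card_subgroup_dvd_card C) 2
        rw [← h4, Nat.factorization_mul Nat.card_pos.ne' two_ne_zero, Finsupp.add_apply,
          Nat.prime_two.factorization_self] at h5
        omega
      · rintro _ ⟨x, hx, rfl⟩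
        rw [← map_mul, show x * x = 1 from Subtype.ext (hE2 _ hx), map_one]
      · have h5 := ((QuotientGroup.mk' (zpowers t')).ker.subgroupOf (E.subgroupOf C)).card_mul_index
        rw [← relIndex, relIndex_ker, QuotientGroup.ker_mk',
          Nat.card_congr (subgroupOfEquivOfLe (zpowers_le.2 (show t' ∈ E.subgroupOf C from
            htE))).toEquiv, Nat.card_zpowers, ht', Nat.card_congr (subgroupOfEquivOfLe hEC).toEquiv,
          hE, pow_succ' 2 (r + 1)] at h5
        omega
    have h4 : 4 ≤ Nat.card E := by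
      rw [hE]; exact Nat.pow_le_pow_right two_pos (show 2 ≤ r + 1 + 1 by omega)
    have := Fintype.ofFinite E
    obtain ⟨x, y, z, hxy, hxz, hyz⟩ := Fintype.two_lt_card_iff.1
      (show 2 < Fintype.card E by rw [← Nat.card_eq_fintype_card]; omega)
    have k1 : ((x * y : E) : G) ≠ 1 := fun e => hxy (Subtype.ext (mul_left_cancel
      ((hE2 _ x.2).trans e.symm)))
    have k2 : ((y * z : E) : G) ≠ 1 := fun e => hyz (Subtype.ext (mul_left_cancel
      ((hE2 _ y.2).trans e.symm)))
    have k3 : ((x * y : E) : G) * (y * z : E) ≠ 1 := fun e => hxz (Subtype.ext (mul_left_cancel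
      ((hE2 _ x.2).trans (by rw [← e, coe_mul, coe_mul, mul_assoc, ← mul_assoc (y : G),
        hE2 _ y.2, one_mul]))))
    have k4 := E.mul_mem (x * y).2 (y * z).2
    exact le_max_of_le_right (h₂ G ha _ _ (Inv.two_of_mul_self k1 (hE2 _ (x * y).2))
      (Inv.two_of_mul_self k2 (hE2 _ (y * z).2)) (Inv.two_of_mul_self k3 (hE2 _ k4))
      (key _ (x * y).2 k1) (key _ (y * z).2 k2) (key _ k4 k3))

/-- For every natural number a there is a bound N with the following property. Let G be a finite group with Sylow 2-subgroups of order 2^a and r ≥ 0 such that G has no non-principal 2-block (relative to a maximal ideal of the algebraic integers containing 2) of defect ≥ r, and suppose a Sylow 2-subgroup of G contains an elementary abelian subgroup of order 2^(r+1). Then the order of G is at most N. -/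
theorem result (a : ℕ) : ∃ N : ℕ, ∀ (G : Type u) [Group G] [Finite G] (M : Ideal Cfsg.AlgInt) (r : ℕ) (P : Sylow 2 G), Cfsg.IsPModular 2 M → Nat.card P = 2 ^ a → (∀ B : Set (Cfsg.IrrCharacter G), Cfsg.IsPBlock M B → B ≠ Cfsg.principalBlock M G → Cfsg.blockDefect 2 B < r) → (∃ E : Subgroup G, E ≤ (P : Subgroup G) ∧ IsMulCommutative E ∧ (∀ x ∈ E, x * x = 1) ∧ Nat.card E = 2 ^ (r + 1)) → Nat.card G ≤ N := by
  obtain ⟨N, hN⟩ := aux.{u} a
  refine ⟨N, fun G _ _ M r P hM hP h ⟨E, _, _, h1, h2⟩ => hN G M r hM ?_ h E h1 h2⟩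
  rw [P.card_eq_multiplicity] at hP
  exact (Nat.pow_right_injective le_rfl hP).le

end Cfsg.Agent.S4719
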