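import Mathlib
import Cfsg.Statements.S4720
import Cfsg.Agent.Dih.PB

set_option autoImplicit false
open Cfsg

namespace Cfsg.Agent.S4720

open Cfsg.Agent.Char Cfsg.Agent.Block Cfsg.Agent.Dih
open scoped ComplexConjugate

theorem sum_conj_eq {G : Type*} [Group G] [Fintype G] {P N : Subgroup G} [Fintype P] [Fintype N]
    (hNN : N ≤ Subgroup.normalizer (P : Set G)) (η : P → ℂ) (y : P)
    (hfus : ∀ g : G, g * y * g⁻¹ ∈ (P : Set G) → ∃ n ∈ N, n * y * n⁻¹ = g * y * g⁻¹)
    [DecidablePred fun z : P => IsConj (y : G) z] :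
    ∑ x : N, extendByZero P η ((x : G) * y * (x : G)⁻¹) =
      Nat.card ↥(N ⊓ Subgroup.centralizer ({(y : G)} : Set G)) *
        ∑ z ∈ Finset.univ.filter (fun z : P => IsConj (y : G) z), η z := by
  classical
  let f : N → P := fun x => ⟨x * y * (x : G)⁻¹, (Subgroup.mem_normalizer_iff.1 (hNN x.2) y).1 y.2⟩
  have e1 : ∀ x : N, extendByZero P η ((x : G) * y * (x : G)⁻¹) = η (f x) := fun x =>
    Ind.extendByZero_coe P η (f x)
  simp only [e1]
  rw [← Finset.sum_fiberwise_of_maps_to (s := Finset.univ)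
    (t := Finset.univ.filter fun z : P => IsConj (y : G) z) (g := f)
    (fun x _ => by simpa using ⟨x, rfl⟩), Finset.mul_sum]
  refine Finset.sum_congr rfl fun z hz => ?_
  rw [Finset.sum_congr rfl (g := fun _ => η z) (fun x hx => by rw [(Finset.mem_filter.1 hx).2]),
    Finset.sum_const, nsmul_eq_mul]
  congr 2
  obtain ⟨g, hg⟩ := isConj_iff.1 (Finset.mem_filter.1 hz).2
  obtain ⟨n, hn, hn'⟩ := hfus g (by rw [hg]; exact z.2)
  rw [hg] at hn'
  rw [← Fintype.card_subtype, ← Nat.card_eq_fintype_card]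
  refine Nat.card_congr
    { toFun := fun x => ⟨n⁻¹ * x.1, N.mul_mem (N.inv_mem hn) x.1.2, ?_⟩
      invFun := fun c => ⟨⟨n * c, N.mul_mem hn c.2.1⟩, Subtype.ext ?_⟩
      left_inv := fun x => by ext; simp
      right_inv := fun c => by ext; simp }
  · have h1 : (x.1 : G) * y * (x.1 : G)⁻¹ = z := congrArg Subtype.val x.2
    refine Subgroup.mem_centralizer_singleton_iff.2 ?_
    calc n⁻¹ * x.1 * y = n⁻¹ * ((x.1 : G) * y * (x.1 : G)⁻¹) * x.1 := by group
      _ = y * (n⁻¹ * x.1) := by rw [h1, ← hn']; group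
  · have h1 := Subgroup.mem_centralizer_singleton_iff.1 c.2.2
    change n * c * y * (n * c)⁻¹ = z
    rw [← hn', mul_assoc n, h1]
    group


/-- Let p be a prime, M a maximal ideal of the algebraic integers containing p, P a p-subgroup of the finite group G, N a subgroup with P ≤ N ≤ N_G(P), and U a nonempty subset of P normalized by N such that an element of U and an element of P that are conjugate in G are already conjugate in N, and such that λ(C_G(y)) = w·#C_N(y) for every y ∈ U with one rational number w, where λ(X) denotes the sum of the squares of the degrees of the irreducible characters in the principal p-block of X. For a complex function θ on P and χ in the principal block of G put a_χ(θ) = #P⁻¹ Σ_{y ∈ P} χ(y) θ(y⁻¹). Then for generalized characters θ, η of P with θ vanishing outside U, Σ_χ a_χ(θ)·conj(a_χ(η)) = (w/#P²)·Σ_{y ∈ P} θ(y)·conj(Σ_{x ∈ N} η(x y x⁻¹)) (η extended by zero off P; the conjugates lie in P), the first sum over the principal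 p-block of G. -/
theorem result {G : Type*} [Group G] [Finite G] (p : ℕ) [Fact p.Prime] (M : Ideal Cfsg.AlgInt) (hM : Cfsg.IsPModular p M) (P : Subgroup G) (hP : IsPGroup p P) (N : Subgroup G) (hPN : P ≤ N) (hNN : N ≤ Subgroup.normalizer (P : Set G)) (U : Set G) (hUne : U.Nonempty) (hUP : U ⊆ (P : Set G)) (hUN : ∀ n ∈ N, ∀ u ∈ U, n * u * n⁻¹ ∈ U) (hfus : ∀ u ∈ U, ∀ g : G, g * u * g⁻¹ ∈ (P : Set G) → ∃ n ∈ N, n * u * n⁻¹ = g * u * g⁻¹) (w : ℚ) (hw : ∀ y ∈ U, ((∑ᶠ ψ ∈ Cfsg.principalBlock M ↥(Subgroup.centralizer ({y} : Set G)), Cfsg.charDegree (ψ : ↥(Subgroup.centralizer ({y} : Set G)) → ℂ) ^ 2) : ℚ) = w * Nat.card ↥(N ⊓ Subgroup.centralizer ({y} : Set G))) (θ η : ↥P → ℂ) (hθ : Cfsg.IsGeneralizedCharacter ↥P θ) (hη : Cfsg.IsGeneralizedCharacter ↥P η) (hθU : ∀ y : ↥P, (y : G) ∉ U → θ y = 0) : ∑ᶠ χ ∈ Cfsg.principalBlock M G, ((Nat.card ↥P : ℂ)⁻¹ * ∑ᶠ y : ↥P, (χ : G → ℂ) (y : G) * θ y⁻¹) * (starRingEnd ℂ) ((Nat.card ↥P : ℂ)⁻¹ * ∑ᶠ y : ↥P, (χ : G → ℂ) (y : G)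 * η y⁻¹) = ((w : ℂ) / ((Nat.card ↥P : ℂ) ^ 2)) * ∑ᶠ y : ↥P, θ y * (starRingEnd ℂ) (∑ᶠ x : ↥N, Cfsg.extendByZero P η ((x : G) * (y : G) * (x : G)⁻¹)) := by
  classical
  have := Fintype.ofFinite G
  have := Fintype.ofFinite P
  have := Fintype.ofFinite N
  have hord : ∀ y : P, ∃ k : ℕ, orderOf (y : G) = p ^ k := fun y =>
    exists_orderOf_eq_pow_of_mem hM.1 hP y.2
  rw [finsum_mem_irr]
  simp only [finsum_eq_sum_of_fintype]
  have e1 : ∀ (χ : IrrCharacter G) (φ : P → ℂ), ∑ y : P, χ.1 y * φ y⁻¹ =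
      ∑ y : P, conj (χ.1 y) * φ y := fun χ φ =>
    Fintype.sum_equiv (Equiv.inv P) _ _ fun y => by
      simp [← isChar_inv (irr_isChar χ)]
  have key : ∀ y : P, θ y * ∑ z : P, conj (η z) * ∑ χ : IrrCharacter G with
      χ ∈ principalBlock M G, χ.1 z * conj (χ.1 y) =
      w * (θ y * conj (∑ x : N, extendByZero P η ((x : G) * y * (x : G)⁻¹))) := by
    intro y
    by_cases hy : (y : G) ∈ U
    swap
    · rw [hθU y hy]; simp
    have h1 := hw y hy
    rw [finsum_mem_irr] at h1
    have h2 := congrArg (fun x : ℚ => (x : ℂ)) h1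
    push_cast at h2
    rw [sum_conj_eq hNN η y (hfus y hy), map_mul, map_natCast, map_sum,
      Finset.sum_filter (fun z : P => IsConj (y : G) z), mul_left_comm (w : ℂ),
      ← mul_assoc (w : ℂ), ← h2]
    congr 1
    rw [Finset.mul_sum]
    refine Finset.sum_congr rfl fun z _ => ?_
    split_ifs with hc
    · rw [mul_comm, ← sum_principal_self hM (hord y)]
      congr 1
      exact Finset.sum_congr rfl fun χ _ => by rw [irr_eq_of_isConj χ hc]
    · rw [sum_principal_of_not_isConj hM (hord z) (hord y) (fun h => hc h.symm), mul_zero,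
        mul_zero]
  simp only [e1, map_mul, map_inv₀, map_natCast, map_sum, Complex.conj_conj]
  calc _ = ((Nat.card P : ℂ) ^ 2)⁻¹ * ∑ y : P, θ y * ∑ z : P, conj (η z) *
        ∑ χ : IrrCharacter G with χ ∈ principalBlock M G, χ.1 z * conj (χ.1 y) := by
        simp only [Finset.mul_sum, Finset.sum_mul]
        rw [Finset.sum_comm]
        conv_rhs => rw [Finset.sum_comm]
        refine Finset.sum_congr rfl fun z _ => ?_
        rw [Finset.sum_comm]
        refine Finset.sum_congr rfl fun y _ => Finset.sum_congr rfl fun χ _ => ?_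
        ring
    _ = _ := by
        simp only [key, map_sum]
        rw [← Finset.mul_sum]
        ring

end Cfsg.Agent.S4720
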