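import Mathlib
import Cfsg.Statements.S4721
import Cfsg.Agent.Block.AbFrob2
-- import your own Cfsg.Agent.* helpers here

set_option autoImplicit false
open Cfsg

namespace Cfsg.Agent.S4721

open Cfsg.Agent.Block in
open scoped _root_.Classical in

/-- Let p be a prime, M a maximal ideal of the algebraic integers containing p, and G a finite group with a nontrivial abelian Sylow p-subgroup P, N = N_G(P), C = C_G(P), such that N/C is cyclic of order 3, #P > 4, and C_G(y) ∩ N = C for every non-identity y ∈ P. Then the principal p-block is the disjoint union of a set X of exactly 3 characters containing the principal character and a set Y of (#P − 1)/3 characters, with signs a_χ = ±1 (χ ∈ X, a = 1 at the principal character) and δ = ±1 such that every χ ∈ X takes the value a_χ at every element whose p-part is a non-identity element of P, and there is a map ζ from the non-principal linear characters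 of P onto Y, constant on N-conjugacy classes, with ζ_ψ(z) = δ·Σ ψ'(y) over the N-orbit of ψ, for z with p-part y ≠ 1 in P. If moreover G has an involution lying in no proper normal subgroup of G, then exactly two of the three numbers −δ and a_χ (χ ∈ X non-principal) equal −1, and the product of the degrees of the two non-principal members of X and of any member of Y is a perfect square. -/
theorem result {G : Type*} [Group G] [Finite G] (p : ℕ) [Fact p.Prime] (M : Ideal Cfsg.AlgInt) (hM : Cfsg.IsPModular p M) (P : Sylow p G) (hab : IsMulCommutative P) (hP1 : Nat.card P ≠ 1) (hCN : (Subgroup.centralizer ((P : Subgroup G) : Set G)).relIndex (Subgroup.normalizer ((P : Subgroup G) : Set G)) = 3) (hcyc : ∃ g : G, g ∈ Subgroup.normalizer ((P : Subgroup G) : Set G) ∧ Subgroup.centralizer ((P : Subgroup G) : Set G) ⊔ Subgroup.zpowers g = Subgroup.normalizer ((P : Subgroup G) : Set G)) (hm2 : 3 + 1 < Nat.card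 P) (hfrob : ∀ y : G, y ∈ (P : Subgroup G) → y ≠ 1 → Subgroup.centralizer ({y} : Set G) ⊓ Subgroup.normalizer ((P : Subgroup G) : Set G) = Subgroup.centralizer ((P : Subgroup G) : Set G)) : ∃ (X Y : Set (Cfsg.IrrCharacter G)), Cfsg.principalBlock M G = X ∪ Y ∧ Disjoint X Y ∧ Nat.card X = 3 ∧ Nat.card Y = (Nat.card P - 1) / 3 ∧ (∃ χ₁ ∈ X, (χ₁ : G → ℂ) = fun _ => 1) ∧ ∃ (a : Cfsg.IrrCharacter G → ℤ) (δ : ℤ) (ζ : (↥(P : Subgroup G) →* ℂˣ) → Cfsg.IrrCharacter G), (δ = 1 ∨ δ = -1) ∧ (∀ χ ∈ X, (a χ = 1 ∨ a χ = -1) ∧ ∀ z y : G, Cfsg.IsPPart p z y → y ∈ (P : Subgroup G) → y ≠ 1 → (χ : G → ℂ) z = (a χ : ℂ)) ∧ (∀ ψ : ↥(P : Subgroup G) →* ℂˣ, ψ ≠ 1 → ζ ψ ∈ Y) ∧ (∀ η ∈ Y, ∃ ψ : ↥(P : Subgroup G) →* ℂˣ, ψ ≠ 1 ∧ ζ ψ = η) ∧ (∀ ψ ψ' : ↥(P : Subgroup G) →* ℂˣ, ψ ≠ 1 → (∃ n : G, n ∈ Subgroup.normalizer ((P : Subgroup G) : Set G) ∧ ∀ w w' : ↥(P : Subgroup G), (w' : G) = n * w * n⁻¹ → ψ' w' = ψ w) → ζ ψ' = ζ ψ) ∧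 (∀ ψ : ↥(P : Subgroup G) →* ℂˣ, ψ ≠ 1 → ∀ (z : G) (y : ↥(P : Subgroup G)), Cfsg.IsPPart p z (y : G) → (y : G) ≠ 1 → (ζ ψ : G → ℂ) z = (δ : ℂ) * ∑ᶠ ψ' ∈ {ψ' : ↥(P : Subgroup G) →* ℂˣ | ∃ n : G, n ∈ Subgroup.normalizer ((P : Subgroup G) : Set G) ∧ ∀ w w' : ↥(P : Subgroup G), (w' : G) = n * w * n⁻¹ → ψ' w' = ψ w}, ((ψ' y : ℂˣ) : ℂ)) ∧ ((∃ t : G, orderOf t = 2 ∧ ∀ K : Subgroup G, K.Normal → t ∈ K → K = ⊤) → Nat.card {χ : Cfsg.IrrCharacter G // χ ∈ X ∧ (χ : G → ℂ) ≠ (fun _ => 1) ∧ a χ = -1} + (if δ = 1 then 1 else 0) = 2 ∧ ∀ η ∈ Y, IsSquare (Cfsg.charDegree (η : G → ℂ) * ∏ᶠ χ ∈ {χ : Cfsg.IrrCharacter G | χ ∈ X ∧ (χ : G → ℂ) ≠ fun _ => 1}, Cfsg.charDegree (χ : G → ℂ))) := by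
  have := Fintype.ofFinite G
  have h := abFrob_of_inf P hab hfrob
  obtain ⟨δ, ζ, a, hδ, hd, hX, ha⟩ := h.exists_three hM hCN hm2
  have hδ0 : δ ≠ 0 := by omega
  have hc := h.card_range hd.eq_iff
  rw [hCN] at hc
  have ho := h.one_mem hd hδ0 (h.exists_not_rel (hCN ▸ hm2))
  have h1 : oneIrr G ∈ principalBlock M G \ Set.range ζ := ⟨oneIrr_mem_principalBlock hM, ho.1⟩
  refine ⟨principalBlock M G \ Set.range ζ, Set.range ζ,
    (Set.sdiff_union_of_subset (Set.range_subset_iff.2 hd.mem)).symm, Set.disjoint_sdiff_left, hX,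
    by omega, ⟨oneIrr G, h1, rfl⟩, a, δ,
    fun ψ => if e : ψ = 1 then oneIrr G else ζ ⟨ψ, e⟩, hδ, fun χ hχ => ⟨ha χ hχ,
      fun z y e hy hy1 => h.valX hM hd hχ (x := ⟨y, hy⟩) (fun e => hy1 (congrArg Subtype.val e)) e⟩,
    fun ψ hψ => ?_, ?_, fun ψ ψ' hψ e => ?_, fun ψ hψ z y e hy => ?_, ?_⟩
  · simp only [dif_neg hψ]
    exact ⟨_, rfl⟩
  · rintro _ ⟨lam, rfl⟩
    exact ⟨lam.1, lam.2, dif_neg lam.2⟩
  · have e' := lRel_iff.2 e
    simp only [dif_neg hψ, dif_neg (e'.ne_one hψ)]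
    exact ((hd.eq_iff _ _).2 e').symm
  · simp only [dif_neg hψ]
    rw [h.valY hM hd ⟨ψ, hψ⟩ (fun e => hy (congrArg Subtype.val e)) e, ← finsum_mem_coe_finset]
    simp only [Finset.coe_filter, Finset.mem_univ, true_and, lRel_iff, Int.cast_zero, zero_add]
  rintro ⟨t, ht, hgen⟩
  have h2 : ((principalBlock M G \ Set.range ζ) \ {oneIrr G}).ncard = 2 := by
    rw [Set.ncard_sdiff_singleton_of_mem h1, ← Nat.card_coe_set_eq, hX]
  obtain ⟨χ₂, χ₃, h23, e⟩ := Set.ncard_eq_two.1 h2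
  have m2 := e.symm.subset (Or.inl rfl)
  have m3 := e.symm.subset (Or.inr rfl)
  have hX' : principalBlock M G \ Set.range ζ = {oneIrr G, χ₂, χ₃} := by
    rw [← e, Set.insert_sdiff_singleton, Set.insert_eq_of_mem h1]
  have key := h.three_square hCN hm2 hd hδ hX' (Ne.symm m2.2) (Ne.symm m3.2) h23 ht hgen
  have hset : ∀ χ : IrrCharacter G, (χ ∈ principalBlock M G \ Set.range ζ ∧
      (χ : G → ℂ) ≠ fun _ => 1) ↔ χ = χ₂ ∨ χ = χ₃ := fun χ =>
    ⟨fun hχ => e.subset ⟨hχ.1, fun e => hχ.2 (congrArg Subtype.val e)⟩,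
      fun hχ => ⟨(e.symm.subset hχ).1, fun e' => (e.symm.subset hχ).2 (Subtype.ext e')⟩⟩
  have hsign : ∀ μ, -δ * a χ₂ * a χ₃ = 1 ∧ ¬ (δ = -1 ∧ a χ₂ = 1 ∧ a χ₃ = 1) ∧
      IsSquare (charDegree (ζ μ).1 * (charDegree χ₂.1 * charDegree χ₃.1)) := fun μ => by
    obtain ⟨k1, k2⟩ := key μ
    have p1 := Nat.pos_of_ne_zero (irr_degree_ne_zero (ζ μ))
    have p2 := Nat.pos_of_ne_zero (irr_degree_ne_zero χ₂)
    have p3 := Nat.pos_of_ne_zero (irr_degree_ne_zero χ₃)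
    have p4 : (0 : ℤ) < charDegree (ζ μ).1 * (charDegree χ₂.1 * charDegree χ₃.1) := by positivity
    rw [show -δ * charDegree (ζ μ).1 * (a χ₂ * charDegree χ₂.1) * (a χ₃ * charDegree χ₃.1) =
      (-δ * a χ₂ * a χ₃) * (charDegree (ζ μ).1 * (charDegree χ₂.1 * charDegree χ₃.1)) by ring] at k2
    have k3 : -δ * a χ₂ * a χ₃ = 1 := by
      have := k2.nonneg
      rcases hδ with e1 | e1 <;> rcases ha _ m2.1 with e2 | e2 <;> rcases ha _ m3.1 with e3 | e3 <;>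
        rw [e1, e2, e3] at this ⊢ <;> omega
    rw [k3, one_mul] at k2
    refine ⟨k3, ?_, Int.isSquare_natCast_iff.1 (by exact_mod_cast k2)⟩
    rintro ⟨e1, e2, e3⟩
    rw [e1, e2, e3] at k1
    omega
  obtain ⟨lam, -⟩ := h.exists_not_rel (hCN ▸ hm2)
  constructor
  · obtain ⟨k1, k2, -⟩ := hsign lam
    rw [Nat.card_eq_fintype_card, Fintype.card_subtype,
      show (Finset.univ.filter fun χ : IrrCharacter G => χ ∈ principalBlock M G \ Set.range ζ ∧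
        (χ : G → ℂ) ≠ (fun _ => 1) ∧ a χ = -1) = ({χ₂, χ₃} : Finset _).filter (a · = -1) by
        ext χ; simp only [← and_assoc, hset]; simp, Finset.card_filter, Finset.sum_pair h23]
    rcases hδ with e1 | e1 <;> rcases ha _ m2.1 with e2 | e2 <;> rcases ha _ m3.1 with e3 | e3 <;>
      simp only [e1, e2, e3] at k1 k2 ⊢ <;> simp at k1 k2 ⊢
  · rintro _ ⟨μ, rfl⟩
    rw [show {χ : IrrCharacter G | χ ∈ principalBlock M G \ Set.range ζ ∧
      (χ : G → ℂ) ≠ fun _ => 1} = {χ₂, χ₃} from Set.ext hset, finprod_mem_pair h23]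
    exact (hsign μ).2.2

end Cfsg.Agent.S4721
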