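import Mathlib
import Cfsg.Statements.S4722
import Cfsg.Agent.Dih.PB
import Cfsg.Agent.Inv.Dihedral

set_option autoImplicit false
open Cfsg

namespace Cfsg.Agent.S4722

open Cfsg.Agent.Char Cfsg.Agent.Block Cfsg.Agent.Dih
open scoped ComplexConjugate

/-- If all but one of the nonzero coefficients have the same sign, all ratios agree. -/
theorem ratio_eq {ι : Type*} [DecidableEq ι] (s : Finset ι) (a d v : ι → ℝ) (hd : ∀ i ∈ s, 0 < d i)
    (h1 : ∑ i ∈ s, a i * v i ^ 2 / d i = 0) (h2 : ∑ i ∈ s, a i * d i = 0)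
    (h3 : ∑ i ∈ s, a i * v i = 0) (j : ι) (hj : j ∈ s) (hs : ∀ i ∈ s, i ≠ j → 0 ≤ a i) :
    ∀ i ∈ s, a i ≠ 0 → v i = v j / d j * d i := by
  set r := v j / d j with hr
  have h4 : ∑ i ∈ s, a i * (v i - r * d i) ^ 2 / d i = 0 := by
    have : ∑ i ∈ s, a i * (v i - r * d i) ^ 2 / d i = ∑ i ∈ s, a i * v i ^ 2 / d i -
        2 * r * ∑ i ∈ s, a i * v i + r ^ 2 * ∑ i ∈ s, a i * d i := by
      rw [Finset.mul_sum, Finset.mul_sum, ← Finset.sum_sub_distrib, ← Finset.sum_add_distrib]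
      refine Finset.sum_congr rfl fun i hi => ?_
      have := (hd i hi).ne'
      field_simp
      ring
    rw [this, h1, h2, h3]; ring
  have h5 : v j - r * d j = 0 := by rw [hr, div_mul_cancel₀ _ (hd j hj).ne', sub_self]
  have h6 : ∀ i ∈ s, 0 ≤ a i * (v i - r * d i) ^ 2 / d i := by
    intro i hi
    by_cases h : i = j
    · rw [h, h5]; simp
    · exact div_nonneg (mul_nonneg (hs i hi h) (sq_nonneg _)) (hd i hi).le
  intro i hi hai
  have h7 := (Finset.sum_eq_zero_iff_of_nonneg h6).1 h4 i hi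
  rw [div_eq_zero_iff, mul_eq_zero, pow_eq_zero_iff two_ne_zero] at h7
  rcases h7 with (h | h) | h
  · exact absurd h hai
  · exact sub_eq_zero.1 h
  · exact absurd h (hd i hi).ne'

theorem exists_ratio {ι : Type*} [Fintype ι] [DecidableEq ι] (B : Set ι) [DecidablePred (· ∈ B)]
    (a d v : ι → ℝ) (hd : ∀ i, 0 < d i)
    (h1 : ∑ i with i ∈ B, a i * v i ^ 2 / d i = 0) (h2 : ∑ i with i ∈ B, a i * d i = 0)
    (h3 : ∑ i with i ∈ B, a i * v i = 0) (o : ι) (ho : o ∈ B) (hao : a o ≠ 0) (hvo : v o = d o)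
    (hc : ¬ 2 ≤ Nat.card {i // i ∈ B ∧ a i < 0}) : ∃ i ∈ B, i ≠ o ∧ v i = d i := by
  have hoB : o ∈ Finset.univ.filter (· ∈ B) := by simpa using ho
  obtain ⟨j, hj, hs⟩ : ∃ j ∈ Finset.univ.filter (· ∈ B), ∀ i ∈ Finset.univ.filter (· ∈ B), i ≠ j →
      0 ≤ a i := by
    by_cases h : ∃ j ∈ B, a j < 0
    · obtain ⟨j, hj, haj⟩ := h
      refine ⟨j, by simpa using hj, fun i hi hij => ?_⟩
      by_contra hlt
      apply hc
      have : Nontrivial {i // i ∈ B ∧ a i < 0} :=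
        ⟨⟨i, (Finset.mem_filter.1 hi).2, not_le.1 hlt⟩, ⟨j, hj, haj⟩, by simpa using hij⟩
      exact Finite.one_lt_card
    · push Not at h
      exact ⟨o, hoB, fun i hi _ => h i (Finset.mem_filter.1 hi).2⟩
  have key := ratio_eq _ a d v (fun i _ => hd i) h1 h2 h3 j hj hs
  have hr : v j / d j = 1 := by
    have := key o hoB hao
    rw [hvo] at this
    exact mul_right_cancel₀ (hd o).ne' (by rw [← this, one_mul])
  by_contra hne
  push Not at hne
  have h4 : ∑ i with i ∈ B, a i * d i = a o * d o := by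
    refine Finset.sum_eq_single_of_mem o hoB fun i hi hio => ?_
    by_contra h0
    have := key i hi (left_ne_zero_of_mul h0)
    rw [hr, one_mul] at this
    exact hne i (Finset.mem_filter.1 hi).2 hio this
  rw [h2] at h4
  exact mul_ne_zero hao (hd o).ne' h4.symm


/-- Let M be a maximal ideal of the algebraic integers containing 2, P a 2-subgroup of the finite group G, U a subset of P, and t an involution of G such that no element of U is inverted by any conjugate of t. Let θ be a generalized character of P vanishing outside U, and for χ in the principal 2-block B₀ put a_χ = #P⁻¹ Σ_{y ∈ P} χ(y) θ(y⁻¹). Then Σ_{χ ∈ B₀} a_χ χ(t)^2/χ(1) = 0, Σ_{χ ∈ B₀} a_χ χ(1) = 0 and Σ_{χ ∈ B₀} a_χ χ(t) = 0. If moreover #P⁻¹ Σ_{y ∈ P} θ(y) ≠ 0, then either at least two of the a_χ have positive real part and at least two have negative real part, or G has a proper normal subgroup containing O_2'(G) and t. -/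
theorem result {G : Type*} [Group G] [Finite G] (M : Ideal Cfsg.AlgInt) (hM : Cfsg.IsPModular 2 M) (P : Subgroup G) (hP : IsPGroup 2 P) (U : Set G) (hUP : U ⊆ (P : Set G)) (t : G) (ht : orderOf t = 2) (hinv : ∀ u ∈ U, ∀ g : G, (g * t * g⁻¹) * u * (g * t * g⁻¹)⁻¹ ≠ u⁻¹) (θ : ↥P → ℂ) (hθ : Cfsg.IsGeneralizedCharacter ↥P θ) (hθU : ∀ y : ↥P, (y : G) ∉ U → θ y = 0) : (∑ᶠ χ ∈ Cfsg.principalBlock M G, ((Nat.card ↥P : ℂ)⁻¹ * ∑ᶠ y : ↥P, (χ : G → ℂ) (y : G) * θ y⁻¹) * (χ : G → ℂ) t ^ 2 / (χ : G → ℂ) 1 = 0) ∧ (∑ᶠ χ ∈ Cfsg.principalBlock M G, ((Nat.card ↥P : ℂ)⁻¹ * ∑ᶠ y : ↥P, (χ : G → ℂ) (y : G) * θ y⁻¹) * (χ : G → ℂ) 1 = 0) ∧ (∑ᶠ χ ∈ Cfsg.principalBlock M G, ((Nat.card ↥P : ℂ)⁻¹ * ∑ᶠ y : ↥P, (χ : G → ℂ) (y : G) * θ y⁻¹) * (χ : G → ℂ) t = 0) ∧ ((Nat.card ↥P : ℂ)⁻¹ * ∑ᶠ y : ↥P, θ y ≠ 0 → (2 ≤ Nat.card {χ : Cfsg.IrrCharacter G // χ ∈ Cfsg.principalBlock M G ∧ 0 < (((Nat.card ↥P : ℂ)⁻¹ * ∑ᶠ y : ↥P, (χ : G → ℂ) (y : G) * θ y⁻¹)).re}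 ∧ 2 ≤ Nat.card {χ : Cfsg.IrrCharacter G // χ ∈ Cfsg.principalBlock M G ∧ (((Nat.card ↥P : ℂ)⁻¹ * ∑ᶠ y : ↥P, (χ : G → ℂ) (y : G) * θ y⁻¹)).re < 0}) ∨ ∃ K : Subgroup G, K.Normal ∧ K ≠ ⊤ ∧ Cfsg.pPrimeCore 2 G ≤ K ∧ t ∈ K) := by
  classical
  have := Fintype.ofFinite G
  have := Fintype.ofFinite P
  have htt : t * t = 1 := Inv.mul_self_of_two ht
  have hord : ∀ y : P, ∃ k : ℕ, orderOf (y : G) = 2 ^ k := fun y =>
    exists_orderOf_eq_pow_of_mem hM.1 hP y.2
  have hinv' : ∀ y : P, θ y⁻¹ ≠ 0 → ∀ x, IsConj t x → x * y * x⁻¹ ≠ (y : G)⁻¹ := by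
    intro y hy x hx h
    obtain ⟨g, rfl⟩ := isConj_iff.1 hx
    by_cases hU : ((y⁻¹ : P) : G) ∈ U
    · apply hinv _ hU g
      rw [Subgroup.coe_inv, ← conj_inv, h]
    · exact hy (hθU _ hU)
  have swap : ∀ f : IrrCharacter G → ℂ, (∀ y : P, θ y⁻¹ ≠ 0 →
      ∑ χ : IrrCharacter G with χ ∈ principalBlock M G, χ.1 y * f χ = 0) →
      ∑ χ : IrrCharacter G with χ ∈ principalBlock M G,
        ((Nat.card P : ℂ)⁻¹ * ∑ y : P, χ.1 y * θ y⁻¹) * f χ = 0 := by
    intro f hf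
    simp only [mul_assoc, ← Finset.mul_sum, Finset.sum_mul]
    rw [Finset.sum_comm, Finset.sum_eq_zero, mul_zero]
    intro y _
    by_cases hy : θ y⁻¹ = 0
    · simp [hy]
    · simp only [mul_left_comm _ (θ y⁻¹), ← Finset.mul_sum, hf y hy, mul_zero]
  have A1 := swap (fun χ => χ.1 t ^ 2 / χ.1 1) (by
    intro y hy
    have h0 : blockPart (principalBlock M G) (pairs t t) (y : G) = 0 := by
      refine blockPart_eq_zero_of_section hM (isV_principal hM) (x := (y : G)) ?_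
        (isPPart_self hM.1 (hord y)) (IsConj.refl _)
      intro u z hu hz
      by_contra hne
      obtain ⟨a, b, ha, hb, rfl⟩ := pairs_ne_zero hne
      have haa : a * a = 1 := by
        obtain ⟨g, rfl⟩ := isConj_iff.1 ha
        rw [conj_mul, htt]; simp
      have hbb : b * b = 1 := by
        obtain ⟨g, rfl⟩ := isConj_iff.1 hb
        rw [conj_mul, htt]; simp
      obtain ⟨k, rfl⟩ := Subgroup.mem_zpowers_iff.1 (pPart_mem_zpowers hM.1 hu)
      obtain ⟨c, hc⟩ := isConj_iff.1 hz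
      have h1 : a * (a * b) * a⁻¹ = (a * b)⁻¹ := by
        rw [← mul_assoc, haa, one_mul, mul_inv_rev, inv_eq_of_mul_eq_one_right hbb]
      have h2 : a * (a * b) ^ k * a⁻¹ = ((a * b) ^ k)⁻¹ := by
        rw [← conj_zpow, h1, inv_zpow]
      refine hinv' y hy (c⁻¹ * a * c) (ha.trans (isConj_iff.2 ⟨c⁻¹, by group⟩)) ?_
      rw [← hc] at h2
      calc c⁻¹ * a * c * y * (c⁻¹ * a * c)⁻¹ = c⁻¹ * (a * (c * y * c⁻¹) * a⁻¹) * c := by group
        _ = _ := by rw [h2]; group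
    rw [blockPart_pairs_invol _ htt, mul_eq_zero] at h0
    rcases h0 with h0 | h0
    · exact absurd h0 (div_ne_zero (Nat.cast_ne_zero.2 Nat.card_pos.ne')
        (pow_ne_zero _ (Nat.cast_ne_zero.2 Nat.card_pos.ne')))
    · simpa only [mul_comm] using h0)
  have A2 := swap (fun χ => χ.1 1) (by
    intro y hy
    have := sum_principal_of_not_isConj hM (hord y) (z := 1) ⟨0, by simp⟩ (by
      intro h
      rw [isConj_one_left] at h
      exact hinv' y hy t (IsConj.refl _) (by simp [h]))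
    simpa only [conj_irr_one] using this)
  have A3 := swap (fun χ => χ.1 t) (by
    intro y hy
    have := sum_principal_of_not_isConj hM (hord y) (z := t) ⟨1, by simpa using ht⟩ (by
      intro h
      refine hinv' y hy y h.symm ?_
      obtain ⟨g, hg⟩ := isConj_iff.1 h.symm
      have : (y : G) * y = 1 := by rw [← hg, conj_mul, htt]; simp
      rw [mul_inv_cancel_right, inv_eq_of_mul_eq_one_right this])
    simpa only [conj_irr_of_mul_self htt] using this)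
  rw [finsum_mem_irr, finsum_mem_irr, finsum_mem_irr]
  simp only [finsum_eq_sum_of_fintype]
  refine ⟨by simpa only [mul_div_assoc] using A1, A2, A3, fun h0 => ?_⟩
  set a : IrrCharacter G → ℂ := fun χ => (Nat.card P : ℂ)⁻¹ * ∑ y : P, χ.1 y * θ y⁻¹ with ha
  have him : ∀ χ, ((a χ).re : ℂ) = a χ := by
    intro χ
    obtain ⟨n, hn⟩ := classInner_isGenChar_int (isGenChar_res P (irr_isGenChar χ)) hθ
    rw [classInner_isGenChar_eq _ hθ] at hn
    have : a χ = n := hn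
    rw [this]; simp
  have hd : ∀ χ : IrrCharacter G, ((χ.1 1).re : ℂ) = χ.1 1 := fun χ =>
    Complex.conj_eq_iff_re.1 (conj_irr_one χ)
  have hv : ∀ χ : IrrCharacter G, ((χ.1 t).re : ℂ) = χ.1 t := fun χ =>
    Complex.conj_eq_iff_re.1 (conj_irr_of_mul_self htt χ)
  have hpos : ∀ χ : IrrCharacter G, 0 < (χ.1 1).re := fun χ => by
    rw [← irr_degree_cast, Complex.natCast_re]
    exact Nat.cast_pos.2 (Nat.pos_of_ne_zero (irr_degree_ne_zero χ))
  have B1 : ∑ χ : IrrCharacter G with χ ∈ principalBlock M G,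
      (a χ).re * (χ.1 t).re ^ 2 / (χ.1 1).re = 0 := by
    apply Complex.ofReal_injective
    push_cast
    simpa only [him, hd, hv, mul_div_assoc] using A1
  have B2 : ∑ χ : IrrCharacter G with χ ∈ principalBlock M G, (a χ).re * (χ.1 1).re = 0 := by
    apply Complex.ofReal_injective
    push_cast
    simpa only [him, hd] using A2
  have B3 : ∑ χ : IrrCharacter G with χ ∈ principalBlock M G, (a χ).re * (χ.1 t).re = 0 := by
    apply Complex.ofReal_injective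
    push_cast
    simpa only [him, hv] using A3
  have ho : (a (oneIrr G)).re ≠ 0 := by
    intro h
    apply h0
    have h1 := him (oneIrr G)
    rw [h, ha] at h1
    simp only [coe_oneIrr, one_mul, Complex.ofReal_zero] at h1
    rw [← Equiv.sum_comp (Equiv.inv P)]
    exact h1.symm
  have fin : (∃ χ ∈ principalBlock M G, χ ≠ oneIrr G ∧ (χ.1 t).re = (χ.1 1).re) →
      ∃ K : Subgroup G, K.Normal ∧ K ≠ ⊤ ∧ pPrimeCore 2 G ≤ K ∧ t ∈ K := by
    rintro ⟨χ, hχ, h1, h2⟩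
    refine ⟨charKer χ.1, charKer_normal (irr_classFun χ), fun h => h1 (Subtype.ext ?_),
      pPrimeCore_le_charKer hM hχ, ?_⟩
    · exact isIrr_eq_one_of_charKer_eq_top χ.2 h
    · rw [mem_charKer_iff (irr_isChar χ), ← hv, ← hd, h2]
  by_cases c1 : 2 ≤ Nat.card {χ : IrrCharacter G // χ ∈ principalBlock M G ∧ (a χ).re < 0}
  swap
  · exact Or.inr (fin (exists_ratio _ (fun χ => (a χ).re) (fun χ => (χ.1 1).re)
      (fun χ => (χ.1 t).re) hpos B1 B2 B3 _ (oneIrr_mem_principalBlock hM) ho (by simp) c1))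
  by_cases c2 : 2 ≤ Nat.card {χ : IrrCharacter G // χ ∈ principalBlock M G ∧ 0 < (a χ).re}
  · exact Or.inl ⟨c2, c1⟩
  refine Or.inr (fin (exists_ratio _ (fun χ => -(a χ).re) (fun χ => (χ.1 1).re)
      (fun χ => (χ.1 t).re) hpos ?_ ?_ ?_ _ (oneIrr_mem_principalBlock hM) (neg_ne_zero.2 ho)
      (by simp) (by simpa only [neg_lt_zero] using c2)))
  · simp only [neg_mul, neg_div, Finset.sum_neg_distrib, B1, neg_zero]
  · simp only [neg_mul, Finset.sum_neg_distrib, B2, neg_zero]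
  · simp only [neg_mul, Finset.sum_neg_distrib, B3, neg_zero]

end Cfsg.Agent.S4722
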