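import Mathlib
import Cfsg.Statements.S4723
import Cfsg.Agent.Block.FongReynolds
import Cfsg.Agent.Core.Basic

set_option autoImplicit false
open Cfsg

namespace Cfsg.Agent.S4723

open Cfsg.Agent.Block Cfsg.Agent.Char Subgroup

/-- Let p be a prime, M a maximal ideal of the algebraic integers containing p, H a normal subgroup of the finite group G and b a p-block of H. Let T be the stabilizer of b in G. Then b contains a character θ of height zero whose own stabilizer in G (the elements g with θ(g h g⁻¹) = θ(h) for all h ∈ H) has index prime to p in T, i.e. contains a Sylow p-subgroup of T. -/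
theorem result {G : Type*} [Group G] [Finite G] (p : ℕ) [Fact p.Prime] (M : Ideal Cfsg.AlgInt) (hM : Cfsg.IsPModular p M) (H : Subgroup G) [H.Normal] (b : Set (Cfsg.IrrCharacter ↥H)) (hb : Cfsg.IsPBlock M b) (T : Subgroup G) (hT : (∀ g : G, g ∈ T ↔ ∀ θ ∈ b, ∀ θ' : Cfsg.IrrCharacter ↥H, (∀ h h' : ↥H, (h' : G) = g * h * g⁻¹ → (θ' : ↥H → ℂ) h' = (θ : ↥H → ℂ) h) → θ' ∈ b)) : ∃ θ ∈ b, Cfsg.blockHeight p b (θ : ↥H → ℂ) = 0 ∧ ∃ S : Subgroup G, S ≤ T ∧ (∀ g : G, g ∈ S ↔ (g ∈ T ∧ ∀ h h' : ↥H, (h' : G) = g * h * g⁻¹ → (θ : ↥H → ℂ) h' = (θ : ↥H → ℂ) h)) ∧ ¬ p ∣ S.relIndex T := by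
  classical
  have := Fintype.ofFinite G
  have := Fintype.ofFinite H
  have hp := hM.1
  obtain rfl : T = stab b := by
    ext g
    rw [hT, mem_stab_iff'']
  have := Fintype.ofFinite (stab b)
  have := Fintype.ofFinite (H.subgroupOf (stab b))
  have hNT : H ≤ stab b := le_stab b
  obtain ⟨B', hB', hcov, hd⟩ := (gInv_subSet hNT (b := b) le_rfl).exists_covers_defect hM
    (isPBlock_compSet _ hb)
  have hsub : B' ⊆ overIn hNT b := subset_overIn hM hb hNT hB' ((covers_subSet_iff hNT).1 hcov)
  obtain ⟨ψ, hψ, h0⟩ := exists_height_zero (p := p) (block_nonempty hM hB')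
  have hirr := isIrr_indFun_of_overIn hM hb hNT le_rfl (hsub hψ)
  obtain ⟨θ, hθ, hover⟩ := hsub hψ
  have hover' := over_indFun_of_over hNT hirr hover
  obtain ⟨e, he⟩ := classInner_isChar_nat (isChar_res H (isIrr_isChar hirr)) (irr_isChar θ)
  have he0 : e ≠ 0 := by
    rintro rfl
    exact hover' (by rw [he, Nat.cast_zero])
  have hdeg := Clifford.degree_eq hirr θ.2 hover'
  have hI := inertia_le_stab hM hb hθ
  rw [he, Ind.indFun_one, ← relIndex_mul_index hI, ← irr_degree_cast, ← irr_degree_cast] at hdeg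
  have hdeg' : charDegree (ψ : stab b → ℂ) = e * ((Clifford.inertia H (θ : H → ℂ)).relIndex
      (stab b) * charDegree (θ : H → ℂ)) := by
    have h1 : ((stab b).index : ℂ) ≠ 0 := Nat.cast_ne_zero.2 index_ne_zero_of_finite
    have : (charDegree (ψ : stab b → ℂ) : ℂ) = ((e * ((Clifford.inertia H (θ : H → ℂ)).relIndex
      (stab b) * charDegree (θ : H → ℂ)) : ℕ) : ℂ) := by
      refine mul_left_cancel₀ h1 ?_
      rw [hdeg]
      push_cast
      ring
    exact_mod_cast this
  have hr : (Clifford.inertia H (θ : H → ℂ)).relIndex (stab b) ≠ 0 := index_ne_zero_of_finite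
  have f1 := congrArg (fun n => n.factorization p) hdeg'
  simp only [Nat.factorization_mul he0 (mul_ne_zero hr (irr_degree_ne_zero θ)),
    Nat.factorization_mul hr (irr_degree_ne_zero θ), Finsupp.add_apply] at f1
  have f2 := factorization_degree_add_defect (p := p) hψ
  have f3 := factorization_degree_add_defect (p := p) hθ
  have f4 := factorization_card_eq (p := p) (H.subgroupOf (stab b))
  rw [Core.card_subgroupOf_of_le hNT] at f4
  rw [blockDefect_compSet] at hd
  refine ⟨θ, hθ, by omega, Clifford.inertia H (θ : H → ℂ), hI, fun g => ?_, fun h => ?_⟩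
  · rw [Clifford.mem_inertia']
    constructor
    · intro h
      refine ⟨hI (Clifford.mem_inertia'.2 h), fun x x' e => ?_⟩
      exact (congrArg (θ : H → ℂ) (Subtype.ext e : x' = ⟨_, _⟩)).trans (h x)
    · exact fun h n => h.2 n _ rfl
  · have := hp.factorization_pos_of_dvd hr h
    omega

end Cfsg.Agent.S4723
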