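import Mathlib
import Cfsg.Statements.S4725
import Cfsg.Agent.S4430

set_option autoImplicit false
open Cfsg

namespace Cfsg.Agent.S4725

open Cfsg.Agent.Block Cfsg.Agent.Char Subgroup

/-- Let p be a prime, M a maximal ideal of the algebraic integers containing p, H a subgroup of the finite group G, and b a p-block of H inducing the p-block B of G, with b and B of the same defect. Then for every height-zero ζ ∈ b there is a height-zero χ ∈ B whose multiplicity in the character induced from ζ is not divisible by p. -/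
theorem result {G : Type*} [Group G] [Fintype G] (p : ℕ) [Fact p.Prime] (M : Ideal Cfsg.AlgInt) (hM : Cfsg.IsPModular p M) (H : Subgroup G) (b : Set (Cfsg.IrrCharacter ↥H)) (B : Set (Cfsg.IrrCharacter G)) (hind : Cfsg.IsInducedBlock M H b B) (hdef : Cfsg.blockDefect p b = Cfsg.blockDefect p B) (ζ : Cfsg.IrrCharacter ↥H) (hζ : ζ ∈ b) (hζ0 : Cfsg.blockHeight p b (ζ : ↥H → ℂ) = 0) : ∃ χ ∈ B, Cfsg.blockHeight p B (χ : G → ℂ) = 0 ∧ ∃ a : ℕ, Cfsg.classInner (Cfsg.indFun H (ζ : ↥H → ℂ)) (χ : G → ℂ) = (a : ℂ) ∧ ¬ p ∣ a := by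
  classical
  have := Fintype.ofFinite H
  have hp := hM.1
  obtain ⟨⟨n, h1, hn, h2⟩, -⟩ := S4430.result p M hM H b B hind ζ hζ
  have hch := IndRep.isChar_indFun H (irr_isChar ζ)
  choose a ha using fun χ : IrrCharacter G => classInner_isChar_nat hch (irr_isChar χ)
  by_contra hcon
  push Not at hcon
  have f1 := factorization_charDegree_indFun (p := p) ζ
  have f2 := factorization_degree_add_defect (p := p) hζ
  have f3 := factorization_card_eq (p := p) H
  have hlt : val M (n : ℂ) < val M (p : ℂ) ^ n.factorization p := by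
    rw [← h1, blockPart_eq_sum]
    refine Valuation.map_sum_lt _ (pow_ne_zero _ (val_p_ne_zero hM)) fun χ hχ => ?_
    have hχ := (Finset.mem_filter.1 hχ).2
    have f4 := factorization_degree_add_defect (p := p) hχ
    rw [map_mul, ha, val_irr_one hM]
    by_cases h0 : blockHeight p B (χ : G → ℂ) = 0
    · have hd := hcon χ hχ h0 _ (ha χ)
      rw [show (charDegree (χ : G → ℂ)).factorization p = n.factorization p by omega]
      exact mul_lt_of_lt_one_left (pow_pos (val_p_pos hM) _) ((val_natCast_lt_one_iff hM _).2 hd)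
    · refine lt_of_le_of_lt (mul_le_of_le_one_left' (val_natCast_le_one M _)) ?_
      exact (val_p_pow_lt_iff hM).2 (by omega)
  rw [val_natCast hM hn] at hlt
  exact lt_irrefl _ hlt

end Cfsg.Agent.S4725
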