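import Mathlib
import Cfsg.Statements.S4726
import Cfsg.Agent.Block.Corr

set_option autoImplicit false
open Cfsg

namespace Cfsg.Agent.S4726

open Cfsg.Agent.Block Cfsg.Agent.Char Subgroup

/-- Let p be a prime, M a maximal ideal of the algebraic integers containing p, H a subgroup of the finite group G and b a p-block of H with defect group D₀ such that C_G(D₀) ≤ H. Then b induces a block of G, and for every block B of G induced by b there is a defect group D of B with Z(D) ≤ Z(D₀) ≤ D₀ ≤ D (as subgroups of G). In particular, if the defect groups of B are abelian then D₀ is a defect group of B. -/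
theorem result {G : Type*} [Group G] [Finite G] (p : ℕ) [Fact p.Prime] (M : Ideal Cfsg.AlgInt) (hM : Cfsg.IsPModular p M) (H : Subgroup G) (b : Set (Cfsg.IrrCharacter ↥H)) (hb : Cfsg.IsPBlock M b) (D₀ : Subgroup ↥H) (hD₀ : Cfsg.IsDefectGroup p M b D₀) (hC : Subgroup.centralizer ((D₀.map H.subtype : Subgroup G) : Set G) ≤ H) : Cfsg.InducedBlockDefined M H b ∧ ∀ B : Set (Cfsg.IrrCharacter G), Cfsg.IsInducedBlock M H b B → (∃ D : Subgroup G, Cfsg.IsDefectGroup p M B D ∧ (Subgroup.center ↥D).map D.subtype ≤ ((Subgroup.center ↥D₀).map D₀.subtype).map H.subtype ∧ ((Subgroup.center ↥D₀).map D₀.subtype).map H.subtype ≤ D₀.map H.subtype ∧ D₀.map H.subtype ≤ D) ∧ (∀ D : Subgroup G, Cfsg.IsDefectGroup p M B D → IsMulCommutative ↥D → Cfsg.IsDefectGroup p M B (D₀.map H.subtype)) := by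
  have hD := (isDefectGroup_iff_defIn_map hM hb).1 hD₀
  obtain ⟨a, e, h⟩ := exists_rp_of_br hM hb hD.pg hD.le hC hD.ne
  obtain ⟨B₀, hB₀⟩ := exists_isBPOf hM h.bp
  refine ⟨⟨B₀, (h.induced_iff hM hb).2 hB₀⟩, fun B hB => ?_⟩
  have ha := (h.induced_iff hM hb).1 hB
  obtain ⟨d, hd, hle⟩ := ha.exists_max hM
  have h1 : ∀ z ∈ d.1, z ∈ centralizer (d.1 : Set G) → z ∈ a.1 := fun z hz hc => by
    have hca : z ∈ centralizer (a.1 : Set G) := centralizer_le hle.le hc
    have h2 : a.1 ⊔ zpowers z ≤ d.1 := sup_le hle.le (zpowers_le.2 hz)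
    obtain ⟨c, e', hc'⟩ := exists_ple hM hd.bp h2
    have h3 : c.1 ≤ H := e' ▸ sup_le h.le (zpowers_le.2 (h.cle hca))
    have h4 := (h.up hM (ple_of_le hM hd.bp hle hc' (e' ▸ le_sup_left)) h3).br_ne_zero
    have h5 := hD.max _ h3 (hc'.left hd.bp).1 h4 (e ▸ e' ▸ le_sup_left)
    rw [e, ← h5, e']
    exact mem_sup_right (mem_zpowers z)
  refine ⟨⟨d.1, hd.defect hM, ?_, map_mono (map_subtype_le _), e ▸ hle.le⟩, fun D hD' hab => ?_⟩
  · rintro _ ⟨z, hz, rfl⟩
    have hc : (z : G) ∈ centralizer (d.1 : Set G) := fun g hg =>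
      congrArg Subtype.val (mem_center_iff.1 hz ⟨g, hg⟩)
    obtain ⟨y, hy, e'⟩ := e ▸ h1 z z.2 hc
    refine ⟨y, ⟨⟨y, hy⟩, mem_center_iff.2 fun g => Subtype.ext (Subtype.ext ?_), rfl⟩, e'⟩
    have := hc g (hle.le (e ▸ mem_map_of_mem _ g.2))
    rw [← show (y : G) = z from e'] at this
    exact this
  · obtain ⟨x, hx⟩ := isDefectGroup_conj hM ha.block hD' (hd.defect hM)
    have h2 : IsMulCommutative d.1 := hx ▸ LocalEven.isMulCommutative_cj x hab
    have h3 : d.1 = a.1 := le_antisymm (fun z hz => h1 z hz fun g hg =>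
      congrArg Subtype.val (h2.is_comm.comm (⟨g, hg⟩ : d.1) ⟨z, hz⟩)) hle.le
    exact e ▸ h3 ▸ hd.defect hM

end Cfsg.Agent.S4726
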