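import Mathlib
import Cfsg.Statements.S4727
import Cfsg.Agent.Block.KerPi

set_option autoImplicit false
open Cfsg

namespace Cfsg.Agent.S4727

open Cfsg.Agent.Block Cfsg.Agent.Char Subgroup

/-- Let p be a prime, π a set of primes containing p, M a maximal ideal of the algebraic integers containing p, and B a p-block of the finite group G with defect group D; let B₁ be the block of N_G(D) with defect group D that induces B (the Brauer correspondent of B). Suppose every element of O_π'(N_G(D)), the largest normal subgroup of N_G(D) whose order has no prime divisor in π, lies in the kernel of every member of B₁. If y is a p-element whose centralizer C has a normal Hall π'-subgroup (every element of C whose order has no prime divisor in π lies in O_π'(C)), then χ(y x) = χ(y) for every χ ∈ B and every x ∈ C whose order has no prime divisor in π. -/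
theorem result {G : Type*} [Group G] [Finite G] (p : ℕ) [Fact p.Prime] (M : Ideal Cfsg.AlgInt) (hM : Cfsg.IsPModular p M) (π : Set ℕ) (hpπ : p ∈ π) (B : Set (Cfsg.IrrCharacter G)) (hB : Cfsg.IsPBlock M B) (D : Subgroup G) (hBD : Cfsg.IsDefectGroup p M B D) (B₁ : Set (Cfsg.IrrCharacter ↥(Subgroup.normalizer (D : Set G)))) (hB₁ : Cfsg.IsInducedBlock M (Subgroup.normalizer (D : Set G)) B₁ B) (hB₁D : Cfsg.IsDefectGroup p M B₁ (D.subgroupOf (Subgroup.normalizer (D : Set G)))) (hker : ∀ n : ↥(Subgroup.normalizer (D : Set G)), n ∈ Cfsg.piCore {q | q ∉ π} ↥(Subgroup.normalizer (D : Set G)) → n ∈ Cfsg.blockKer B₁) (y : G) (hy : ∃ k : ℕ, orderOf y = p ^ k) (hC : ∀ x : ↥(Subgroup.centralizer ({y} : Set G)), (∀ q : ℕ, q.Prime → q ∣ orderOf x → q ∉ π) → x ∈ Cfsg.piCore {q | q ∉ π} ↥(Subgroup.centralizer ({y} : Set G))) : ∀ χ ∈ B, ∀ x : G, x ∈ Subgroup.centralizer ({y} : Set G) → (∀ q : ℕ, q.Prime → q ∣ orderOf x → q ∉ π) → (χ : G → ℂ) (y * x) = (χ : G → ℂ) y := by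
  classical
  have hρ : p ∉ {q | q ∉ π} := fun h => h hpπ
  intro χ hχ x hx hxπ
  rw [← sum_sec hM χ (zpowers y) (y * x), ← sum_sec hM χ (zpowers y) y]
  refine Finset.sum_congr rfl fun a ha => ?_
  have hσ := subs_ok_of_mem hy ha
  have hc : centralizer ({y} : Set G) = centralizer (a.1 : Set G) := hσ.cent
  have hxp : ¬ p ∣ orderOf x := fun h => hxπ p hM.1 h hpπ
  have hx' : x ∈ centralizer (a.1 : Set G) := hc ▸ hx
  have hy' : y ∈ centralizer (a.1 : Set G) := hσ.mem_cent
  by_cases hB' : IsBPOf p M B a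
  · have hk := kerPi_of_correspondent hM hρ hBD hB₁ hker hB'
    have hxk : (⟨x, hx'⟩ : centralizer (a.1 : Set G)) ∈ piCore {q | q ∉ π} _ := by
      have h := hC ⟨x, hx⟩ (by simpa using hxπ)
      revert hx'
      rw [← hc]
      exact fun _ => h
    have := Fintype.ofFinite (centralizer (a.1 : Set G))
    have h1 := sec_coe (a := a) (irr_classFun χ) (⟨y, hy'⟩ * ⟨x, hx'⟩)
    have h2 := sec_coe (a := a) (irr_classFun χ) ⟨y, hy'⟩
    rw [show sec χ a (y * x) = _ from h1, show sec χ a y = _ from h2, blockPart_eq_sum,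
      blockPart_eq_sum]
    refine Finset.sum_congr rfl fun ξ hξ => ?_
    rw [classFun_mul_comm (irr_classFun ξ), mem_charKer.1 (hk ξ (Finset.mem_filter.1 hξ).2 hxk)]
  · have h1 : pp p (y * x) = y := hσ.pp_mul hM (s := ⟨x, hx'⟩) (by simpa using hxp)
    have h2 : pp p y = y := by
      simpa using hσ.pp_mul hM (s := 1) (by simpa using hM.1.one_lt.ne')
    by_contra hne
    by_cases h : sec χ a y = 0
    · exact hB' (isBPOf_of_sec_ne_zero hM hσ hB hχ h1 (h ▸ hne))
    · exact hB' (isBPOf_of_sec_ne_zero hM hσ hB hχ h2 h)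

end Cfsg.Agent.S4727
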