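import Mathlib
import Cfsg.Statements.S4728
import Cfsg.Agent.Block.KerPi

set_option autoImplicit false
open Cfsg

namespace Cfsg.Agent.S4728

open Cfsg.Agent.Block Cfsg.Agent.Char Subgroup

/-- Let p be a prime, π a set of primes containing p, M a maximal ideal of the algebraic integers containing p, B a p-block of the finite group G with defect group D, and B₁ the block of N_G(D) with defect group D inducing B. Let D₀ be a p-subgroup, H₀ = D₀·C_G(D₀), and b a block of H₀ inducing B. Write O_π'(X) for the largest normal subgroup of X whose order has no prime divisor in π. Suppose that O_π'(C_G(D₀)) is a normal Hall π'-subgroup of C_G(D₀) (it contains every element of C_G(D₀) whose order has no prime divisor in π) and that every element of it lies in the kernel of every member of b. Then every element of O_π'(N_G(D)) lies in the kernel of every member of B₁. -/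
theorem result {G : Type*} [Group G] [Finite G] (p : ℕ) [Fact p.Prime] (M : Ideal Cfsg.AlgInt) (hM : Cfsg.IsPModular p M) (π : Set ℕ) (hpπ : p ∈ π) (B : Set (Cfsg.IrrCharacter G)) (hB : Cfsg.IsPBlock M B) (D : Subgroup G) (hBD : Cfsg.IsDefectGroup p M B D) (B₁ : Set (Cfsg.IrrCharacter ↥(Subgroup.normalizer (D : Set G)))) (hB₁ : Cfsg.IsInducedBlock M (Subgroup.normalizer (D : Set G)) B₁ B) (hB₁D : Cfsg.IsDefectGroup p M B₁ (D.subgroupOf (Subgroup.normalizer (D : Set G)))) (D₀ : Subgroup G) (hD₀ : IsPGroup p D₀) (H₀ : Subgroup G) (hH₀ : H₀ = D₀ ⊔ Subgroup.centralizer (D₀ : Set G)) (b : Set (Cfsg.IrrCharacter ↥H₀)) (hb : Cfsg.IsInducedBlock M H₀ b B) (hcompl : ∀ x : ↥(Subgroup.centralizer (D₀ : Set G)), (∀ q : ℕ, q.Prime → q ∣ orderOf x → q ∉ π) → x ∈ Cfsg.piCore {q | q ∉ π} ↥(Subgroup.centralizer (D₀ : Set G))) (hkerb : ∀ x : ↥(Subgroup.centralizer (D₀ : Set G)), x ∈ Cfsg.piCore {q | q ∉ π} ↥(Subgroup.centralizer (D₀ : Set G)) → ∀ θ ∈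 b, ∀ h : ↥H₀, (h : G) = (x : G) → (θ : ↥H₀ → ℂ) h = (θ : ↥H₀ → ℂ) 1) : ∀ n : ↥(Subgroup.normalizer (D : Set G)), n ∈ Cfsg.piCore {q | q ∉ π} ↥(Subgroup.normalizer (D : Set G)) → n ∈ Cfsg.blockKer B₁ := by
  have hρ : p ∉ {q | q ∉ π} := fun h => h hpπ
  subst hH₀
  obtain ⟨a, rfl, ha, rfl⟩ := exists_ovr_eq hM hD₀ (mid_sup D₀) hb.1
  have hrp := rp_ovr hM ha (mid_sup _)
  obtain ⟨ξ, hξ⟩ := block_nonempty hM hb.1
  have hk : KerPi {q | q ∉ π} a := by
    refine kerPi_of_normalizer hM hρ ha (mid_sup _) hξ fun h hh => ?_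
    obtain ⟨x, hx, e⟩ := hh
    exact (mem_charKer_iff (isIrr_isChar ξ.2)).2 (hkerb x hx ξ hξ h e.symm)
  have hH : HallPi {q | q ∉ π} a.1 := fun x hx h =>
    ⟨⟨x, hx⟩, hcompl ⟨x, hx⟩ (by simpa using h), rfl⟩
  obtain ⟨e, hd, rfl⟩ := exists_max_of_correspondent hM hBD hB₁
  have hk' := hk.to_max hM hρ ((hrp.induced_iff hM hb.1).1 hb) hH hd
  intro n hn
  rw [← coe_setKer]
  exact hk'.piCore_le hM hρ hB₁.1 (rp_ovr hM hd.bp (mid_normalizer _)) hn

end Cfsg.Agent.S4728
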