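import Mathlib
import Cfsg.Statements.S4729
import Cfsg.Agent.Block.PIdx
import Cfsg.Agent.Block.GAV
import Cfsg.Agent.Char.Det

set_option autoImplicit false
open Cfsg

namespace Cfsg.Agent.S4729

open Cfsg.Agent.Block Cfsg.Agent.Char Subgroup
open scoped ComplexConjugate

theorem val_sub_lt {G : Type*} [Group G] [Finite G] {p : ℕ} [Fact p.Prime] {M : Ideal AlgInt}
    (hM : IsPModular p M) (P : Sylow p G) {χ : IrrCharacter G} (hχ : χ ∈ principalBlock M G)
    {c : G} (hc : c ∈ centralizer ((P : Subgroup G) : Set G)) :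
    val M ((χ : G → ℂ) c - (χ : G → ℂ) 1) < 1 := by
  have h1 := (sameBlock_iff_val hM χ (oneIrr G)).1 (block_sameBlock hM isPBlock_principalBlock hχ
    (oneIrr_mem_principalBlock hM)) c
  have h2 := (val_natCast_eq_one_iff hM _).2 (not_dvd_index_of_mem_centralizer P hc)
  have h3 : ((centralizer ({c} : Set G)).index : ℂ) ≠ 0 := by
    exact_mod_cast index_ne_zero_of_finite
  have h4 := irr_one_ne_zero χ
  have h5 : (χ : G → ℂ) c - (χ : G → ℂ) 1 = (centralChar (χ : G → ℂ) c -
      centralChar (oneIrr G : G → ℂ) c) * (χ : G → ℂ) 1 *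
        ((centralizer ({c} : Set G)).index : ℂ)⁻¹ := by
    simp only [centralChar, coe_oneIrr]
    field_simp
  rw [h5, map_mul, map_mul, map_inv₀, h2, inv_one, mul_one]
  exact mul_lt_one_of_lt_of_le h1 (mem_V_iff.1 (irr_mem_V χ 1))

theorem dvd_inner {K : Type*} [Group K] [Fintype K] {p : ℕ} {M : Ideal AlgInt}
    (hM : IsPModular p M) (hK : ¬ p ∣ Nat.card K) {θ : K → ℂ}
    (h : ∀ k, val M (θ k - θ 1) < 1) {ψ : IrrCharacter K} (hψ : ψ ≠ oneIrr K) {n : ℕ}
    (hn : classInner θ ψ = n) : p ∣ n := by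
  have h1 : classInner (θ - θ 1 • (oneIrr K : K → ℂ)) ψ = n := by
    rw [classInner_sub_left, classInner_smul_left, classInner_irr_ne hψ.symm, hn, mul_zero,
      sub_zero]
  rw [← val_natCast_lt_one_iff hM, ← h1, classInner, map_mul, map_inv₀,
    (val_natCast_eq_one_iff hM _).2 hK, inv_one, one_mul]
  refine val_sum_lt_one _ fun k _ => ?_
  rw [map_mul, ← isIrr_inv ψ.2]
  exact mul_lt_one_of_lt_of_le (by simpa [coe_oneIrr] using h k) (mem_V_iff.1 (irr_mem_V ψ _))

/-- Let p be a prime, M a maximal ideal of the algebraic integers containing p, G a finite perfect group and P a Sylow p-subgroup. If the principal p-block of G contains a faithful irreducible character of degree less than 2p, then the centralizer of P is a p-group. -/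
theorem result {G : Type*} [Group G] [Finite G] (p : ℕ) [Fact p.Prime] (M : Ideal Cfsg.AlgInt) (hM : Cfsg.IsPModular p M) (hperf : commutator G = ⊤) (P : Sylow p G) (χ : Cfsg.IrrCharacter G) (hχ : χ ∈ Cfsg.principalBlock M G) (hfaith : ∀ g : G, (χ : G → ℂ) g = (χ : G → ℂ) 1 → g = 1) (hdeg : Cfsg.charDegree (χ : G → ℂ) < 2 * p) : IsPGroup p ↥(Subgroup.centralizer ((P : Subgroup G) : Set G)) := by
  classical
  have hp : p.Prime := Fact.out
  have key : ∀ y ∈ centralizer ((P : Subgroup G) : Set G), ¬ p ∣ orderOf y → y = 1 := by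
    intro y hy ho
    set K := zpowers y
    have := Fintype.ofFinite K
    have hK : ¬ p ∣ Nat.card K := by rwa [Nat.card_zpowers]
    have hc := isChar_res K (irr_isChar χ)
    obtain ⟨n, hn, e⟩ := Constit.isChar_expand_nat hc
    have h1 : ∀ ψ : IrrCharacter K, (ψ : K → ℂ) 1 = 1 := fun ψ => isIrr_degree_one_of_comm ψ.2
    have h2 : ∀ ψ, ψ ≠ oneIrr K → p ∣ n ψ := fun ψ hψ =>
      dvd_inner hM hK (fun k : K => val_sub_lt hM P hχ (c := k) (zpowers_le.2 hy k.2)) hψ (hn ψ)
    have h3 : ∑ ψ, n ψ = charDegree (χ : G → ℂ) := by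
      have := congrFun e 1
      simp only [Finset.sum_apply, Pi.smul_apply, h1, smul_eq_mul, mul_one] at this
      have h4 := irr_degree_cast χ
      rw [show (χ : G → ℂ) 1 = _ from this] at h4
      exact_mod_cast h4.symm
    let y' : K := ⟨y, mem_zpowers y⟩
    have h4 : ∏ ψ : IrrCharacter K, (ψ : K → ℂ) y' ^ n ψ = 1 := by
      obtain ⟨lam, hl⟩ := Det.exists_detHom (irr_isChar χ)
      have h5 : lam y = 1 := by
        have : commutator G ≤ lam.ker := Abelianization.commutator_subset_ker lam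
        exact this (hperf ▸ mem_top y)
      have h6 := Det.detChar_res K (irr_isChar χ) y'
      rw [hl, e, Det.detChar_sum _ (χ := fun ψ : IrrCharacter K => (n ψ : ℂ) • (ψ : K → ℂ))
        fun ψ _ => by rw [Nat.cast_smul_eq_nsmul]; exact isChar_nsmul _ (irr_isChar ψ)] at h6
      simp only [Finset.prod_apply, Det.detChar_nsmul (irr_isChar _),
        Det.detChar_of_degree_one (irr_isChar _) (h1 _), Pi.pow_apply] at h6
      rw [h6]
      simp only [y', h5, Units.val_one]
    have h5 : ∀ ψ, n ψ ≠ 0 → (ψ : K → ℂ) y' = 1 := fun ψ h0 => by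
      by_cases hψ : ψ = oneIrr K
      · rw [hψ, coe_oneIrr]
      have h6 : ∀ ξ, ξ ≠ ψ → n ξ + n ψ < 2 * p := fun ξ hξ => by
        rw [← Finset.sum_pair (f := n) hξ]
        exact (Finset.sum_le_sum_of_subset (Finset.subset_univ _)).trans_lt (h3 ▸ hdeg)
      have h7 : p ≤ n ψ := Nat.le_of_dvd (Nat.pos_of_ne_zero h0) (h2 ψ hψ)
      have h8 : n ψ = p := by
        obtain ⟨c, hc⟩ := h2 ψ hψ
        have := h6 _ (Ne.symm hψ)
        have : c < 2 := by nlinarith
        interval_cases c <;> omega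
      rw [Finset.prod_eq_single ψ (fun ξ _ hξ => ?_) (by simp), h8] at h4
      · obtain ⟨lam, hl⟩ := isIrr_linear_of_comm ψ.2
        have h9 := linear_pow_orderOf lam y'
        rw [hl] at h4 ⊢
        have h10 : orderOf y' = orderOf y := (orderOf_coe y').symm
        exact pow_eq_one_iff_of_coprime ((Nat.Prime.coprime_iff_not_dvd hp).2 ho) |>.1
          ⟨h4, h10 ▸ h9⟩
      · by_cases h9 : ξ = oneIrr K
        · rw [h9, coe_oneIrr, one_pow]
        · have := h6 ξ hξ
          rw [Nat.eq_zero_of_dvd_of_lt (h2 ξ h9) (by omega), pow_zero]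
    refine hfaith y ?_
    have h6 := congrFun e y'
    have h7 := congrFun e 1
    simp only [Finset.sum_apply, Pi.smul_apply, h1, smul_eq_mul] at h6 h7
    refine h6.trans (Eq.trans (Finset.sum_congr rfl fun ψ _ => ?_) h7.symm)
    by_cases h0 : n ψ = 0
    · simp [h0]
    · rw [h5 ψ h0]
  intro g
  obtain ⟨x, hx⟩ := exists_isPPart hp (g : G)
  obtain ⟨k, hk⟩ := pPart_orderOf hx
  have h1 := key _ (mul_mem (inv_mem (pPart_mem hp hx g.2)) g.2) (pPart_regular hx)
  refine ⟨k, Subtype.ext ?_⟩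
  rw [inv_mul_eq_one] at h1
  rw [coe_pow, ← h1, ← hk, pow_orderOf_eq_one, coe_one]

end Cfsg.Agent.S4729
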