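import Mathlib
import Cfsg.Statements.S4730
import Cfsg.Agent.Block.Height

set_option autoImplicit false
open Cfsg

namespace Cfsg.Agent.S4730

open Cfsg.Agent.Block Cfsg.Agent.Char Subgroup

/-- Let p be a prime, M a maximal ideal of the algebraic integers containing p, and G a finite group with trivial centre, Sylow p-subgroup P of order p^a and centre Z(P) of order p^b. If χ is a faithful irreducible character of G whose degree is a power of p, then the p-block of χ has defect at most a − b; in particular, if P is abelian then χ lies in a block of defect zero. -/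
theorem result {G : Type*} [Group G] [Finite G] (p : ℕ) [Fact p.Prime] (M : Ideal Cfsg.AlgInt) (hM : Cfsg.IsPModular p M) (hZ : Subgroup.center G = ⊥) (P : Sylow p G) (a b : ℕ) (ha : Nat.card P = p ^ a) (hb : Nat.card (Subgroup.center ↥(P : Subgroup G)) = p ^ b) (χ : Cfsg.IrrCharacter G) (hfaith : ∀ g : G, (χ : G → ℂ) g = (χ : G → ℂ) 1 → g = 1) (n : ℕ) (hdeg : Cfsg.charDegree (χ : G → ℂ) = p ^ n) : Cfsg.blockDefect p (Cfsg.blockOf M (χ : G → ℂ)) ≤ a - b ∧ (IsMulCommutative ↥(P : Subgroup G) → Cfsg.blockDefect p (Cfsg.blockOf M (χ : G → ℂ)) = 0) := by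
  classical
  have := Fintype.ofFinite G
  have hp := hM.1
  let Z : Subgroup G := (center (P : Subgroup G)).map (P : Subgroup G).subtype
  have := Fintype.ofFinite Z
  have hZc : Nat.card Z = p ^ b := by
    rw [← hb]
    exact card_map_of_injective (Subgroup.subtype_injective _)
  have hidx : ∀ z ∈ Z, ¬ p ∣ (centralizer ({z} : Set G)).index := by
    rintro _ ⟨z, hz, rfl⟩ h
    refine P.not_dvd_index (h.trans (index_dvd_of_le fun x hx => ?_))
    rw [mem_centralizer_singleton_iff]
    exact congrArg Subtype.val (mem_center_iff.1 hz ⟨x, hx⟩)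
  have hχ0 : ∀ z ∈ Z, z ≠ 1 → (χ : G → ℂ) z = 0 := by
    intro z hz h1
    rcases isIrr_eq_zero_or_norm_eq_of_coprime χ.2 z (irr_degree_cast χ).symm (by
      rw [hdeg]
      exact Nat.Coprime.pow_left _ ((Nat.Prime.coprime_iff_not_dvd hp).2 (hidx z hz))) with h | h
    · exact h
    exfalso
    apply h1
    rw [← mem_bot, ← hZ, mem_center_iff]
    intro g
    have e1 := isChar_mul_of_norm_eq (irr_isChar χ) h (g * z⁻¹ * g⁻¹)
    have e2 := isChar_mul_of_norm_eq (irr_isChar χ) h z⁻¹
    rw [irr_classFun χ z⁻¹ g, ← e2, mul_inv_cancel] at e1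
    have e3 := hfaith _ (mul_right_cancel₀ (irr_one_ne_zero χ) e1)
    have e4 : z * g = g * z := by
      rw [← mul_one (g * z), ← mul_inv_eq_one]
      simpa [mul_assoc] using e3
    exact e4.symm
  have key : ∀ ψ ∈ blockOf M (χ : G → ℂ), b ≤ (charDegree (ψ : G → ℂ)).factorization p := by
    intro ψ hψ
    obtain ⟨k, hk⟩ := classInner_isChar_nat (isChar_res Z (irr_isChar ψ)) isChar_one
    rw [classInner_one_right, inv_mul_eq_iff_eq_mul₀ card_ne_zero,
      ← Finset.add_sum_erase _ _ (Finset.mem_univ 1)] at hk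
    have hlt : val M (∑ z ∈ Finset.univ.erase (1 : Z), (ψ : G → ℂ) z) <
        val M ((ψ : G → ℂ) 1) := by
      refine Valuation.map_sum_lt _ (val_irr_one_ne_zero ψ) fun z hz => ?_
      have h1 := (sameBlock_iff_val hM χ ψ).1 hψ z
      have h2 : centralChar (χ : G → ℂ) z = 0 := by
        rw [centralChar, hχ0 z z.2 fun e => Finset.ne_of_mem_erase hz (Subtype.ext e)]
        simp
      rw [h2, zero_sub, Valuation.map_neg, centralChar, map_div₀, map_mul,
        (val_natCast_eq_one_iff hM _).2 (hidx z z.2), one_mul,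
        div_lt_one₀ (zero_lt_iff.2 (val_irr_one_ne_zero ψ))] at h1
      exact h1
    have h3 := Valuation.map_add_eq_of_lt_left _ hlt
    rw [OneMemClass.coe_one] at hk
    rw [hk, map_mul, hZc, Nat.cast_pow, map_pow, val_irr_one hM] at h3
    refine (val_p_pow_le_iff hM).1 ?_
    rw [← h3]
    exact mul_le_of_le_one_right' (val_natCast_le_one M k)
  have hfa : (Nat.card G).factorization p = a := by
    have := P.card_eq_multiplicity
    rw [ha] at this
    exact (Nat.pow_right_injective hp.two_le this).symm
  have h1 : blockDefect p (blockOf M (χ : G → ℂ)) ≤ a - b := by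
    obtain ⟨ψ, hψ, h0⟩ := exists_height_zero (p := p) ⟨χ, self_mem_blockOf hM χ⟩
    have f1 := factorization_degree_add_defect (p := p) hψ
    have f2 := key ψ hψ
    omega
  refine ⟨h1, fun hc => ?_⟩
  have : center (P : Subgroup G) = ⊤ := by
    ext x
    simp only [mem_top, iff_true, mem_center_iff]
    exact fun g => hc.is_comm.comm g x
  rw [this, Subgroup.card_top, ha] at hb
  have := Nat.pow_right_injective hp.two_le hb
  omega

end Cfsg.Agent.S4730
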