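import Mathlib
import Cfsg.Statements.S4732
import Cfsg.Agent.Isaacs.BrFeit
-- import your own Cfsg.Agent.* helpers here

set_option autoImplicit false
universe u v
open Cfsg

namespace Cfsg.Agent.S4732

/-- Let p be a prime. There is a function f of two natural-number arguments such that every finite group G admitting a faithful representation of degree n over a field of characteristic p, with Sylow p-subgroups of order p^m, has a normal abelian subgroup A with [G : A] < f(m, n). -/
theorem result (p : ℕ) [Fact p.Prime] : ∃ f : ℕ → ℕ → ℕ, ∀ (G : Type u) [Group G] [Finite G] (F : Type v) [Field F] [CharP F p] (n : ℕ) (ρ : Representation F G (Fin n → F)), Function.Injective ρ → ∀ m : ℕ, (Nat.card G).factorization p = m → ∃ A : Subgroup G, A.Normal ∧ IsMulCommutative A ∧ A.index < f m n := by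
  refine ⟨fun m n => (Finset.range ((1 + 2 * n ^ 2) ^ (2 * (p ^ m) ^ 2 + 1) + 1)).sup
    (fun d => d.factorial * 12 ^ (d * ((d + 1).primeCounting + 1))) + 1, fun G _ _ F _ _ n ρ h m e => ?_⟩
  have := Fintype.ofFinite G
  obtain ⟨A, a, b, c⟩ := Isaacs.brauer_feit (p := p) ρ h
  exact ⟨A, a, b, Nat.lt_succ_of_le (e ▸ c)⟩

end Cfsg.Agent.S4732
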