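import Mathlib
import Cfsg.Statements.S4735
import Cfsg.Agent.Block.Quot
import Cfsg.Agent.Char.Galois

set_option autoImplicit false
open Cfsg

namespace Cfsg.Agent.S4735

open Cfsg.Agent.Block Cfsg.Agent.Char Subgroup
open scoped ComplexConjugate

variable {G : Type*} [Group G] [Finite G] {p : ℕ} {M : Ideal AlgInt}

theorem mem_principal_iff [Fintype G] (hM : IsPModular p M) (χ : IrrCharacter G) :
    χ ∈ principalBlock M G ↔ classInner (pRegularPart p (oneIrr G : G → ℂ)) χ ≠ 0 := by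
  constructor
  · intro h h0
    have := val_omega_aReg_eq_one hM isPBlock_principalBlock (oneIrr_mem_principalBlock hM) h
      (blockHeight_oneIrr _)
    rw [omega_aReg, h0] at this
    simp at this
  · intro h
    by_contra h'
    exact h (classInner_pRegularPart_eq_zero hM (isV_blockIdem hM isPBlock_principalBlock)
      (oneIrr_mem_principalBlock hM) h')

theorem sum_quot (hM : IsPModular p M) {A : Type*} [AddCommMonoid A] (F : ℂ → A) (x : G) :
    ∑ᶠ χ ∈ principalBlock M G, F ((χ : G → ℂ) x) =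
      ∑ᶠ ψ ∈ principalBlock M (G ⧸ pPrimeCore p G),
        F ((ψ : G ⧸ pPrimeCore p G → ℂ) (QuotientGroup.mk x)) := by
  have : Fact p.Prime := ⟨hM.1⟩
  have hf := QuotientGroup.mk'_surjective (pPrimeCore p G)
  have hk : ¬ p ∣ Nat.card (QuotientGroup.mk' (pPrimeCore p G)).ker := by
    rw [QuotientGroup.ker_mk', ← setKer_principal hM]
    exact not_dvd_card_setKer hM (isV_blockIdem hM isPBlock_principalBlock)
      ⟨_, oneIrr_mem_principalBlock hM⟩
  refine (finsum_mem_eq_of_bijOn (inflIrr _ hf) ⟨fun ψ hψ => ?_,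
    (inflIrr_injective _ hf).injOn, fun χ hχ => ?_⟩ fun _ _ => rfl).symm
  · exact sameBlock_inflIrr hM _ hf (χ := oneIrr _) hψ
  · obtain ⟨ψ, h1, h2⟩ := exists_inflIrr_of_sameBlock hM hf hk (χ := oneIrr _) (ψ := χ) hχ
    exact ⟨ψ, h2, h1.symm⟩

theorem exists_nat (hM : IsPModular p M) (x : G) :
    ∃ n : ℕ, 0 < n ∧ ∑ᶠ χ ∈ principalBlock M G, Complex.normSq ((χ : G → ℂ) x) = n := by
  classical
  have := Fintype.ofFinite G
  rw [finsum_mem_irr]
  have e : ((∑ χ with χ ∈ principalBlock M G, Complex.normSq ((χ : G → ℂ) x) : ℝ) : ℂ) =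
      ∑ χ with χ ∈ principalBlock M G, (χ : G → ℂ) x * (χ : G → ℂ) x⁻¹ := by
    push_cast
    exact Finset.sum_congr rfl fun χ _ => by rw [isIrr_inv χ.2, Complex.mul_conj]
  obtain ⟨m, hm⟩ : ∃ m : ℤ,
      ∑ χ with χ ∈ principalBlock M G, (χ : G → ℂ) x * (χ : G → ℂ) x⁻¹ = m := by
    refine GaloisAut.exists_int_of_forall_aut
      (IsIntegral.sum _ fun χ _ => (isIrr_isIntegral χ.2 x).mul (isIrr_isIntegral χ.2 _)) ?_
    intro σ
    let T : IrrCharacter G → IrrCharacter G := fun χ =>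
      ⟨fun g => σ.toRingHom ((χ : G → ℂ) g), Galois.isIrr_map _ χ.2⟩
    have hT : Function.Injective T := fun χ ψ h =>
      Subtype.ext (funext fun g => σ.injective (congrFun (congrArg Subtype.val h) g))
    have hmem : ∀ χ, T χ ∈ principalBlock M G ↔ χ ∈ principalBlock M G := by
      intro χ
      rw [mem_principal_iff hM, mem_principal_iff hM]
      have := Galois.classInner_map σ.toRingHom (pRegularPart p (oneIrr G : G → ℂ))
        (irr_isGenChar χ)
      have e2 : (fun g => σ.toRingHom (pRegularPart p (oneIrr G : G → ℂ) g)) =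
          pRegularPart p (oneIrr G : G → ℂ) := by
        funext g
        rw [pRegularPart_apply]
        split_ifs <;> simp [coe_oneIrr]
      rw [e2] at this
      change classInner _ (fun g => σ.toRingHom ((χ : G → ℂ) g)) ≠ 0 ↔ _
      rw [this]
      exact (map_ne_zero_iff _ σ.injective)
    rw [map_sum]
    refine Finset.sum_bijective T (Finite.injective_iff_bijective.1 hT) (fun χ => by simp [hmem])
      fun χ _ => ?_
    rw [map_mul]
    rfl
  have e2 : ∑ χ with χ ∈ principalBlock M G, Complex.normSq ((χ : G → ℂ) x) = (m : ℝ) := by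
    rw [hm] at e
    exact_mod_cast e
  have h1 : (1 : ℝ) ≤ m := by
    rw [← e2]
    refine le_trans ?_ (Finset.single_le_sum (f := fun χ : IrrCharacter G =>
      Complex.normSq ((χ : G → ℂ) x)) (fun _ _ => Complex.normSq_nonneg _)
      (Finset.mem_filter.2 ⟨Finset.mem_univ _, oneIrr_mem_principalBlock hM⟩))
    simp [coe_oneIrr]
  have h2 : 1 ≤ m := by exact_mod_cast h1
  refine ⟨m.toNat, by omega, ?_⟩
  rw [e2, ← Int.cast_natCast, Int.toNat_of_nonneg (by omega)]

/-- Let p be a prime, M a maximal ideal of the algebraic integers containing p, G a finite group, H = O_p'(G) and Ḡ = G/H. For x ∈ G write λ(G, x) for the sum of |χ(x)|^2 over the irreducible characters χ in the principal p-block of G. Then λ(G, x) is a positive integer, λ(G, x) = λ(Ḡ, x̄) where x̄ is the image of x, and λ(G, x) ≤ #C_Ḡ(x̄). Moreover λ(G, 1) = [G : H] if and only if the principal block is the only p-block of Ḡ. -/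
theorem result {G : Type*} [Group G] [Finite G] (p : ℕ) [Fact p.Prime] (M : Ideal Cfsg.AlgInt) (hM : Cfsg.IsPModular p M) (x : G) : (∃ n : ℕ, 0 < n ∧ ∑ᶠ χ ∈ Cfsg.principalBlock M G, Complex.normSq ((χ : G → ℂ) x) = n) ∧ ∑ᶠ χ ∈ Cfsg.principalBlock M G, Complex.normSq ((χ : G → ℂ) x) = ∑ᶠ ψ ∈ Cfsg.principalBlock M (G ⧸ Cfsg.pPrimeCore p G), Complex.normSq ((ψ : G ⧸ Cfsg.pPrimeCore p G → ℂ) (QuotientGroup.mk x)) ∧ ∑ᶠ χ ∈ Cfsg.principalBlock M G, Complex.normSq ((χ : G → ℂ) x) ≤ (Nat.card ↥(Subgroup.centralizer ({(QuotientGroup.mk x : G ⧸ Cfsg.pPrimeCore p G)} : Set (G ⧸ Cfsg.pPrimeCore p G))) : ℝ) ∧ ((∑ᶠ χ ∈ Cfsg.principalBlock M G, Cfsg.charDegree (χ : G → ℂ) ^ 2) = (Cfsg.pPrimeCore p G).index ↔ ∀ B : Set (Cfsg.IrrCharacter (G ⧸ Cfsg.pPrimeCore p G)), Cfsg.IsPBlock M B → B = Cfsg.principalBlock M (G ⧸ Cfsg.pPrimeCore p G)) := by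
  classical
  have := Fintype.ofFinite G
  refine ⟨exists_nat hM x, sum_quot hM _ x, ?_, ?_⟩
  · rw [sum_quot hM, finsum_mem_irr, ← sum_irr_norm_sq]
    simp only [Complex.normSq_eq_norm_sq]
    exact Finset.sum_le_sum_of_subset_of_nonneg (Finset.filter_subset _ _)
      fun _ _ _ => sq_nonneg _
  · have e := sum_quot hM (fun z => ⌊z.re⌋₊ ^ 2) (1 : G)
    change ∑ᶠ χ ∈ principalBlock M G, charDegree (χ : G → ℂ) ^ 2 =
      ∑ᶠ χ ∈ principalBlock M (G ⧸ pPrimeCore p G), charDegree (χ : G ⧸ pPrimeCore p G → ℂ) ^ 2 at e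
    have e2 : ∑ χ : IrrCharacter (G ⧸ pPrimeCore p G), charDegree (χ : G ⧸ pPrimeCore p G → ℂ) ^ 2 =
        (pPrimeCore p G).index := by
      have := sum_irr_one_sq (G := G ⧸ pPrimeCore p G)
      simp only [← irr_degree_cast] at this
      exact_mod_cast this
    rw [e, finsum_mem_irr, ← e2]
    constructor
    · intro h B hB
      obtain ⟨χ, hχ⟩ := block_nonempty hM hB
      refine block_eq_of_mem hM hB isPBlock_principalBlock hχ ?_
      by_contra hn
      refine absurd h (ne_of_lt (Finset.sum_lt_sum_of_subset (Finset.filter_subset _ _)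
        (Finset.mem_univ χ) (by simpa using hn)
        (pow_pos (Nat.pos_of_ne_zero (irr_degree_ne_zero χ)) _) fun _ _ _ => Nat.zero_le _))
    · intro h
      rw [Finset.filter_true_of_mem]
      intro χ _
      rw [← h _ (isPBlock_blockOf χ)]
      exact self_mem_blockOf hM χ

end Cfsg.Agent.S4735
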