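import Mathlib
import Cfsg.Statements.S4966
import Cfsg.Agent.Isaacs.SelfDual
-- import your own Cfsg.Agent.* helpers here

set_option autoImplicit false
open Cfsg

namespace Cfsg.Agent.S4966

open Cfsg.Agent.Isaacs

/-- Let F be a finite field of characteristic p, G a finite group of order prime to p, and V a finite-dimensional representation of G over F carrying a nondegenerate G-invariant bilinear form (equivalently, V is self-dual). Then V is the direct sum of two G-invariant subspaces U and W such that U carries a G-invariant alternating bilinear form that is nondegenerate on U and W carries a G-invariant symmetric bilinear form that is nondegenerate on W; moreover when p = 2 the decomposition can be chosen with G acting trivially on W. -/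
theorem result {F : Type*} [Field F] [Fintype F] (p : ℕ) [Fact p.Prime] [CharP F p] {G : Type*} [Group G] [Finite G] (hcop : ¬ p ∣ Nat.card G) {V : Type*} [AddCommGroup V] [Module F V] [FiniteDimensional F V] (ρ : Representation F G V) (B : LinearMap.BilinForm F V) (hB : B.Nondegenerate) (hBinv : ∀ g : G, ∀ x y : V, B (ρ g x) (ρ g y) = B x y) : ∃ U W : Submodule F V, IsCompl U W ∧ (∀ g : G, ∀ u ∈ U, ρ g u ∈ U) ∧ (∀ g : G, ∀ w ∈ W, ρ g w ∈ W) ∧ (∃ A : LinearMap.BilinForm F V, (∀ x : V, A x x = 0) ∧ (∀ g : G, ∀ x ∈ U, ∀ y ∈ U, A (ρ g x) (ρ g y) = A x y) ∧ (∀ x ∈ U, (∀ y ∈ U, A x y = 0) → x = 0)) ∧ (∃ S : LinearMap.BilinForm F V, (∀ x y : V, S x y = S y x) ∧ (∀ g : G, ∀ x ∈ W, ∀ y ∈ W, S (ρ g x) (ρ g y) = S x y) ∧ (∀ x ∈ W, (∀ y ∈ W, S x y = 0) → x = 0)) ∧ (p = 2 → ∀ g : G, ∀ w ∈ W, ρ g w = w) := by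
  have : NeZero (Nat.card G : F) := ⟨mt (CharP.cast_eq_zero_iff F p _).mp hcop⟩
  obtain ⟨U, W, a, b, c, d, e⟩ := exists_split hBinv ⊤ (fun _ _ _ => trivial) fun y _ i => hB.2 y fun x => i x trivial
  obtain ⟨A, a1, a2⟩ := c.global
  obtain ⟨S, s1, s2⟩ := d.global
  exact ⟨U, W, ⟨a, codisjoint_iff.mpr b⟩, c.1, d.1, ⟨A, fun x => by simpa using a1 x x, a2⟩,
    ⟨S, fun x y => by simpa [sub_eq_zero] using s1 x y, s2⟩, fun h => e (by subst h; exact_mod_cast CharP.cast_eq_zero F 2)⟩

end Cfsg.Agent.S4966
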