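import Mathlib
import Cfsg.Statements.S4959
import Cfsg.Agent.RV.Good
import Cfsg.Agent.S4966
import Cfsg.Agent.Block.Gens
import Cfsg.Agent.Block.Height
import Cfsg.Agent.Char.Indicator
import Cfsg.Agent.LocalEven.Conj

set_option autoImplicit false
open Cfsg

namespace Cfsg.Agent.S4959

open Subgroup Cfsg.Agent.Char Cfsg.Agent.Block Cfsg.Agent.RV
open scoped ComplexConjugate Classical

section
variable {p : ℕ} [hp : Fact p.Prime] {H W : Type*} [Group H] [AddCommGroup W] [Module (ZMod p) W]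
  [Finite H] [Finite W]

theorem exists_beta (ρ : Representation (ZMod p) H W) (hc : ¬ p ∣ Nat.card H)
    (A : W →ₗ[ZMod p] W →ₗ[ZMod p] ZMod p) (hA : ∀ x, A x x = 0)
    (hi : ∀ g x y, A (ρ g x) (ρ g y) = A x y) : ∃ D : Dat p H W, D.ρ = ρ ∧
    ∀ x y, D.β x y - D.β y x = A x y := by
  letI := Fintype.ofFinite H
  let b := Module.finBasis (ZMod p) W
  let β : W →ₗ[ZMod p] W →ₗ[ZMod p] ZMod p := b.constr (ZMod p) fun i => b.constr (ZMod p) fun j =>
    if i < j then A (b i) (b j) else 0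
  have h1 : β - β.flip = A := LinearMap.ext_basis b b fun i j => by
    simp only [β, LinearMap.sub_apply, LinearMap.flip_apply, Module.Basis.constr_basis]
    rcases lt_trichotomy i j with h | rfl | h
    · simp [h, h.le.not_gt]
    · simp [hA]
    · simp [h, h.le.not_gt, LinearMap.IsAlt.neg hA]
  have h2 : ∀ x y, β x y - β y x = A x y := fun x y => by rw [← h1]; rfl
  refine ⟨⟨ρ, (Nat.card H : ZMod p)⁻¹ • ∑ g, β.compl₁₂ (ρ g) (ρ g), fun g x y => ?_⟩, rfl,
    fun x y => ?_⟩
  · simp only [LinearMap.smul_apply, LinearMap.sum_apply, LinearMap.compl₁₂_apply]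
    congr 1
    exact Fintype.sum_equiv (Equiv.mulRight g) _ _ fun k => by simp
  · simp only [LinearMap.smul_apply, LinearMap.sum_apply, LinearMap.compl₁₂_apply, smul_eq_mul]
    rw [← mul_sub, ← Finset.sum_sub_distrib, Finset.sum_congr rfl (g := fun _ => A x y)
      (fun g _ => by rw [h2, hi]), Finset.sum_const, Finset.card_univ, ← Nat.card_eq_fintype_card,
      nsmul_eq_mul, inv_mul_cancel_left₀ (mt (ZMod.natCast_eq_zero_iff _ _).1 hc)]

theorem good_of_form {M : Ideal AlgInt} (hM : IsPModular p M) (ρ : Representation (ZMod p) H W)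
    (hc : ¬ p ∣ Nat.card H) (B : LinearMap.BilinForm (ZMod p) W) (hB : B.Nondegenerate)
    (hi : ∀ g x y, B (ρ g x) (ρ g y) = B x y) : ∃ γ : ZMod p → H → ℂ,
    Good M γ (fun h => Nat.card (fix ρ h)) (Nat.card W) := by
  obtain ⟨U, T, hUT, hU, hT, ⟨A, a1, a2, a3⟩, ⟨S, s1, s2, s3⟩, h2⟩ :=
    Cfsg.Agent.S4966.result p hc ρ B hB hi
  let ρU := ρ.subrepresentation U fun g => hU g
  let ρT := ρ.subrepresentation T fun g => hT g
  obtain ⟨D, hD, hD'⟩ := exists_beta ρU hc (A.domRestrict₁₂ U U) (fun x => a1 x)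
    fun g x y => a2 g x x.2 y y.2
  obtain ⟨γ, hγ⟩ := good_alt hM D hc fun u hu => by
    by_contra h
    push Not at h
    exact hu (Subtype.ext (a3 u u.2 fun y hy => (hD' u ⟨y, hy⟩).symm.trans (sub_eq_zero.2 (h _))))
  rw [hD] at hγ
  obtain ⟨δ, hδ⟩ : ∃ δ : ZMod p → H → ℂ, Good M δ (fun h => Nat.card (fix ρT h)) (Nat.card T) := by
    by_cases hp2 : p = 2
    · have : (fun h => Nat.card (fix ρT h)) = fun _ => Nat.card T := funext fun h => by
        rw [show fix ρT h = ⊤ from eq_top_iff.2 fun x _ => Subtype.ext (h2 hp2 h x x.2),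
          Nat.card_congr Submodule.topEquiv.toEquiv]
      exact ⟨_, this ▸ good_one _⟩
    · refine good_sym hM ⟨ρT, S.domRestrict₁₂ T T, fun g x y => s2 g x x.2 y y.2⟩ hc fun u hu => ?_
      by_contra h
      push Not at h
      refine hu (Subtype.ext (s3 u u.2 fun y hy => ?_))
      have h3 : S u y + S y u = 0 := h ⟨y, hy⟩
      rw [s1 y, ← two_mul, mul_eq_zero] at h3
      refine h3.resolve_left fun e => hp2 ?_
      exact (Nat.prime_dvd_prime_iff_eq hp.out Nat.prime_two).1
        ((ZMod.natCast_eq_zero_iff 2 p).1 (by exact_mod_cast e))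
  let e := Submodule.prodEquivOfIsCompl U T hUT
  have h3 : (fun h => Nat.card (fix ρ h)) = fun h => Nat.card (fix ρU h) * Nat.card (fix ρT h) := by
    funext h
    rw [← Nat.card_prod, ← Nat.card_congr (Equiv.subtypeProdEquivProd ..)]
    refine (Nat.card_congr (e.toEquiv.subtypeEquiv fun x => ?_)).symm
    have h4 : ρ h (e x) = e (ρU h x.1, ρT h x.2) := by simp [e, ρU, ρT]
    show _ ↔ ρ h (e x) = e x
    rw [h4, e.injective.eq_iff, Prod.ext_iff]
    rfl
  exact ⟨_, by rw [h3, ← Nat.card_congr e.toEquiv, Nat.card_prod]; exact hγ.mul hδ⟩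

theorem good_of_fun {M : Ideal AlgInt} (hM : IsPModular p M) (hc : ¬ p ∣ Nat.card H) (c : H → W → W)
    (β : W → W → ZMod p) (c1 : ∀ h a b, c h (a + b) = c h a + c h b) (c2 : ∀ a, c 1 a = a)
    (c3 : ∀ g h a, c (g * h) a = c g (c h a)) (b1 : ∀ a b w, β (a + b) w = β a w + β b w)
    (b2 : ∀ u a b, β u (a + b) = β u a + β u b) (b3 : ∀ g x y, β (c g x) (c g y) = β x y)
    (b4 : ∀ u, (∀ w, β u w = 0) → u = 0) : ∃ γ : ZMod p → H → ℂ,
    Good M γ (fun h => Nat.card {x // c h x = x}) (Nat.card W) := by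
  let ρ : H →* Module.End (ZMod p) W :=
    { toFun := fun h => (AddMonoidHom.mk' (c h) (c1 h)).toZModLinearMap p
      map_one' := LinearMap.ext c2
      map_mul' := fun g h => LinearMap.ext (c3 g h) }
  let B : LinearMap.BilinForm (ZMod p) W := LinearMap.mk₂ (ZMod p) β b1
    (fun t a w => ZMod.map_smul (AddMonoidHom.mk' (fun a => β a w) fun a b => b1 a b w) t a) b2
    fun t a w => ZMod.map_smul (AddMonoidHom.mk' (β a) (b2 a)) t w
  exact good_of_form hM ρ hc B (.ofSeparatingLeft b4) b3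

end

section
variable {X : Type*} [Group X] [Finite X] {p : ℕ} [hp : Fact p.Prime] {V G H : Subgroup X} [V.Normal]
  {w : X}

theorem split (hV : ∀ a ∈ V, ∀ b ∈ V, a * b = b * a) (hGV : IsComplement' V G) (hw : w ∈ V)
    (hwp : w ^ p = 1) (hH : H = G ⊓ centralizer {w}) (hc : ¬ p ∣ Nat.card H) {h h' x : X} (hh : h ∈ H)
    (hh' : h' ∈ H) (e : x * (w * h) * x⁻¹ = w * h') :
    ∃ a ∈ V, ∃ g ∈ H, x = a * g ∧ g * h * g⁻¹ = h' ∧ a * h' = h' * a := by
  subst hH
  obtain ⟨⟨⟨a, ha⟩, g, hg⟩, rfl : a * g = x, -⟩ := hGV.existsUnique x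
  have nV : V.Normal := inferInstance
  have h1 : g * h * g⁻¹ = h' := by
    have e' : g * h * g⁻¹ * h'⁻¹ = (g * w * g⁻¹)⁻¹ * a⁻¹ * w * (h' * a * h'⁻¹) := by
      rw [mul_assoc _ w, show w * (h' * a * h'⁻¹) = (w * h') * a * h'⁻¹ by group, ← e]; group
    have h2 : g * h * g⁻¹ * h'⁻¹ ∈ V ⊓ G := mem_inf.2 ⟨e' ▸
      V.mul_mem (V.mul_mem (V.mul_mem (V.inv_mem (nV.conj_mem w hw g)) (V.inv_mem ha)) hw)
        (nV.conj_mem a ha h'),
      G.mul_mem (G.mul_mem (G.mul_mem hg hh.1) (G.inv_mem hg)) (G.inv_mem hh'.1)⟩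
    rwa [hGV.disjoint.eq_bot, mem_bot, mul_inv_eq_one] at h2
  have c1 : Commute w h := (mem_centralizer_singleton_iff.1 hh.2).symm
  have c2 : Commute w h' := (mem_centralizer_singleton_iff.1 hh'.2).symm
  have h2 : g * w * g⁻¹ = w := by
    obtain ⟨m, hm⟩ := exists_pow_eq_self_of_coprime (x := w) (n := Nat.card (G ⊓ centralizer {w} :
      Subgroup X)) (((Nat.Prime.coprime_iff_not_dvd hp.out).2 hc).symm.coprime_dvd_right
        (orderOf_dvd_of_pow_eq_one hwp))
    have k : ∀ y ∈ G ⊓ centralizer {w}, y ^ Nat.card (G ⊓ centralizer {w} : Subgroup X) = 1 :=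
      fun y hy => orderOf_dvd_iff_pow_eq_one.1 (orderOf_dvd_natCard _ hy)
    have h3 := congrArg (fun y => (y ^ Nat.card (G ⊓ centralizer {w} : Subgroup X)) ^ m) e
    simp only [conj_pow, c1.mul_pow, c2.mul_pow, k h hh, k h' hh', mul_one, hm] at h3
    have h4 := hV a ha _ (nV.conj_mem w hw g)
    calc _ = a * (g * w * g⁻¹) * a⁻¹ := by rw [h4, mul_inv_cancel_right]
      _ = a * g * w * (a * g)⁻¹ := by group
      _ = w := h3
  refine ⟨a, ha, g, ⟨hg, mem_centralizer_singleton_iff.2 (mul_inv_eq_iff_eq_mul.1 h2)⟩, rfl, h1, ?_⟩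
  have h3 : a * (w * h') * a⁻¹ = w * h' := by
    calc _ = a * ((g * w * g⁻¹) * (g * h * g⁻¹)) * a⁻¹ := by rw [h1, h2]
      _ = a * g * (w * h) * (a * g)⁻¹ := by group
      _ = _ := e
  rw [← mul_assoc, hV a ha w hw, mul_assoc, mul_assoc, mul_right_inj, ← mul_assoc] at h3
  exact mul_inv_eq_iff_eq_mul.1 h3

theorem bound [Fintype H] (hV : ∀ a ∈ V, ∀ b ∈ V, a * b = b * a) (hGV : IsComplement' V G) (hw : w ∈ V)
    (hwp : w ^ p = 1) (hH : H = G ⊓ centralizer {w}) (hc : ¬ p ∣ Nat.card H) {γ : H → ℂ}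
    (hγ : IsClassFunction H γ)
    (hn : ∀ h : H, ‖γ h‖ ^ 2 * Nat.card (V ⊓ centralizer {(h : X)} : Subgroup X) ≤ Nat.card V) :
    ∑ χ : IrrCharacter X, Complex.normSq (∑ h : H, χ.1 (w * h) * γ h) ≤
      (Nat.card H : ℝ) ^ 2 * Nat.card V := by
  have h1 : ((∑ χ : IrrCharacter X, Complex.normSq (∑ h : H, χ.1 (w * h) * γ h) : ℝ) : ℂ) =
      ∑ h : H, ∑ h' : H, γ h * conj (γ h') * if IsConj (w * h) (w * h') then
        (Nat.card (centralizer ({w * h} : Set X)) : ℂ) else 0 := by
    simp only [← sum_irr_mul_conj, Finset.mul_sum]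
    simp only [Complex.ofReal_sum, ← Complex.mul_conj, map_sum, Finset.sum_mul_sum]
    rw [Finset.sum_comm]
    refine Finset.sum_congr rfl fun h _ => ?_
    rw [Finset.sum_comm]
    refine Finset.sum_congr rfl fun h' _ => Finset.sum_congr rfl fun χ _ => ?_
    rw [map_mul]; ring
  have h2 : ∀ h : H, Nat.card (centralizer ({w * h} : Set X)) ≤
      Nat.card (V ⊓ centralizer {(h : X)} : Subgroup X) * Nat.card (centralizer ({h} : Set H)) := by
    intro h
    choose a ha g hg e1 e2 e3 using fun x : centralizer ({w * h} : Set X) =>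
      split hV hGV hw hwp hH hc h.2 h.2 (x := x)
        (by rw [mem_centralizer_singleton_iff.1 x.2, mul_inv_cancel_right])
    rw [← Nat.card_prod]
    refine Nat.card_le_card_of_injective (fun x => (⟨a x, ha x, mem_centralizer_singleton_iff.2 (e3 x)⟩,
      ⟨⟨g x, hg x⟩, mem_centralizer_singleton_iff.2 (Subtype.ext (mul_inv_eq_iff_eq_mul.1 (e2 x)))⟩))
      fun x y e => Subtype.ext ?_
    have k1 : a x = a y := congrArg (fun t => t.1.1) e
    have k2 : g x = g y := congrArg (fun t => t.2.1.1) e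
    rw [e1 x, e1 y, k1, k2]
  refine (Complex.re_le_norm _).trans' (le_of_eq (Complex.ofReal_re _).symm) |>.trans ?_
  rw [h1]
  refine (norm_sum_le _ _).trans ((Finset.sum_le_card_nsmul _ _ ((Nat.card H : ℝ) * Nat.card V)
    fun h _ => (norm_sum_le _ _).trans ?_).trans (le_of_eq (by
      rw [Finset.card_univ, ← Nat.card_eq_fintype_card, nsmul_eq_mul]; ring)))
  refine (Finset.sum_le_sum (g := fun h' => if IsConj h h' then
    (Nat.card (centralizer ({h} : Set H)) : ℝ) * Nat.card V else 0) fun h' _ => ?_).trans ?_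
  · split_ifs with k1 k2 k2
    · rw [norm_mul, norm_mul, ← classFun_isConj hγ k2, Complex.norm_conj, Complex.norm_natCast,
        ← pow_two]
      calc _ ≤ ‖γ h‖ ^ 2 * ((Nat.card (V ⊓ centralizer {(h : X)} : Subgroup X) : ℝ) *
            Nat.card (centralizer ({h} : Set H))) := by
            gcongr; exact_mod_cast h2 h
        _ ≤ _ := by rw [← mul_assoc, mul_comm]; gcongr; exact hn h
    · obtain ⟨x, hx⟩ := isConj_iff.1 k1
      obtain ⟨-, -, g, hg, -, e, -⟩ := split hV hGV hw hwp hH hc h.2 h'.2 hx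
      exact absurd (isConj_iff.2 ⟨⟨g, hg⟩, Subtype.ext e⟩) k2
    · simp only [mul_zero, norm_zero]; positivity
    · simp
  · rw [← Finset.sum_filter, Finset.sum_const, card_filter_isConj, nsmul_eq_mul, ← mul_assoc,
      ← Nat.cast_mul, index_mul_card]

omit [V.Normal] in
theorem slice_ic (hw : ∀ h ∈ H, Commute h w) {χ : X → ℂ} (hχ : IsCharacter X χ) :
    (fun h : H => χ (w * h)) ∈ IC H := by
  let f : H × zpowers w →* X := H.subtype.noncommCoprod (zpowers w).subtype
    fun a b => by obtain ⟨_, k, rfl⟩ := b; exact (hw a a.2).zpow_right k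
  have := isChar_induction (P := fun θ => (fun h : H => θ (h, ⟨w, mem_zpowers w⟩)) ∈ IC H)
    (isChar_comp f hχ) (fun θ hθ => by
      obtain ⟨φ, ψ, h1, h2, rfl⟩ := isIrr_prod_exists hθ
      exact mul_mem (ic_char (isIrr_isChar h1)) (ic_const (isIrr_isIntegral h2 _)))
    (zero_mem _) fun _ _ _ _ a b => by simpa only [Pi.add_def] using add_mem a b
  convert this using 2 with h
  rw [← (hw h h.2).eq]; rfl

end

/-- Let X be a finite group and V a normal subgroup of X in which every element has order dividing the prime p, whose index in X is prime to p and which is its own centralizer in X; so V is an elementary abelian normal Sylow p-subgroup, and any complement G to V in X is a group of order prime to p acting faithfully on the vector space V by conjugation (the coprime linear setting of the k(GV) problem). Let G be a complement to V in X, let v be in V and let H be the centralizer of v in G. Suppose there is a subgroup U of V normalized by H, on which H acts faithfully,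 and carrying an H-invariant bi-additive pairing β with values in the integers modulo p that is nondegenerate on U (equivalently: the restriction of the module V to H has a faithful self-dual submodule; such a v is called a real vector for G). Then the number of conjugacy classes of X is at most the order of V (the real-vector criterion for the k(GV) problem). The pairing is given as a function on X whose relevant values are those on pairs from U. -/
theorem result {X : Type*} [Group X] [Finite X] (p : ℕ) [Fact p.Prime] (V : Subgroup X) [V.Normal] (hVexp : ∀ v ∈ V, v ^ p = 1) (hidx : ¬ p ∣ V.index) (hself : Subgroup.centralizer (V : Set X) = V) (G : Subgroup X) (hGV : Subgroup.IsComplement' V G) (v : X) (hv : v ∈ V) (U : Subgroup X) (hUV : U ≤ V) (hUinv : ∀ h ∈ G, h * v * h⁻¹ = v → ∀ u ∈ U, h * u * h⁻¹ ∈ U) (hUfaith : ∀ h ∈ G, h * v * h⁻¹ = v → (∀ u ∈ U, h * u * h⁻¹ = u) → h = 1) (β : X → X → ZMod p) (hβl : ∀ u ∈ U, ∀ u' ∈ U, ∀ w ∈ U, β (u * u') w = β u w + β u' w) (hβr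 : ∀ u ∈ U, ∀ w ∈ U, ∀ w' ∈ U, β u (w * w') = β u w + β u w') (hβinv : ∀ h ∈ G, h * v * h⁻¹ = v → ∀ u ∈ U, ∀ w ∈ U, β (h * u * h⁻¹) (h * w * h⁻¹) = β u w) (hβnd : ∀ u ∈ U, (∀ w ∈ U, β u w = 0) → u = 1) : Nat.card (ConjClasses X) ≤ Nat.card V := by
  have hp : p.Prime := Fact.out
  have hV : ∀ a ∈ V, ∀ b ∈ V, a * b = b * a := fun a ha b hb => (hself.ge hb) a ha
  set H := G ⊓ centralizer {v} with hH
  have mH : ∀ h : H, h * v * (h : X)⁻¹ = v := fun h => by
    rw [mem_centralizer_singleton_iff.1 h.2.2, mul_inv_cancel_right]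
  have hc : ¬ p ∣ Nat.card H := fun h => hidx (by
    rw [hGV.symm.index_eq_card]; exact h.trans (card_dvd_of_le inf_le_left))
  obtain ⟨M, hM⟩ := exists_isPModular hp
  obtain ⟨γ, hγ⟩ : ∃ γ : ZMod p → H → ℂ, Good M γ
      (fun h => Nat.card (U ⊓ centralizer {(h : X)} : Subgroup X)) (Nat.card U) := by
    letI : CommGroup U := { (inferInstance : Group U) with
      mul_comm := fun a b => Subtype.ext (hV _ (hUV a.2) _ (hUV b.2)) }
    letI : Module (ZMod p) (Additive U) := AddCommGroup.zmodModule fun x =>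
      Additive.toMul.injective (Subtype.ext (hVexp _ (hUV x.toMul.2)))
    let cj : H → Additive U → Additive U := fun h u =>
      Additive.ofMul ⟨h * u.toMul * (h : X)⁻¹, hUinv h h.2.1 (mH h) _ u.toMul.2⟩
    obtain ⟨γ, hγ⟩ := good_of_fun (W := Additive U) hM hc cj (fun u w => β u.toMul w.toMul)
      (fun h a b => Additive.toMul.injective (Subtype.ext (by simp [cj])))
      (fun a => Additive.toMul.injective (Subtype.ext (by simp [cj])))
      (fun g h a => Additive.toMul.injective (Subtype.ext (by simp [cj, mul_assoc])))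
      (fun a b w => hβl _ a.toMul.2 _ b.toMul.2 _ w.toMul.2)
      (fun u a b => hβr _ u.toMul.2 _ a.toMul.2 _ b.toMul.2)
      (fun g x y => hβinv g g.2.1 (mH g) _ x.toMul.2 _ y.toMul.2)
      fun u hu => Additive.toMul.injective
        (Subtype.ext (hβnd _ u.toMul.2 fun w hw => hu (Additive.ofMul ⟨w, hw⟩)))
    refine ⟨γ, ?_⟩
    convert hγ using 2 with h
    swap
    · rfl
    exact Nat.card_congr
      { toFun := fun x => ⟨Additive.ofMul ⟨x.1, x.2.1⟩, Additive.toMul.injective (Subtype.ext (by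
          show h * x.1 * (h : X)⁻¹ = x.1
          rw [← mem_centralizer_singleton_iff.1 x.2.2, mul_inv_cancel_right]))⟩
        invFun := fun x => ⟨x.1.toMul, x.1.toMul.2, mem_centralizer_singleton_iff.2
          (mul_inv_eq_iff_eq_mul.1 (congrArg (fun y : Additive U => (y.toMul : X)) x.2)).symm⟩
        left_inv := fun _ => rfl
        right_inv := fun _ => rfl }
  letI := Fintype.ofFinite H
  have hn : ∀ t ≠ 0, ∀ h : H, ‖γ t h‖ ^ 2 * Nat.card (V ⊓ centralizer {(h : X)} : Subgroup X) ≤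
      Nat.card V := fun t ht h => by
    have h1 := hγ.nm t ht h
    rw [← LocalEven.card_inf_mul_relIndex (centralizer {(h : X)}) U, inf_comm, Nat.cast_mul,
      mul_comm] at h1
    rw [mul_left_cancel₀ (Nat.cast_ne_zero.2 Nat.card_pos.ne') h1,
      ← LocalEven.card_inf_mul_relIndex (centralizer {(h : X)}) V, inf_comm, Nat.cast_mul, mul_comm]
    gcongr
    exact relIndex_le_of_le_right hUV FiniteIndex.index_ne_zero
  have hlt : ∀ h : H, h ≠ 1 → val M (γ 1 h) < 1 := fun h h1 => hγ.lt 1 one_ne_zero h fun e =>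
    h1 (Subtype.ext (hUfaith h h.2.1 (mH h) fun u hu => by
      have := eq_of_le_of_card_ge (inf_le_left : U ⊓ centralizer {(h : X)} ≤ U) e.ge
      rw [← mem_centralizer_singleton_iff.1 (this.ge hu).2, mul_inv_cancel_right]))
  let e : ZMod p → X := fun t => v ^ t.val
  have ek : ∀ (k : ℕ) t, e (k * t) = e t ^ k := fun k t => by
    simp only [e]
    rw [← pow_mul, pow_eq_pow_iff_modEq]
    refine Nat.ModEq.of_dvd (orderOf_dvd_of_pow_eq_one (hVexp v hv)) ?_
    rw [← ZMod.natCast_eq_natCast_iff]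
    simp [mul_comm]
  have e1 : e 1 = v := by simp [e, ZMod.val_one]
  have ec : ∀ t ≠ 0, H = G ⊓ centralizer {e t} := fun t ht => by
    rw [hH]
    congr 1
    ext x
    simp only [mem_centralizer_singleton_iff]
    refine ⟨fun h => (Commute.pow_right h _ :), fun h => ?_⟩
    rw [← e1, ← inv_mul_cancel₀ ht, ← ZMod.natCast_zmod_val t⁻¹, ek]
    exact (Commute.pow_right h _ :)
  have cm : ∀ t, ∀ h ∈ H, Commute h (e t) := fun t h hh =>
    Commute.pow_right (mem_centralizer_singleton_iff.1 hh.2) _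
  let u : X × Multiplicative (ZMod p) := (1, Multiplicative.ofAdd 1)
  let F : IrrCharacter X → X × Multiplicative (ZMod p) → ℂ := fun χ y =>
    (Nat.card H : ℂ)⁻¹ * ∑ h : H, χ.1 (e y.2.toAdd * h) * γ y.2.toAdd h
  have hg : ∀ y ∈ gens u, y.2.toAdd ≠ 0 := fun y hy h0 => by
    obtain ⟨k, hk⟩ := mem_zpowers_iff.1 ((mem_gens.1 hy).ge (mem_zpowers u))
    have := congrArg (fun z : X × Multiplicative (ZMod p) => z.2.toAdd) hk
    simp [u, h0] at this
  have key : ∀ χ, ((gens u).card : ℝ) ≤ ∑ y ∈ gens u, Complex.normSq (F χ y) := fun χ => by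
    have hch := isIrr_isChar χ.2
    refine (GalF.card_le_sum_normSq (fun φ k hk hφ y _ => ?_) (fun y hy => ?_) ?_).1
    · rw [Nat.card_prod] at hk hφ
      have hk' : k.Coprime (Nat.card H) :=
        hk.coprime_dvd_right ((card_subgroup_dvd_card H).mul_right _)
      simp only [F, map_mul, map_inv₀, map_natCast, map_sum, Prod.pow_snd, toAdd_pow, nsmul_eq_mul]
      congr 1
      refine Fintype.sum_equiv (powCoprime hk'.symm) _ _ fun h => ?_
      rw [Galois.isGenChar_map_eq_pow_of_dvd φ (isChar_isGenChar hch) hφ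
        ((_root_.orderOf_dvd_natCard _).mul_right _), hγ.gal φ k hk' (fun z hz => hφ z (by
          rw [Nat.card_congr Multiplicative.toAdd, Nat.card_zmod, mul_comm, pow_mul, hz, one_pow])),
        (cm _ h h.2).symm.mul_pow, ek]
      rfl
    · obtain ⟨N, hN⟩ := hγ.ic _ (hg y hy)
      have h1 := ic_mean (mul_mem (slice_ic (cm y.2.toAdd) hch) hN)
      have h2 : IsIntegral ℤ (∑ h : H, χ.1 (e y.2.toAdd * h) * γ y.2.toAdd h) :=
        IsIntegral.sum _ fun h _ => (isChar_isIntegral hch _).mul (hγ.int _ (hg y hy) h)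
      obtain ⟨a, b, hab⟩ : IsCoprime (Nat.card H : ℤ) (p ^ N) := by
        exact_mod_cast (Nat.isCoprime_iff_coprime.2
          (((Nat.Prime.coprime_iff_not_dvd hp).2 hc).symm.pow_right N))
      refine (congrArg (IsIntegral ℤ) ?_).mp
        (((isIntegral_intCast' a).mul h2).add ((isIntegral_intCast' b).mul h1))
      have h3 : (a : ℂ) * Nat.card H + b * p ^ N = 1 := by exact_mod_cast hab
      rw [classInner_one_right]
      simp only [F, Pi.mul_apply, mul_left_comm _ ((p : ℂ) ^ N), ← Finset.mul_sum]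
      have h4 : (Nat.card H : ℂ) ≠ 0 := card_ne_zero
      field_simp
      linear_combination (∑ h : H, χ.1 (e y.2.toAdd * h) * γ y.2.toAdd h) * h3
    · refine mul_ne_zero (inv_ne_zero card_ne_zero) fun h0 => ?_
      obtain ⟨d, -, hd⟩ := isIrr_degree χ.2
      haveI : IsMulCommutative V := ⟨⟨fun a b => Subtype.ext (hV _ a.2 _ b.2)⟩⟩
      refine hidx (((val_natCast_lt_one_iff hM d).1 ?_).trans
        (Extend.degree_dvd_index_of_comm V χ.2 hd))
      obtain ⟨ω, h1, h2⟩ := Galois.exists_sub_eq_one_sub_mul (isChar_isGenChar hch) hp.ne_zero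
        (Complex.isPrimitiveRoot_exp p hp.ne_zero) (hVexp v hv) (y := 1) (by simp)
      rw [← Finset.add_sum_erase _ _ (Finset.mem_univ 1)] at h0
      simp only [u, toAdd_ofAdd, e1, hγ.one 1 one_ne_zero, coe_one, mul_one] at h0 h2
      have h3 : (d : ℂ) = (Complex.exp (2 * Real.pi * Complex.I / p) - 1) * ω +
          -∑ h ∈ Finset.univ.erase (1 : H), χ.1 (v * h) * γ 1 h := by
        rw [← hd]; linear_combination h0 - h2
      rw [h3]
      refine val_add_lt_one (val_mul_lt_one_left (val_sub_one_lt_one_of_pow_eq_one hM (k := 1) (by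
        rw [pow_one, (Complex.isPrimitiveRoot_exp p hp.ne_zero).pow_eq_one]))
        (mem_V_of_isIntegral M h1)) ?_
      rw [Valuation.map_neg]
      exact val_sum_lt_one _ fun h hh => val_mul_lt_one_right
        (mem_V_of_isIntegral M (isChar_isIntegral hch _)) (hlt h (Finset.ne_of_mem_erase hh))
  have h1 := Finset.sum_le_sum fun χ (_ : χ ∈ Finset.univ) => key χ
  rw [Finset.sum_comm, Finset.sum_const, Finset.card_univ, ← Nat.card_eq_fintype_card,
    card_irr_eq_card_conjClasses, nsmul_eq_mul] at h1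
  have h2 := h1.trans (Finset.sum_le_card_nsmul _ _ (Nat.card V : ℝ) fun y hy => by
    have := bound hV hGV (pow_mem hv _) (hVexp _ (pow_mem hv _)) (ec _ (hg y hy)) hc
      (hγ.cf _ (hg y hy)) (hn _ (hg y hy))
    simp only [F, map_mul, map_inv₀, Complex.normSq_natCast, ← Finset.mul_sum]
    rwa [inv_mul_le_iff₀ (by have : 0 < Nat.card H := Nat.card_pos; positivity), ← pow_two])
  rw [nsmul_eq_mul, mul_comm] at h2
  exact_mod_cast le_of_mul_le_mul_left h2 (by exact_mod_cast card_gens_pos u)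

end Cfsg.Agent.S4959
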