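import Mathlib
import Cfsg.Statements.S4964
import Cfsg.Agent.Block.Quot4

set_option autoImplicit false
open Cfsg

namespace Cfsg.Agent.S4964

open Cfsg.Agent.Block Cfsg.Agent.Char Subgroup
open scoped commutatorElement

/-- Let D be a normal p-subgroup of the finite group G, let D′ be its commutator subgroup (normal in G), and fix a maximal ideal M of the algebraic integers containing p. Then (i) two irreducible characters of G ⧸ D′ lie in the same p-block if and only if their inflations to G do, and (ii) every p-block of G contains the inflation of some irreducible character of G ⧸ D′; so inflation induces a bijection between the p-blocks of G ⧸ D′ and the p-blocks of G. -/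
theorem result {G : Type*} [Group G] [Finite G] (p : ℕ) [Fact p.Prime] (M : Ideal Cfsg.AlgInt) (hM : Cfsg.IsPModular p M) (D : Subgroup G) [D.Normal] (hD : IsPGroup p D) : (∀ χ ψ : Cfsg.IrrCharacter (G ⧸ ⁅D, D⁆), Cfsg.SameBlock M (χ : G ⧸ ⁅D, D⁆ → ℂ) (ψ : G ⧸ ⁅D, D⁆ → ℂ) ↔ Cfsg.SameBlock M ((χ : G ⧸ ⁅D, D⁆ → ℂ) ∘ QuotientGroup.mk) ((ψ : G ⧸ ⁅D, D⁆ → ℂ) ∘ QuotientGroup.mk)) ∧ ∀ B : Set (Cfsg.IrrCharacter G), Cfsg.IsPBlock M B → ∃ χ : Cfsg.IrrCharacter (G ⧸ ⁅D, D⁆), ∃ θ ∈ B, (θ : G → ℂ) = (χ : G ⧸ ⁅D, D⁆ → ℂ) ∘ QuotientGroup.mk := by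
  have hDD : ⁅D, D⁆ ≤ D := commutator_le_self D
  have hk : IsPGroup p (QuotientGroup.mk' ⁅D, D⁆).ker := by
    rw [QuotientGroup.ker_mk']
    exact hD.to_le hDD
  have hf := QuotientGroup.mk'_surjective ⁅D, D⁆
  refine ⟨fun χ ψ => ⟨sameBlock_inflIrr hM _ hf, sameBlock_of_inflIrr hM _ hf ⟨_,
    (isCentral_eB _).regLift (p := p) (QuotientGroup.mk' ⁅D, D⁆), mapG_regLift' hM.1 hf hk ?_ ?_⟩⟩,
    fun B hB => ?_⟩
  · intro g hg h0
    have : (D.map (QuotientGroup.mk' ⁅D, D⁆)).Normal := Subgroup.Normal.map inferInstance _ hf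
    have h1 := mem_centralizer_of_coeff_eB hM (isV_blockIdem hM (isPBlock_blockOf χ))
      (hD.map (QuotientGroup.mk' ⁅D, D⁆)) h0
    rw [QuotientGroup.ker_mk']
    refine centralizer_le hDD (mem_centralizer_of_commutator_le hM.1 hD hg
      (by rw [normalizer_eq_top]; exact mem_top _) fun x hx => ?_)
    rw [← QuotientGroup.eq_one_iff, ← QuotientGroup.mk'_apply, map_commutatorElement,
      commutatorElement_eq_one_iff_mul_comm]
    exact h1 _ (mem_map_of_mem _ hx)
  · intro h hh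
    by_contra h0
    exact regular_of_coeff_eB hM (isV_blockIdem hM (isPBlock_blockOf χ)) h0 hh
  · obtain ⟨χ, hχ⟩ := exists_inflIrr_mem hM hf hk (isV_blockIdem hM hB) (block_nonempty hM hB)
    exact ⟨χ, _, hχ, rfl⟩

end Cfsg.Agent.S4964
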