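import Mathlib
import Cfsg.Statements.S5005
import Cfsg.Agent.FGS.M24Blk
import Cfsg.Agent.S0189

set_option autoImplicit false
open Cfsg

namespace Cfsg.Agent.S5005

open Cfsg.Agent.Golay Cfsg.Agent.FGS Cfsg.Agent.Char Cfsg.Agent.Block Finset

theorem le24 : Spor.M22 ≤ M24 := fun _ hg => (mem_M22.1 hg).1.1

theorem fixF : ∀ g ∈ Spor.M22, ∀ a ∈ ({none, some 0} : Finset GolayPt), g a = a := by
  intro g hg a ha
  simp only [mem_insert, mem_singleton] at ha
  rcases ha with rfl | rfl
  exacts [(mem_M22.1 hg).1.2, (mem_M22.1 hg).2]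

theorem cardF : ({none, some 0} : Finset GolayPt).card = 2 := card_pair (by simp)

theorem bd [Fintype Spor.M22] {p c k B : ℕ} (hp : p.Prime) (hp2 : Odd p) (hc : 24 % p = c)
    (h9 : 9 ≤ c + p) (h0 : 0 < c) (h8 : c ≠ 8) (h1 : p ^ 1 ∣ 443520) (h2 : ¬ p ^ (1 + 1) ∣ 443520)
    (hk : ∀ j ∈ (24 - c).divisors, ¬ 2 ∣ j → j ∣ k)
    (hB : ∀ N ∈ (k * (c - 2).factorial * (p - 1)).divisors, N ∣ 443520 → (443520 / N) % p = 1 → N ≤ B)
    (hk0 : k ≠ 0) {χ : Spor.M22 → ℂ} (hχ : IsGeneralizedCharacter _ χ)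
    (hv : ∀ g, 2 ∣ orderOf g → χ g = 0) {d : ℕ} (hd : χ 1 = d) (q : ℤ) :
    (443520 : ℝ) * (p * ((2 * q + 1) * d - p * (q * (q + 1))) - d ^ 2) ≤
      B * ∑ g with orderOf g = p, ‖χ g‖ ^ 2 := by
  haveI := Fact.mk hp
  obtain ⟨x, hx⟩ := exists_prime_orderOf_dvd_card' (G := Spor.M22) p (by
    rw [card_M22]; simpa using h1)
  have hN := MB.norm_le le24 _ fixF hp hc h9 h0 h8 card_M22 (MB.fac hp h1 h2) hk
    (by rw [cardF]; exact hB) hk0 hx
  have := MB.bound2 (Subgroup.zpowers x) ⊥ hp hp2 (by rw [Nat.card_zpowers, hx]) Subgroup.card_bot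
    (fun y hy => by rw [Subgroup.mem_bot.1 hy, mul_one]) hN
    (fun x _ y hy => by rw [Subgroup.mem_bot.1 hy, mul_one, one_mul]) hχ hv hd q
  rw [card_M22] at this
  simpa using this

/-- All irreducible complex characters of the Mathieu group `M₂₂` lie in a single 2-block: any two of them lie in the same block relative to every maximal ideal of the algebraic integers containing 2. -/
theorem result (M : Ideal Cfsg.AlgInt) (hM : Cfsg.IsPModular 2 M)
    (χ ψ : Cfsg.IrrCharacter ↥Cfsg.Spor.M22) : Cfsg.SameBlock M (χ : ↥Cfsg.Spor.M22 → ℂ) (ψ : ↥Cfsg.Spor.M22 → ℂ) := by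
  haveI : Fact (Nat.Prime 2) := ⟨Nat.prime_two⟩
  haveI : Fact (Nat.Prime 3) := ⟨Nat.prime_three⟩
  haveI := Fintype.ofFinite Spor.M22
  refine DefZ.single hM (fun y hy => (MB.phi_M22 y.2 (by rwa [Subgroup.orderOf_coe])).out)
    (fun θ h => ?_) χ ψ
  have hv : ∀ g, 2 ∣ orderOf g → θ.1 g = 0 := fun g hg => char_eq_zero_of_defect_zero hM h hg
  have hd := (irr_degree_cast θ).symm
  have hdv := irr_degree_dvd θ
  have h0 := irr_degree_ne_zero θ
  rw [card_M22] at h hdv
  rw [MB.fac (k := 7) Nat.prime_two (by norm_num) (by norm_num),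
    ← Nat.prime_two.pow_dvd_iff_le_factorization h0] at h
  generalize charDegree θ.1 = d at *
  have b5 := bd (p := 5) (c := 4) (k := 5) (B := 20) (by norm_num) (by decide) rfl (by norm_num)
    (by norm_num) (by norm_num) (by norm_num) (by norm_num) (by decide) (by decide) (by norm_num)
    (irr_isGenChar θ) hv hd
  have b7 := bd (p := 7) (c := 3) (k := 21) (B := 21) (by norm_num) (by decide) rfl (by norm_num)
    (by norm_num) (by norm_num) (by norm_num) (by norm_num) (by decide) (by decide +kernel) (by norm_num)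
    (irr_isGenChar θ) hv hd
  have b11 := bd (p := 11) (c := 2) (k := 11) (B := 55) (by norm_num) (by decide) rfl (by norm_num)
    (by norm_num) (by norm_num) (by norm_num) (by norm_num) (by decide) (by decide +kernel) (by norm_num)
    (irr_isGenChar θ) hv hd
  have hs := MB.sum_le (G := Spor.M22) {1, 5, 7, 11, 3, 9} (f := fun g => ‖θ.1 g‖ ^ 2)
    (fun g => by positivity)
  rw [isIrr_sum_norm_sq θ.2, card_M22, sum_insert (by decide), sum_insert (by decide),
    sum_insert (by decide), sum_insert (by decide), sum_pair (by decide), MB.sum_one, hd,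
    Complex.norm_natCast] at hs
  have hn : ∀ n, (0 : ℝ) ≤ ∑ g with orderOf g = n, ‖θ.1 g‖ ^ 2 := fun n =>
    sum_nonneg fun g _ => by positivity
  have h3 := hn 3
  have h9 := hn 9
  have h5 := hn 5
  have h7 := hn 7
  have h11 := hn 11
  obtain ⟨k, rfl⟩ := h
  have hk : k ≤ 5 := by
    have : ((2 ^ 7 * k : ℕ) : ℝ) ^ 2 ≤ (443520 : ℕ) := by linarith
    have : (2 ^ 7 * k) ^ 2 ≤ 443520 := by exact_mod_cast this
    nlinarith
  interval_cases k
  · omega
  · have := b5 25; have := b7 18; have := b11 11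
    push_cast at *; linarith
  · omega
  · have := b5 76; have := b7 54; have := b11 34
    obtain ⟨P⟩ : Nonempty (Sylow 3 Spor.M22) := inferInstance
    have hP : Nat.card P = 9 := by
      rw [P.card_eq_multiplicity, card_M22,
        MB.fac (k := 2) Nat.prime_three (by norm_num) (by norm_num)]; rfl
    obtain ⟨m, hm⟩ := Cfsg.Agent.S0189.result 3 P θ.1 (irr_isChar θ) (fun g hg h1 => by
      have ho : orderOf g ∣ 3 ^ 2 := by
        have := Subgroup.orderOf_dvd_natCard _ hg
        rwa [hP] at this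
      obtain ⟨i, hi, e⟩ := (Nat.dvd_prime_pow Nat.prime_three).1 ho
      have hz : ∀ n, ∑ g with orderOf g = n, ‖θ.1 g‖ ^ 2 ≤ 0 → orderOf g = n → θ.1 g = 0 :=
        fun n h e => by
          have := single_le_sum (f := fun g => ‖θ.1 g‖ ^ 2)
            (s := univ.filter fun g => orderOf g = n) (fun g _ => by positivity)
            (mem_filter.2 ⟨mem_univ g, e⟩)
          have h2 : ‖θ.1 g‖ ^ 2 = 0 := le_antisymm (this.trans h) (by positivity)
          simpa using h2
      interval_cases i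
      · exact absurd (orderOf_eq_one_iff.1 e) h1
      · exact hz 3 (by push_cast at *; linarith) e
      · exact hz 9 (by push_cast at *; linarith) e)
    rw [hd, hP] at hm
    have : 2 ^ 7 * 3 = 9 * m := by exact_mod_cast hm
    omega
  · omega
  · have := b7 91; have := b11 58
    push_cast at *; linarith

end Cfsg.Agent.S5005
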