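import Mathlib
import Cfsg.Statements.S5604
import Cfsg.Agent.Golay.Loc2

set_option autoImplicit false
open scoped Pointwise
open Cfsg

namespace Cfsg.Agent.S5604

open Cfsg.Agent.Golay
def cx : ℕ := 228003020293534163706734972358921952
theorem pc_x : pc (tp cx) = cx := pc_tp (by decide +kernel)
theorem mem_x : tp cx ∈ M24 := tp_mem_of_m24Err (by decide +kernel)
theorem ord_x : orderOf (tp cx) = 7 := orderOf_tp (by norm_num) (by decide +kernel)

def N0 : Subgroup P24 := M24 ⊓ Subgroup.normalizer (Subgroup.zpowers (tp cx) : Set P24)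

theorem mem_norm {G : Type*} [Group G] [Finite G] {x g : G} :
    g ∈ Subgroup.normalizer (Subgroup.zpowers x : Set G) ↔ g * x * g⁻¹ ∈ Subgroup.zpowers x :=
  ⟨fun h => (h x).1 (Subgroup.mem_zpowers x), fun h => Subgroup.mem_normalizer_fintype (by
    rintro _ ⟨n, rfl⟩
    rw [← conj_zpow]; exact Subgroup.zpow_mem _ h n)⟩

theorem N0_le : N0 ≤ St M24 trio0 := by
  have h1 : (trio0 : Set (Finset GolayPt)) = {o | o ∈ octads ∧ tp cx • o = o} := by
    refine Set.eq_of_subset_of_ncard_le (fun o ho => ⟨trio0_mem.2.1 o ho, ?_⟩) (by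
      rw [Set.ncard_coe_finset, trio0_mem.1, ncard_fix_oct pc_x (N := 3) (by decide +kernel)])
      (Set.toFinite _)
    obtain ⟨i, hi, rfl⟩ := mem_fd.1 ho
    rw [← mk_inj, ← act_pc, pc_x, mk_um_get]
    revert i; decide +kernel
  refine fun g hg => ⟨hg.1, Finset.eq_of_subset_of_card_le (fun a ha => ?_)
    (Finset.card_smul_finset _ _).ge⟩
  obtain ⟨o, ho, rfl⟩ := Finset.mem_smul_finset.1 ha
  rw [← Finset.mem_coe, h1] at ho ⊢
  refine ⟨smul_mem_octads hg.1 ho.1, ?_⟩
  have h2 := (Subgroup.zpowers_le (H := MulAction.stabilizer P24 o)).2 ho.2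
    (mem_norm.1 (inv_mem hg.2))
  rw [← inv_smul_eq_iff, ← mul_smul, ← mul_smul]
  simpa using h2

theorem C0_le : St M24 (cj (tp cx)) ≤ N0 := fun g hg => ⟨hg.1, mem_norm.2 (by
  rw [(mem_St_cj.1 hg).2, mul_inv_cancel_right]; exact Subgroup.mem_zpowers _)⟩

theorem aux : (MulAction.orbit (St M24 trio0) (cj (tp cx))).ncard = 1536 ∧
    ∀ g ∈ St M24 trio0, ∀ i ∈ [0, 3, 5, 6], g * tp cx * g⁻¹ ≠ tp cx ^ i := by
  obtain ⟨L, t, h1, h2⟩ := bfs_spec (act := cjc) (Gs := mapL (fun c => c) gensTrio) (x0 := cx)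
    (fuel := 1540) (fin := fun L t => Nat.succ (Nat.add (Nat.xor (lenL L) 1536)
      (sumL (fun i => isZ (Tr.miss (pw cx i) t)) [0, 3, 5, 6]))) (v := 1) (by decide +kernel)
    one_ne_zero
  rw [← pc_x] at h2
  have h3 := add_eq_zero_iff'.1 (Nat.succ.inj h1)
  refine ⟨by rw [(isCAct_cj M24).ncard_orbit inf_le_left gen_Trio (x0 := cj (tp cx)) trivial h2,
    ← lenL_eq, xor_eq_zero' h3.1], fun g hg i hi e => ?_⟩
  have h4 := (h2.find _).2 ((isCAct_cj M24).closed inf_le_left gen_Trio (x0 := cj (tp cx)) trivial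
    h2 g hg)
  have h5 := sumL_eq_zero h3.2 i hi
  rw [← pc_x, pw_pc, ← e, Tr.miss_eq, if_pos (show Tr.find (pc (g * tp cx * g⁻¹)) t = true from h4)] at h5
  cases h5

theorem card_C0 : Nat.card (St M24 (cj (tp cx))) = 42 := by
  have : St M24 (cj (tp cx)) = St (St M24 trio0) (cj (tp cx)) :=
    le_antisymm (fun g hg => ⟨N0_le (C0_le hg), hg.2⟩) fun g hg => ⟨hg.1.1, hg.2⟩
  rw [this]
  exact card_inf_stabilizer (card_St_trio trio0_mem) aux.1 (by norm_num) rfl

theorem card_N0 : Nat.card N0 = 126 := by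
  have h1 : St N0 (cj (tp cx)) = St M24 (cj (tp cx)) :=
    le_antisymm (fun g hg => ⟨hg.1.1, hg.2⟩) fun g hg => ⟨C0_le hg, hg.2⟩
  obtain ⟨n, hn, e⟩ := exists_of_m24Err (c := 601804892280661463406732567533131488)
    (by decide +kernel)
  have h2 : n * tp cx * n⁻¹ = tp cx ^ 2 := by
    rw [← pc_inj, ← cjc_pc, ← pw_pc, e, pc_x]; decide +kernel
  have h3 : n ∈ N0 := ⟨hn, mem_norm.2 (h2 ▸ Subgroup.npow_mem_zpowers _ _)⟩
  have h4 : MulAction.orbit N0 (cj (tp cx)) = {cj (tp cx ^ 1), cj (tp cx ^ 2), cj (tp cx ^ 4)} := by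
    refine orbit_eq_of_trans (fun g hg => ?_) ?_
    · have h5 := mem_norm.1 hg.2
      rw [← mem_powers_iff_mem_zpowers, mem_powers_iff_mem_range_orderOf, ord_x,
        Finset.mem_image] at h5
      obtain ⟨i, hi, h5⟩ := h5
      have h6 := fun hi => aux.2 g (N0_le hg) i hi h5.symm
      rw [smul_cj, ← h5]
      have : i = 1 ∨ i = 2 ∨ i = 4 := by
        have h7 : i ∉ [0, 3, 5, 6] := h6
        rw [Finset.mem_range] at hi
        clear h5 h6
        revert i; decide
      rcases this with rfl | rfl | rfl <;> simp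
    · rintro _ (rfl | rfl | rfl)
      · exact ⟨1, one_mem _, by simp⟩
      · exact ⟨n, h3, congrArg cj h2⟩
      · exact ⟨n * n, mul_mem h3 h3, by rw [mul_smul, smul_cj, h2, smul_cj, ← conj_pow, h2, ← pow_mul]⟩
  have h5 : ∀ i j, i < 7 → j < 7 → i ≠ j → cj (tp cx ^ i) ≠ cj (tp cx ^ j) := fun i j hi hj h e =>
    h (pow_injOn_Iio_orderOf (by simpa [ord_x]) (by simpa [ord_x]) (cj_inj.1 e))
  rw [card_eq_orbit_mul N0 (cj (tp cx)), h4, show N0 ⊓ _ = St N0 _ from rfl, h1, card_C0,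
    Set.ncard_eq_three.2 ⟨_, _, _, h5 _ _ (by norm_num) (by norm_num) (by norm_num),
      h5 _ _ (by norm_num) (by norm_num) (by norm_num),
      h5 _ _ (by norm_num) (by norm_num) (by norm_num), rfl⟩]

theorem card_conj {K : Subgroup M24} {H : Subgroup P24} (hH : H ≤ M24) {k : P24} (hk : k ∈ M24)
    (h : ∀ g : M24, g ∈ K ↔ k * g * k⁻¹ ∈ H) : Nat.card K = Nat.card H :=
  Nat.card_congr ⟨fun g => ⟨_, (h g).1 g.2⟩, fun g => ⟨⟨k⁻¹ * g * k,
    M24.mul_mem (M24.mul_mem (M24.inv_mem hk) (hH g.2)) hk⟩, (h _).2 (by simp [mul_assoc])⟩,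
    fun g => by simp [mul_assoc], fun g => by simp [mul_assoc]⟩

/-- For a subgroup S of order 7 of the group of the length-24 code (a Sylow 7-subgroup): the normaliser of S has order 126, the centraliser of S has order 42 and is non-abelian, and the whole normaliser leaves some trio invariant. (These are the orders of a Frobenius group of order 21 times a symmetric group of degree 3; the isomorphism type itself is not asserted here.) -/
theorem result (S : Subgroup ↥Cfsg.M24) (hS : Nat.card S = 7) : Nat.card ↥(Subgroup.normalizer (S : Set ↥Cfsg.M24)) = 126 ∧ Nat.card ↥(Subgroup.centralizer (S : Set ↥Cfsg.M24)) = 42 ∧ (∃ x ∈ Subgroup.centralizer (S : Set ↥Cfsg.M24), ∃ y ∈ Subgroup.centralizer (S : Set ↥Cfsg.M24), x * y ≠ y * x) ∧ ∃ T ∈ Cfsg.trios, ∀ n ∈ Subgroup.normalizer (S : Set ↥Cfsg.M24), ((n : ↥Cfsg.M24) : Equiv.Perm Cfsg.GolayPt) • T = T := by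
  obtain ⟨y, hy, rfl⟩ := exists_zpowers_of_card (by norm_num) hS
  rw [← Subgroup.orderOf_coe] at hy
  obtain ⟨k, hk, h1⟩ := exists_conj_mem (Subgroup.zpowers_le.2 mem_x) (p := 7) (by norm_num)
    (m := 34974720) (by rw [card_M24, Nat.card_zpowers, ord_x]) (by norm_num) y.2 (k := 1)
    (by rw [pow_one, ← hy, pow_orderOf_eq_one])
  have h2 : Subgroup.zpowers (k * y * k⁻¹) = Subgroup.zpowers (tp cx) :=
    Subgroup.eq_of_le_of_card_ge (Subgroup.zpowers_le.2 h1) (by
      rw [Nat.card_zpowers, Nat.card_zpowers, ord_x, ← hy]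
      exact ((MulAut.conj k).orderOf_eq y.1).ge)
  have h3 : ∀ g : M24, g ∈ Subgroup.zpowers y ↔ k * g * k⁻¹ ∈ Subgroup.zpowers (tp cx) := fun g => by
    rw [← h2]
    exact ⟨by rintro ⟨n, rfl⟩; exact ⟨n, conj_zpow⟩, fun ⟨n, e⟩ =>
      ⟨n, Subtype.ext (by simpa [conj_zpow] using e)⟩⟩
  have h4 : ∀ g : M24, g ∈ Subgroup.normalizer (Subgroup.zpowers y : Set M24) ↔
      k * g * k⁻¹ ∈ N0 := fun g => by
    rw [N0, Subgroup.mem_inf, and_iff_right (M24.mul_mem (M24.mul_mem hk g.2) (M24.inv_mem hk)),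
      mem_norm, h3, ← h2, mem_norm]
    simp [mul_assoc]
  have h5 : ∀ g : M24, g ∈ Subgroup.centralizer (Subgroup.zpowers y : Set M24) ↔
      k * g * k⁻¹ ∈ St M24 (cj (tp cx)) := fun g => by
    rw [mem_St_cj, and_iff_right (M24.mul_mem (M24.mul_mem hk g.2) (M24.inv_mem hk)),
      ← Subgroup.mem_centralizer_singleton_iff, ← Subgroup.centralizer_closure {tp cx},
      ← Subgroup.zpowers_eq_closure, ← h2, Subgroup.zpowers_eq_closure,
      Subgroup.zpowers_eq_closure, Subgroup.centralizer_closure, Subgroup.centralizer_closure,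
      Subgroup.mem_centralizer_singleton_iff, Subgroup.mem_centralizer_singleton_iff,
      Subtype.ext_iff, conj_mul, conj_mul, mul_left_inj, mul_right_inj]
    rfl
  refine ⟨(card_conj inf_le_left hk h4).trans card_N0, (card_conj inf_le_left hk h5).trans card_C0,
    ?_, k⁻¹ • trio0, smul_mem_trios (M24.inv_mem hk) trio0_mem, fun n hn => ?_⟩
  · have h6 := (fixTest_cj (c := cx) (by decide +kernel)).in_St
      (cs := [967812279691448225500382947153381408, 635505258588014918791337068697669324])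
      (by decide +kernel)
    obtain ⟨a, ha, ea⟩ := h6 _ List.mem_cons_self
    obtain ⟨b, hb, eb⟩ := h6 _ (List.mem_cons_of_mem _ List.mem_cons_self)
    refine ⟨⟨k⁻¹ * a * k, M24.mul_mem (M24.mul_mem (M24.inv_mem hk) ha.1) hk⟩,
      (h5 _).2 (by simpa [mul_assoc] using ha), ⟨k⁻¹ * b * k,
        M24.mul_mem (M24.mul_mem (M24.inv_mem hk) hb.1) hk⟩, (h5 _).2 (by simpa [mul_assoc] using hb),
      fun e => ?_⟩
    have h7 : a * b = b * a := by
      have := congrArg (fun x : M24 => k * x.1 * k⁻¹) e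
      simpa [mul_assoc] using this
    rw [← pc_inj, ← mul_pc, ← mul_pc, ea, eb] at h7
    exact absurd h7 (by decide +kernel)
  · have := (N0_le ((h4 n).1 hn)).2
    rw [eq_inv_smul_iff, ← mul_smul, ← mul_smul]
    exact this

end Cfsg.Agent.S5604
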