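import Mathlib
import Cfsg.Statements.S5006
import Cfsg.Agent.FGS.M24Blk
import Cfsg.Agent.S5604

set_option autoImplicit false
open Cfsg

namespace Cfsg.Agent.S5006

open Cfsg.Agent.Golay Cfsg.Agent.FGS Cfsg.Agent.Char Cfsg.Agent.Block Finset

theorem nl {p c k B : ℕ} (hp : p.Prime) (hc : 24 % p = c)
    (h9 : 9 ≤ c + p) (h0 : 0 < c) (h8 : c ≠ 8) (h1 : p ^ 1 ∣ 244823040)
    (h2 : ¬ p ^ (1 + 1) ∣ 244823040) (hk : ∀ j ∈ (24 - c).divisors, ¬ 2 ∣ j → j ∣ k)
    (hB : ∀ N ∈ (k * c.factorial * (p - 1)).divisors, N ∣ 244823040 → (244823040 / N) % p = 1 → N ≤ B)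
    (hk0 : k ≠ 0) {x : M24} (hx : orderOf x = p) :
    Nat.card (Subgroup.normalizer (Subgroup.zpowers x : Set M24)) ≤ B :=
  MB.norm_le le_rfl ∅ (by simp) hp hc h9 h0 h8 card_M24 (MB.fac hp h1 h2) hk hB hk0 hx

theorem bd [Fintype M24] {p B : ℕ} (hp : p.Prime) (hp2 : Odd p) (h1 : p ∣ 244823040)
    (hN : ∀ x : M24, orderOf x = p →
      Nat.card (Subgroup.normalizer (Subgroup.zpowers x : Set M24)) ≤ B)
    {χ : M24 → ℂ} (hχ : IsGeneralizedCharacter _ χ)
    (hv : ∀ g, 2 ∣ orderOf g → χ g = 0) {d : ℕ} (hd : χ 1 = d) (q : ℤ) :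
    (244823040 : ℝ) * (p * ((2 * q + 1) * d - p * (q * (q + 1))) - d ^ 2) ≤
      B * ∑ g with orderOf g = p, ‖χ g‖ ^ 2 := by
  haveI := Fact.mk hp
  obtain ⟨x, hx⟩ := exists_prime_orderOf_dvd_card' (G := M24) p (by rwa [card_M24])
  have := MB.bound2 (Subgroup.zpowers x) ⊥ hp hp2 (by rw [Nat.card_zpowers, hx]) Subgroup.card_bot
    (fun y hy => by rw [Subgroup.mem_bot.1 hy, mul_one]) (hN x hx)
    (fun x _ y hy => by rw [Subgroup.mem_bot.1 hy, mul_one, one_mul]) hχ hv hd q
  rw [card_M24] at this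
  simpa using this

theorem bd7 [Fintype M24] {χ : M24 → ℂ} (hχ : IsGeneralizedCharacter _ χ)
    (hv : ∀ g, 2 ∣ orderOf g → χ g = 0) {d : ℕ} (hd : χ 1 = d) (q : ℤ) :
    (244823040 : ℝ) * (7 * (2 * (2 * q + 1) * d - 7 * (2 ^ 2 * q * (q + 1))) - d ^ 2) ≤
      126 * ∑ g with orderOf g = 7, ‖χ g‖ ^ 2 := by
  haveI : Fact (Nat.Prime 7) := ⟨by norm_num⟩
  obtain ⟨x, hx⟩ := exists_prime_orderOf_dvd_card' (G := M24) 7 (by rw [card_M24]; norm_num)
  have hP : Nat.card (Subgroup.zpowers x) = 7 := by rw [Nat.card_zpowers, hx]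
  obtain ⟨h1, h2, -⟩ := Cfsg.Agent.S5604.result _ hP
  obtain ⟨t, ht⟩ := exists_prime_orderOf_dvd_card'
    (G := Subgroup.centralizer (Subgroup.zpowers x : Set M24)) 2 (by rw [h2]; norm_num)
  rw [← Subgroup.orderOf_coe] at ht
  have := MB.bound2 (Subgroup.zpowers x) (Subgroup.zpowers t.1) (p := 7) (c := 2) (by norm_num)
    (by decide) hP (by rw [Nat.card_zpowers, ht]) (fun y hy => by
      have := Subgroup.orderOf_dvd_natCard _ hy
      rw [Nat.card_zpowers, ht] at this
      rw [← pow_two]; exact orderOf_dvd_iff_pow_eq_one.1 this) h1.le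
    (fun z hz y hy => Subgroup.zpowers_le.2 t.2 hy z hz) hχ hv hd q
  rw [card_M24] at this
  simpa using this

theorem bd5 [Fintype M24] {χ : M24 → ℂ} (hχ : IsGeneralizedCharacter _ χ)
    (hv : ∀ g, 2 ∣ orderOf g → χ g = 0) {d : ℕ} (hd : χ 1 = d) (q : ℤ) :
    (244823040 : ℝ) * (5 * (4 * (2 * q + 1) * d - 5 * (4 ^ 2 * q * (q + 1))) - d ^ 2) ≤
      240 * ∑ g with orderOf g = 5, ‖χ g‖ ^ 2 := by
  have hx0 : m24Err 16447157900845576949952452338690087 = 0 := by decide +kernel
  let x : M24 := ⟨tp 16447157900845576949952452338690087, tp_mem_of_m24Err hx0⟩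
  have hx : orderOf x = 5 := by
    rw [← Subgroup.orderOf_coe]
    exact orderOf_tp (by norm_num) (by decide +kernel)
  have hg : Gen pc (Cl [263837882815874641746848983383940237,
    943881752074524846485718357092155660]) _ := gen_Cl (by decide +kernel)
  have hc := card_of_bfs hg 10 (N := 4) (by decide +kernel)
  have hle := Cl_le (in_M24 (cs := [263837882815874641746848983383940237,
    943881752074524846485718357092155660]) (by decide +kernel))
  have h1 := forall_mem_of_bfs hg 10 (fun c => Nat.xor (mul c c) one) (by decide +kernel)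
  have h2 := forall_mem_of_bfs hg 10 (fun c => Nat.xor (mul 16447157900845576949952452338690087 c)
    (mul c 16447157900845576949952452338690087)) (by decide +kernel)
  generalize Cl [263837882815874641746848983383940237, 943881752074524846485718357092155660] = V
    at *
  have := MB.bound2 (Subgroup.zpowers x) (V.subgroupOf M24) (p := 5) (c := 4) (by norm_num)
    (by decide) (by rw [Nat.card_zpowers, hx])
    (by rw [Nat.card_congr (Subgroup.subgroupOfEquivOfLe hle).toEquiv, hc]) (fun y hy => by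
      have := h1 y hy
      rw [mul_pc, xor_eq_zero_iff', ← pc_one, pc_inj] at this
      exact Subtype.ext this)
    (nl (c := 4) (k := 5) (B := 240) (by norm_num) rfl (by norm_num) (by norm_num) (by norm_num)
      (by norm_num) (by norm_num) (by decide) (by decide +kernel) (by norm_num) hx)
    (fun z hz y hy => by
      have := h2 y hy
      rw [← pc_tp_of_m24Err hx0, mul_pc, mul_pc, xor_eq_zero_iff', pc_inj] at this
      obtain ⟨k, rfl⟩ := Subgroup.mem_zpowers_iff.1 hz
      exact (show Commute x y from Subtype.ext this).zpow_left k) hχ hv hd q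
  rw [card_M24] at this
  simpa using this

/-- All irreducible complex characters of the Mathieu group `M₂₄` lie in a single 2-block: any two of them lie in the same block relative to every maximal ideal of the algebraic integers containing 2. -/
theorem result (M : Ideal Cfsg.AlgInt) (hM : Cfsg.IsPModular 2 M)
    (χ ψ : Cfsg.IrrCharacter ↥Cfsg.M24) : Cfsg.SameBlock M (χ : ↥Cfsg.M24 → ℂ) (ψ : ↥Cfsg.M24 → ℂ) := by
  haveI : Fact (Nat.Prime 2) := ⟨Nat.prime_two⟩
  haveI := Fintype.ofFinite M24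
  refine DefZ.single hM (fun y hy => (MB.phi_M24 y.2 (by rwa [Subgroup.orderOf_coe])).out)
    (fun θ h => ?_) χ ψ
  have hv : ∀ g, 2 ∣ orderOf g → θ.1 g = 0 := fun g hg => char_eq_zero_of_defect_zero hM h hg
  have hd := (irr_degree_cast θ).symm
  have hdv := irr_degree_dvd θ
  have h0 := irr_degree_ne_zero θ
  rw [card_M24] at h hdv
  rw [MB.fac (k := 10) Nat.prime_two (by norm_num) (by norm_num),
    ← Nat.prime_two.pow_dvd_iff_le_factorization h0] at h
  generalize charDegree θ.1 = d at *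
  have b5 := bd5 (irr_isGenChar θ) hv hd
  have b7 := bd7 (irr_isGenChar θ) hv hd
  have b11 := bd (p := 11) (B := 110) (by norm_num) (by decide) (by norm_num) (fun x hx =>
    nl (c := 2) (k := 11) (by norm_num) rfl (by norm_num) (by norm_num) (by norm_num)
      (by norm_num) (by norm_num) (by decide) (by decide +kernel) (by norm_num) hx)
    (irr_isGenChar θ) hv hd
  have b23 := bd (p := 23) (B := 253) (by norm_num) (by decide) (by norm_num) (fun x hx =>
    nl (c := 1) (k := 23) (by norm_num) rfl (by norm_num) (by norm_num) (by norm_num)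
      (by norm_num) (by norm_num) (by decide) (by decide +kernel) (by norm_num) hx)
    (irr_isGenChar θ) hv hd
  have hs := MB.sum_le (G := M24) {1, 5, 7, 11, 23} (f := fun g => ‖θ.1 g‖ ^ 2)
    (fun g => by positivity)
  rw [isIrr_sum_norm_sq θ.2, card_M24, sum_insert (by decide), sum_insert (by decide),
    sum_insert (by decide), sum_pair (by decide), MB.sum_one, hd, Complex.norm_natCast] at hs
  have hn : ∀ n, (0 : ℝ) ≤ ∑ g with orderOf g = n, ‖θ.1 g‖ ^ 2 := fun n =>
    sum_nonneg fun g _ => by positivity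
  have h5 := hn 5
  have h7 := hn 7
  have h11 := hn 11
  have h23 := hn 23
  obtain ⟨k, rfl⟩ := h
  have hk : k ≤ 15 := by
    have : ((2 ^ 10 * k : ℕ) : ℝ) ^ 2 ≤ (244823040 : ℕ) := by linarith
    have : (2 ^ 10 * k) ^ 2 ≤ 244823040 := by exact_mod_cast this
    nlinarith
  have a5 := b5 ((256 * k / 5 : ℕ) : ℤ)
  have a7 := b7 ((512 * k / 7 : ℕ) : ℤ)
  have a11 := b11 ((1024 * k / 11 : ℕ) : ℤ)
  have a23 := b23 ((1024 * k / 23 : ℕ) : ℤ)
  clear b5 b7 b11 b23 hd hv hn
  interval_cases k <;> first | omega | (norm_num at a5 a7 a11 a23 hs; linarith)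

end Cfsg.Agent.S5006
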