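import Mathlib
import Cfsg.Statements.S5013
import Cfsg.Agent.Root.R2

set_option autoImplicit false
open Cfsg

namespace Cfsg.Agent.S5013

open Cfsg.Agent.LocalEven Cfsg.Agent.Root Subgroup
open scoped commutatorElement

/-- In a rank one group with unipotent subgroups A and B (conjugation written g H g⁻¹), for every non-identity a in A the non-identity b in B with b⁻¹ A b = a⁻¹ B a is unique, every non-identity b in B arises in this way from exactly one such a (so a ↦ b(a) is a bijection between the non-identity elements of A and of B), and no non-identity element of A normalizes B (and vice versa). -/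
theorem result {G : Type*} [Group G] {A B : Subgroup G} (h : Cfsg.IsRankOnePair A B) :
    (∀ a ∈ A, a ≠ 1 → ∃! b : G, b ∈ B ∧ b ≠ 1 ∧ Cfsg.conjBy A b⁻¹ = Cfsg.conjBy B a⁻¹) ∧
    (∀ b ∈ B, b ≠ 1 → ∃! a : G, a ∈ A ∧ a ≠ 1 ∧ Cfsg.conjBy A b⁻¹ = Cfsg.conjBy B a⁻¹) ∧
    A ⊓ Subgroup.normalizer (B : Set G) = ⊥ ∧ B ⊓ Subgroup.normalizer (A : Set G) = ⊥ := by
  have key : ∀ {A B : Subgroup G}, IsRankOnePair A B → ∀ a ∈ A, a ≠ 1 →
      ∃! b : G, b ∈ B ∧ b ≠ 1 ∧ cj b⁻¹ A = cj a⁻¹ B := by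
    intro A B h a ha ha1
    obtain ⟨b, hb, hb1, e⟩ := h.cond_left a ha ha1
    refine ⟨b, ⟨hb, hb1, e⟩, ?_⟩
    rintro y ⟨hy, -, e'⟩
    exact inv_injective (r1_inj (r1_symm h) (inv_mem hy) (inv_mem hb) (e'.trans e.symm))
  have key2 : ∀ {A B : Subgroup G}, IsRankOnePair A B → A ⊓ normalizer (B : Set G) = ⊥ := by
    intro A B h
    rw [eq_bot_iff]
    intro a ha
    exact r1_eq_one h ha.1 (cj_eq_of_mem_normalizer ha.2)
  refine ⟨key h, ?_, key2 h, key2 (r1_symm h)⟩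
  intro b hb hb1
  obtain ⟨a, ⟨ha, ha1, e⟩, hu⟩ := key (r1_symm h) b hb hb1
  exact ⟨a, ⟨ha, ha1, e.symm⟩, fun y hy => hu y ⟨hy.1, hy.2.1, hy.2.2.symm⟩⟩

end Cfsg.Agent.S5013
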