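import Mathlib
import Cfsg.Statements.S5014
import Cfsg.Agent.Root.R2

set_option autoImplicit false
open Cfsg

namespace Cfsg.Agent.S5014

open Cfsg.Agent.LocalEven Cfsg.Agent.Root Subgroup
open scoped commutatorElement

/-- Let X = ⟨A, B⟩ be a rank one group with unipotent subgroups A and B and let Ω be the set of conjugates of A under X. Then Ω has at least three members, X acts doubly transitively on Ω by conjugation (any two ordered pairs of distinct members are carried to one another by a single element of X), and A acts regularly on Ω with A removed: for C, D in Ω different from A there is exactly one element of A conjugating C to D. -/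
theorem result {G : Type*} [Group G] {A B : Subgroup G} (h : Cfsg.IsRankOnePair A B) :
    (∃ C₁ ∈ Cfsg.unipotentSubgroups A B, ∃ C₂ ∈ Cfsg.unipotentSubgroups A B, ∃ C₃ ∈ Cfsg.unipotentSubgroups A B,
      C₁ ≠ C₂ ∧ C₁ ≠ C₃ ∧ C₂ ≠ C₃) ∧
    (∀ C₁ ∈ Cfsg.unipotentSubgroups A B, ∀ C₂ ∈ Cfsg.unipotentSubgroups A B, ∀ D₁ ∈ Cfsg.unipotentSubgroups A B,
      ∀ D₂ ∈ Cfsg.unipotentSubgroups A B, C₁ ≠ C₂ → D₁ ≠ D₂ →
        ∃ x ∈ A ⊔ B, Cfsg.conjBy C₁ x = D₁ ∧ Cfsg.conjBy C₂ x = D₂) ∧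
    (∀ C ∈ Cfsg.unipotentSubgroups A B, ∀ D ∈ Cfsg.unipotentSubgroups A B, C ≠ A → D ≠ A →
      ∃! a : G, a ∈ A ∧ Cfsg.conjBy C a = D) := by
  rw [om_eq]
  refine ⟨?_, ?_, fun C hC D hD h1 h2 => om_regular h hC hD h1 h2⟩
  · obtain ⟨a, ha, ha1⟩ := r1_exists h
    exact ⟨A, left_mem_om, B, right_mem_om h, cj a B, cj_mem_om (right_mem_om h) (mem_sup_left ha), h.ne,
      (r1_cj_ne h ha).symm, (r1_cj_self h ha ha1).ne⟩
  · intro C1 h1 C2 h2 D1 h3 D2 h4 hC hD
    obtain ⟨x, hx, rfl, rfl⟩ := om_two_trans h h1 h2 hC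
    obtain ⟨y, hy, rfl, rfl⟩ := om_two_trans h h3 h4 hD
    refine ⟨y * x⁻¹, mul_mem hy (inv_mem hx), ?_, ?_⟩
    · show cj _ (cj x A) = _
      rw [cj_cj, inv_mul_cancel_right]
    · show cj _ (cj x B) = _
      rw [cj_cj, inv_mul_cancel_right]

end Cfsg.Agent.S5014
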