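import Mathlib
import Cfsg.Statements.S5015
import Cfsg.Agent.Root.R2

set_option autoImplicit false
open Cfsg

namespace Cfsg.Agent.S5015

open Cfsg.Agent.LocalEven Cfsg.Agent.Root Subgroup
open scoped commutatorElement

/-- Let a group Y act doubly transitively on a set Ω with at least three points, and suppose that the stabilizer of a point α contains a nilpotent subgroup A, normalized by that stabilizer, which acts regularly on the points other than α. Then for any y in Y moving α, the subgroups A and y A y⁻¹ are the unipotent subgroups of a rank one group, and the normal closure of A in Y (the subgroup generated by all conjugates of A) is generated by A and y A y⁻¹ alone. -/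
theorem result {Y Ω : Type*} [Group Y] [MulAction Y Ω]
    (h2 : MulAction.IsMultiplyPretransitive Y Ω 2) (hΩ : 3 ≤ ENat.card Ω) (α : Ω) (A : Subgroup Y)
    (hA : A ≤ MulAction.stabilizer Y α) (hAn : ∀ y ∈ MulAction.stabilizer Y α, Cfsg.conjBy A y = A)
    (hnil : Group.IsNilpotent A) (hreg : ∀ β γ : Ω, β ≠ α → γ ≠ α → ∃! a : Y, a ∈ A ∧ a • β = γ)
    (y : Y) (hy : y ∉ MulAction.stabilizer Y α) :
    Cfsg.IsRankOnePair A (Cfsg.conjBy A y) ∧ Subgroup.normalClosure (A : Set Y) = A ⊔ Cfsg.conjBy A y := by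
  -- the subgroup attached to a point
  have hpt : ∀ g g' : Y, g • α = g' • α → cj g A = cj g' A := by
    intro g g' e
    have : g'⁻¹ * g ∈ MulAction.stabilizer Y α := by
      rw [MulAction.mem_stabilizer_iff, mul_smul, e, inv_smul_smul]
    have h1 : cj (g'⁻¹ * g) A = A := hAn _ this
    rw [cj_mul, cj_eq_iff, inv_inv] at h1
    exact h1
  have hyα : y • α ≠ α := hy
  -- a third point
  obtain ⟨γ, hγ1, hγ2⟩ : ∃ γ : Ω, γ ≠ α ∧ γ ≠ y • α := by
    by_contra hc
    push Not at hc
    have hsub : (Set.univ : Set Ω) ⊆ {α, y • α} := by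
      intro z _
      by_cases hz : z = α
      · exact Or.inl hz
      · exact Or.inr (hc z hz)
    have h1 := Set.encard_le_encard hsub
    rw [Set.encard_univ, Set.encard_pair hyα.symm] at h1
    have := hΩ.trans h1
    norm_num at this
  have hfix : ∀ a ∈ A, a • α = α := fun a ha => hA ha
  have hone : ∀ a ∈ A, ∀ β : Ω, β ≠ α → a • β = β → a = 1 := by
    intro a ha β hβ e
    exact (hreg β β hβ hβ).unique ⟨ha, e⟩ ⟨one_mem _, one_smul _ _⟩
  -- conjugate versions
  have hregc : ∀ g : Y, ∀ β γ : Ω, β ≠ g • α → γ ≠ g • α → ∃ b ∈ cj g A, b • β = γ := by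
    intro g β γ h1 h2
    obtain ⟨a, ⟨ha, e⟩, -⟩ := hreg (g⁻¹ • β) (g⁻¹ • γ) (fun e => h1 (by rw [← e, smul_inv_smul]))
      (fun e => h2 (by rw [← e, smul_inv_smul]))
    exact ⟨g * a * g⁻¹, conj_mem_cj ha, by rw [mul_smul, mul_smul, e, smul_inv_smul]⟩
  have hfixc : ∀ g : Y, ∀ b ∈ cj g A, b • g • α = g • α := by
    intro g b hb
    obtain ⟨a, ha, rfl⟩ := mem_cj'.1 hb
    rw [mul_smul, mul_smul, inv_smul_smul, hfix a ha]
  have honec : ∀ g : Y, ∀ b ∈ cj g A, ∀ β : Ω, β ≠ g • α → b • β = β → b = 1 := by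
    intro g b hb β hβ e
    obtain ⟨a, ha, rfl⟩ := mem_cj'.1 hb
    have : a = 1 := hone a ha (g⁻¹ • β) (fun e => hβ (by rw [← e, smul_inv_smul])) (by
      rw [mul_smul, mul_smul, smul_eq_iff_eq_inv_smul] at e
      exact e)
    rw [this]; simp
  have hr : IsRankOnePair A (cj y A) := by
    refine r1_mk ?_ hnil (isNilpotent_cj y hnil) ?_ ?_
    · intro e
      obtain ⟨a, ⟨ha, e1⟩, -⟩ := hreg (y • α) γ hyα hγ1
      rw [hfixc y a (e ▸ ha)] at e1
      exact hγ2 e1.symm
    · intro a ha ha1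
      have h1 : a • y • α ≠ y • α := fun e => ha1 (hone a ha _ hyα e)
      obtain ⟨b, hb, e⟩ := hregc y α (a • y • α) hyα.symm h1
      refine ⟨b, hb, ?_, ?_⟩
      · rintro rfl
        rw [one_smul, eq_comm, smul_eq_iff_eq_inv_smul, hfix _ (inv_mem ha)] at e
        exact hyα e
      · rw [cj_cj]; exact hpt _ _ (by rw [e, mul_smul])
    · intro b hb hb1
      have h1 : b • α ≠ α := fun e => hb1 (honec y b hb _ hyα.symm e)
      obtain ⟨a, ⟨ha, e⟩, -⟩ := hreg (y • α) (b • α) hyα h1
      refine ⟨a, ha, ?_, ?_⟩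
      · rintro rfl
        rw [one_smul, eq_comm, smul_eq_iff_eq_inv_smul, hfixc y _ (inv_mem hb)] at e
        exact hyα e.symm
      · rw [cj_cj]; exact hpt _ _ (by rw [← e, mul_smul])
  refine ⟨hr, le_antisymm ?_ ?_⟩
  · rw [normalClosure_eq_iSup_cj]
    refine iSup_le fun g => ?_
    by_cases hg : g • α = α
    · rw [hpt g 1 (by rw [hg, one_smul]), cj_one]; exact le_sup_left
    · obtain ⟨a, ⟨ha, e⟩, -⟩ := hreg (y • α) (g • α) hyα hg
      rw [hpt g (a * y) (by rw [← e, mul_smul]), cj_mul]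
      exact cj_le_of_mem (mem_sup_left ha) le_sup_right
  · rw [normalClosure_eq_iSup_cj]
    exact sup_le (le_iSup_of_le 1 (by rw [cj_one])) (le_iSup_of_le y le_rfl)

end Cfsg.Agent.S5015
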