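import Mathlib
import Cfsg.Statements.S5017
import Cfsg.Agent.Root.R2

set_option autoImplicit false
open Cfsg

namespace Cfsg.Agent.S5017

open Cfsg.Agent.LocalEven Cfsg.Agent.Root Subgroup
open scoped commutatorElement

/-- Let X be a rank one group with unipotent subgroups A and B and N a normal subgroup of X. Then either X = N A or N lies in the centre of X. Consequently a perfect rank one group is quasisimple. -/
theorem result {X : Type*} [Group X] {A B : Subgroup X} (h : Cfsg.IsRankOneGroup X A B) :
    (∀ N : Subgroup X, N.Normal → N ⊔ A = ⊤ ∨ N ≤ Subgroup.center X) ∧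
    (Group.IsPerfect X → Cfsg.IsQuasisimple X) := by
  obtain ⟨ht, h⟩ := h
  constructor
  · intro N hN
    rcases r1_normal h (N := N) (ht ▸ le_top) (le_top.trans (le_normalizer_of_normal (K := ⊤))) with h1 | h1
    · left; rw [eq_top_iff, ← ht]; exact h1
    · right
      intro n hn
      exact mem_center_iff.2 fun g => (h1 n hn g (ht ▸ mem_top g)).symm
  · intro hp
    have := r1_quasisimple h (by rw [ht]; exact hp.commutator_eq_top)
    rwa [ht, Comp2.quasisimple_top_iff] at this

end Cfsg.Agent.S5017
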