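import Mathlib
import Cfsg.Statements.S5018
import Cfsg.Agent.Root.R2

set_option autoImplicit false
open Cfsg

namespace Cfsg.Agent.S5018

open Cfsg.Agent.LocalEven Cfsg.Agent.Root Subgroup
open scoped commutatorElement

/-- A rank one group is not nilpotent, and its second centre equals its centre. -/
theorem result {X : Type*} [Group X] {A B : Subgroup X} (h : Cfsg.IsRankOneGroup X A B) :
    Subgroup.upperCentralSeries X 2 = Subgroup.center X ∧ ¬ Group.IsNilpotent X := by
  obtain ⟨ht, h⟩ := h
  constructor
  · apply le_antisymm
    · have := r1_z2 h (N := Subgroup.upperCentralSeries X 2) (ht ▸ le_top)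
        (le_top.trans (le_normalizer_of_normal (K := ⊤))) (by
          rw [ht, com_iff]
          refine Com.mono (A := center X) (B := ⊤) (fun a ha b _ => (mem_center_iff.1 ha b).symm) ?_ le_rfl
          rw [commutator_le]
          intro x hx y _
          rw [← Subgroup.upperCentralSeries_one]
          exact Subgroup.mem_upperCentralSeries_succ_iff.1 hx y)
      intro n hn
      exact mem_center_iff.2 fun g => (this n hn g (ht ▸ mem_top g)).symm
    · rw [← Subgroup.upperCentralSeries_one]
      exact Subgroup.upperCentralSeries_mono X (by norm_num)
  · intro hn
    exact r1_not_nilpotent h inferInstance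

end Cfsg.Agent.S5018
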