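import Mathlib
import Cfsg.Statements.S5020
import Cfsg.Agent.Root.R3

set_option autoImplicit false
open Cfsg

namespace Cfsg.Agent.S5020

open Cfsg.Agent.LocalEven Cfsg.Agent.Root Subgroup
open scoped commutatorElement

open Matrix in
theorem small {X : Type*} [Group X] {A B : Subgroup X} (ht : A ⊔ B = ⊤) (h : IsRankOnePair A B) (hsp : Sp A B)
    {p : ℕ} [hp : Fact p.Prime] (hc : Nat.card A = p) :
    Nonempty (X ≃* SpecialLinearGroup (Fin 2) (ZMod p)) ∨
      Nonempty (X ≃* ProjectiveSpecialLinearGroup (Fin 2) (ZMod p)) := by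
  obtain ⟨a, ha, ha1⟩ := r1_exists h
  obtain ⟨b, d⟩ := exists_ndata h hsp ha ha1
  have hcB : Nat.card B = p := by rw [← d.swap.1, card_cj, hc]
  have key : ∀ {C : Subgroup X}, Nat.card C = p → ∀ c ∈ C, c ≠ 1 → C ≤ zpowers c := by
    intro C hC c hc hc1 x hx
    have := mem_zpowers_of_prime_card hC (g := ⟨c, hc⟩) (g' := ⟨x, hx⟩) (fun e => hc1 (congrArg Subtype.val e))
    obtain ⟨k, hk⟩ := this
    exact ⟨k, congrArg Subtype.val hk⟩
  have hA : ∀ x ∈ A, x ^ p = 1 := fun x hx => by
    have := pow_card_eq_one' (G := A) (x := ⟨x, hx⟩)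
    rw [hc] at this
    exact congrArg Subtype.val this
  have htop : closure ({a, b} : Set X) = ⊤ := by
    rw [eq_top_iff, ← ht]
    refine sup_le ((key hc a ha ha1).trans ?_) ((key hcB b d.hb (r1_ne_one_right h ha d.e1)).trans ?_)
    · exact (zpowers_le).2 (subset_closure (by simp))
    · exact (zpowers_le).2 (subset_closure (by simp))
  have := sp_prime_iso h hsp hA d
  rw [htop] at this
  rcases this with ⟨⟨e⟩⟩ | ⟨⟨e⟩⟩
  · exact Or.inl ⟨topEquiv.symm.trans e⟩
  · exact Or.inr ⟨topEquiv.symm.trans e⟩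

/-- Let X be a special rank one group with abelian unipotent subgroups A and B, and H = N(A) ∩ N(B) its diagonal subgroup. Then either A has at most three elements and X is isomorphic to SL₂(2), SL₂(3) or PSL₂(3); or X = X' A with the commutator subgroup X' quasisimple and the commutator subgroup ⁅A, H⁆ having more than three elements. -/
theorem result {X : Type*} [Group X] {A B : Subgroup X} (h : Cfsg.IsRankOneGroup X A B)
    (hs : Cfsg.IsSpecialRankOnePair A B) (hab : Cfsg.HasAbelianUnipotents A B) :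
    (ENat.card A ≤ 3 ∧ (Nonempty (X ≃* Matrix.SpecialLinearGroup (Fin 2) (ZMod 2)) ∨
        Nonempty (X ≃* Matrix.SpecialLinearGroup (Fin 2) (ZMod 3)) ∨
        Nonempty (X ≃* Matrix.ProjectiveSpecialLinearGroup (Fin 2) (ZMod 3)))) ∨
    (commutator X ⊔ A = ⊤ ∧ Cfsg.IsQuasisimple (commutator X) ∧
      3 < ENat.card ↥(⁅A, Cfsg.rankOneDiagonal A B⁆ : Subgroup X)) := by
  obtain ⟨ht, h⟩ := h
  have hsp := sp_of_special hs
  by_cases h3 : 3 < ENat.card A
  · right
    have hp := sp_perfect h hsp (com_self hab.1) h3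
    have hq := r1_quasisimple h hp
    rw [ht] at hp hq
    have hc : _root_.commutator X = ⊤ := hp
    refine ⟨by rw [hc, top_sup_eq], by rw [hc]; exact hq, h3.trans_le ?_⟩
    exact Set.encard_le_encard (sp_le_commutator h hsp (com_self hab.1) h3)
  · left
    rw [not_lt] at h3
    refine ⟨h3, ?_⟩
    haveI : Finite A := ENat.card_lt_top.1 (h3.trans_lt (by decide))
    have h4 : Nat.card A ≤ 3 := by
      rw [ENat.card_eq_coe_natCard] at h3
      exact_mod_cast h3
    have h5 : 1 < Nat.card A := (one_lt_card_iff_ne_bot A).2 (r1_ne_bot h)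
    rcases (by omega : Nat.card A = 2 ∨ Nat.card A = 3) with h6 | h6
    · left
      rcases small ht h hsp h6 with e | ⟨⟨e⟩⟩
      · exact e
      · have hz : center (Matrix.SpecialLinearGroup (Fin 2) (ZMod 2)) = ⊥ := by
          rw [eq_bot_iff]
          intro g hg
          rcases sl2_mem_center hg with rfl | rfl
          · exact one_mem _
          · rw [mem_bot]; decide
        exact ⟨e.trans ((QuotientGroup.quotientMulEquivOfEq hz).trans QuotientGroup.quotientBot)⟩
    · right
      haveI : Fact (Nat.Prime 3) := ⟨Nat.prime_three⟩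
      exact small ht h hsp h6

end Cfsg.Agent.S5020
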