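import Mathlib
import Cfsg.Statements.S5021
import Cfsg.Agent.Root.R3

set_option autoImplicit false
open Cfsg

namespace Cfsg.Agent.S5021

open Cfsg.Agent.LocalEven Cfsg.Agent.Root Subgroup
open scoped commutatorElement

/-- In a special rank one group with abelian unipotent subgroups A and B, either A is an elementary abelian p-group for some prime p, or A is torsion-free and divisible (every element of A has an n-th root in A for every positive n). -/
theorem result {X : Type*} [Group X] {A B : Subgroup X} (h : Cfsg.IsRankOneGroup X A B)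
    (hs : Cfsg.IsSpecialRankOnePair A B) (hab : Cfsg.HasAbelianUnipotents A B) :
    (∃ p : ℕ, p.Prime ∧ Cfsg.IsElementaryAbelian p A) ∨
    ((∀ a ∈ A, a ≠ 1 → ¬ IsOfFinOrder a) ∧ ∀ a ∈ A, ∀ n : ℕ, 0 < n → ∃ c ∈ A, c ^ n = a) := by
  have hsp := sp_of_special hs
  by_cases hfin : ∀ a ∈ A, a ≠ 1 → ¬ IsOfFinOrder a
  · right
    refine ⟨hfin, fun a ha n hn => ?_⟩
    by_cases ha1 : a = 1
    · exact ⟨1, one_mem _, by rw [ha1, one_pow]⟩
    · exact sp_divisible h.2 hsp ha fun e => hfin a ha ha1 (isOfFinOrder_iff_pow_eq_one.2 ⟨n, hn, e⟩)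
  · left
    push Not at hfin
    obtain ⟨a, ha, ha1, hfin⟩ := hfin
    obtain ⟨p, k, hp, h1, h2⟩ := exists_prime_order ha1 hfin
    exact ⟨p, hp, hab.1, fun x hx => sp_pow_eq_one h.2 hsp (com_self hab.1) (pow_mem ha k) h1 h2 hx⟩

end Cfsg.Agent.S5021
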