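import Mathlib
import Cfsg.Statements.S5023
import Cfsg.Agent.Root.R2

set_option autoImplicit false
open Cfsg

namespace Cfsg.Agent.S5023

open Cfsg.Agent.LocalEven Cfsg.Agent.Root Subgroup
open scoped commutatorElement

/-- Let X be a rank one group with unipotent subgroups A and B that acts faithfully on an abelian group V (written additively) with A acting quadratically: a' • (a • v − v) = a • v − v for all a, a' in A and v in V. Then A is either torsion-free or an elementary abelian p-group for some prime p. -/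
theorem result {X : Type*} [Group X] {A B : Subgroup X} (h : Cfsg.IsRankOneGroup X A B)
    {V : Type*} [AddCommGroup V] [DistribMulAction X V] (hf : ∀ x : X, (∀ v : V, x • v = v) → x = 1)
    (hq : ∀ a ∈ A, ∀ a' ∈ A, ∀ v : V, a' • (a • v - v) = a • v - v) :
    (∀ a ∈ A, a ≠ 1 → ¬ IsOfFinOrder a) ∨ ∃ p : ℕ, p.Prime ∧ Cfsg.IsElementaryAbelian p A := by
  obtain ⟨ht, h⟩ := h
  have hA : Quad V A := hq
  have hB := quad_right h hA
  have ht' : B ⊔ A = ⊤ := by rw [sup_comm, ht]
  have hmul : ∀ {C : Subgroup X}, Quad V C → ∀ a ∈ C, ∀ a' ∈ C, ∀ v : V,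
      (a * a') • v - v = (a • v - v) + (a' • v - v) := by
    intro C hC a ha a' ha' v
    have := hC a' ha' a ha v
    rw [smul_sub] at this
    rw [mul_smul, ← this]; abel
  have hcom : ∀ {C : Subgroup X}, Quad V C → Com C C := by
    intro C hC a ha a' ha'
    have : (a * a') * (a' * a)⁻¹ = 1 := by
      apply hf
      intro v
      rw [mul_smul]
      set w := (a' * a)⁻¹ • v with hw
      have hv : v = (a' * a) • w := by rw [hw, smul_inv_smul]
      have h1 := hmul hC a ha a' ha' w
      have h2 := hmul hC a' ha' a ha w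
      rw [hv]
      have : (a * a') • w - w = (a' * a) • w - w := by rw [h1, h2, add_comm]
      exact sub_left_inj.1 this
    exact mul_inv_eq_one.1 this
  have hne : ∃ m ∈ cM X V, m ∉ Fx V (⊤ : Subgroup X) := by
    by_contra hc
    push Not at hc
    have hq' : Quad V (⊤ : Subgroup X) := fun a _ a' _ n => (hc _ (sub_mem_cM a n)).2 a' trivial
    exact r1_not_com h ((hcom hq').mono le_top le_top)
  have hpow : ∀ a ∈ A, ∀ (n : ℕ) (v : V), (a ^ n) • v - v = n • (a • v - v) := by
    intro a ha n v
    induction n with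
    | zero => simp
    | succ n ih => rw [pow_succ, hmul hA _ (pow_mem ha n) a ha, ih, succ_nsmul]
  by_cases hfin : ∀ a ∈ A, a ≠ 1 → ¬ IsOfFinOrder a
  · exact Or.inl hfin
  right
  push Not at hfin
  obtain ⟨a0, ha0, ha01, hfin⟩ := hfin
  have hord : orderOf a0 ≠ 1 := fun e => ha01 (orderOf_eq_one_iff.1 e)
  obtain ⟨p, hp, k, hk⟩ := Nat.exists_prime_and_dvd hord
  have hpos := hfin.orderOf_pos
  have ha1 : a0 ^ k ≠ 1 := by
    apply pow_ne_one_of_lt_orderOf
    · rintro rfl; omega
    · have := hp.two_le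
      have hk0 : 0 < k := Nat.pos_of_ne_zero (by rintro rfl; omega)
      nlinarith
  have hap : (a0 ^ k) ^ p = 1 := by rw [← pow_mul, mul_comm, ← hk, pow_orderOf_eq_one]
  set a := a0 ^ k with ha_def
  have ha : a ∈ A := pow_mem ha0 k
  obtain ⟨b, hb, -, e⟩ := r1_cond h ha ha1
  have hU : ∀ u ∈ Fx V A, p • u ∈ Fx V (⊤ : Subgroup X) := by
    intro u hu
    have h1 := quad_inv ht' hB hA hb ha e.symm hu
    have h2 := AddSubgroup.nsmul_mem _ h1 p
    rwa [smul_sub, ← hpow a ha, hap, one_smul, sub_self, sub_zero] at h2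
  refine ⟨p, hp, isMulCommutative_of_com (hcom hA), fun a' ha' => ?_⟩
  refine quad_ker (r1_symm h) ht' hB hA hne (pow_mem ha' p) fun w hw => ?_
  rw [hpow a' ha']
  exact hU _ (hA.mem_Fx ha' w)

end Cfsg.Agent.S5023
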