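import Mathlib
import Cfsg.Statements.S5026
import Cfsg.Agent.Root.A4

set_option autoImplicit false
open Cfsg

namespace Cfsg.Agent.S5026

open Cfsg.Agent.LocalEven Cfsg.Agent.Root Subgroup
open scoped commutatorElement

theorem key {G : Type*} [Group G] {S : Set (Subgroup G)} (hS : IsRootSubgroupSet S) (hdeg : IsDegenerateRootSet S)
    {a b : G} (ha : a ∈ rootElements S) (hb : b ∈ rootElements S) (hab : a * b = b * a) (hab1 : a * b ≠ 1)
    {C : Subgroup G} (hC : C ∈ S) (h : ∀ c ∈ C, (a * b) * c = c * (a * b)) : ∀ c ∈ C, a * c = c * a := by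
  have hR := rs_of hS
  obtain ⟨ha1, A, hA, ha⟩ := ha
  obtain ⟨hb1, B, hB, hb⟩ := hb
  rcases deg_tri hS hdeg hA hC with h1 | h1
  · exact h1 a ha
  exfalso
  have e : cj b⁻¹ C = cj a C := by
    rw [cj_eq_iff, inv_inv, cj_cj, ← hab, cj_eq_of_comm h]
  obtain ⟨h2, -⟩ := hR.mem_om_of_cj_eq hA hC hB h1 ha ha1 (inv_mem hb) e
  have h3 : A = B := by
    by_contra hne
    exact ha1 (r1_eq_one_of_comm (om_r1 h1 left_mem_om h2 hne) ha hb hb1 hab)
  exact hab1 (r1_center_inf h1 (mul_mem ha (h3 ▸ hb)) h)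

theorem le_cent_iff {G : Type*} [Group G] {C : Subgroup G} {x : G} :
    C ≤ centralizer (zpowers x : Set G) ↔ ∀ c ∈ C, x * c = c * x := by
  constructor
  · intro h c hc; exact mem_centralizer_iff.1 (h hc) x (mem_zpowers x)
  · intro h c hc
    rw [mem_centralizer_iff]
    rintro _ ⟨k, rfl⟩
    exact (Commute.zpow_left (h c hc) k).eq

/-- Let S be a degenerate set of abstract root subgroups of G (a set of abstract transvection groups) and let a, b be commuting non-identity elements of members of S with a b ≠ 1. Then the members of S centralizing a b are exactly those centralizing both a and b. -/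
theorem result {G : Type*} [Group G] {S : Set (Subgroup G)} (hS : Cfsg.IsRootSubgroupSet S) (hdeg : Cfsg.IsDegenerateRootSet S)
    {a b : G} (ha : a ∈ Cfsg.rootElements S) (hb : b ∈ Cfsg.rootElements S) (hab : a * b = b * a) (hab1 : a * b ≠ 1) :
    Cfsg.centralizingMembers S (Subgroup.zpowers (a * b)) =
      Cfsg.centralizingMembers S (Subgroup.zpowers a) ∩ Cfsg.centralizingMembers S (Subgroup.zpowers b) := by
  ext C
  simp only [centralizingMembers, Set.mem_setOf_eq, Set.mem_inter_iff, le_cent_iff]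
  constructor
  · rintro ⟨hC, h⟩
    exact ⟨⟨hC, key hS hdeg ha hb hab hab1 hC h⟩, hC, key hS hdeg hb ha hab.symm (hab ▸ hab1) hC (hab ▸ h)⟩
  · rintro ⟨⟨hC, h1⟩, -, h2⟩
    exact ⟨hC, fun c hc => (Commute.mul_left (h1 c hc) (h2 c hc)).eq⟩

end Cfsg.Agent.S5026
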