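import Mathlib
import Cfsg.Statements.S5027
import Cfsg.Agent.Root.A3

set_option autoImplicit false
open Cfsg

namespace Cfsg.Agent.S5027

open Cfsg.Agent.LocalEven Cfsg.Agent.Root Subgroup
open scoped commutatorElement

/-- Let S be a set of abstract root subgroups of G such that every member of S has a rank one partner in S (the graph of rank one pairs on S has no isolated vertex). Then the second centre of G equals its centre. -/
theorem result {G : Type*} [Group G] {S : Set (Subgroup G)} (hS : Cfsg.IsRootSubgroupSet S)
    (hF : ∀ A ∈ S, ¬ Cfsg.IsIsolatedIn (Cfsg.FAdj S) S A) : Subgroup.upperCentralSeries G 2 = Subgroup.center G := by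
  have hR := rs_of hS
  apply le_antisymm
  · intro z hz
    have hz' : ∀ y, ⁅z, y⁆ ∈ center G := fun y => by
      rw [← Subgroup.upperCentralSeries_one]
      exact Subgroup.mem_upperCentralSeries_succ_iff.1 hz y
    have : (⨆ A ∈ S, A) ≤ centralizer ({z} : Set G) := by
      refine iSup₂_le fun A hA a ha => ?_
      rw [mem_centralizer_singleton_iff]
      by_cases ha1 : a = 1
      · simp [ha1]
      obtain ⟨B, hB, h⟩ := (ni_iff hA).1 (hF A hA)
      have := hR.eq_one_of_mul_mem hA hB (hS.conj_mem A hA z) h
        (fun x _ => (mem_center_iff.1 (hz' a) x).symm) (fun x _ => (mem_center_iff.1 (hz' a) x).symm) ha ha1 (by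
          have : ⁅z, a⁆ * a = z * a * z⁻¹ := by simp only [commutatorElement_def]; group
          rw [this]; exact conj_mem_cj ha)
      exact (commutatorElement_eq_one_iff_mul_comm.1 this).symm
    rw [hS.generates] at this
    exact mem_center_iff.2 fun g => mem_centralizer_singleton_iff.1 (this (mem_top g))
  · rw [← Subgroup.upperCentralSeries_one]
    exact Subgroup.upperCentralSeries_mono G (by norm_num)

end Cfsg.Agent.S5027
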