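import Mathlib
import Cfsg.Statements.S5029
import Cfsg.Agent.Root.A3

set_option autoImplicit false
open Cfsg

namespace Cfsg.Agent.S5029

open Cfsg.Agent.LocalEven Cfsg.Agent.Root Subgroup
open scoped commutatorElement

/-- Let S be a set of abstract root subgroups of G, A ∈ S having a rank one partner in S, and B ∈ S with C = ⁅A, B⁆ ∈ S. Then the members of S contained in AC are the conjugates of A by elements of B together with C, they partition AC, the members of S inside AC partition AC so that A is a line partner of C, and for every non-identity a ∈ A the map b ↦ a⁻¹ b⁻¹ a b is an isomorphism from B onto C. -/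
theorem result {G : Type*} [Group G] {S : Set (Subgroup G)} (hS : Cfsg.IsRootSubgroupSet S)
    {A B : Subgroup G} (hA : ¬ Cfsg.IsIsolatedIn (Cfsg.FAdj S) S A) (hAS : A ∈ S) (hB : B ∈ S) (hC : ⁅A, B⁆ ∈ S) :
    Cfsg.membersIn S (A ⊔ ⁅A, B⁆) = (fun b : G => Cfsg.conjBy A b) '' (B : Set G) ∪ {⁅A, B⁆} ∧
    Cfsg.IsSubgroupPartition (A ⊔ ⁅A, B⁆) (Cfsg.membersIn S (A ⊔ ⁅A, B⁆)) ∧
    A ∈ Cfsg.linePartners S ⁅A, B⁆ ∧
    ∀ a ∈ A, a ≠ 1 → ∃ φ : ↥B ≃* ↥⁅A, B⁆, ∀ b : ↥B, (φ b : G) = a⁻¹ * (b : G)⁻¹ * a * b := by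
  have hR := rs_of hS
  have hni := (ni_iff hAS).1 hA
  have hcc := hR.cc_of_mem hAS hB hC
  have hp := hR.line_partition hAS hB hC hni
  refine ⟨?_, hp, ⟨⟨hAS, hR.line_ne hAS hB hC, com_iff.2 hcc.cl⟩, by rw [sup_comm]; exact hp⟩, ?_⟩
  · ext E
    constructor
    · rintro ⟨hE, hle⟩
      rcases hR.line_members hAS hB hC hni hE hle with e | ⟨b, hb, e⟩
      · exact Or.inr e
      · exact Or.inl ⟨b, hb, e.symm⟩
    · rintro (⟨b, hb, rfl⟩ | e)
      · exact ⟨hS.conj_mem A hAS b, hcc.cj_le hb⟩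
      · rw [Set.mem_singleton_iff.1 e]; exact ⟨hC, le_sup_right⟩
  · intro a ha ha1
    have e : ∀ b ∈ B, a⁻¹ * b⁻¹ * a * b = ⁅a, b⁆ := fun b hb => by
      have : a⁻¹ * b⁻¹ * a * b = ⁅a⁻¹, b⁻¹⁆ := by simp only [commutatorElement_def]; group
      rw [this, hcc.inv_left ha (inv_mem hb), hcc.inv_right ha hb, inv_inv]
    let φ : B →* ↥⁅A, B⁆ := MonoidHom.mk' (fun b => ⟨⁅a, (b : G)⁆, commutator_mem_commutator ha b.2⟩)
      fun b b' => Subtype.ext (hcc.mul_right ha b.2 b'.2)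
    have hinj : Function.Injective φ := by
      rw [injective_iff_map_eq_one]
      intro b hb
      exact Subtype.ext (hR.line_inj hAS hB hC hni ha ha1 b.2
        (commutatorElement_eq_one_iff_mul_comm.1 (congrArg Subtype.val hb)))
    have hsurj : Function.Surjective φ := by
      intro c
      obtain ⟨b, hb, e⟩ := hcc.sl a ha ha1 c c.2
      exact ⟨⟨b, hb⟩, Subtype.ext e.symm⟩
    exact ⟨MulEquiv.ofBijective φ ⟨hinj, hsurj⟩, fun b => (e b b.2).symm⟩

end Cfsg.Agent.S5029
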