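import Mathlib
import Cfsg.Statements.S5030
import Cfsg.Agent.Root.A3

set_option autoImplicit false
open Cfsg

namespace Cfsg.Agent.S5030

open Cfsg.Agent.LocalEven Cfsg.Agent.Root Subgroup
open scoped commutatorElement

/-- Let S be a set of abstract root subgroups of G and A, B, C ∈ S with ⁅A, B⁆ ∈ S and ⁅B, C⁆ ∈ S, where A and C are different and commute. For a non-identity b ∈ B put X = ⟨A, b⁻¹ C b⟩ and Y = ⟨b⁻¹ A b, C⟩ and R = ⟨A, B, C⟩. Then X and Y are either both abelian or both nilpotent of class exactly two; X and Y commute elementwise; XY is normal in R with R = (XY) B; and R is nilpotent. -/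
theorem result {G : Type*} [Group G] {S : Set (Subgroup G)} (hS : Cfsg.IsRootSubgroupSet S)
    {A B C : Subgroup G} (hA : A ∈ S) (hB : B ∈ S) (hC : C ∈ S) (hAB : ⁅A, B⁆ ∈ S) (hBC : ⁅B, C⁆ ∈ S)
    (hAC : C ∈ Cfsg.commutingPartners S A)
    {b : G} (hb : b ∈ B) (hb1 : b ≠ 1) :
    ((IsMulCommutative ↥(A ⊔ Cfsg.conjBy C b⁻¹) ∧ IsMulCommutative ↥(Cfsg.conjBy A b⁻¹ ⊔ C)) ∨
      ((¬ IsMulCommutative ↥(A ⊔ Cfsg.conjBy C b⁻¹) ∧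
          ⁅⁅A ⊔ Cfsg.conjBy C b⁻¹, A ⊔ Cfsg.conjBy C b⁻¹⁆, A ⊔ Cfsg.conjBy C b⁻¹⁆ = ⊥) ∧
        (¬ IsMulCommutative ↥(Cfsg.conjBy A b⁻¹ ⊔ C) ∧
          ⁅⁅Cfsg.conjBy A b⁻¹ ⊔ C, Cfsg.conjBy A b⁻¹ ⊔ C⁆, Cfsg.conjBy A b⁻¹ ⊔ C⁆ = ⊥))) ∧
    ⁅A ⊔ Cfsg.conjBy C b⁻¹, Cfsg.conjBy A b⁻¹ ⊔ C⁆ = ⊥ ∧
    (∀ r ∈ A ⊔ B ⊔ C, Cfsg.conjBy ((A ⊔ Cfsg.conjBy C b⁻¹) ⊔ (Cfsg.conjBy A b⁻¹ ⊔ C)) r =
      (A ⊔ Cfsg.conjBy C b⁻¹) ⊔ (Cfsg.conjBy A b⁻¹ ⊔ C)) ∧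
    ((A ⊔ Cfsg.conjBy C b⁻¹) ⊔ (Cfsg.conjBy A b⁻¹ ⊔ C)) ⊔ B = A ⊔ B ⊔ C ∧
    Group.IsNilpotent ↥(A ⊔ B ⊔ C) := by
  have hR := rs_of hS
  have hc : Com A C := com_iff.1 hAC.2.2
  have h1 := hR.cc_of_mem hA hB hAB
  have h2 := (hR.cc_of_mem hB hC hBC).symm
  have hb' := inv_mem hb
  have hb1' := inv_ne_one.2 hb1
  have key : ∀ {A C : Subgroup G}, A ∈ S → C ∈ S → Com A C → CC C B → ∀ b ∈ B, b ≠ 1 →
      (IsMulCommutative ↥(A ⊔ cj b C) ↔ Com A ⁅C, B⁆) := by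
    intro A C hA hC hc h2 b hb hb1
    constructor
    · intro h
      exact (hc.sup_right ((com_self h).mono le_sup_left le_sup_right)).mono le_rfl (h2.le_sup_cj hb hb1)
    · intro h
      have h3 : Com A (cj b C) := (hc.sup_right h).mono le_rfl (h2.cj_le hb)
      exact isMulCommutative_of_com (((hR.com A hA).sup_right h3).sup_left (h3.symm.sup_right ((hR.com C hC).cj b)))
  have hiff : IsMulCommutative ↥(A ⊔ cj b⁻¹ C) ↔ IsMulCommutative ↥(cj b⁻¹ A ⊔ C) := by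
    rw [key hA hC hc h2 _ hb' hb1', ← key hA hC hc h2 b hb hb1]
    constructor
    · intro h
      have := isMulCommutative_cj b⁻¹ h
      rwa [cj_sup, cj_inv_cj] at this
    · intro h
      have := isMulCommutative_cj b h
      rwa [cj_sup, cj_cj_inv] at this
  have hP : (A ⊔ cj b⁻¹ C) ⊔ (cj b⁻¹ A ⊔ C) = (A ⊔ ⁅A, B⁆) ⊔ (C ⊔ ⁅C, B⁆) := by
    rw [← h1.sup_cj_eq hb' hb1', ← h2.sup_cj_eq hb' hb1']
    ac_rfl
  refine ⟨?_, com_iff.2 (hR.nil3_com hA hC hc h1 h2 hb'), ?_, ?_, hR.nil3 hA hB hC hc h1 h2⟩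
  · by_cases h : IsMulCommutative ↥(A ⊔ cj b⁻¹ C)
    · exact Or.inl ⟨h, hiff.1 h⟩
    · refine Or.inr ⟨⟨h, hR.nil3_class hA hB hC hc h1 h2 hb'⟩, fun h' => h (hiff.2 h'), ?_⟩
      show ⁅⁅cj b⁻¹ A ⊔ C, cj b⁻¹ A ⊔ C⁆, cj b⁻¹ A ⊔ C⁆ = ⊥
      rw [sup_comm]; exact hR.nil3_class hC hB hA hc.symm h2 h1 hb'
  · intro r hr
    show cj r ((A ⊔ cj b⁻¹ C) ⊔ (cj b⁻¹ A ⊔ C)) = (A ⊔ cj b⁻¹ C) ⊔ (cj b⁻¹ A ⊔ C)
    rw [hP]
    apply cj_eq_of_mem_normalizer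
    refine (sup_le (sup_le ?_ ?_) ?_ :
      A ⊔ B ⊔ C ≤ normalizer (((A ⊔ ⁅A, B⁆) ⊔ (C ⊔ ⁅C, B⁆) : Subgroup G) : Set G)) hr
    · exact (le_sup_left.trans le_sup_left).trans le_normalizer
    · intro x hx
      rw [← cj_eq_self_iff, cj_sup, h1.cj_line hx, h2.cj_line hx]
    · exact (le_sup_left.trans le_sup_right).trans le_normalizer
  · show ((A ⊔ cj b⁻¹ C) ⊔ (cj b⁻¹ A ⊔ C)) ⊔ B = _
    apply le_antisymm
    · refine sup_le (sup_le (sup_le ?_ ?_) (sup_le ?_ ?_)) ?_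
      · exact le_sup_left.trans le_sup_left
      · exact cj_le_of_mem (mem_sup_left (mem_sup_right hb')) le_sup_right
      · exact cj_le_of_mem (mem_sup_left (mem_sup_right hb')) (le_sup_left.trans le_sup_left)
      · exact le_sup_right
      · exact le_sup_right.trans le_sup_left
    · exact sup_le (sup_le ((le_sup_left.trans le_sup_left).trans le_sup_left) le_sup_right)
        ((le_sup_right.trans le_sup_right).trans le_sup_left)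

end Cfsg.Agent.S5030
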