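import Mathlib
import Cfsg.Statements.S5033
import Cfsg.Agent.Root.Map

set_option autoImplicit false
open Cfsg

namespace Cfsg.Agent.S5033

open Cfsg.Agent.LocalEven Cfsg.Agent.Root Subgroup
open scoped commutatorElement

/-- Quasisimplicity criterion for groups generated by abstract root subgroups. Let S be a set of abstract root subgroups of G with more than one member such that: the graph of rank one pairs on S is connected; no two different members of S have the same set of commuting members of S; if S is degenerate then every member of S has more than three elements; and every rank one pair in S is special. Then for every A ∈ S one has G = G' A with A ∩ G' ≠ 1, and the commutator subgroup G' is quasisimple. Moreover G is perfect if S is non-degenerate, or if some rank one pair A, B in S generates a perfect group. -/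
theorem result {G : Type*} [Group G] {S : Set (Subgroup G)} (hS : Cfsg.IsRootSubgroupSet S) (h2 : ∃ A ∈ S, ∃ B ∈ S, A ≠ B)
    (h1 : Cfsg.IsConnectedFamily (Cfsg.FAdj S) S)
    (h2' : ∀ A ∈ S, ∀ C ∈ S, A ≠ C → Cfsg.centralizingMembers S A ≠ Cfsg.centralizingMembers S C)
    (h3 : Cfsg.IsDegenerateRootSet S → ∀ A ∈ S, 3 < ENat.card A)
    (h4 : ∀ A ∈ S, ∀ B ∈ Cfsg.rankOnePartners S A, Cfsg.IsSpecialRankOnePair A B) :
    (∀ A ∈ S, commutator G ⊔ A = ⊤ ∧ A ⊓ commutator G ≠ ⊥) ∧ Cfsg.IsQuasisimple ↥(commutator G) ∧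
    (Cfsg.IsNondegenerateRootSet S → commutator G = ⊤) ∧
    ((∃ A ∈ S, ∃ B ∈ Cfsg.rankOnePartners S A, Group.IsPerfect ↥(A ⊔ B)) → commutator G = ⊤) := by
  obtain ⟨A0, hA0, B0, hB0, hne⟩ := h2
  have hcl : IsRootSubgroupClass S := ⟨hS, ⟨A0, hA0⟩, fun C hC D hD => conj_of_reach (h1 C hC D hD)⟩
  have hni := class_ni hcl hA0 (ni_of_reach (h1 A0 hA0 B0 hB0) hne.symm)
  have h5 : (∃ A ∈ S, ∃ B ∈ S, ⁅A, B⁆ ∈ S) ∨
      ∀ A ∈ S, ∀ B ∈ S, IsRankOnePair A B → ⁅A ⊔ B, A ⊔ B⁆ = A ⊔ B := by
    by_cases hd : IsDegenerateRootSet S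
    · exact Or.inr fun A hA B hB h =>
        sp_perfect h (sp_of_special (h4 A hA B ⟨hB, h⟩)) ((rs_of hS).com A hA) (h3 hd A hA)
    · left
      by_contra hc
      exact hd fun A hA B hB h => hc ⟨A, hA, B, hB, h.1⟩
  have h6 : ∀ A ∈ S, ∀ C ∈ S, (∀ E ∈ S, Com E A ↔ Com E C) → A = C := by
    intro A hA C hC h
    by_contra hne
    refine h2' A hA C hC hne ?_
    ext E
    exact ⟨fun hE => ⟨hE.1, com_iff_le.1 ((h E hE.1).1 (com_iff_le.2 hE.2))⟩,
      fun hE => ⟨hE.1, com_iff_le.1 ((h E hE.1).2 (com_iff_le.2 hE.2))⟩⟩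
  have hp := class_perfect hcl hni h5
  have hq := class_quasisimple hcl hni h6 h5
  refine ⟨fun A hA => ?_, by rw [hp, Comp2.quasisimple_top_iff]; exact hq, fun _ => hp, fun _ => hp⟩
  rw [hp, top_sup_eq, inf_top_eq]
  exact ⟨rfl, hS.ne_bot A hA⟩

end Cfsg.Agent.S5033
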