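import Mathlib
import Cfsg.Statements.S5034
import Cfsg.Agent.Root.A4

set_option autoImplicit false
open Cfsg

namespace Cfsg.Agent.S5034

open Cfsg.Agent.LocalEven Cfsg.Agent.Root Subgroup
open scoped commutatorElement

/-- Let S be a non-degenerate class of abstract root subgroups of G, A ∈ S and B a rank one partner of A. Then some line partner C of A has ⁅B, C⁆ ∈ S, and the rank one pair A, B is special. -/
theorem result {G : Type*} [Group G] {S : Set (Subgroup G)} (hS : Cfsg.IsRootSubgroupClass S) (hnd : Cfsg.IsNondegenerateRootSet S)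
    {A B : Subgroup G} (hA : A ∈ S) (hB : B ∈ Cfsg.rankOnePartners S A) :
    (∃ C ∈ Cfsg.linePartners S A, C ∈ Cfsg.commutatorPartners S B) ∧ Cfsg.IsSpecialRankOnePair A B := by
  obtain ⟨P, hP, F, hF, -, -, e1, e2, -⟩ := class_line hS (nd_comm hnd) hA hB.1 hB.2
  refine ⟨⟨P, e2 ▸ (rs_of hS.1).line_partner hA hF (e2 ▸ hP) ⟨B, hB.1, hB.2⟩, hP, ?_⟩,
    special_of_sp hB.2 (class_sp hS (nd_comm hnd) hA hB.1 hB.2)⟩
  rw [commutator_comm, e1]; exact hF

end Cfsg.Agent.S5034
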