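import Mathlib
import Cfsg.Statements.S5035
import Cfsg.Agent.Root.Map

set_option autoImplicit false
open Cfsg

namespace Cfsg.Agent.S5035

open Cfsg.Agent.LocalEven Cfsg.Agent.Root Subgroup
open scoped commutatorElement

/-- Let S be a set of abstract root subgroups of G whose graph of rank one pairs is connected, and f a homomorphism from G onto a group H. Then either the images of the members of S form a set of abstract root subgroups of H whose graph of rank one pairs is again connected, or H equals the image of a member of S. -/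
theorem result {G H : Type*} [Group G] [Group H] {S : Set (Subgroup G)} (hS : Cfsg.IsRootSubgroupSet S)
    (hc : Cfsg.IsConnectedFamily (Cfsg.FAdj S) S) (f : G →* H) (hf : Function.Surjective f) :
    (Cfsg.IsRootSubgroupSet ((fun A : Subgroup G => A.map f) '' S) ∧
      Cfsg.IsConnectedFamily (Cfsg.FAdj ((fun A : Subgroup G => A.map f) '' S)) ((fun A : Subgroup G => A.map f) '' S)) ∨
    ∃ A ∈ S, A.map f = ⊤ := by
  by_cases hne : ∀ A ∈ S, A.map f ≠ ⊥
  · refine Or.inl ⟨isRootSubgroupSet_map hS f hf hne, ?_⟩
    rintro _ ⟨A, hA, rfl⟩ _ ⟨B, hB, rfl⟩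
    exact freach_map f (hc A hA B hB)
  · push Not at hne
    obtain ⟨A, hA, e⟩ := hne
    refine Or.inr ⟨A, hA, ?_⟩
    rw [eq_top_iff, ← map_top_of_surjective f hf, ← hS.generates]
    simp only [Subgroup.map_iSup]
    refine iSup₂_le fun B hB => ?_
    obtain ⟨g, rfl⟩ := conj_of_reach (hc A hA B hB)
    rw [map_cj, e, cj_bot]

end Cfsg.Agent.S5035
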