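import Mathlib
import Cfsg.Statements.S5036
import Cfsg.Agent.Root.A3

set_option autoImplicit false
open Cfsg

namespace Cfsg.Agent.S5036

open Cfsg.Agent.LocalEven Cfsg.Agent.Root Subgroup
open scoped commutatorElement

/-- Let S be a set of abstract root subgroups of G, A, B ∈ S with C = ⁅A, B⁆ ∈ S, and D ∈ S with ⁅D, C⁆ = A. Put X = ⟨B, D⟩ and N = AC. Then B, D form a rank one pair; the conjugates of A under X are the conjugates of C under X, namely the conjugates of A by elements of B together with C, equally the conjugates of C by elements of D together with A, and they partition N; and the centralizer of N in X is central in X. -/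
theorem result {G : Type*} [Group G] {S : Set (Subgroup G)} (hS : Cfsg.IsRootSubgroupSet S)
    {A B D : Subgroup G} (hA : A ∈ S) (hB : B ∈ S) (hC : ⁅A, B⁆ ∈ S) (hD : D ∈ S) (hDC : ⁅D, ⁅A, B⁆⁆ = A) :
    Cfsg.IsRankOnePair B D ∧
    {E | ∃ x ∈ B ⊔ D, E = Cfsg.conjBy A x} = {E | ∃ x ∈ B ⊔ D, E = Cfsg.conjBy ⁅A, B⁆ x} ∧
    {E | ∃ x ∈ B ⊔ D, E = Cfsg.conjBy A x} = (fun b : G => Cfsg.conjBy A b) '' (B : Set G) ∪ {⁅A, B⁆} ∧
    {E | ∃ x ∈ B ⊔ D, E = Cfsg.conjBy A x} = (fun d : G => Cfsg.conjBy ⁅A, B⁆ d) '' (D : Set G) ∪ {A} ∧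
    Cfsg.IsSubgroupPartition (A ⊔ ⁅A, B⁆) {E | ∃ x ∈ B ⊔ D, E = Cfsg.conjBy A x} ∧
    ∀ x ∈ (B ⊔ D) ⊓ Subgroup.centralizer ((A ⊔ ⁅A, B⁆ : Subgroup G) : Set G), ∀ y ∈ B ⊔ D, x * y = y * x := by
  have hR := rs_of hS
  have e2 : ⁅⁅A, B⁆, D⁆ = A := by rw [commutator_comm]; exact hDC
  have h := hR.nat_r1 hA hB hC hD rfl e2
  have c1 := hR.cc_of_mem hA hB hC
  have o1 := fun E => hR.nat_orbit hA hB hC hD rfl e2 (E := E)
  have o2 := fun E => hR.nat_orbit hC hD hA hB e2 rfl (E := E)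
  have e3 : {E | ∃ x ∈ B ⊔ D, E = cj x A} = {E | ∃ x ∈ B ⊔ D, E = cj x ⁅A, B⁆} := by
    obtain ⟨z, hz, e⟩ := (o1 _).2 (Or.inl rfl)
    ext E
    constructor
    · rintro ⟨x, hx, rfl⟩
      exact ⟨x * z⁻¹, mul_mem hx (inv_mem hz), by rw [e, cj_cj, inv_mul_cancel_right]⟩
    · rintro ⟨x, hx, rfl⟩
      exact ⟨x * z, mul_mem hx hz, by rw [cj_mul, ← e]⟩
  refine ⟨h, e3, ?_, ?_, ⟨?_, ?_, ?_⟩, ?_⟩
  · ext E
    refine (o1 E).trans ⟨?_, ?_⟩
    · rintro (e | ⟨b, hb, e⟩)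
      · exact Or.inr e
      · exact Or.inl ⟨b, hb, e.symm⟩
    · rintro (⟨b, hb, e⟩ | e)
      · exact Or.inr ⟨b, hb, e.symm⟩
      · exact Or.inl e
  · refine e3.trans ?_
    ext E
    rw [sup_comm]
    refine (o2 E).trans ⟨?_, ?_⟩
    · rintro (e | ⟨b, hb, e⟩)
      · exact Or.inr e
      · exact Or.inl ⟨b, hb, e.symm⟩
    · rintro (⟨b, hb, e⟩ | e)
      · exact Or.inr ⟨b, hb, e.symm⟩
      · exact Or.inl e
  · rintro E ⟨x, hx, rfl⟩
    rw [← hR.nat_cj_line hA hB hC hD rfl e2 hx]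
    exact cj_mono _ le_sup_left
  · intro x hx hx1
    obtain ⟨a, ha, c, hc, rfl⟩ := c1.mem_sup_iff.1 hx
    by_cases ha1 : a = 1
    · exact ⟨_, (o1 _).2 (Or.inl rfl), by rw [ha1, one_mul]; exact hc⟩
    · obtain ⟨b, hb, e⟩ := c1.mem_cj ha ha1 hc
      exact ⟨_, ⟨b, mem_sup_left hb, rfl⟩, e ▸ conj_mem_cj ha⟩
  · intro E hE E' hE' hne
    have k : ∀ b ∈ B, ∀ x ∈ cj b A, x ∈ ⁅A, B⁆ → x = 1 := by
      intro b hb x h1 h2
      obtain ⟨a, ha, rfl⟩ := mem_cj'.1 h1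
      rw [← c1.cr.symm.cj_eq hb, conj_mem_cj_iff] at h2
      rw [c1.inf_eq_one (hR.ne_bot _ hC) ha h2]; simp
    rw [eq_bot_iff]
    intro x hx
    rcases (o1 E).1 hE with e | ⟨b, hb, e⟩ <;> rcases (o1 E').1 hE' with e' | ⟨b', hb', e'⟩
    · exact absurd (e.trans e'.symm) hne
    · exact k b' hb' x (e' ▸ hx.2) (e ▸ hx.1)
    · exact k b hb x (e ▸ hx.1) (e' ▸ hx.2)
    · by_contra hx1
      exact hne (by rw [e, e', hR.nat_cj_inj hA hB hC hD rfl e2 hb hb' (e ▸ hx.1) (e' ▸ hx.2) hx1])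
  · have hn : B ⊔ D ≤ normalizer (((B ⊔ D) ⊓ centralizer ((A ⊔ ⁅A, B⁆ : Subgroup G) : Set G) : Subgroup G) : Set G) :=
      le_normalizer_inf le_normalizer (le_normalizer_centralizer fun x hx =>
        cj_eq_self_iff.1 (hR.nat_cj_line hA hB hC hD rfl e2 hx))
    rcases r1_normal h inf_le_left hn with h1 | h1
    · exfalso
      obtain ⟨z, hz, e⟩ := (o2 A).2 (Or.inl rfl)
      rw [sup_comm] at hz
      obtain ⟨k, hk, b, hb, rfl⟩ := (mem_sup_iff_of_le_normalizer' (le_sup_left.trans hn)).1 (h1 hz)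
      rw [cj_mul, c1.cr.symm.cj_eq hb, cj_eq_of_comm fun y hy =>
        (mem_centralizer_iff.1 (mem_inf.1 hk).2 y (mem_sup_right hy)).symm] at e
      exact hR.line_ne hA hB hC e
    · exact h1

end Cfsg.Agent.S5036
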