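import Mathlib
import Cfsg.Statements.S5037
import Cfsg.Agent.Root.A4

set_option autoImplicit false
open Cfsg

namespace Cfsg.Agent.S5037

open Cfsg.Agent.LocalEven Cfsg.Agent.Root Subgroup
open scoped commutatorElement

/-- Let S be a class of abstract root subgroups of G that is either degenerate or non-degenerate (so either the commutator case never occurs, or all three cases occur), and A ≠ C members of S. If every member of S commuting with A commutes with C, then A and C have the same commuting members of S; and if every rank one partner of A is a rank one partner of C, then A and C commute and have the same rank one partners. -/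
theorem result {G : Type*} [Group G] {S : Set (Subgroup G)} (hS : Cfsg.IsRootSubgroupClass S)
    (hdn : Cfsg.IsDegenerateRootSet S ∨ Cfsg.IsNondegenerateRootSet S)
    {A C : Subgroup G} (hA : A ∈ S) (hC : C ∈ S) (hAC : A ≠ C) :
    (Cfsg.centralizingMembers S A ⊆ Cfsg.centralizingMembers S C →
      Cfsg.centralizingMembers S A = Cfsg.centralizingMembers S C) ∧
    (Cfsg.rankOnePartners S A ⊆ Cfsg.rankOnePartners S C →
      ⁅A, C⁆ = ⊥ ∧ Cfsg.rankOnePartners S A = Cfsg.rankOnePartners S C) := by
  have hR := rs_of hS.1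
  by_cases hni : ∀ E ∈ S, NI S E
  · constructor
    · intro h
      refine Set.Subset.antisymm h fun E hE => ⟨hE.1, com_iff_le.1 ?_⟩
      exact hR.cm_symm hA hC (hni C hC) (fun E hE h1 => com_iff_le.2 (h ⟨hE, com_iff_le.1 h1⟩).2) E hE.1
        (com_iff_le.2 hE.2)
    · intro h
      have h' : ∀ E ∈ S, IsRankOnePair A E → IsRankOnePair C E := fun E hE h1 => (h ⟨hE, h1⟩).2
      have hc := hR.com_of_om hA hC hni h'
      exact ⟨com_iff.2 hc, Set.Subset.antisymm h fun E hE => ⟨hE.1, hR.om_symm' hA hC (hni A hA) hc h' E hE.1 hE.2⟩⟩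
  · have hn : ∀ E ∈ S, ¬ NI S E := fun E hE h => hni (class_ni hS hE h)
    have hd : IsDegenerateRootSet S := hdn.resolve_right fun h => hni (nd_ni hS h)
    have hc : ∀ E ∈ S, ∀ E' ∈ S, Com E E' := fun E hE E' hE' =>
      (deg_tri hS.1 hd hE hE').resolve_right fun h => hn E hE ⟨E', hE', h⟩
    constructor
    · intro h
      exact Set.Subset.antisymm h fun E hE => ⟨hE.1, com_iff_le.1 (hc E hE.1 A hA)⟩
    · intro h
      exact ⟨com_iff.2 (hc A hA C hC), Set.Subset.antisymm h fun E hE => absurd ⟨E, hE.1, hE.2⟩ (hn C hC)⟩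

end Cfsg.Agent.S5037
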