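import Mathlib
import Cfsg.Statements.S5038
import Cfsg.Agent.Root.A4

set_option autoImplicit false
open Cfsg

namespace Cfsg.Agent.S5038

open Cfsg.Agent.LocalEven Cfsg.Agent.Root Subgroup
open scoped commutatorElement

/-- Let S be a set of abstract root subgroups of G in which every member has a rank one partner, A ∈ S and B a line partner of A. Then the subgroup generated by the members of S normalizing AB permutes the members of S inside AB doubly transitively by conjugation. -/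
theorem result {G : Type*} [Group G] {S : Set (Subgroup G)} (hS : Cfsg.IsRootSubgroupSet S)
    (hF : ∀ A ∈ S, ¬ Cfsg.IsIsolatedIn (Cfsg.FAdj S) S A) {A B : Subgroup G} (hA : A ∈ S) (hB : B ∈ Cfsg.linePartners S A) :
    ∀ C₁ ∈ Cfsg.membersIn S (A ⊔ B), ∀ C₂ ∈ Cfsg.membersIn S (A ⊔ B), ∀ D₁ ∈ Cfsg.membersIn S (A ⊔ B),
      ∀ D₂ ∈ Cfsg.membersIn S (A ⊔ B), C₁ ≠ C₂ → D₁ ≠ D₂ →
        ∃ x ∈ ⨆ E ∈ Cfsg.normalizingMembers S (A ⊔ B), E, Cfsg.conjBy C₁ x = D₁ ∧ Cfsg.conjBy C₂ x = D₂ := by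
  have hR := rs_of hS
  have hni : ∀ E ∈ S, NI S E := fun E hE => (ni_iff hE).1 (hF E hE)
  obtain ⟨D, hD, h⟩ := hni A hA
  obtain ⟨P, hP, F, hF, F', hF', e1, e2, e3, e4⟩ := hR.line_nat hA hB.1.1 hD hni (com_iff.1 hB.1.2.2)
    hB.1.2.1.symm (cov_of_line hB) h
  have hle : F ⊔ F' ≤ ⨆ E ∈ normalizingMembers S (A ⊔ B), E := by
    refine sup_le (le_iSup₂_of_le F ⟨hF, fun x hx => ?_⟩ le_rfl) (le_iSup₂_of_le F' ⟨hF', fun x hx => ?_⟩ le_rfl)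
    · rw [e4]; exact cj_eq_self_iff.1 (hR.nat_cj_line hA hF hP hF' e2 e3 (mem_sup_left hx))
    · rw [e4]; exact cj_eq_self_iff.1 (hR.nat_cj_line hA hF hP hF' e2 e3 (mem_sup_right hx))
  have hmem : ∀ E ∈ membersIn S (A ⊔ B), E = P ∨ ∃ f ∈ F, E = cj f A := fun E hE => by
    have := hR.line_members hA hF (e2 ▸ hP) (hni A hA) hE.1 (by rw [e2, ← e4]; exact hE.2)
    rwa [e2] at this
  have key : ∀ C1 ∈ membersIn S (A ⊔ B), ∀ C2 ∈ membersIn S (A ⊔ B), C1 ≠ C2 →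
      ∃ x ∈ F ⊔ F', cj x P = C1 ∧ cj x A = C2 := by
    intro C1 h1 C2 h2 hne
    obtain ⟨z, hz, ez⟩ := (hR.nat_orbit hA hF hP hF' e2 e3).2 (Or.inl rfl)
    obtain ⟨y, hy, ey⟩ := (hR.nat_orbit hA hF hP hF' e2 e3).2 (hmem C1 h1)
    have hx : y * z⁻¹ ∈ F ⊔ F' := mul_mem hy (inv_mem hz)
    have ex : cj (y * z⁻¹) P = C1 := by rw [ez, cj_cj, inv_mul_cancel_right, ey]
    rcases hmem (cj (y * z⁻¹)⁻¹ C2) ⟨hS.conj_mem C2 h2.1 _, by
      rw [cj_le_iff, inv_inv, e4, hR.nat_cj_line hA hF hP hF' e2 e3 hx, ← e4]; exact h2.2⟩ with e | ⟨f, hf, e⟩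
    · exact absurd (by rw [← ex, ← e, cj_cj_inv]) hne
    · refine ⟨y * z⁻¹ * f, mul_mem hx (mem_sup_left hf), ?_, ?_⟩
      · have := (hR.cc_of_mem hA hF (e2 ▸ hP)).cr.symm.cj_eq hf
        rw [e2] at this
        rw [cj_mul, this, ex]
      · rw [cj_mul, ← e, cj_cj_inv]
  intro C1 h1 C2 h2 D1 h3 D2 h4 hC hD
  obtain ⟨x, hx, rfl, rfl⟩ := key C1 h1 C2 h2 hC
  obtain ⟨y, hy, rfl, rfl⟩ := key D1 h3 D2 h4 hD
  refine ⟨y * x⁻¹, hle (mul_mem hy (inv_mem hx)), ?_, ?_⟩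
  · show cj _ (cj x P) = _
    rw [cj_cj, inv_mul_cancel_right]
  · show cj _ (cj x A) = _
    rw [cj_cj, inv_mul_cancel_right]

end Cfsg.Agent.S5038
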