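import Mathlib
import Cfsg.Statements.S5039
import Cfsg.Agent.Root.Sp39

set_option autoImplicit false
universe u
open Cfsg

namespace Cfsg.Agent.S5039

open Cfsg.Agent.LocalEven Cfsg.Agent.Root Subgroup
open scoped commutatorElement

/-- Let S be a class of abstract root subgroups of G containing two different commuting members. Suppose that, in case S is degenerate and every element of every member of S has order at most 3, the following holds: for every A ∈ S and every rank one partner B of A there are subgroups A₀ ≤ A and B₀ ≤ B generating an image of SL₂(k) with central kernel, k a field with at least four elements, A₀ and B₀ being the images of the unitriangular subgroups. Then every rank one pair A, B in S is special. -/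
theorem result {G : Type u} [Group G] {S : Set (Subgroup G)} (hS : Cfsg.IsRootSubgroupClass S)
    (hcomm : ∃ A ∈ S, ∃ C ∈ S, A ≠ C ∧ ⁅A, C⁆ = ⊥)
    (hH : Cfsg.IsDegenerateRootSet S → (∀ A ∈ S, ∀ a ∈ A, 0 < orderOf a ∧ orderOf a ≤ 3) →
      ∀ A ∈ S, ∀ B ∈ Cfsg.rankOnePartners S A, ∃ A₀ B₀ : Subgroup G, A₀ ≤ A ∧ B₀ ≤ B ∧
        ∃ (k : Type u) (_ : Field k), 3 < ENat.card k ∧ Cfsg.IsPSL2PairOver k A₀ B₀)
    {A B : Subgroup G} (hA : A ∈ S) (hB : B ∈ Cfsg.rankOnePartners S A) : Cfsg.IsSpecialRankOnePair A B := by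
  obtain ⟨hB, h1⟩ := hB
  apply special_of_sp h1
  by_cases hc : ∃ A ∈ S, ∃ B ∈ S, ⁅A, B⁆ ∈ S
  · exact class_sp hS hc hA hB h1
  have hd : IsDegenerateRootSet S := fun A hA B hB h => hc ⟨A, hA, B, hB, h.1⟩
  have hR := rs_of hS.1
  by_cases p1 : ∃ C ∈ S, C ≠ B ∧ Com B C ∧ IsRankOnePair C A
  · obtain ⟨C, hC, n, c, r⟩ := p1
    exact (hR.sp_of_triple hC hA hB r (r1_symm h1) c.symm n.symm).symm
  by_cases p2 : ∃ C ∈ S, C ≠ A ∧ Com A C ∧ IsRankOnePair C B
  · obtain ⟨C, hC, n, c, r⟩ := p2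
    exact hR.sp_of_triple hC hB hA r h1 c.symm n.symm
  exfalso
  have blk : Blk S A B := by
    intro T hT
    constructor
    · rintro ⟨n, c⟩
      refine ⟨by rintro rfl; exact r1_not_com h1 c.symm, ?_⟩
      exact (deg_tri hS.1 hd hT hB).resolve_right fun r => p2 ⟨T, hT, n, c.symm, r⟩
    · rintro ⟨n, c⟩
      refine ⟨by rintro rfl; exact r1_not_com h1 c, ?_⟩
      exact (deg_tri hS.1 hd hT hA).resolve_right fun r => p1 ⟨T, hT, n, c.symm, r⟩
  obtain ⟨C, hC, D, hD, n, c, r1, r2⟩ : ∃ C ∈ S, ∃ D ∈ S, C ≠ A ∧ Com A C ∧ IsRankOnePair A D ∧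
      IsRankOnePair C D := by
    obtain ⟨A₁, hA₁, C₁, hC₁, n, c⟩ := hcomm
    obtain ⟨g, e⟩ := hS.2.2 A₁ hA₁ A hA
    change A = cj g A₁ at e
    have hC : cj g C₁ ∈ S := hS.1.conj_mem C₁ hC₁ g
    have key : ∀ E, Relation.ReflTransGen (FAdj S) A E → E = A ∨ IsRankOnePair A E ∨
        ∃ C ∈ S, ∃ D ∈ S, C ≠ A ∧ Com A C ∧ IsRankOnePair A D ∧ IsRankOnePair C D := by
      intro E h
      induction h with
      | refl => exact Or.inl rfl
      | @tail U W _ h2 ih =>
        obtain ⟨hU, hW, h⟩ := h2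
        rcases ih with rfl | r | r
        · exact Or.inr (Or.inl h)
        · by_cases e : W = A
          · exact Or.inl e
          rcases deg_tri hS.1 hd hA hW with c | c
          · exact Or.inr (Or.inr ⟨W, hW, U, hU, e, c, r, r1_symm h⟩)
          · exact Or.inr (Or.inl c)
        · exact Or.inr (Or.inr r)
    have cc : Com A (cj g C₁) := by rw [e, com_cj_iff]; exact com_iff.1 c
    rcases key _ (class_connected hS hA ⟨B, hB, h1⟩ A hA _ hC) with h | h | h
    · rw [e, cj_inj] at h; exact absurd h.symm n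
    · exact absurd cc (r1_not_com h)
    · exact h
  have sp : Sp A D := hR.sp_of_triple hC hD hA r2 r1 c.symm n.symm
  have tr : ∀ k : ℕ, (∀ a ∈ A, a ^ k = 1) → ∀ E ∈ S, ∀ a ∈ E, a ^ k = 1 := by
    intro k h E hE a ha
    obtain ⟨g, e⟩ := hS.2.2 A hA E hE
    change E = cj g A at e
    rw [e] at ha
    obtain ⟨x, hx, rfl⟩ := mem_cj'.1 ha
    rw [conj_pow, h x hx]; group
  obtain ⟨k, k0, k3, hk⟩ : ∃ k : ℕ, 0 < k ∧ k ≤ 3 ∧ ∀ a ∈ A, a ^ k = 1 := by
    by_cases h2 : ∀ E ∈ S, ∀ a ∈ E, a ≠ 1 → a * a ≠ 1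
    · exact ⟨3, by norm_num, le_rfl, fun a ha =>
        cube_eq_one hS.1 hd hA hC hD r1 r2 c n h2 hB blk h1 ha⟩
    · push Not at h2
      obtain ⟨E, hE, a, ha, a1, a2⟩ := h2
      obtain ⟨g, e⟩ := hS.2.2 E hE A hA
      change A = cj g E at e
      refine ⟨2, by norm_num, by norm_num, fun x hx => sp_pow_eq_one r1 sp (hR.com A hA)
        (a := g * a * g⁻¹) (e ▸ conj_mem_cj ha) (by simpa using a1) ?_ hx⟩
      rw [conj_pow, pow_two, a2]; group
  obtain ⟨A₀, B₀, l1, l2, F, _, h3, h⟩ := hH hd (fun E hE a ha => by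
    have := tr k hk E hE a ha
    exact ⟨(isOfFinOrder_iff_pow_eq_one.2 ⟨k, k0, this⟩).orderOf_pos,
      (orderOf_le_of_pow_eq_one k0 this).trans k3⟩) A hA B ⟨hB, h1⟩
  exact not_psl2 hS.1 hd hA hC hD r1 r2 c n hB blk h3 l1 l2 h

end Cfsg.Agent.S5039
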