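import Mathlib
import Cfsg.Statements.S5040
import Cfsg.Agent.Root.A4

set_option autoImplicit false
open Cfsg

namespace Cfsg.Agent.S5040

open Cfsg.Agent.LocalEven Cfsg.Agent.Root Subgroup
open scoped commutatorElement

/-- Let S be a non-degenerate class of abstract root subgroups of G and Δ a weak TI-subset of S. Then the members of Δ commute with one another elementwise. -/
theorem result {G : Type*} [Group G] {S : Set (Subgroup G)} (hS : Cfsg.IsRootSubgroupClass S) (hnd : Cfsg.IsNondegenerateRootSet S)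
    {Δ : Set (Subgroup G)} (hΔ : Cfsg.IsWeakTISubset S Δ) : Cfsg.IsAbelianFamily Δ := by
  have hR := rs_of hS.1
  have hni := nd_ni hS hnd
  obtain ⟨hsub, -, hne, hTI⟩ := hΔ
  let N : Subgroup G :=
    { carrier := {g | (fun A => cj g A) '' Δ = Δ}
      one_mem' := by simp [cj_one]
      mul_mem' := fun {x y} hx hy => by
        show (fun A => cj (x * y) A) '' Δ = Δ
        have hx' : (fun A => cj x A) '' Δ = Δ := hx
        have hy' : (fun A => cj y A) '' Δ = Δ := hy
        conv_rhs => rw [← hx', ← hy', Set.image_image]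
        simp only [cj_mul]
      inv_mem' := fun {x} hx => by
        show (fun A => cj x⁻¹ A) '' Δ = Δ
        have hx' : (fun A => cj x A) '' Δ = Δ := hx
        conv_lhs => rw [← hx', Set.image_image]
        simp only [cj_inv_cj, Set.image_id'] }
  have hN : ∀ A ∈ Δ, ∀ E ∈ S, Com E A → E ≤ N := by
    intro A hA E hE hc d hd
    by_cases hd1 : d = 1
    · rw [hd1]; exact one_mem _
    refine (hTI d ⟨hd1, E, hE, hd⟩).resolve_right fun h => ?_
    exact Set.disjoint_left.1 h ⟨A, hA, hc.cj_eq hd⟩ hA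
  have hN' : ∀ A ∈ Δ, ∀ E ∈ linePartners S A, E ≤ N := fun A hA E hE =>
    hN A hA E hE.1.1 (com_iff.1 hE.1.2.2).symm
  intro A hA B hB
  by_contra hc
  have hAS := hsub hA
  have hBS := hsub hB
  have htop : N = ⊤ := by
    rcases hR.tri A hAS B hBS with h | h | ⟨hC, h⟩
    · exact absurd h hc
    · exact class_gen hS hnd hAS hBS h (hN' A hA) (hN B hB B hBS (hR.com B hBS))
    · have hC' : ⁅B, A⁆ ∈ S := by rwa [commutator_comm]
      obtain ⟨D, hD, h1⟩ := hni _ hC'
      have hcc := h.symm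
      obtain ⟨P, hP, F, hF, F', hF', e1, e2, e3, e4⟩ := hR.line_nat hC' hBS hD hni hcc.cl
        (hR.line_ne hBS hAS hC').symm (by rw [sup_comm]; exact hR.line_cov hBS hAS hC') h1
      rcases hR.line_members hBS hAS hC' (hni B hBS) hP (by rw [sup_comm, e4]; exact le_sup_right) with
        e | ⟨a, ha, e⟩
      · exact absurd (e2.trans e).symm (hR.line_ne hC' hF (e2 ▸ hP))
      have hD' := hS.1.conj_mem F hF a⁻¹
      have e5 : ⁅⁅B, A⁆, cj a⁻¹ F⁆ = B := by
        rw [← hcc.cr.symm.cj_eq (inv_mem ha), ← cj_commutator, e2, e, cj_inv_cj]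
      have h2 := hR.nat_r1 hBS hAS hC' hD' rfl e5
      refine class_gen hS hnd hAS hD' h2 (hN' A hA) (hN B hB _ hD' ?_)
      have := (hR.cc_of_mem hC' hD' (e5.symm ▸ hBS)).cr
      rw [e5] at this
      exact this.symm
  apply hne
  refine Set.Subset.antisymm hsub fun E hE => ?_
  obtain ⟨g, rfl⟩ := hS.2.2 A hAS E hE
  have : (fun A => cj g A) '' Δ = Δ := (htop ▸ mem_top g : g ∈ N)
  rw [← this]; exact ⟨A, hA, rfl⟩

end Cfsg.Agent.S5040
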