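import Mathlib
import Cfsg.Statements.S5043
import Cfsg.Agent.Root.TS

set_option autoImplicit false
open Matrix
open Cfsg

namespace Cfsg.Agent.S5043

open Cfsg.Agent.LocalEven Cfsg.Agent.Root Subgroup
open scoped commutatorElement

/-- Let k be a field and n a natural number. In SL_{n+3}(k) (so in every dimension at least 3) the conjugates of the root subgroup of elementary transvections 1 + c E₁₂ (c ∈ k) — that is, the groups of transvections attached to an incident point–hyperplane pair — form a non-degenerate class of abstract k-root subgroups of SL_{n+3}(k) whose graph of rank one pairs is connected. -/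
theorem result (k : Type*) [Field k] (n : ℕ) :
    Cfsg.IsRootSubgroupClass {A : Subgroup (Matrix.SpecialLinearGroup (Fin (n + 3)) k) |
        ∃ g : Matrix.SpecialLinearGroup (Fin (n + 3)) k,
          A = Cfsg.conjBy (Subgroup.closure {t : Matrix.SpecialLinearGroup (Fin (n + 3)) k |
            ∃ c : k, (t : Matrix (Fin (n + 3)) (Fin (n + 3)) k) = Matrix.transvection 0 1 c}) g} ∧
    Cfsg.IsNondegenerateRootSet {A : Subgroup (Matrix.SpecialLinearGroup (Fin (n + 3)) k) |
        ∃ g : Matrix.SpecialLinearGroup (Fin (n + 3)) k,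
          A = Cfsg.conjBy (Subgroup.closure {t : Matrix.SpecialLinearGroup (Fin (n + 3)) k |
            ∃ c : k, (t : Matrix (Fin (n + 3)) (Fin (n + 3)) k) = Matrix.transvection 0 1 c}) g} ∧
    Cfsg.IsKRootSubgroupSet k {A : Subgroup (Matrix.SpecialLinearGroup (Fin (n + 3)) k) |
        ∃ g : Matrix.SpecialLinearGroup (Fin (n + 3)) k,
          A = Cfsg.conjBy (Subgroup.closure {t : Matrix.SpecialLinearGroup (Fin (n + 3)) k |
            ∃ c : k, (t : Matrix (Fin (n + 3)) (Fin (n + 3)) k) = Matrix.transvection 0 1 c}) g} ∧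
    Cfsg.IsConnectedFamily (Cfsg.FAdj {A : Subgroup (Matrix.SpecialLinearGroup (Fin (n + 3)) k) |
        ∃ g : Matrix.SpecialLinearGroup (Fin (n + 3)) k,
          A = Cfsg.conjBy (Subgroup.closure {t : Matrix.SpecialLinearGroup (Fin (n + 3)) k |
            ∃ c : k, (t : Matrix (Fin (n + 3)) (Fin (n + 3)) k) = Matrix.transvection 0 1 c}) g})
      {A : Subgroup (Matrix.SpecialLinearGroup (Fin (n + 3)) k) |
        ∃ g : Matrix.SpecialLinearGroup (Fin (n + 3)) k,
          A = Cfsg.conjBy (Subgroup.closure {t : Matrix.SpecialLinearGroup (Fin (n + 3)) k |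
            ∃ c : k, (t : Matrix (Fin (n + 3)) (Fin (n + 3)) k) = Matrix.transvection 0 1 c}) g} := by
  have hcl : Cfsg.IsConjClassOfSubgroups {A : Subgroup (Matrix.SpecialLinearGroup (Fin (n + 3)) k) |
        ∃ g : Matrix.SpecialLinearGroup (Fin (n + 3)) k,
          A = Cfsg.conjBy (Subgroup.closure {t : Matrix.SpecialLinearGroup (Fin (n + 3)) k |
            ∃ c : k, (t : Matrix (Fin (n + 3)) (Fin (n + 3)) k) = Matrix.transvection 0 1 c}) g} := by
    refine ⟨⟨_, 1, rfl⟩, ?_⟩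
    rintro _ ⟨g, rfl⟩ _ ⟨g', rfl⟩
    refine ⟨g' * g⁻¹, ?_⟩
    show cj g' _ = cj (g' * g⁻¹) (cj g _)
    rw [← cj_mul, inv_mul_cancel_right]
  rw [TSS_eq] at hcl ⊢
  have h2 : 2 % (n + 3) = 2 := Nat.mod_eq_of_lt (by omega)
  have h01 : (0 : Fin (n + 3)) ≠ 1 := by simp
  have h02 : (0 : Fin (n + 3)) ≠ 2 := by
    intro e; have := congrArg Fin.val e; simp [h2] at this
  have h12 : (1 : Fin (n + 3)) ≠ 2 := by
    intro e; have := congrArg Fin.val e; simp [h2] at this
  have nz : ∀ i : Fin (n + 3), (Pi.single i 1 : Fin (n + 3) → k) ≠ 0 := fun i => by simp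
  have d : ∀ {i j : Fin (n + 3)}, i ≠ j →
      (Pi.single j 1 : Fin (n + 3) → k) ⬝ᵥ Pi.single i 1 = 0 :=
    fun h => Classical.Transv.single_dot h _ _
  have d1 : ∀ i : Fin (n + 3), (Pi.single i 1 : Fin (n + 3) → k) ⬝ᵥ Pi.single i 1 ≠ 0 :=
    fun i => by simp
  have m : ∀ {i j : Fin (n + 3)} (h : i ≠ j), TS (Pi.single i 1) (Pi.single j 1) (d h) ∈
      TSS (Fin (n + 3)) k := fun h => ⟨_, _, _, nz _, nz _, rfl⟩
  refine ⟨⟨TSS_root, hcl⟩, ⟨⟨_, m h01, _, m h02, fun e => ?_, ?_⟩, ⟨_, m h01, _, m h01.symm, ?_⟩,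
    ⟨_, m h01, _, m h12, ?_⟩⟩, TSS_kroot, TSS_conn (by simp)⟩
  · have c := TS_com (d h02) (d h12) (d h12) (d h02)
    rw [← e, TS_com_iff _ _ (nz _) (nz _) (nz _) (nz _)] at c
    exact d1 _ c.1
  · exact com_iff.2 (TS_com _ _ (d h01) (d h02))
  · exact (TS_psl2 _ _ (d1 _) (d1 _)).2
  · obtain ⟨c1, c2⟩ := TS_cc (d h01) (d h12) (d1 _) (d h02)
    exact rcc_of_cc c2 (by rw [c1]; exact m h02)

end Cfsg.Agent.S5043
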