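import Mathlib
import Cfsg.Statements.S5045
import Cfsg.Agent.Root.RI3

set_option autoImplicit false
open Cfsg

namespace Cfsg.Agent.S5045

open Cfsg.Agent.LocalEven Cfsg.Agent.Root Subgroup
open scoped commutatorElement

/-- Let G be a finite group generated by a set D of root involutions, and W the set of members of D whose product with every other member of D has even order or is trivial (the isolated vertices of the odd-order-product graph on D). Then W is conjugation-invariant and generates a normal 2-subgroup of G meeting D in exactly W; the commutator of two members of D lying in different connected components of that graph, each with more than one member, lies in the subgroup generated by W; and for a in such a component, every member of D commuting with a, different from a and with product with a in D, lies in that component or in W. -/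
theorem result {G : Type*} [Group G] [Finite G] {D : Set G} (hD : Cfsg.IsRootInvolutionSet D) :
    (∀ w ∈ {w | Cfsg.IsIsolatedElem (Cfsg.OddAdj D) D w}, ∀ g : G, g * w * g⁻¹ ∈ {w | Cfsg.IsIsolatedElem (Cfsg.OddAdj D) D w}) ∧
    (Subgroup.closure {w | Cfsg.IsIsolatedElem (Cfsg.OddAdj D) D w}).Normal ∧
    IsPGroup 2 ↥(Subgroup.closure {w | Cfsg.IsIsolatedElem (Cfsg.OddAdj D) D w}) ∧
    (Subgroup.closure {w | Cfsg.IsIsolatedElem (Cfsg.OddAdj D) D w} : Set G) ∩ D = {w | Cfsg.IsIsolatedElem (Cfsg.OddAdj D) D w} ∧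
    (∀ a ∈ D, ∀ b ∈ D, (∃ a' ∈ Cfsg.elemComponentOf (Cfsg.OddAdj D) D a, a' ≠ a) →
      (∃ b' ∈ Cfsg.elemComponentOf (Cfsg.OddAdj D) D b, b' ≠ b) →
      Cfsg.elemComponentOf (Cfsg.OddAdj D) D a ≠ Cfsg.elemComponentOf (Cfsg.OddAdj D) D b →
        a * b * a⁻¹ * b⁻¹ ∈ Subgroup.closure {w | Cfsg.IsIsolatedElem (Cfsg.OddAdj D) D w}) ∧
    (∀ a ∈ D, (∃ a' ∈ Cfsg.elemComponentOf (Cfsg.OddAdj D) D a, a' ≠ a) →
      Cfsg.productPartners D a ⊆ Cfsg.elemComponentOf (Cfsg.OddAdj D) D a ∪ {w | Cfsg.IsIsolatedElem (Cfsg.OddAdj D) D w}) := by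
  have h := RI.of_set hD
  have hW : ∀ w, Cfsg.IsIsolatedElem (Cfsg.OddAdj D) D w ↔ w ∈ D ∧ ∀ b ∈ D, ¬ OP2 w b := by
    intro w
    constructor
    · rintro ⟨hw, hn⟩
      exact ⟨hw, fun b hb o => (hn b).1 ⟨hw, hb, o⟩⟩
    · rintro ⟨hw, hn⟩
      exact ⟨hw, fun b => ⟨fun o => hn b o.2.1 o.2.2, fun o => hn b o.1 (OP2.symm o.2.2)⟩⟩
  have h1 : ∀ w ∈ {w | Cfsg.IsIsolatedElem (Cfsg.OddAdj D) D w}, ∀ g : G,
      g * w * g⁻¹ ∈ {w | Cfsg.IsIsolatedElem (Cfsg.OddAdj D) D w} := by
    intro w hw g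
    obtain ⟨hw1, hw2⟩ := (hW w).mp hw
    refine (hW _).mpr ⟨hD.conj_mem w hw1 g, fun b hb o => hw2 (g⁻¹ * b * g) ?_ ?_⟩
    · simpa using hD.conj_mem b hb g⁻¹
    · rw [← OP2_conj_iff (g := g)]
      simpa [mul_assoc] using o
  have h2 : (Subgroup.closure {w | Cfsg.IsIsolatedElem (Cfsg.OddAdj D) D w}).Normal :=
    ⟨fun x hx g => conj_mem_closure (fun s hs => subset_closure (h1 s hs g)) x hx⟩
  have h3 : IsPGroup 2 ↥(Subgroup.closure {w | Cfsg.IsIsolatedElem (Cfsg.OddAdj D) D w}) := by
    apply h.isPGroup_closure (fun w hw => hw.1)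
    · intro s hs t ht
      have := h1 t ht s
      rwa [h.inv hs.1] at this
    · intro s hs t ht
      exact ((hW s).mp hs).2 t ht.1
  have h6 : ∀ a ∈ D, (∃ a' ∈ Cfsg.elemComponentOf (Cfsg.OddAdj D) D a, a' ≠ a) →
      Cfsg.productPartners D a ⊆ Cfsg.elemComponentOf (Cfsg.OddAdj D) D a ∪
        {w | Cfsg.IsIsolatedElem (Cfsg.OddAdj D) D w} := by
    rintro a ha ⟨a', ⟨-, hp⟩, hne⟩ e ⟨⟨he, hea, -⟩, hae⟩
    obtain ⟨x, hx, -⟩ := (Relation.ReflTransGen.cases_head hp).resolve_left hne.symm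
    by_cases hw : Cfsg.IsIsolatedElem (Cfsg.OddAdj D) D e
    · exact Or.inr hw
    left
    refine ⟨he, ?_⟩
    rw [hW] at hw
    push Not at hw
    obtain ⟨y, hy, o⟩ := hw he
    have oy : OddAdj D y e := ⟨hy, he, o.symm⟩
    rcases h.line_odd ha he (hea ▸ hae) hy o.symm with o2 | o2
    · exact (Relation.ReflTransGen.single ⟨ha, hy, o2.symm⟩).tail oy
    · rcases h.line_odd he ha hae hx.2.1 (OP2.symm hx.2.2) with o3 | o3
      · exact (Relation.ReflTransGen.single hx).tail ⟨hx.2.1, he, o3⟩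
      · exact (((Relation.ReflTransGen.single hx).tail ⟨hx.2.1, hae, o3⟩).tail
          ⟨hae, hy, hea ▸ o2.symm⟩).tail oy
  refine ⟨h1, h2, h3, ?_, ?_, h6⟩
  · ext d
    constructor
    · rintro ⟨hd, hdD⟩
      refine (hW d).mpr ⟨hdD, fun b hb o => ?_⟩
      have m1 : d * b * (d * b) ∈ Subgroup.closure {w | Cfsg.IsIsolatedElem (Cfsg.OddAdj D) D w} := by
        have := mul_mem hd (h2.conj_mem d hd b)
        rw [h.inv hb] at this
        convert this using 1; group
      exact o.mul_ne_one (h.sq hb)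
        (eq_one_of_isPGroup_two_of_odd h3 (mem_of_odd_of_sq_mem o.2 m1) o.2)
    · intro hd
      exact ⟨subset_closure hd, hd.1⟩
  · intro a ha b hb ha' hb' hne
    have hsym : ∀ x y, OddAdj D x y → OddAdj D y x := fun x y o => ⟨o.2.1, o.1, OP2.symm o.2.2⟩
    have hcomp : ∀ c, Relation.ReflTransGen (OddAdj D) a c → Relation.ReflTransGen (OddAdj D) b c →
        False := by
      intro c h1 h2
      apply hne
      have s : ∀ {x y}, Relation.ReflTransGen (OddAdj D) x y →
          Relation.ReflTransGen (OddAdj D) y x := by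
        intro x y p
        induction p with
        | refl => exact Relation.ReflTransGen.refl
        | tail _ q ih => exact Relation.ReflTransGen.head (hsym _ _ q) ih
      ext z
      exact ⟨fun hz => ⟨hz.1, h2.trans ((s h1).trans hz.2)⟩,
        fun hz => ⟨hz.1, h1.trans ((s h2).trans hz.2)⟩⟩
    rw [h.inv ha, h.inv hb]
    rcases h.tri ha hb with c | c | ⟨c4, c⟩
    · rw [mul_assoc _ a, sq_mul_of_comm (h.sq ha) (h.sq hb) c]; exact one_mem _
    · exact (hcomp b (Relation.ReflTransGen.single ⟨ha, hb, c⟩) Relation.ReflTransGen.refl).elim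
    · have e1 : a * (a * b * a * b) = b * a * b := by simp only [mul_assoc, h.mm ha]
      have e2 : a * b * a * b * b = a * b * a := by simp only [mul_assoc, h.sq hb, mul_one]
      have m1 : a * (a * b * a * b) ∈ D := by rw [e1]; exact h.conjD a ha b hb
      have m2 : a * b * a * b * b ∈ D := by rw [e2]; exact h.conjD b hb a ha
      have c1 := h.comm_of_mul_mem ha c m1
      have c2 := h.comm_of_mul_mem c hb m2
      have n1 : a * b * a * b ≠ a := by
        intro e; rw [e, h.sq ha] at m1; exact h.ne_one m1 rfl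
      have n2 : a * b * a * b ≠ b := by
        intro e; rw [e, h.sq hb] at m2; exact h.ne_one m2 rfl
      rcases h6 a ha ha' ⟨⟨c, c1.symm, n1⟩, c1 ▸ m1⟩ with p1 | p1
      · rcases h6 b hb hb' ⟨⟨c, c2, n2⟩, m2⟩ with p2 | p2
        · exact (hcomp _ p1.2 p2.2).elim
        · exact subset_closure p2
      · exact subset_closure p1

end Cfsg.Agent.S5045
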