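import Mathlib
import Cfsg.Statements.S5047
import Cfsg.Agent.Root.RI3

set_option autoImplicit false
open Cfsg

namespace Cfsg.Agent.S5047

open Cfsg.Agent.LocalEven Cfsg.Agent.Root Subgroup
open scoped commutatorElement

/-- Let G be a finite group generated by a set D of root involutions whose odd-order-product graph is connected, a ∈ D, and b a member of D different from a, commuting with a, with ab ∈ D, but not having the same commuting members as a. Then some member x of D with bx of order 4 has ax of order 3. -/
theorem result {G : Type*} [Group G] [Finite G] {D : Set G} (hD : Cfsg.IsRootInvolutionSet D)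
    (hc : Cfsg.IsConnectedSet (Cfsg.OddAdj D) D) {a b : G} (ha : a ∈ D) (hb : b ∈ Cfsg.productPartners D a)
    (hbE : b ∉ Cfsg.sameCommutingClass D a) : ∃ x ∈ Cfsg.fourPartners D b, orderOf (a * x) = 3 := by
  have h := RI.of_set hD
  have hcl := h.oneCl_of_conn hc
  obtain ⟨⟨hbD, hba, -⟩, hab⟩ := hb
  obtain ⟨x, hx, h4, h3⟩ := h.exists_three hcl ha hbD (hba ▸ hab)
    (fun e => hbE ⟨hbD, (h.AS_eq_iff hcl ha hbD).mp e⟩)
  exact ⟨x, ⟨hx, h4⟩, h3⟩

end Cfsg.Agent.S5047
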