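import Mathlib
import Cfsg.Statements.S5048
import Cfsg.Agent.Root.RI3

set_option autoImplicit false
open Cfsg

namespace Cfsg.Agent.S5048

open Cfsg.Agent.LocalEven Cfsg.Agent.Root Subgroup
open scoped commutatorElement

/-- Let G be a finite group generated by a set D of root involutions whose odd-order-product graph is connected, with some product of two different commuting members of D again in D. Then the largest solvable normal subgroup of G is the preimage of the centre of G/O₂(G), and the quotient of G by it is a simple group. -/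
theorem result {G : Type*} [Group G] [Finite G] {D : Set G} (hD : Cfsg.IsRootInvolutionSet D)
    (hc : Cfsg.IsConnectedSet (Cfsg.OddAdj D) D) (hDD : (D ∩ Cfsg.commutingProducts D).Nonempty) :
    Cfsg.solvableRadical G = Cfsg.twoZCore G ∧ IsSimpleGroup (G ⧸ Cfsg.twoZCore G) := by
  have h := RI.of_set hD
  have hcl := h.oneCl_of_conn hc
  obtain ⟨d, hd, a₀, ha₀, b₀, hb₀, -, -, e₀⟩ := hDD
  have full : ∀ N : Subgroup G, N.Normal → ∀ x ∈ D, x ∈ N → N = ⊤ := by
    intro N hN x hx hxN
    rw [eq_top_iff, ← hD.generates, closure_le]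
    intro y hy
    obtain ⟨g, -, rfl⟩ := hcl x hx y hy
    exact hN.conj_mem x hxN g
  have perf : commutator G = ⊤ := by
    apply full _ inferInstance d hd
    obtain ⟨g, -, e⟩ := hcl a₀ ha₀ b₀ hb₀
    have : d = ⁅a₀, g⁆ := by rw [e₀, e, commutatorElement_def, h.inv ha₀]; group
    rw [this]
    exact commutator_mem_commutator (mem_top _) (mem_top _)
  have line : ∀ a ∈ D, ∃ e ∈ D, a * e ∈ D := by
    intro a ha
    obtain ⟨g, -, rfl⟩ := hcl a₀ ha₀ a ha
    refine ⟨_, hD.conj_mem b₀ hb₀ g, ?_⟩
    have := hD.conj_mem d hd g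
    rw [e₀] at this
    convert this using 1; group
  have main : ∀ N : Subgroup G, N.Normal → N = ⊤ ∨ N ≤ Cfsg.twoZCore G := by
    intro N hN
    by_cases hND : ∃ x ∈ D, x ∈ N
    · obtain ⟨x, hx, hxN⟩ := hND
      exact Or.inl (full N hN x hx hxN)
    right
    push Not at hND
    have odd : ∀ c ∈ D, ∀ n ∈ N, ¬ Odd (orderOf (c * n)) := by
      intro c hc n hn o
      have m : c * n * (c * n) ∈ N := by
        have := mul_mem (hN.conj_mem n hn c) hn
        rw [h.inv hc] at this
        convert this using 1; group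
      have := mul_mem (mem_of_odd_of_sq_mem o m) (inv_mem hn)
      exact hND c hc (by simpa using this)
    have cm : ∀ a ∈ D, ∀ n ∈ N, a * (n * a * n⁻¹) = n * a * n⁻¹ * a := by
      intro a ha n hn
      have hy := hD.conj_mem a ha n
      have m1 : a * (n * a * n⁻¹) ∈ N := by
        have := mul_mem (hN.conj_mem n hn a) (inv_mem hn)
        rw [h.inv ha] at this
        convert this using 1; group
      rcases h.tri ha hy with c | c | ⟨-, c⟩
      · exact c
      · exfalso
        obtain ⟨e, he, hae⟩ := line a ha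
        have cae := h.comm_of_mul_mem ha he hae
        rcases h.line_odd he ha (cae ▸ hae) hy c.symm with o | o
        · apply odd (e * a) (cae ▸ hae) _ m1
          have := o.symm.2
          convert this using 2
          simp only [mul_assoc, h.mm ha]
        · apply odd e he _ m1
          have := o.symm.2
          convert this using 2
          simp only [mul_assoc]
      · exfalso
        apply hND _ c
        have := mul_mem m1 m1
        convert this using 1; group
    have hO : ∀ a ∈ D, ∀ n ∈ N, n * a * n⁻¹ * a ∈ Cfsg.pCore 2 G := by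
      intro a ha n hn
      let P : Subgroup G := closure {x | ∃ m ∈ N, x = m * a * m⁻¹}
      have Pc : ∀ x ∈ {x | ∃ m ∈ N, x = m * a * m⁻¹}, ∀ y ∈ {x | ∃ m ∈ N, x = m * a * m⁻¹},
          x * y = y * x := by
        rintro _ ⟨m, hm, rfl⟩ _ ⟨k, hk, rfl⟩
        have := cm a ha _ (mul_mem (inv_mem hm) hk)
        calc m * a * m⁻¹ * (k * a * k⁻¹) = m * (a * (m⁻¹ * k * a * (m⁻¹ * k)⁻¹)) * m⁻¹ := by group
          _ = _ := by rw [this]; group
      have P2 : IsPGroup 2 P := isPGroup_of_sq (sq_closure Pc (by
        rintro _ ⟨m, hm, rfl⟩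
        exact h.sq (hD.conj_mem a ha m)))
      have Pn : ∀ k ∈ N, ∀ x ∈ P, k * x * k⁻¹ ∈ P := by
        intro k hk
        apply conj_mem_closure
        rintro _ ⟨m, hm, rfl⟩
        exact subset_closure ⟨k * m, mul_mem hk hm, by group⟩
      have m1 : n * a * n⁻¹ * a ∈ N := by
        have := mul_mem hn (hN.conj_mem _ (inv_mem hn) a)
        rw [h.inv ha] at this
        convert this using 1; group
      have m2 : n * a * n⁻¹ * a ∈ P :=
        mul_mem (subset_closure ⟨n, hn, rfl⟩) (subset_closure ⟨1, one_mem _, by simp⟩)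
      exact pCoreOf_le_pCore_of_normal N
        (mem_pCoreOf_of_forall_conj P2 m1 fun g hg => Pn g hg _ m2)
    intro n hn
    show (QuotientGroup.mk' (Cfsg.pCore 2 G)) n ∈ center _
    rw [mem_center_iff]
    intro g
    obtain ⟨g, rfl⟩ := QuotientGroup.mk'_surjective _ g
    have hg : g ∈ closure D := by rw [hD.generates]; exact mem_top _
    induction hg using closure_induction with
    | mem a ha =>
      rw [← map_mul, ← map_mul, eq_comm, QuotientGroup.mk'_apply, QuotientGroup.mk'_apply,
        QuotientGroup.eq_iff_div_mem, div_eq_mul_inv, mul_inv_rev, h.inv ha, ← mul_assoc]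
      exact hO a ha n hn
    | one => simp
    | mul x y _ _ h1 h2 => rw [map_mul, mul_assoc, h2, ← mul_assoc, h1, mul_assoc]
    | inv x _ h1 =>
      rw [map_inv]
      exact (Commute.inv_left h1 : Commute _ _)
  haveI : Nontrivial G := ⟨⟨d, 1, h.ne_one hd⟩⟩
  have nsol : ¬ Group.IsSolvable G := fun hs =>
    (Group.IsSolvable.commutator_lt_top_of_nontrivial G).ne perf
  have Zsol : Group.IsSolvable (Cfsg.twoZCore G) := by
    let f : Cfsg.twoZCore G →* center (G ⧸ Cfsg.pCore 2 G) :=
      (QuotientGroup.mk' (Cfsg.pCore 2 G)).subgroupComap _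
    have hk : IsPGroup 2 f.ker := by
      rintro ⟨⟨x, hx⟩, hk⟩
      have : x ∈ Cfsg.pCore 2 G := by
        have := congrArg Subtype.val (MonoidHom.mem_ker.mp hk)
        exact (QuotientGroup.eq_one_iff x).mp this
      obtain ⟨k, e⟩ := (isPGroup_pCore (p := 2) (G := G)) ⟨x, this⟩
      have e' : x ^ 2 ^ k = 1 := congrArg Subtype.val e
      exact ⟨k, Subtype.ext (Subtype.ext e')⟩
    haveI : Group.IsNilpotent f.ker := hk.isNilpotent
    haveI : Group.IsSolvable (center (G ⧸ Cfsg.pCore 2 G)) :=
      Group.isSolvable_of_comm fun a b => Subtype.ext (mem_center_iff.mp b.2 a)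
    exact Group.isSolvable_of_ker_le_range f.ker.subtype f (by simp)
  have Zne : Cfsg.twoZCore G ≠ ⊤ := by
    intro e
    rw [e] at Zsol
    exact nsol (Group.isSolvable_of_surjective (f := (⊤ : Subgroup G).subtype)
      (fun x => ⟨⟨x, mem_top x⟩, rfl⟩))
  constructor
  · apply le_antisymm
    · apply sSup_le
      rintro N ⟨hN, hs⟩
      refine (main N hN).resolve_left fun e => ?_
      rw [e] at hs
      exact nsol (Group.isSolvable_of_surjective (f := (⊤ : Subgroup G).subtype)
        (fun x => ⟨⟨x, mem_top x⟩, rfl⟩))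
    · exact le_sSup ⟨inferInstance, Zsol⟩
  · haveI : Nontrivial (G ⧸ Cfsg.twoZCore G) := QuotientGroup.nontrivial_iff.mpr Zne
    refine ⟨fun K hK => ?_⟩
    rcases main (K.comap (QuotientGroup.mk' _)) (hK.comap _) with e | e
    · right
      rw [← map_comap_eq_self_of_surjective (QuotientGroup.mk'_surjective _) K, e]
      exact map_top_of_surjective _ (QuotientGroup.mk'_surjective _)
    · left
      rw [← map_comap_eq_self_of_surjective (QuotientGroup.mk'_surjective _) K, eq_bot_iff]
      rintro _ ⟨x, hx, rfl⟩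
      exact (QuotientGroup.eq_one_iff x).mpr (e hx)

end Cfsg.Agent.S5048
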