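import Mathlib
import Cfsg.Statements.S5049
import Cfsg.Agent.Root.RI3

set_option autoImplicit false
open Cfsg

namespace Cfsg.Agent.S5049

open Cfsg.Agent.LocalEven Cfsg.Agent.Root Subgroup
open scoped commutatorElement

/-- Let G be a finite group generated by a set D of odd transpositions (root involutions with no product of order 4), Q = O₂(G), and for a ∈ D let Q_a be the commutator subgroup of Q with a. Then every member of D commuting with a centralizes Q_a; and for b ∈ D with ab of odd order greater than 1, the centralizer of ab in Q is the intersection of the centralizers of a and b in Q. -/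
theorem result {G : Type*} [Group G] [Finite G] {D : Set G} (hD : Cfsg.IsOddTranspositionSet D) {a : G} (ha : a ∈ D) :
    (∀ e ∈ Cfsg.commutingMembers D a, ∀ q ∈ ⁅Cfsg.pCore 2 G, Subgroup.zpowers a⁆, e * q = q * e) ∧
    (∀ b ∈ Cfsg.oddPartners D a,
      Cfsg.pCore 2 G ⊓ Subgroup.centralizer {a * b} = Cfsg.pCore 2 G ⊓ Subgroup.centralizer {a} ⊓ Subgroup.centralizer {b}) := by
  have h := RI.of_set hD.1
  have hQ : IsPGroup 2 (Cfsg.pCore 2 G) := isPGroup_pCore
  have key : ∀ e ∈ D, ∀ d ∈ D, e * d * (e * d) ∈ Cfsg.pCore 2 G → e * d = d * e := by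
    intro e he d hd hm
    rcases h.tri he hd with c | c | c
    · exact c
    · exact absurd (eq_one_of_isPGroup_two_of_odd hQ (mem_of_odd_of_sq_mem c.2 hm) c.2)
        (c.mul_ne_one (h.sq hd))
    · exact absurd c.1 (hD.2 e he d hd)
  have key2 : ∀ a ∈ D, ∀ e ∈ D, e * a = a * e → ∀ q ∈ Cfsg.pCore 2 G,
      e * (q * a * q⁻¹) = q * a * q⁻¹ * e := by
    intro a ha e he hea q hq
    apply key e he _ (hD.1.conj_mem a ha q)
    have hN : (Cfsg.pCore 2 G).Normal := inferInstance
    have m1 : a * (q * a * q⁻¹) ∈ Cfsg.pCore 2 G := by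
      have := mul_mem (hN.conj_mem q hq a) (inv_mem hq)
      rw [h.inv ha] at this
      convert this using 1; group
    have m2 := mul_mem (hN.conj_mem _ m1 (e * a)) m1
    have e2 := sq_mul_of_comm (h.sq he) (h.sq ha) hea
    rw [inv_of_sq e2] at m2
    convert m2 using 1
    simp only [mul_assoc, h.mm ha]
  constructor
  · rintro e ⟨he, hea⟩ q hq
    have : ⁅Cfsg.pCore 2 G, Subgroup.zpowers a⁆ ≤ centralizer {e} := by
      rw [commutator_le]
      intro q hq z hz
      rw [mem_centralizer_singleton_iff]
      obtain ⟨k, rfl⟩ := mem_zpowers_iff.mp hz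
      have c1 : Commute e (q * a * q⁻¹) := key2 a ha e he hea q hq
      have c2 : Commute e a := hea
      have : ⁅q, a ^ k⁆ = (q * a * q⁻¹) ^ k * (a ^ k)⁻¹ := by
        rw [commutatorElement_def, conj_zpow]
      rw [this]
      exact (((c1.zpow_right k).mul_right (c2.zpow_right k).inv_right)).symm
    exact (mem_centralizer_singleton_iff.mp (this hq)).symm
  · intro b hb
    obtain ⟨hb, o⟩ := mem_oddPartners.mp hb
    apply le_antisymm
    · rintro q ⟨hq, hc⟩
      have hc' : q * (a * b) = a * b * q := mem_centralizer_singleton_iff.mp hc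
      have c1 := key2 a ha a ha rfl q hq
      have c2 := key2 b hb b hb rfl q hq
      have ma := hD.1.conj_mem a ha q
      have mb := hD.1.conj_mem b hb q
      have e : a * (q * a * q⁻¹) = b * (q * b * q⁻¹) := by
        calc a * (q * a * q⁻¹) = a * (q * (a * b) * q⁻¹) * (q * b * q⁻¹) := by
              simp only [mul_assoc, inv_mul_cancel_left, h.mm hb]
          _ = _ := by rw [hc']; simp only [mul_assoc, h.mm ha, mul_inv_cancel_left]
      have u1 : a * (q * a * q⁻¹) = 1 := by
        by_contra hu
        have d1 : Commute (a * (q * a * q⁻¹)) a := Commute.mul_left (Commute.refl a) (Commute.symm c1)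
        have d2 : Commute (a * (q * a * q⁻¹)) b := by
          rw [e]; exact Commute.mul_left (Commute.refl b) (Commute.symm c2)
        refine h.two_m hb ma (sq_mul_of_comm (h.sq ha) (h.sq ma) c1) hu (w := b * a)
          (d2.mul_right d1).eq o.symm.2 (o.symm.mul_ne_one (h.sq ha)) ?_
        rw [(d2.mul_right d1).eq]; simp only [mul_assoc, h.mm ha]
      have u2 : b * (q * b * q⁻¹) = 1 := e ▸ u1
      refine ⟨⟨hq, mem_centralizer_singleton_iff.mpr ?_⟩, mem_centralizer_singleton_iff.mpr ?_⟩
      · calc q * a = a * (a * (q * a * q⁻¹)) * q := by simp only [mul_assoc, h.mm ha, inv_mul_cancel, mul_one]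
          _ = a * q := by rw [u1, mul_one]
      · calc q * b = b * (b * (q * b * q⁻¹)) * q := by simp only [mul_assoc, h.mm hb, inv_mul_cancel, mul_one]
          _ = b * q := by rw [u2, mul_one]
    · rintro q ⟨⟨hq, h1⟩, h2⟩
      refine ⟨hq, mem_centralizer_singleton_iff.mpr ?_⟩
      have c1 : Commute q a := mem_centralizer_singleton_iff.mp h1
      have c2 : Commute q b := mem_centralizer_singleton_iff.mp h2
      exact c1.mul_right c2

end Cfsg.Agent.S5049
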