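import Mathlib
import Cfsg.Statements.S5057
import Cfsg.Agent.Root.RI3

set_option autoImplicit false
open Cfsg

namespace Cfsg.Agent.S5057

open Cfsg.Agent.LocalEven Cfsg.Agent.Root Subgroup
open scoped commutatorElement

set_option maxRecDepth 100000 in
theorem ord6 : ∀ g : Equiv.Perm (Fin 6), Equiv.Perm.sign g = 1 → g ^ 3 = 1 ∨ g ^ 4 = 1 ∨ g ^ 5 = 1 := by
  decide +kernel

set_option maxRecDepth 100000 in
theorem cyc6 : ∀ g : Equiv.Perm (Fin 6), g ^ 2 = 1 → Equiv.Perm.sign g = 1 → g ≠ 1 →
    g.cycleType = {2, 2} := by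
  decide +kernel

theorem ordA (g : alternatingGroup (Fin 6)) : orderOf g ∣ 3 ∨ orderOf g ∣ 4 ∨ orderOf g ∣ 5 := by
  rcases ord6 g.1 g.2 with h | h | h
  · exact Or.inl (orderOf_dvd_of_pow_eq_one (Subtype.ext h))
  · exact Or.inr (Or.inl (orderOf_dvd_of_pow_eq_one (Subtype.ext h)))
  · exact Or.inr (Or.inr (orderOf_dvd_of_pow_eq_one (Subtype.ext h)))

theorem cycA {g : alternatingGroup (Fin 6)} (h : orderOf g = 2) : g.1.cycleType = {2, 2} :=
  cyc6 g.1 (congrArg Subtype.val (Inv.sq_of_two h)) g.2
    (fun e => Inv.ne_one_of_two h (Subtype.ext e))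

/-- The involutions of the alternating group of degree 6 form a class of root involutions (a single conjugacy class of involutions generating the group, any two of which commute, have product of odd order, or have product of order 4 whose square is again an involution of the class), and the product of any two of them has order at most 5. -/
theorem result :
    Cfsg.IsRootInvolutionClass {g : ↥(alternatingGroup (Fin 6)) | orderOf g = 2} ∧
    ∀ d ∈ {g : ↥(alternatingGroup (Fin 6)) | orderOf g = 2}, ∀ e ∈ {g : ↥(alternatingGroup (Fin 6)) | orderOf g = 2},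
      orderOf (d * e) ≤ 5 := by
  have hne : ∃ d : alternatingGroup (Fin 6), orderOf d = 2 := by
    refine ⟨⟨Equiv.swap 0 1 * Equiv.swap 2 3, by
      rw [Equiv.Perm.mem_alternatingGroup]; decide⟩, Inv.two_of_mul_self ?_ ?_⟩
    · intro e; have := congrArg Subtype.val e; revert this; decide
    · apply Subtype.ext; decide
  refine ⟨⟨⟨fun d hd => hd, ?_, fun d hd g => Inv.two_conj hd g, ?_⟩, hne, ?_⟩, ?_⟩
  · haveI : IsSimpleGroup (alternatingGroup (Fin 6)) := alternatingGroup.isSimpleGroup (by simp)
    have hN : (closure {g : ↥(alternatingGroup (Fin 6)) | orderOf g = 2}).Normal :=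
      ⟨fun x hx g => conj_mem_closure (fun s hs => subset_closure (Inv.two_conj hs g)) x hx⟩
    refine hN.eq_bot_or_eq_top.resolve_left fun e => ?_
    obtain ⟨d, hd⟩ := hne
    have : d ∈ closure {g : ↥(alternatingGroup (Fin 6)) | orderOf g = 2} := subset_closure hd
    rw [e] at this
    exact Inv.ne_one_of_two hd this
  · intro a ha b hb
    rcases ordA (a * b) with h | h | h
    · exact Or.inr (Or.inl (Odd.of_dvd_nat (by decide) h))
    · have h4 : orderOf (a * b) ≤ 4 := Nat.le_of_dvd (by norm_num) h
      have hc : orderOf (a * b) = 1 ∨ orderOf (a * b) = 2 ∨ orderOf (a * b) = 4 := by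
        interval_cases orderOf (a * b) <;> simp_all
      rcases hc with e | e | e
      · right; left; rw [e]; decide
      · left
        exact comm_of_sq_mul (Inv.mul_self_of_two ha) (Inv.mul_self_of_two hb)
          (Inv.mul_self_of_two e)
      · right; right
        refine ⟨e, ?_⟩
        show orderOf ((a * b) ^ 2) = 2
        rw [orderOf_pow, e]; decide
    · exact Or.inr (Or.inl (Odd.of_dvd_nat (by decide) h))
  · intro a ha b hb
    have h1 : IsConj a b := by
      apply alternatingGroup.isConj_of
      · rw [Equiv.Perm.isConj_iff_cycleType_eq, cycA ha, cycA hb]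
      · rw [← Equiv.Perm.sum_cycleType, cycA ha]; simp
    obtain ⟨g, hg⟩ := isConj_iff.mp h1
    exact ⟨g, hg.symm⟩
  · intro d _ e _
    rcases ordA (d * e) with h | h | h
    · exact (Nat.le_of_dvd (by norm_num) h).trans (by norm_num)
    · exact (Nat.le_of_dvd (by norm_num) h).trans (by norm_num)
    · exact Nat.le_of_dvd (by norm_num) h

end Cfsg.Agent.S5057
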