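import Mathlib
import Cfsg.Statements.S5058
import Cfsg.Agent.Root.TS
import Cfsg.Agent.Root.RI1

set_option autoImplicit false
open Matrix
open Cfsg

namespace Cfsg.Agent.S5058

open Cfsg.Agent.LocalEven Cfsg.Agent.Root Subgroup
open scoped commutatorElement

open Cfsg.Agent.Classical.Transv
open scoped MatrixGroups

section
variable {k : Type*} [Field k] {ι : Type*} [Fintype ι] [DecidableEq ι]

def DD (ι k : Type*) [Field k] [Fintype ι] [DecidableEq ι] : Set (SpecialLinearGroup ι k) :=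
  {t | ∃ u φ : ι → k, ∃ h : φ ⬝ᵥ u = 0, u ≠ 0 ∧ φ ≠ 0 ∧ t = tv u φ h}

theorem tv_sq [CharP k 2] {u φ : ι → k} (h : φ ⬝ᵥ u = 0) : tv u φ h * tv u φ h = 1 := by
  rw [tv_mul_tv, tv_eq_one_iff]
  right; ext i; exact CharTwo.add_self_eq_zero _

theorem DD_two [CharP k 2] {t : SpecialLinearGroup ι k} (ht : t ∈ DD ι k) : orderOf t = 2 := by
  obtain ⟨u, φ, h, hu, hφ, rfl⟩ := ht
  exact Inv.two_of_mul_self (by rw [Ne, tv_eq_one_iff]; tauto) (tv_sq h)

theorem four_case [CharP k 2] {u φ v ψ : ι → k} (h : φ ⬝ᵥ u = 0) (h' : ψ ⬝ᵥ v = 0) (hu : u ≠ 0)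
    (hψ : ψ ≠ 0) (e1 : φ ⬝ᵥ v ≠ 0) (e2 : ψ ⬝ᵥ u = 0) :
    (tv u φ h * tv v ψ h') ^ 2 ∈ DD ι k := by
  have hz : vecMulVec v ψ * vecMulVec u φ = 0 := by rw [vv_mul, e2, zero_smul]
  have := iota_commutator (k := k) (ι := SpecialLinearGroup.coeMonoidHom) (vv_sq h) (vv_sq h') hz
    (a := tv u φ h) (b := tv v ψ h') (s := 1) (t := 1)
    (by rw [SpecialLinearGroup.coeMonoidHom_apply, tv_coe, one_smul])
    (by rw [SpecialLinearGroup.coeMonoidHom_apply, tv_coe, one_smul])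
  rw [commutatorElement_def, inv_of_sq (tv_sq h), inv_of_sq (tv_sq h'), mul_assoc _ (tv u φ h),
    ← pow_two] at this
  refine ⟨u, (φ ⬝ᵥ v) • ψ, by rw [smul_dotProduct, e2, smul_zero], hu, smul_ne_zero e1 hψ,
    Subtype.ext ?_⟩
  rw [tv_coe, vecMulVec_smul, ← vv_mul]
  simpa using this

theorem four_of_sq {G : Type*} [Group G] {x : G} (h : orderOf (x ^ 2) = 2) : orderOf x = 4 := by
  have h1 : x ^ (2 ^ 2) = 1 := by
    have := pow_orderOf_eq_one (x ^ 2)
    rwa [h, ← pow_mul] at this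
  have h2 : ¬ x ^ (2 ^ 1) = 1 := by
    intro e
    rw [pow_one] at e
    rw [e] at h; simp at h
  exact orderOf_eq_prime_pow h2 h1

theorem odd_case {u φ v ψ : ι → k} (h : φ ⬝ᵥ u = 0) (h' : ψ ⬝ᵥ v = 0)
    (e1 : φ ⬝ᵥ v ≠ 0) (e2 : ψ ⬝ᵥ u ≠ 0) : ∃ l : k, l ≠ 0 ∧
    orderOf (tv u φ h * tv v ψ h') ∣ orderOf (mU (1 : k) * mL l) := by
  set c := (φ ⬝ᵥ v) * (ψ ⬝ᵥ u)
  have hc : c ≠ 0 := mul_ne_zero e1 e2
  obtain ⟨f, f1, f2⟩ := exists_sl2_hom (k := k) SpecialLinearGroup.coeMonoidHom_injective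
    (α := vecMulVec u φ) (β := c⁻¹ • vecMulVec v ψ) (vv_sq h) (by simp [vv_sq h'])
    (by rw [mul_smul_comm, smul_mul_assoc, vv_aba, smul_smul, inv_mul_cancel₀ hc, one_smul])
    (by rw [mul_smul_comm, smul_mul_assoc, smul_mul_assoc, vv_aba, mul_comm (ψ ⬝ᵥ u),
      smul_smul c⁻¹ (φ ⬝ᵥ v * ψ ⬝ᵥ u), inv_mul_cancel₀ hc, one_smul]) (full_vv h) ((full_vv h').smul _)
  refine ⟨c, hc, ?_⟩
  have a1 : f (mU 1) = tv u φ h := SpecialLinearGroup.coeMonoidHom_injective (by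
    rw [f1, SpecialLinearGroup.coeMonoidHom_apply, tv_coe, one_smul])
  have a2 : f (mL c) = tv v ψ h' := SpecialLinearGroup.coeMonoidHom_injective (by
    rw [f2, SpecialLinearGroup.coeMonoidHom_apply, tv_coe, smul_smul, mul_inv_cancel₀ hc, one_smul])
  rw [← a1, ← a2, ← map_mul]
  exact orderOf_map_dvd f _

theorem DD_conj {t : SpecialLinearGroup ι k} (ht : t ∈ DD ι k) (g : SpecialLinearGroup ι k) :
    g * t * g⁻¹ ∈ DD ι k := by
  obtain ⟨u, φ, h, hu, hφ, rfl⟩ := ht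
  exact ⟨_, _, _, sl_mulVec_ne_zero g hu, sl_vecMul_ne_zero g⁻¹ hφ, conj_tv g h⟩

theorem DD_tri [CharP k 2] {a b : SpecialLinearGroup ι k} (ha : a ∈ DD ι k) (hb : b ∈ DD ι k) :
    a * b = b * a ∨ (∃ l : k, l ≠ 0 ∧ orderOf (a * b) ∣ orderOf (mU (1 : k) * mL l)) ∨
      (orderOf (a * b) = 4 ∧ (a * b) ^ 2 ∈ DD ι k) := by
  have ha2 := Inv.mul_self_of_two (DD_two ha)
  obtain ⟨u, φ, h, hu, hφ, rfl⟩ := ha
  obtain ⟨v, ψ, h', hv, hψ, rfl⟩ := hb
  by_cases e1 : φ ⬝ᵥ v = 0 <;> by_cases e2 : ψ ⬝ᵥ u = 0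
  · exact Or.inl ((commute_tv_iff h h' hu hφ hv hψ).mpr ⟨e1, e2⟩)
  · right; right
    have m := DD_conj (four_case h' h hv hφ e2 e1) (tv u φ h)
    have : tv u φ h * (tv v ψ h' * tv u φ h) ^ 2 * (tv u φ h)⁻¹ = (tv u φ h * tv v ψ h') ^ 2 := by
      simp only [pow_two]; group
    rw [this] at m
    exact ⟨four_of_sq (DD_two m), m⟩
  · right; right
    have m := four_case h h' hu hψ e1 e2
    exact ⟨four_of_sq (DD_two m), m⟩
  · exact Or.inr (Or.inl (odd_case h h' e1 e2))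

theorem DD_eq (n : ℕ) : {t : SpecialLinearGroup (Fin (n + 3)) k | ∃ c : k, c ≠ 0 ∧
    ∃ g : SpecialLinearGroup (Fin (n + 3)) k, ((g⁻¹ * t * g : SpecialLinearGroup (Fin (n + 3)) k) :
      Matrix (Fin (n + 3)) (Fin (n + 3)) k) = Matrix.transvection 0 1 c} = DD (Fin (n + 3)) k := by
  have h01 : (0 : Fin (n + 3)) ≠ 1 := by simp
  ext t
  constructor
  · rintro ⟨c, hc, g, e⟩
    have e2 : g⁻¹ * t * g = tv (Pi.single 0 1) (Pi.single 1 c) (single_dot h01 _ _) := by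
      rw [← transvection_eq h01]; exact Subtype.ext e
    have m : g⁻¹ * t * g ∈ DD (Fin (n + 3)) k := ⟨_, _, _, by simp, by simpa using hc, e2⟩
    have := DD_conj m g
    simpa [mul_assoc] using this
  · rintro ⟨u, φ, h, hu, hφ, rfl⟩
    obtain ⟨g, rfl, rfl⟩ := exists_SL_pair h hu hφ
    refine ⟨1, one_ne_zero, g, ?_⟩
    rw [← conj_tv g (single_dot h01 _ _), ← transvection_eq h01]
    have : ∀ x : SpecialLinearGroup (Fin (n + 3)) k, g⁻¹ * (g * x * g⁻¹) * g = x := fun x => by group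
    rw [this]; rfl

end

/-- Let F be a finite field of characteristic 2 and n a natural number. Then the transvections of SL_{n+3}(F) (so in every dimension at least 3) (the conjugates of the elementary matrices 1 + c E₁₂, c ≠ 0) form a class of root involutions of SL_{n+3}(F); when F has two elements they form a class of {3,4}⁺-transpositions (every product of odd order has order 1 or 3). -/
theorem result (F : Type*) [Field F] [Fintype F] [CharP F 2] (n : ℕ) :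
    Cfsg.IsRootInvolutionClass {t : Matrix.SpecialLinearGroup (Fin (n + 3)) F | ∃ c : F, c ≠ 0 ∧
        ∃ g : Matrix.SpecialLinearGroup (Fin (n + 3)) F, ((g⁻¹ * t * g : Matrix.SpecialLinearGroup (Fin (n + 3)) F) :
          Matrix (Fin (n + 3)) (Fin (n + 3)) F) = Matrix.transvection 0 1 c} ∧
    (Fintype.card F = 2 → Cfsg.IsThreeFourPlusTranspositionSet {t : Matrix.SpecialLinearGroup (Fin (n + 3)) F | ∃ c : F, c ≠ 0 ∧
        ∃ g : Matrix.SpecialLinearGroup (Fin (n + 3)) F, ((g⁻¹ * t * g : Matrix.SpecialLinearGroup (Fin (n + 3)) F) :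
          Matrix (Fin (n + 3)) (Fin (n + 3)) F) = Matrix.transvection 0 1 c}) := by
  rw [DD_eq]
  have hR : IsRootInvolutionSet (DD (Fin (n + 3)) F) := by
    refine ⟨fun d hd => DD_two hd, ?_, fun d hd g => DD_conj hd g, fun a ha b hb => ?_⟩
    · apply Classical.SLBasic.eq_top_of_transvection_mem
      intro i j hij c
      by_cases hc : c = 0
      · have : Matrix.SpecialLinearGroup.transvection hij c = 1 := by
          rw [transvection_eq, tv_eq_one_iff, hc]; simp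
        rw [this]; exact one_mem _
      · exact subset_closure ⟨_, _, _, by simp, by simpa using hc, transvection_eq hij c⟩
    · rcases DD_tri ha hb with h | ⟨l, hl, h⟩ | h
      · exact Or.inl h
      · exact Or.inr (Or.inl (Odd.of_dvd_nat (odd_order_sl2 hl) h))
      · exact Or.inr (Or.inr h)
  have h01 : (0 : Fin (n + 3)) ≠ 1 := by simp
  refine ⟨⟨hR, ⟨_, _, _, single_dot h01 (1 : F) 1, by simp, by simp, rfl⟩, ?_⟩, fun h2 => ⟨hR, ?_⟩⟩
  · rintro _ ⟨u, φ, h, hu, hφ, rfl⟩ _ ⟨v, ψ, h', hv, hψ, rfl⟩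
    obtain ⟨g, rfl, rfl⟩ := exists_SL_pair h hu hφ
    obtain ⟨g', rfl, rfl⟩ := exists_SL_pair h' hv hψ
    refine ⟨g' * g⁻¹, ?_⟩
    rw [← conj_tv g (single_dot h01 _ _), ← conj_tv g' (single_dot h01 _ _)]
    group
  · intro a ha b hb ho
    rcases DD_tri ha hb with h | ⟨l, hl, h⟩ | h
    · left
      rw [orderOf_eq_one_iff]
      exact eq_one_of_odd_of_sq ho (sq_mul_of_comm (Inv.mul_self_of_two (DD_two ha))
        (Inv.mul_self_of_two (DD_two hb)) h)
    · have l1 : l = 1 := by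
        have := FiniteField.pow_card_sub_one_eq_one l hl
        rwa [h2, pow_one] at this
      have h3 : (mU (1 : F) * mL 1) ^ 3 = 1 := by
        have t2 : (2 : F) = 0 := CharTwo.two_eq_zero
        ext i j
        fin_cases i <;> fin_cases j <;>
          simp [pow_succ, Matrix.mul_apply, Fin.sum_univ_two] <;> ring_nf <;>
          first
            | linear_combination 6 * t2
            | linear_combination 4 * t2
            | linear_combination 2 * t2
      rw [l1] at h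
      exact (Nat.dvd_prime Nat.prime_three).mp (h.trans (orderOf_dvd_of_pow_eq_one h3))
    · rw [h.1] at ho; exact absurd ho (by decide)

end Cfsg.Agent.S5058
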