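import Mathlib
import Cfsg.Statements.S5060
import Cfsg.Agent.Root.Q1

set_option autoImplicit false
open Cfsg

namespace Cfsg.Agent.S5060

open Cfsg.Agent.LocalEven Cfsg.Agent.Root Subgroup
open scoped commutatorElement

/-- Let k ⊆ K be fields with the characteristic of k not 2 and k not of order 3, and let α ∈ K be a non-zero element algebraic over k. Then the subgroup of SL₂(K) generated by the upper unitriangular matrices with entry c and the lower unitriangular matrices with entry cα, c ranging over k, is exactly the group of matrices of SL₂(K) with all entries in k(α). -/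
theorem result {k K : Type*} [Field k] [Field K] [Algebra k K] (hk2 : ringChar k ≠ 2) (hk3 : Nat.card k ≠ 3)
    (α : K) (hα : IsAlgebraic k α) (hα0 : α ≠ 0) :
    (Subgroup.closure ({g : Matrix.SpecialLinearGroup (Fin 2) K | ∃ c : k, (g : Matrix (Fin 2) (Fin 2) K) = !![1, algebraMap k K c; 0, 1]} ∪
        {g : Matrix.SpecialLinearGroup (Fin 2) K | ∃ c : k, (g : Matrix (Fin 2) (Fin 2) K) = !![1, 0; algebraMap k K c * α, 1]}) :
      Set (Matrix.SpecialLinearGroup (Fin 2) K)) =
    {g : Matrix.SpecialLinearGroup (Fin 2) K | ∀ i j : Fin 2, (g : Matrix (Fin 2) (Fin 2) K) i j ∈ IntermediateField.adjoin k ({α} : Set K)} := by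
  have hint : IsIntegral k α := hα.isIntegral
  haveI := IntermediateField.adjoin.finiteDimensional hint
  set L := IntermediateField.adjoin k ({α} : Set K) with hL
  let φ : Matrix.SpecialLinearGroup (Fin 2) L →* Matrix.SpecialLinearGroup (Fin 2) K :=
    Matrix.SpecialLinearGroup.map (algebraMap L K)
  have hα' : α ∈ L := IntermediateField.mem_adjoin_simple_self k α
  have hr : (φ.range : Set (Matrix.SpecialLinearGroup (Fin 2) K)) =
      {g : Matrix.SpecialLinearGroup (Fin 2) K | ∀ i j : Fin 2,
        (g : Matrix (Fin 2) (Fin 2) K) i j ∈ L} := by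
    ext g
    constructor
    · rintro ⟨g', rfl⟩ i j
      exact (g'.1 i j).2
    · intro h
      refine ⟨⟨Matrix.of fun i j => ⟨g.1 i j, h i j⟩, ?_⟩, ?_⟩
      · apply (algebraMap L K).injective
        rw [RingHom.map_det, map_one]
        exact g.2
      · ext i j; rfl
  rw [← hr]
  congr 1
  apply le_antisymm
  · rw [Subgroup.closure_le]
    rintro g (⟨c, hc⟩ | ⟨c, hc⟩)
    · refine ⟨mU (algebraMap k L c), Subtype.ext ?_⟩
      rw [hc]; ext i j; fin_cases i <;> fin_cases j <;> simp [φ]
    · refine ⟨mL (algebraMap k L c * ⟨α, hα'⟩), Subtype.ext ?_⟩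
      rw [hc]; ext i j; fin_cases i <;> fin_cases j <;> simp [φ]
  · rw [MonoidHom.range_eq_map, Subgroup.map_le_iff_le_comap, top_le_iff]
    refine dickson_gen (l := (⟨α, hα'⟩ : L)) (two_ne_zero_of_ringChar hk2) hk3
      (fun h => hα0 (congrArg Subtype.val h)) ?_ ?_ ?_
    · intro z
      obtain ⟨p, hp⟩ := (IntermediateField.adjoin.powerBasis hint).exists_eq_aeval' z
      exact ⟨p, hp.symm⟩
    · intro c
      refine Subgroup.subset_closure (Or.inl ⟨c, ?_⟩)
      ext i j; fin_cases i <;> fin_cases j <;> simp [φ]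
    · intro c
      refine Subgroup.subset_closure (Or.inr ⟨c, ?_⟩)
      ext i j; fin_cases i <;> fin_cases j <;> simp [φ]

end Cfsg.Agent.S5060
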