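import Mathlib
import Cfsg.Statements.S5063
import Cfsg.Agent.Root.Q9

set_option autoImplicit false
universe u
open Cfsg

namespace Cfsg.Agent.S5063

open Cfsg.Agent.LocalEven Cfsg.Agent.Root Subgroup
open scoped commutatorElement

/-- Let k be a field of characteristic not 2 with k not of order 3, M a finite-dimensional k-vector space and G ≤ GL(M) such that (G, M) is a quadratic pair (M irreducible for G, and G generated by its quadratically acting elements σ whose scalar family 1 + c(σ − 1), c ∈ k, lies in G). Write 𝒬_d for the quadratic elements of G of minimal commutator rank, E(σ) for the subgroup generated by the members of 𝒬_d with the same fixed space and commutator space as σ, and Σ for the set of these subgroups. Then G is a central product of finitely many quasisimple normal subgroups G₁, …, G_s (pairwise commuting and together generating G), each generated by the quadratic elements of G it contains, and every quadratic element of G lies in one of them. -/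
theorem result {k : Type u} [Field k] (hk2 : ringChar k ≠ 2) (hk3 : Nat.card k ≠ 3)
    {M : Type u} [AddCommGroup M] [Module k M] [FiniteDimensional k M]
    {G : Subgroup (LinearMap.GeneralLinearGroup k M)} (hG : Cfsg.IsQuadraticPair G) :
    ∃ (s : ℕ) (Gi : Fin s → Subgroup (LinearMap.GeneralLinearGroup k M)),
      (∀ i, Gi i ≤ G ∧ ∀ g ∈ G, Cfsg.conjBy (Gi i) g = Gi i) ∧ (∀ i j, i ≠ j → ⁅Gi i, Gi j⁆ = ⊥) ∧ (⨆ i, Gi i) = G ∧
      (∀ i, Cfsg.IsQuasisimple ↥(Gi i) ∧ Subgroup.closure (Cfsg.quadraticElements G ∩ (Gi i : Set (LinearMap.GeneralLinearGroup k M))) = Gi i) ∧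
      Cfsg.quadraticElements G ⊆ ⋃ i, (Gi i : Set (LinearMap.GeneralLinearGroup k M)) := by
  have h0 := two_ne_zero_of_ringChar hk2
  obtain ⟨F, f1, f2, f3, f4, f5⟩ := decomp h0 hk3 (Module.finrank k M + 1) G (noUnip_of_irred hG.1)
    hG.2 (fun _ _ _ => by omega)
  haveI := Set.finite_coe_iff.2 f1
  obtain ⟨r, ⟨e⟩⟩ := Finite.exists_equiv_fin F
  refine ⟨r, fun i => (e.symm i).1, fun i => ⟨(f2 _ (e.symm i).2).1, fun g hg => ?_⟩,
    fun i j h => com_iff.2 (f3 _ (e.symm i).2 _ (e.symm j).2
      fun h' => h (e.symm.injective (Subtype.ext h'))), ?_,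
    fun i => ⟨(f2 _ (e.symm i).2).2.2.1, le_antisymm ((Subgroup.closure_le _).2 fun g hg => hg.2)
      (f2 _ (e.symm i).2).2.2.2⟩, fun g hg => ?_⟩
  · exact le_antisymm ((f2 _ (e.symm i).2).2.1 g hg)
      (le_cj_iff.2 ((f2 _ (e.symm i).2).2.1 _ (G.inv_mem hg)))
  · refine le_antisymm (iSup_le fun i => (f2 _ (e.symm i).2).1) (f4.trans (iSup₂_le fun X hX => ?_))
    exact le_iSup_of_le (e ⟨X, hX⟩) (by simp)
  · obtain ⟨h1, h2⟩ := mem_quad_iff.1 hg
    obtain ⟨X, hX, h3⟩ := f5 (fun X hX Y hY hne x hx y hy h =>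
      irred_prod hG.1 f3 f4 hX hY hne hx hy h) _ h1 h2
    rw [show un _ h1.1 = g from Units.ext (by simp)] at h3
    exact Set.mem_iUnion.2 ⟨e ⟨X, hX⟩, by simpa using h3⟩

end Cfsg.Agent.S5063
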