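import Mathlib
import Cfsg.Statements.S5064
import Cfsg.Agent.Root.Q6

set_option autoImplicit false
universe u
open Cfsg

namespace Cfsg.Agent.S5064

open Cfsg.Agent.LocalEven Cfsg.Agent.Root Subgroup
open scoped commutatorElement

/-- Let k be a field of characteristic not 2 with k not of order 3, M a finite-dimensional k-vector space and G ≤ GL(M) such that (G, M) is a quadratic pair (M irreducible for G, and G generated by its quadratically acting elements σ whose scalar family 1 + c(σ − 1), c ∈ k, lies in G). Write 𝒬_d for the quadratic elements of G of minimal commutator rank, E(σ) for the subgroup generated by the members of 𝒬_d with the same fixed space and commutator space as σ, and Σ for the set of these subgroups. If σ, τ ∈ 𝒬_d and the subgroup H generated by their two scalar families does not act unipotently on M, then H is isomorphic to SL₂ over a simple algebraic extension k(λ) of k. -/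
theorem result {k : Type u} [Field k] (hk2 : ringChar k ≠ 2) (hk3 : Nat.card k ≠ 3)
    {M : Type u} [AddCommGroup M] [Module k M] [FiniteDimensional k M]
    {G : Subgroup (LinearMap.GeneralLinearGroup k M)} (hG : Cfsg.IsQuadraticPair G)
    {σ τ : LinearMap.GeneralLinearGroup k M} (hσ : σ ∈ Cfsg.minimalQuadraticElements G) (hτ : τ ∈ Cfsg.minimalQuadraticElements G)
    (hH : ¬ Cfsg.IsUnipotentOn (Subgroup.closure (Cfsg.scalarFamily σ ∪ Cfsg.scalarFamily τ))) :
    ∃ (K : Type u) (_ : Field K) (_ : Algebra k K) (lam : K), IsAlgebraic k lam ∧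
      IntermediateField.adjoin k ({lam} : Set K) = ⊤ ∧
      Nonempty (↥(Subgroup.closure (Cfsg.scalarFamily σ ∪ Cfsg.scalarFamily τ)) ≃* Matrix.SpecialLinearGroup (Fin 2) K) := by
  have h2 := two_ne_zero_of_ringChar hk2
  have hα := mem_min_iff.1 hσ
  have hβ := mem_min_iff.1 hτ
  set α := (σ : M →ₗ[k] M) - 1 with hαd
  set β := (τ : M →ₗ[k] M) - 1 with hβd
  set H := Subgroup.closure (Cfsg.scalarFamily σ ∪ Cfsg.scalarFamily τ) with hHd
  have hop : OP α β := by
    by_contra h
    refine hH (unip_mono (w3_of_not_op h2 hk3 h hα hβ).unip ?_)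
    rw [hHd, Subgroup.closure_le]
    rintro g (⟨c, hc⟩ | ⟨c, hc⟩)
    · refine Subgroup.mem_sup_left (mem_EG.2 ?_)
      rw [hc, add_sub_cancel_left]
      exact Submodule.smul_mem _ _ (sm_self hα.nn)
    · refine Subgroup.mem_sup_right (mem_EG.2 ?_)
      rw [hc, add_sub_cancel_left]
      exact Submodule.smul_mem _ _ (sm_self hβ.nn)
  obtain ⟨f, hf, hfX, h4, h5⟩ := pair_main₂ h2 hk3 hα hβ (hop.ne hα.ne)
  haveI := Fact.mk hf
  haveI : FiniteDimensional k (AdjoinRoot f) := (AdjoinRoot.powerBasis hf.ne_zero).finite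
  refine ⟨AdjoinRoot f, inferInstance, inferInstance, AdjoinRoot.root f,
    Algebra.IsAlgebraic.isAlgebraic _, IntermediateField.adjoin_root_eq_top f, ?_⟩
  refine iso_SL2 h2 hk3 (H := H) ⟨hα.nn.1, fun c => ⟨un _ (hα.nn.smul c).1,
    Subgroup.subset_closure (Or.inl ⟨c, rfl⟩), rfl⟩⟩ ⟨hβ.nn.1, fun c => ⟨un _ (hβ.nn.smul c).1,
    Subgroup.subset_closure (Or.inr ⟨c, rfl⟩), rfl⟩⟩ hfX h4 h5 fun K h6 h7 => ?_
  rw [hHd, Subgroup.closure_le]
  rintro g (hc | hc)
  · exact h6 g hc
  · exact h7 g hc

end Cfsg.Agent.S5064
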