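import Mathlib
import Cfsg.Statements.S5065
import Cfsg.Agent.Root.Q6

set_option autoImplicit false
universe u
open Cfsg

namespace Cfsg.Agent.S5065

open Cfsg.Agent.LocalEven Cfsg.Agent.Root Subgroup
open scoped commutatorElement

/-- Let k be a field of characteristic not 2 with k not of order 3, M a finite-dimensional k-vector space and G ≤ GL(M) such that (G, M) is a quadratic pair (M irreducible for G, and G generated by its quadratically acting elements σ whose scalar family 1 + c(σ − 1), c ∈ k, lies in G). Write 𝒬_d for the quadratic elements of G of minimal commutator rank, E(σ) for the subgroup generated by the members of 𝒬_d with the same fixed space and commutator space as σ, and Σ for the set of these subgroups. For σ, τ ∈ 𝒬_d put A = E(σ), B = E(τ) and X = ⟨A, B⟩. Then either X acts unipotently on M, or A and B are the unipotent subgroups of a special rank one group X; in the latter case X contains exactly one central involution acting as −1 on the commutator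 space [M, X] and trivially on the fixed space C_M(X), and M is the direct sum of C_M(X) and [M, X]. -/
theorem result {k : Type u} [Field k] (hk2 : ringChar k ≠ 2) (hk3 : Nat.card k ≠ 3)
    {M : Type u} [AddCommGroup M] [Module k M] [FiniteDimensional k M]
    {G : Subgroup (LinearMap.GeneralLinearGroup k M)} (hG : Cfsg.IsQuadraticPair G)
    {σ τ : LinearMap.GeneralLinearGroup k M} (hσ : σ ∈ Cfsg.minimalQuadraticElements G) (hτ : τ ∈ Cfsg.minimalQuadraticElements G) :
    Cfsg.IsUnipotentOn (Cfsg.sameActionSubgroup G σ ⊔ Cfsg.sameActionSubgroup G τ) ∨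
    (Cfsg.IsSpecialRankOnePair (Cfsg.sameActionSubgroup G σ) (Cfsg.sameActionSubgroup G τ) ∧
      (∃! i : LinearMap.GeneralLinearGroup k M, i ∈ Cfsg.sameActionSubgroup G σ ⊔ Cfsg.sameActionSubgroup G τ ∧ i ≠ 1 ∧ i * i = 1 ∧
        (∀ x ∈ Cfsg.sameActionSubgroup G σ ⊔ Cfsg.sameActionSubgroup G τ, i * x = x * i) ∧
        (∀ m ∈ Cfsg.commutatorSubmodule (Cfsg.sameActionSubgroup G σ ⊔ Cfsg.sameActionSubgroup G τ), (i : M →ₗ[k] M) m = -m) ∧
        (∀ m ∈ Cfsg.fixedSubmodule (Cfsg.sameActionSubgroup G σ ⊔ Cfsg.sameActionSubgroup G τ), (i : M →ₗ[k] M) m = m)) ∧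
      IsCompl (Cfsg.fixedSubmodule (Cfsg.sameActionSubgroup G σ ⊔ Cfsg.sameActionSubgroup G τ))
        (Cfsg.commutatorSubmodule (Cfsg.sameActionSubgroup G σ ⊔ Cfsg.sameActionSubgroup G τ))) := by
  have h2 := two_ne_zero_of_ringChar hk2
  have hα := mem_min_iff.1 hσ
  have hβ := mem_min_iff.1 hτ
  rw [sameActionSubgroup_eq hα, sameActionSubgroup_eq hβ]
  set α := (σ : M →ₗ[k] M) - 1 with hαd
  set β := (τ : M →ₗ[k] M) - 1 with hβd
  by_cases hop : OP α β
  swap
  · exact Or.inl (w3_of_not_op h2 hk3 hop hα hβ).unip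
  refine Or.inr ⟨special_of_sp (hop.r1 h2 hk3 hα hβ) (hop.sp h2 hk3 hα hβ), ?_⟩
  obtain ⟨β', h4, h5, h6⟩ := hop.partner h2 hk3 hα hβ (sm_self hα.nn) hα.ne
  rw [← EG_congr (hβ.SM_eq h4 h5), h6.fixed_eq hα.nn h4.1, h6.comm_eq hα.nn h4.1]
  have hid : IsIdempotentElem (gam α β') := h6.idem
  refine ⟨?_, (LinearMap.IsIdempotentElem.isCompl hid).symm⟩
  set w := un α hα.nn.1 * (un β' h4.1.1)⁻¹ * un α hα.nn.1 with hw
  have hwX : w ∈ EG G α ⊔ EG G β' :=
    mul_mem (mul_mem (mem_sup_left (un_mem_EG (sm_self hα.nn)))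
      (inv_mem (mem_sup_right (un_mem_EG (sm_self h4.1))))) (mem_sup_left (un_mem_EG (sm_self hα.nn)))
  have hi : ((w * w : LinearMap.GeneralLinearGroup k M) : M →ₗ[k] M) = 1 - 2 * gam α β' := h6.w_sq
  have a1 : ∀ m ∈ LinearMap.range (gam α β'),
      ((w * w : LinearMap.GeneralLinearGroup k M) : M →ₗ[k] M) m = -m := by
    intro m hm
    rw [hi, two_mul, LinearMap.sub_apply, LinearMap.add_apply,
      (LinearMap.IsIdempotentElem.mem_range_iff hid).1 hm]
    simp
  have a2 : ∀ m ∈ LinearMap.ker (gam α β'),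
      ((w * w : LinearMap.GeneralLinearGroup k M) : M →ₗ[k] M) m = m := by
    intro m hm
    rw [hi, two_mul, LinearMap.sub_apply, LinearMap.add_apply, LinearMap.mem_ker.1 hm]
    simp
  refine ⟨w * w, ⟨mul_mem hwX hwX, fun e => ?_, ?_, fun x hx => ?_, a1, a2⟩, ?_⟩
  · apply hα.ne
    ext m
    have h7 := a1 (α m) ⟨α m, by rw [← Module.End.mul_apply, h6.gam_al]⟩
    rw [e] at h7
    have h8 : (2 : k) • α m = 0 := by
      rw [two_smul]; exact eq_neg_iff_add_eq_zero.1 h7
    exact (smul_eq_zero.1 h8).resolve_left h2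
  · ext1
    rw [Units.val_mul, hi]
    have : (1 - 2 * gam α β') * (1 - 2 * gam α β') =
        1 - 4 * gam α β' + 4 * (gam α β' * gam α β') := by noncomm_ring
    rw [this, h6.idem]; simp
  · ext1
    obtain ⟨h7, h8⟩ := h6.le_piGrp hx
    rw [Units.val_mul _ x, Units.val_mul x, hi]
    rw [mul_sub, mul_one, sub_eq_iff_eq_add] at h7
    rw [sub_mul, one_mul, sub_eq_iff_eq_add] at h8
    rw [sub_mul, mul_sub, two_mul, add_mul, mul_add, h7, h8, one_mul, mul_one]
  · rintro j ⟨-, -, -, -, b1, b2⟩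
    ext m
    obtain ⟨u, hu, v, hv, rfl⟩ := Submodule.mem_sup.1
      ((LinearMap.IsIdempotentElem.isCompl hid).sup_eq_top.ge (Submodule.mem_top (x := m)))
    rw [map_add, map_add, a1 u hu, a2 v hv, b1 u hu, b2 v hv]

end Cfsg.Agent.S5065
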