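import Mathlib
import Cfsg.Statements.S5067
import Cfsg.Agent.Root.RI2

set_option autoImplicit false
open Cfsg

namespace Cfsg.Agent.S5067

open Cfsg.Agent.LocalEven Cfsg.Agent.Root Subgroup
open scoped commutatorElement

theorem key {P : Type*} [Group P] [Group.IsNilpotent P] (hna : ¬ IsMulCommutative P)
    {E : Subgroup P} (hE : IsMulCommutative ↥E) :
    Group.nilpotencyClass ↥(Subgroup.normalClosure (E : Set P)) < Group.nilpotencyClass P := by
  set N := Subgroup.normalClosure (E : Set P)
  let K : Subgroup P := closure ((E : Set P) ∪ (commutator P : Set P))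
  have hK : commutator P ≤ K := fun x hx => subset_closure (Or.inr hx)
  have hNK : N ≤ K := by
    haveI : K.Normal := ⟨fun x hx g => by
      have := mul_mem (hK (commutator_mem_commutator (mem_top g) (mem_top x))) hx
      rw [commutatorElement_def] at this
      convert this using 1; group⟩
    exact normalClosure_le_normal fun x hx => subset_closure (Or.inl hx)
  have h1 : ⁅K, K⁆ ≤ (⊤ : Subgroup P).lowerCentralSeries 2 := by
    let π := QuotientGroup.mk' ((⊤ : Subgroup P).lowerCentralSeries 2)
    have hc : ∀ x y : P, π x * π y = π y * π x ↔ ⁅x, y⁆ ∈ (⊤ : Subgroup P).lowerCentralSeries 2 := by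
      intro x y
      rw [← QuotientGroup.eq_one_iff, ← QuotientGroup.mk'_apply, map_commutatorElement,
        commutatorElement_eq_one_iff_mul_comm]
    rw [commutator_le]
    intro x hx y hy
    rw [← hc]
    have hx' : π x ∈ K.map π := mem_map_of_mem π hx
    have hy' : π y ∈ K.map π := mem_map_of_mem π hy
    rw [MonoidHom.map_closure] at hx' hy'
    refine comm_closure ?_ _ hx' _ hy'
    rintro _ ⟨a, ha, rfl⟩ _ ⟨b, hb, rfl⟩
    rcases ha with ha | ha
    · rcases hb with hb | hb
      · rw [← map_mul, ← map_mul]
        congr 1
        exact congrArg Subtype.val (hE.is_comm.comm (⟨a, ha⟩ : E) ⟨b, hb⟩)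
      · exact ((hc b a).mpr (commutator_mem_commutator hb (mem_top a))).symm
    · exact (hc a b).mpr (commutator_mem_commutator ha (mem_top b))
  have h2 : ∀ n, N.lowerCentralSeries (n + 1) ≤ (⊤ : Subgroup P).lowerCentralSeries (n + 2) := by
    intro n
    induction n with
    | zero => exact (commutator_mono hNK hNK).trans h1
    | succ n ih => exact commutator_mono ih le_top
  have hc : ¬ Group.nilpotencyClass P ≤ 1 := by
    rwa [Group.IsNilpotent.nilpotencyClass_le_one_iff]
  obtain ⟨n, hn⟩ : ∃ n, Group.nilpotencyClass P = n + 2 := ⟨Group.nilpotencyClass P - 2, by omega⟩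
  have h3 : N.lowerCentralSeries (n + 1) = ⊥ := by
    rw [eq_bot_iff, ← Subgroup.lowerCentralSeries_nilpotencyClass (G := P), hn]
    exact h2 n
  have h4 : Group.nilpotencyClass N ≤ n + 1 := by
    rw [← Subgroup.lowerCentralSeries_eq_bot_iff_nilpotencyClass_le, ← map_subtype_inj, Subgroup.map_bot,
      top_subtype_lowerCentralSeries, h3]
  omega

/-- Let P be a non-abelian nilpotent p-group (every element of p-power order; P possibly infinite) generated by two abelian subgroups E and F. Then the normal closure of E in P, and likewise that of F, has nilpotency class strictly smaller than that of P. -/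
theorem result {P : Type*} [Group P] {p : ℕ} [Fact p.Prime] (hP : IsPGroup p P) [Group.IsNilpotent P]
    (hna : ¬ IsMulCommutative P) {E F : Subgroup P} (hE : IsMulCommutative ↥E) (hF : IsMulCommutative ↥F) (hgen : E ⊔ F = ⊤) :
    Group.nilpotencyClass ↥(Subgroup.normalClosure (E : Set P)) < Group.nilpotencyClass P ∧
    Group.nilpotencyClass ↥(Subgroup.normalClosure (F : Set P)) < Group.nilpotencyClass P := by
  exact ⟨key hna hE, key hna hF⟩

end Cfsg.Agent.S5067
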