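import Mathlib
import Cfsg.Statements.S5069
import Cfsg.Agent.Root.Q8

set_option autoImplicit false
universe u
open Cfsg

namespace Cfsg.Agent.S5069

open Cfsg.Agent.LocalEven Cfsg.Agent.Root Subgroup
open scoped commutatorElement

/-- Let k be a field of characteristic not 2 with k not of order 3, M a finite-dimensional k-vector space and G ≤ GL(M) such that (G, M) is a quadratic pair (M irreducible for G, and G generated by its quadratically acting elements σ whose scalar family 1 + c(σ − 1), c ∈ k, lies in G). Write 𝒬_d for the quadratic elements of G of minimal commutator rank, E(σ) for the subgroup generated by the members of 𝒬_d with the same fixed space and commutator space as σ, and Σ for the set of these subgroups. Then Σ is a disjoint union of finitely many parts Σ₁, …, Σ_r such that the subgroups G_i generated by the Σ_i commute pairwise, each G_i is quasisimple, and inside G_i the members of Σ_i form a class of abstract root subgroups in which every rank one pair A, B contains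 subgroups A₀ ≤ A, B₀ ≤ B generating an image of SL₂(k₁) with central kernel on unitriangular subgroups for some field k₁ with at least four elements. -/
theorem result {k : Type u} [Field k] (hk2 : ringChar k ≠ 2) (hk3 : Nat.card k ≠ 3)
    {M : Type u} [AddCommGroup M] [Module k M] [FiniteDimensional k M]
    {G : Subgroup (LinearMap.GeneralLinearGroup k M)} (hG : Cfsg.IsQuadraticPair G) :
    ∃ (r : ℕ) (part : Fin r → Set (Subgroup (LinearMap.GeneralLinearGroup k M))),
      (⋃ i, part i) = Cfsg.quadraticRootSubgroups G ∧ (∀ i j, i ≠ j → Disjoint (part i) (part j)) ∧ (∀ i, (part i).Nonempty) ∧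
      (∀ i j, i ≠ j → ⁅(⨆ A ∈ part i, A), (⨆ A ∈ part j, A)⁆ = ⊥) ∧
      (∀ i, Cfsg.IsQuasisimple ↥(⨆ A ∈ part i, A) ∧
        Cfsg.IsRootSubgroupClass ((fun A : Subgroup (LinearMap.GeneralLinearGroup k M) => A.subgroupOf (⨆ B ∈ part i, B)) '' (part i)) ∧
        ∀ A ∈ part i, ∀ B ∈ Cfsg.rankOnePartners (part i) A, ∃ A₀ B₀ : Subgroup (LinearMap.GeneralLinearGroup k M), A₀ ≤ A ∧ B₀ ≤ B ∧
          ∃ (k₁ : Type u) (_ : Field k₁), 3 < ENat.card k₁ ∧ Cfsg.IsPSL2PairOver k₁ A₀ B₀) := by
  have h0 := two_ne_zero_of_ringChar hk2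
  have hN := noUnip_of_irred hG.1
  have hR := qrs_rs h0 hk3 hN
  have hni : ∀ A ∈ quadraticRootSubgroups G, NI _ A := fun A hA => qrs_ni h0 hk3 hN hA
  haveI := finite_cmp h0 hk3 hN
  obtain ⟨r, ⟨e⟩⟩ := Finite.exists_equiv_fin
    {T | ∃ A ∈ quadraticRootSubgroups G, T = Cmp (quadraticRootSubgroups G) A}
  have hne : ∀ i j, i ≠ j → (e.symm i).1 ≠ (e.symm j).1 := fun i j h h' =>
    h (e.symm.injective (Subtype.ext h'))
  refine ⟨r, fun i => (e.symm i).1, ?_, ?_, ?_, ?_, ?_⟩
  · ext A
    rw [Set.mem_iUnion]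
    constructor
    · rintro ⟨i, hi⟩
      obtain ⟨B, -, h⟩ := (e.symm i).2
      rw [h] at hi
      exact hi.1
    · intro hA
      exact ⟨e ⟨_, A, hA, rfl⟩, by rw [e.symm_apply_apply]; exact self_mem_cmp hA⟩
  · intro i j h
    have h1 := hne i j h
    obtain ⟨A, -, hA⟩ := (e.symm i).2
    obtain ⟨B, -, hB⟩ := (e.symm j).2
    change Disjoint (e.symm i).1 (e.symm j).1
    rw [hA, hB] at h1 ⊢
    exact Set.disjoint_left.2 fun C h2 h3 => h1 ((cmp_eq h2.2).trans (cmp_eq h3.2).symm)
  · intro i
    obtain ⟨A, h1, hA⟩ := (e.symm i).2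
    exact ⟨A, hA.ge (self_mem_cmp h1)⟩
  · intro i j h
    have h1 := hne i j h
    obtain ⟨A, -, hA⟩ := (e.symm i).2
    obtain ⟨B, -, hB⟩ := (e.symm j).2
    simp only [hA, hB] at h1 ⊢
    exact com_iff.2 (hR.com_cmp hni h1)
  · intro i
    obtain ⟨A, h1, hA⟩ := (e.symm i).2
    beta_reduce
    rw [hA]
    refine ⟨qrs_quasisimple h0 hk3 hN h1, hR.rootClass hni h1, fun B hB C hC => ?_⟩
    obtain ⟨A₀, B₀, h1, h2, h3⟩ := qrs_psl2 h0 hk3 hN hB.1 hC.1.1 hC.2
    exact ⟨A₀, B₀, h1, h2, k, inferInstance, three_lt_card h0 hk3, h3⟩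

end Cfsg.Agent.S5069
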