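import Mathlib
import Cfsg.Statements.S5070
import Cfsg.Agent.Root.TS
import Cfsg.Agent.Classical.SpMat

set_option autoImplicit false
open Matrix
open Cfsg

namespace Cfsg.Agent.S5070

open Cfsg.Agent.LocalEven Cfsg.Agent.Root Subgroup
open scoped commutatorElement

open Cfsg.Agent.Classical.SpMat Cfsg.Agent.Classical

section
variable {F : Type*} [Field F] {m : ℕ}

/-- the embedding -/
def emb (m : ℕ) (F : Type*) [Field F] :
    symplecticGroup (Fin m) F →* Matrix (Fin m ⊕ Fin m) (Fin m ⊕ Fin m) F :=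
  (symplecticGroup (Fin m) F).subtype

theorem emb_inj : Function.Injective (emb m F) := Subtype.val_injective

theorem dJ (p q : Fin m ⊕ Fin m → F) : (J (Fin m) F *ᵥ p) ⬝ᵥ q = sB (Fin m) F q p := by
  rw [sB_apply, dotProduct_comm]

theorem dJ0 (p : Fin m ⊕ Fin m → F) : (J (Fin m) F *ᵥ p) ⬝ᵥ p = 0 := by
  rw [dJ]; exact sB_alt p

def TP (p : Fin m ⊕ Fin m → F) : Subgroup (symplecticGroup (Fin m) F) :=
  TG F (emb m F) (vecMulVec p (J (Fin m) F *ᵥ p)) (vv_sq (dJ0 p))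

theorem full (p : Fin m ⊕ Fin m → F) : Full F (emb m F) (vecMulVec p (J (Fin m) F *ᵥ p)) :=
  fun c => ⟨(spEquiv (Fin m) F).symm (SpWitt.tv sB_alt p c), spEquiv_symm_tv m p c⟩

theorem mem_TP {p : Fin m ⊕ Fin m → F} {g : symplecticGroup (Fin m) F} :
    g ∈ TP p ↔ ∃ c : F, ∀ v, g.1 *ᵥ v = v + (c * sB (Fin m) F v p) • p := by
  refine exists_congr fun c => ⟨fun h v => ?_, fun h => ?_⟩
  · rw [← sympTransvection_mulVec]; exact congrArg (· *ᵥ v) h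
  · show g.1 = sympTransvection m p c
    apply Matrix.toLin'.injective
    apply LinearMap.ext
    intro v
    rw [toLin'_apply, toLin'_apply, h, sympTransvection_mulVec]

theorem TP_eq (p : Fin m ⊕ Fin m → F) : closure {g : symplecticGroup (Fin m) F | ∃ c : F,
    ∀ v : Fin m ⊕ Fin m → F, (g : Matrix (Fin m ⊕ Fin m) (Fin m ⊕ Fin m) F) *ᵥ v =
      v + (c * (v ⬝ᵥ (J (Fin m) F *ᵥ p))) • p} = TP p := by
  rw [← closure_eq (TP p)]
  congr 1
  ext g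
  simp only [SetLike.mem_coe, mem_TP, sB_apply, Set.mem_ofPred_eq]

theorem sp_ne_zero (g : symplecticGroup (Fin m) F) {p : Fin m ⊕ Fin m → F} (hp : p ≠ 0) :
    g.1 *ᵥ p ≠ 0 := by
  intro e
  apply hp
  have : (g⁻¹).1 *ᵥ (g.1 *ᵥ p) = p := by rw [mulVec_mulVec, coe_inv_mul, one_mulVec]
  rw [← this, e, mulVec_zero]

theorem cj_TP (g : symplecticGroup (Fin m) F) (p : Fin m ⊕ Fin m → F) :
    cj g (TP p) = TP (g.1 *ᵥ p) := by
  have key : ∀ (g : symplecticGroup (Fin m) F) (p : Fin m ⊕ Fin m → F),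
      cj g (TP p) ≤ TP (g.1 *ᵥ p) := by
    intro g p x hx
    obtain ⟨y, hy, rfl⟩ := mem_cj'.1 hx
    obtain ⟨c, hc⟩ := mem_TP.1 hy
    refine mem_TP.2 ⟨c, fun v => ?_⟩
    have e : g.1 *ᵥ ((g⁻¹).1 *ᵥ v) = v := by rw [mulVec_mulVec, coe_mul_inv, one_mulVec]
    show (g.1 * y.1 * (g⁻¹).1) *ᵥ v = _
    rw [← mulVec_mulVec, ← mulVec_mulVec, hc, mulVec_add, mulVec_smul, e, ← sB_mulVec g, e]
  apply le_antisymm (key g p)
  have := key g⁻¹ (g.1 *ᵥ p)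
  rw [mulVec_mulVec, coe_inv_mul, one_mulVec] at this
  exact le_cj_iff.2 this

theorem J_ne {p : Fin m ⊕ Fin m → F} (hp : p ≠ 0) : J (Fin m) F *ᵥ p ≠ 0 := by
  obtain ⟨y, hy⟩ := SpWitt.exists_one sB_nondeg sB_alt.isRefl hp
  intro e
  have := dJ p y
  rw [e, zero_dotProduct, ← sB_alt.neg_eq, hy] at this
  simp at this

theorem TP_com {p q : Fin m ⊕ Fin m → F} (h : sB (Fin m) F p q = 0) : Com (TP p) (TP q) :=
  TG_com emb_inj (by rw [vv_mul, vv_mul, dJ, dJ, h, ← sB_alt.neg_eq, h]; simp)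

theorem TP_psl2 {p q : Fin m ⊕ Fin m → F} (h : sB (Fin m) F p q ≠ 0) :
    IsPSL2PairOver F (TP p) (TP q) ∧ IsRankOnePair (TP p) (TP q) := by
  have hp : p ≠ 0 := by rintro rfl; simp at h
  have h' : sB (Fin m) F q p ≠ 0 := by rw [← sB_alt.neg_eq]; exact neg_ne_zero.2 h
  exact TG_psl2' emb_inj _ _ (mul_ne_zero h' h) (by rw [vv_aba, dJ, dJ])
    (by rw [vv_aba, dJ, dJ, mul_comm]) (full p) (full q) (vecMulVec_ne_zero hp (J_ne hp))

def SS (m : ℕ) (F : Type*) [Field F] : Set (Subgroup (symplecticGroup (Fin m) F)) :=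
  {A | ∃ p, p ≠ 0 ∧ A = TP p}

theorem SS_root : IsRootSubgroupSet (SS m F) := by
  apply isRootSubgroupSet_mk
  · rintro _ ⟨p, -, rfl⟩
    exact TP_com (sB_alt p)
  · rintro _ ⟨p, hp, rfl⟩
    exact TG_ne_bot (full p) (vecMulVec_ne_zero hp (J_ne hp))
  · apply eq_top_of_transvection
    rintro A ⟨w, c, h⟩
    by_cases hw : w = 0
    · have : A = 1 := Subtype.ext (by rw [h, hw]; simp [sympTransvection])
      rw [this]; exact one_mem _
    · exact (le_iSup₂_of_le (f := fun A (_ : A ∈ SS m F) => A) _ ⟨w, hw, rfl⟩ le_rfl) ⟨c, h⟩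
  · rintro _ ⟨p, hp, rfl⟩ g
    exact ⟨_, sp_ne_zero g hp, cj_TP g p⟩
  · rintro _ ⟨p, -, rfl⟩ _ ⟨q, -, rfl⟩
    by_cases h : sB (Fin m) F p q = 0
    · exact Or.inl (TP_com h)
    · exact Or.inr (Or.inl (TP_psl2 h).2)

end

/-- Let F be a field, m a natural number and V = F^{2(m+1)} with the standard non-degenerate alternating form f(u, v) = uᵀ J v. For a non-zero vector p let T(p) be the group of symplectic transvections v ↦ v + c f(v, p) p, c ∈ F. Then the subgroups T(p), p ≠ 0, generate the symplectic group Sp_{2(m+1)}(F) and form a degenerate class of abstract F-root subgroups of it (any two of them either commute elementwise or are the unipotent subgroups of a rank one group that is an image of SL₂(F) with central kernel, never the commutator case), and their graph of rank one pairs is connected. -/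
theorem result (F : Type*) [Field F] (m : ℕ) :
    Cfsg.IsRootSubgroupClass {A : Subgroup ↥(Matrix.symplecticGroup (Fin (m + 1)) F) | ∃ p : Fin (m + 1) ⊕ Fin (m + 1) → F, p ≠ 0 ∧
        A = Subgroup.closure {g : ↥(Matrix.symplecticGroup (Fin (m + 1)) F) | ∃ c : F, ∀ v : Fin (m + 1) ⊕ Fin (m + 1) → F,
          (g : Matrix (Fin (m + 1) ⊕ Fin (m + 1)) (Fin (m + 1) ⊕ Fin (m + 1)) F) *ᵥ v =
            v + (c * (v ⬝ᵥ (Matrix.J (Fin (m + 1)) F *ᵥ p))) • p}} ∧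
    Cfsg.IsDegenerateRootSet {A : Subgroup ↥(Matrix.symplecticGroup (Fin (m + 1)) F) | ∃ p : Fin (m + 1) ⊕ Fin (m + 1) → F, p ≠ 0 ∧
        A = Subgroup.closure {g : ↥(Matrix.symplecticGroup (Fin (m + 1)) F) | ∃ c : F, ∀ v : Fin (m + 1) ⊕ Fin (m + 1) → F,
          (g : Matrix (Fin (m + 1) ⊕ Fin (m + 1)) (Fin (m + 1) ⊕ Fin (m + 1)) F) *ᵥ v =
            v + (c * (v ⬝ᵥ (Matrix.J (Fin (m + 1)) F *ᵥ p))) • p}} ∧
    Cfsg.IsKRootSubgroupSet F {A : Subgroup ↥(Matrix.symplecticGroup (Fin (m + 1)) F) | ∃ p : Fin (m + 1) ⊕ Fin (m + 1) → F, p ≠ 0 ∧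
        A = Subgroup.closure {g : ↥(Matrix.symplecticGroup (Fin (m + 1)) F) | ∃ c : F, ∀ v : Fin (m + 1) ⊕ Fin (m + 1) → F,
          (g : Matrix (Fin (m + 1) ⊕ Fin (m + 1)) (Fin (m + 1) ⊕ Fin (m + 1)) F) *ᵥ v =
            v + (c * (v ⬝ᵥ (Matrix.J (Fin (m + 1)) F *ᵥ p))) • p}} ∧
    Cfsg.IsConnectedFamily (Cfsg.FAdj {A : Subgroup ↥(Matrix.symplecticGroup (Fin (m + 1)) F) | ∃ p : Fin (m + 1) ⊕ Fin (m + 1) → F, p ≠ 0 ∧
        A = Subgroup.closure {g : ↥(Matrix.symplecticGroup (Fin (m + 1)) F) | ∃ c : F, ∀ v : Fin (m + 1) ⊕ Fin (m + 1) → F,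
          (g : Matrix (Fin (m + 1) ⊕ Fin (m + 1)) (Fin (m + 1) ⊕ Fin (m + 1)) F) *ᵥ v =
            v + (c * (v ⬝ᵥ (Matrix.J (Fin (m + 1)) F *ᵥ p))) • p}})
      {A : Subgroup ↥(Matrix.symplecticGroup (Fin (m + 1)) F) | ∃ p : Fin (m + 1) ⊕ Fin (m + 1) → F, p ≠ 0 ∧
        A = Subgroup.closure {g : ↥(Matrix.symplecticGroup (Fin (m + 1)) F) | ∃ c : F, ∀ v : Fin (m + 1) ⊕ Fin (m + 1) → F,
          (g : Matrix (Fin (m + 1) ⊕ Fin (m + 1)) (Fin (m + 1) ⊕ Fin (m + 1)) F) *ᵥ v =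
            v + (c * (v ⬝ᵥ (Matrix.J (Fin (m + 1)) F *ᵥ p))) • p}} := by
  simp only [TP_eq]
  show IsRootSubgroupClass (SS (m + 1) F) ∧ IsDegenerateRootSet (SS (m + 1) F) ∧
    IsKRootSubgroupSet F (SS (m + 1) F) ∧ IsConnectedFamily (FAdj (SS (m + 1) F)) (SS (m + 1) F)
  have hS := rs_of (SS_root (m := m + 1) (F := F))
  refine ⟨⟨SS_root, ⟨_, Pi.single (Sum.inl 0) 1, by simp, rfl⟩, ?_⟩, ?_, ⟨SS_root, ?_⟩, ?_⟩
  · rintro _ ⟨p, hp, rfl⟩ _ ⟨q, hq, rfl⟩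
    obtain ⟨g, hg⟩ := SpWitt.witt_one sB_nondeg sB_alt hp hq
    refine ⟨(spEquiv _ F).symm g, ?_⟩
    show _ = cj _ _
    rw [cj_TP, spEquiv_symm_mulVec, hg]
  · rintro _ hA _ hB hc
    have h1 := hS.not_r1_of_comm_mem hA hB hc.1
    have h2 := hS.not_com_of_mem hc.1
    obtain ⟨p, -, rfl⟩ := hA
    obtain ⟨q, -, rfl⟩ := hB
    by_cases h : sB (Fin (m + 1)) F p q = 0
    · exact h2 (TP_com h)
    · exact h1 (TP_psl2 h).2
  · rintro _ ⟨p, -, rfl⟩ _ ⟨q, -, rfl⟩ hr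
    by_cases h : sB (Fin (m + 1)) F p q = 0
    · exact absurd (TP_com h) (r1_not_com hr)
    · exact (TP_psl2 h).1
  · rintro _ ⟨p, hp, rfl⟩ _ ⟨q, hq, rfl⟩
    obtain ⟨y, h1, h2⟩ := SpSimple.exists_ne_zero_two sB_nondeg sB_alt hp hq
    have hy : y ≠ 0 := by rintro rfl; simp at h1
    exact (Relation.ReflTransGen.single ⟨⟨p, hp, rfl⟩, ⟨y, hy, rfl⟩, (TP_psl2 h1).2⟩).tail
      ⟨⟨y, hy, rfl⟩, ⟨q, hq, rfl⟩, r1_symm (TP_psl2 h2).2⟩

end Cfsg.Agent.S5070
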