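import Mathlib
import Cfsg.Statements.S5071
import Cfsg.Agent.Elu.RootF
import Cfsg.Agent.Herm.Matrix

set_option autoImplicit false
set_option backward.isDefEq.respectTransparency false
open Matrix
open Cfsg

namespace Cfsg.Agent.S5071

open Cfsg.Agent.LocalEven Cfsg.Agent.Root Cfsg.Agent.Herm Cfsg.Agent.Elu.RootF Subgroup

section
variable {F : Type*} [Field F] [Finite F] {q N : ℕ} (hF : Nat.card F = q ^ 2)

/-- the embedding -/
def emb (N : ℕ) (F : Type*) [Field F] (q : ℕ) : SU N F q →* Matrix (Fin N) (Fin N) F :=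
  (slToMat N F).comp (SU N F q).subtype

omit [Finite F] in
theorem emb_inj : Function.Injective (emb N F q) := fun _ _ h => Subtype.ext (Subtype.ext h)

/-- the nilpotent matrix -/
def al (c : F) (p : Fin N → F) : Matrix (Fin N) (Fin N) F := c • vecMulVec p (fun i => frob hF (p i))

theorem al_mulVec (c : F) (p v : Fin N → F) : al hF c p *ᵥ v = (c * sB hF N p v) • p := by
  rw [al, smul_mulVec, Orth.vecMulVec_mulVec', smul_smul]; rfl

theorem emb_b (g : SU N F q) (u v : Fin N → F) :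
    sB hF N (emb N F q g *ᵥ u) (emb N F q g *ᵥ v) = sB hF N u v := by
  rw [← hermForm_eq, ← hermForm_eq]; exact g.2 v u

omit [Finite F] in
theorem emb_inv (g : SU N F q) (v : Fin N → F) : emb N F q g *ᵥ (emb N F q g⁻¹ *ᵥ v) = v := by
  rw [mulVec_mulVec, ← map_mul, mul_inv_cancel, map_one, one_mulVec]

/-- the parameters -/
def PP (c : F) (α : Matrix (Fin N) (Fin N) F) : Prop :=
  ∃ p, p ≠ 0 ∧ sB hF N p p = 0 ∧ α = al hF c p

theorem al_sq (c : F) {p : Fin N → F} (hp : sB hF N p p = 0) : al hF c p * al hF c p = 0 := by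
  apply Orth.mat_ext; intro v
  rw [← mulVec_mulVec, al_mulVec, al_mulVec, map_smul, hp]; simp

variable {k : Type*} [Field k] [Algebra k F]
  (hk : ∀ a : F, frob hF a = a ↔ ∃ t : k, algebraMap k F t = a) {c : F} (hc0 : c ≠ 0)
  (hc : c + frob hF c = 0)

include hk hc0 hc in
theorem opp {p r : Fin N → F} (h : sB hF N p r ≠ 0) : Opp k (al hF c p) (al hF c r) := by
  have hB := hf_sB hF N
  have hc' : frob hF c = -c := by linear_combination hc
  obtain ⟨t, ht⟩ := (hk (c * c * (sB hF N p r * sB hF N r p))).1 (by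
    rw [map_mul, map_mul, map_mul, hB.symm, hB.symm, hc']; ring)
  have h' : sB hF N r p ≠ 0 := fun e => h (hB.zero_symm e)
  refine ⟨t, ?_, ?_, ?_⟩
  · rintro rfl
    rw [map_zero] at ht
    exact mul_ne_zero (mul_ne_zero hc0 hc0) (mul_ne_zero h h') ht.symm
  · apply Orth.mat_ext; intro v
    rw [← algebraMap_smul F t, ht, smul_mulVec, ← mulVec_mulVec, ← mulVec_mulVec]
    simp only [al_mulVec, map_smul, smul_eq_mul, smul_smul]
    congr 1; ring
  · apply Orth.mat_ext; intro v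
    rw [← algebraMap_smul F t, ht, smul_mulVec, ← mulVec_mulVec, ← mulVec_mulVec]
    simp only [al_mulVec, map_smul, smul_eq_mul, smul_smul]
    congr 1; ring

include hk hc0 hc in
theorem dich {α β : Matrix (Fin N) (Fin N) F} (ha : PP hF c α) (hb : PP hF c β) :
    α * β = β * α ∨ Opp k α β := by
  obtain ⟨p, -, -, rfl⟩ := ha
  obtain ⟨r, -, -, rfl⟩ := hb
  by_cases h : sB hF N p r = 0
  · left
    apply Orth.mat_ext; intro v
    rw [← mulVec_mulVec, ← mulVec_mulVec]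
    simp only [al_mulVec, map_smul, smul_eq_mul, h, (hf_sB hF N).zero_symm h, mul_zero, zero_smul]
  · exact Or.inr (opp hF hk hc0 hc h)

include hk hc0 hc in
theorem good : Good k (emb N F q) (PP hF c) where
  inj := emb_inj
  sq := by rintro _ ⟨p, -, hp, rfl⟩; exact al_sq hF c hp
  ne := by
    rintro _ ⟨p, hp0, hp, rfl⟩ e
    obtain ⟨y, hy⟩ := (hf_sB hF N).exists_b_eq hp0 1
    have := al_mulVec hF c p y
    rw [e, hy, zero_mulVec, mul_one] at this
    exact smul_ne_zero hc0 hp0 this.symm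
  full := by
    rintro _ ⟨p, hp0, hp, rfl⟩ t
    have hB := hf_sB hF N
    refine ⟨(toSUG hF N).symm ⟨hB.qr p (algebraMap k F t * c), hB.tv_mem_SUG hp _⟩, ?_⟩
    apply Orth.mat_ext; intro v
    refine (toSUG_symm_mulVec hF _ v).trans ?_
    rw [add_mulVec, one_mulVec, ← algebraMap_smul F t, smul_mulVec, al_mulVec, smul_smul,
      ← mul_assoc]
    refine hB.tv_apply hp ?_ v
    rw [map_mul, (hk _).2 ⟨t, rfl⟩, ← mul_add, hc, mul_zero]
  conj := by
    rintro _ ⟨p, hp0, hp, rfl⟩ g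
    refine ⟨emb N F q g *ᵥ p, fun e => hp0 ?_, by rw [emb_b, hp], ?_⟩
    · have := emb_inv g⁻¹ p
      rw [inv_inv, e, mulVec_zero] at this
      exact this.symm
    · apply Orth.mat_ext; intro v
      rw [← mulVec_mulVec, ← mulVec_mulVec, al_mulVec, al_mulVec, mulVec_smul,
        ← emb_b hF g p, emb_inv]
  tri α β ha hb := (dich hF hk hc0 hc ha hb).imp_right Or.inl

include hk hc0 hc in
theorem conn (α β : Matrix (Fin N) (Fin N) F) (ha : PP hF c α) (hb : PP hF c β) :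
    Relation.ReflTransGen (PAdj k (PP hF c)) α β := by
  have hB := hf_sB hF N
  obtain ⟨p, hp0, hp, rfl⟩ := ha
  obtain ⟨r, hr0, hr, rfl⟩ := hb
  by_cases h : sB hF N p r = 0
  · obtain ⟨w, h1, h2⟩ : ∃ w, sB hF N p w ≠ 0 ∧ sB hF N r w ≠ 0 := by
      obtain ⟨u, hu⟩ := hB.exists_b_eq hp0 1
      obtain ⟨v, hv⟩ := hB.exists_b_eq hr0 1
      by_cases e1 : sB hF N r u = 0
      · by_cases e2 : sB hF N p v = 0
        · exact ⟨u + v, by simp [hu, e2], by simp [hv, e1]⟩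
        · exact ⟨v, e2, by simp [hv]⟩
      · exact ⟨u, by simp [hu], e1⟩
    have h3 : sB hF N w p ≠ 0 := fun e => h1 (hB.zero_symm e)
    obtain ⟨e, he⟩ := hB.toInv.exists_trace (hB.fix w)
    have e1 : sB hF N p (w - (e / sB hF N w p) • p) = sB hF N p w := by simp [hp]
    have e2 : sB hF N r (w - (e / sB hF N w p) • p) = sB hF N r w := by simp [hB.zero_symm h]
    have e3 : sB hF N (w - (e / sB hF N w p) • p) (w - (e / sB hF N w p) • p) = 0 := by
      rw [b_sub_left, b_smul_left, e1, map_sub, map_smul, smul_eq_mul, map_div₀, hB.symm, ← he]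
      field_simp
      ring
    have hy : PP hF c (al hF c (w - (e / sB hF N w p) • p)) :=
      ⟨_, ne_zero_of_b' (B := sB hF N) (by rw [e1]; exact h1), e3, rfl⟩
    exact (Relation.ReflTransGen.single ⟨⟨p, hp0, hp, rfl⟩, hy,
      opp hF hk hc0 hc (by rw [e1]; exact h1)⟩).tail ⟨hy, ⟨r, hr0, hr, rfl⟩,
      opp hF hk hc0 hc (fun e => h2 (by rw [← e2]; exact hB.zero_symm e))⟩
  · exact Relation.ReflTransGen.single ⟨⟨p, hp0, hp, rfl⟩, ⟨r, hr0, hr, rfl⟩, opp hF hk hc0 hc h⟩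

include hk hc0 hc in
theorem T_eq {p : Fin N → F} (hp0 : p ≠ 0) (hp : sB hF N p p = 0) :
    closure {g : SU N F q |
      (∀ v : Fin N → F, ∃ c : F, ((g : SpecialLinearGroup (Fin N) F) : Matrix (Fin N) (Fin N) F) *ᵥ v = v + c • p) ∧
      ∀ v : Fin N → F, hermForm N F q v p = 0 →
        ((g : SpecialLinearGroup (Fin N) F) : Matrix (Fin N) (Fin N) F) *ᵥ v = v} =
      TG k (emb N F q) (al hF c p) (al_sq hF c hp) := by
  have hB := hf_sB hF N
  rw [← closure_eq (TG k _ _ _)]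
  congr 1
  ext g
  simp only [hermForm_eq hF]
  constructor
  · rintro ⟨h1, h2⟩
    obtain ⟨y, hy⟩ := hB.exists_b_eq hp0 1
    obtain ⟨d, hd⟩ := h1 y
    have key : ∀ v, emb N F q g *ᵥ v = v + (d * sB hF N p v) • p := fun v => by
      have h3 := h2 (v - sB hF N p v • y) (by simp [hy])
      rw [mulVec_sub, mulVec_smul, hd] at h3
      show g.1.1 *ᵥ v = _
      linear_combination (norm := module) h3
    have h4 := hB.cond_of_isom hp0 (c := d) (fun x y => by rw [← key, ← key, emb_b])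
    rw [hp, mul_zero, add_zero] at h4
    obtain ⟨t, ht⟩ := (hk (d / c)).1 (by
      rw [map_div₀, show frob hF d = -d by linear_combination h4,
        show frob hF c = -c by linear_combination hc, neg_div_neg_eq])
    refine ⟨t, Orth.mat_ext fun v => ?_⟩
    rw [key, add_mulVec, one_mulVec, ← algebraMap_smul F t, smul_mulVec, al_mulVec, smul_smul, ht,
      ← mul_assoc, div_mul_cancel₀ _ hc0]
  · rintro ⟨t, ht⟩
    have key : ∀ v, g.1.1 *ᵥ v = v + (algebraMap k F t * (c * sB hF N p v)) • p := fun v => by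
      show emb N F q g *ᵥ v = _
      rw [ht, add_mulVec, one_mulVec, ← algebraMap_smul F t, smul_mulVec, al_mulVec, smul_smul]
    exact ⟨fun v => ⟨_, key v⟩, fun v hv => by rw [key, hv]; simp⟩

include hk hc0 hc in
theorem fam_eq : {A : Subgroup (SU N F q) | ∃ p : Fin N → F, p ≠ 0 ∧ hermForm N F q p p = 0 ∧
    A = closure {g : SU N F q |
      (∀ v : Fin N → F, ∃ c : F, ((g : SpecialLinearGroup (Fin N) F) : Matrix (Fin N) (Fin N) F) *ᵥ v = v + c • p) ∧
      ∀ v : Fin N → F, hermForm N F q v p = 0 →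
        ((g : SpecialLinearGroup (Fin N) F) : Matrix (Fin N) (Fin N) F) *ᵥ v = v}} =
      Fam k (emb N F q) (PP hF c) := by
  ext A
  constructor
  · rintro ⟨p, hp0, hp, rfl⟩
    rw [hermForm_eq hF] at hp
    exact ⟨_, _, ⟨p, hp0, hp, rfl⟩, T_eq hF hk hc0 hc hp0 hp⟩
  · rintro ⟨_, _, ⟨p, hp0, hp, rfl⟩, rfl⟩
    exact ⟨p, hp0, by rw [hermForm_eq hF, hp], (T_eq hF hk hc0 hc hp0 hp).symm⟩

end

/-- Let F be a finite field with q² elements, n a natural number, and h the Hermitian form Σ uᵢ vᵢ^q on F^{n+2}. For a non-zero isotropic vector p let T(p) be the group of unitary transvections with centre ⟨p⟩: the elements of SU_{n+2}(q) moving every vector by a multiple of p and fixing every vector perpendicular to p. Let Σ be the set of these T(p) and G₀ the subgroup they generate. Then, viewed inside G₀, the members of Σ form a degenerate class of abstract k-root subgroups of G₀ for some field k with q elements (any two commute or are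 the unipotent subgroups of a rank one group that is an image of SL₂(k) with central kernel, never the commutator case), and their graph of rank one pairs is connected. -/
theorem result (F : Type*) [Field F] [Fintype F] (q n : ℕ) (hF : Fintype.card F = q ^ 2) :
    Cfsg.IsRootSubgroupClass ((fun A : Subgroup ↥(Cfsg.SU (n + 2) F q) => A.subgroupOf (⨆ B ∈ {A : Subgroup ↥(Cfsg.SU (n + 2) F q) | ∃ p : Fin (n + 2) → F, p ≠ 0 ∧ Cfsg.hermForm (n + 2) F q p p = 0 ∧
          A = Subgroup.closure {g : ↥(Cfsg.SU (n + 2) F q) |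
            (∀ v : Fin (n + 2) → F, ∃ c : F, ((g : Matrix.SpecialLinearGroup (Fin (n + 2)) F) : Matrix (Fin (n + 2)) (Fin (n + 2)) F) *ᵥ v = v + c • p) ∧
            ∀ v : Fin (n + 2) → F, Cfsg.hermForm (n + 2) F q v p = 0 →
              ((g : Matrix.SpecialLinearGroup (Fin (n + 2)) F) : Matrix (Fin (n + 2)) (Fin (n + 2)) F) *ᵥ v = v}}, B)) ''
      {A : Subgroup ↥(Cfsg.SU (n + 2) F q) | ∃ p : Fin (n + 2) → F, p ≠ 0 ∧ Cfsg.hermForm (n + 2) F q p p = 0 ∧
          A = Subgroup.closure {g : ↥(Cfsg.SU (n + 2) F q) |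
            (∀ v : Fin (n + 2) → F, ∃ c : F, ((g : Matrix.SpecialLinearGroup (Fin (n + 2)) F) : Matrix (Fin (n + 2)) (Fin (n + 2)) F) *ᵥ v = v + c • p) ∧
            ∀ v : Fin (n + 2) → F, Cfsg.hermForm (n + 2) F q v p = 0 →
              ((g : Matrix.SpecialLinearGroup (Fin (n + 2)) F) : Matrix (Fin (n + 2)) (Fin (n + 2)) F) *ᵥ v = v}}) ∧
    Cfsg.IsDegenerateRootSet ((fun A : Subgroup ↥(Cfsg.SU (n + 2) F q) => A.subgroupOf (⨆ B ∈ {A : Subgroup ↥(Cfsg.SU (n + 2) F q) | ∃ p : Fin (n + 2) → F, p ≠ 0 ∧ Cfsg.hermForm (n + 2) F q p p = 0 ∧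
          A = Subgroup.closure {g : ↥(Cfsg.SU (n + 2) F q) |
            (∀ v : Fin (n + 2) → F, ∃ c : F, ((g : Matrix.SpecialLinearGroup (Fin (n + 2)) F) : Matrix (Fin (n + 2)) (Fin (n + 2)) F) *ᵥ v = v + c • p) ∧
            ∀ v : Fin (n + 2) → F, Cfsg.hermForm (n + 2) F q v p = 0 →
              ((g : Matrix.SpecialLinearGroup (Fin (n + 2)) F) : Matrix (Fin (n + 2)) (Fin (n + 2)) F) *ᵥ v = v}}, B)) ''
      {A : Subgroup ↥(Cfsg.SU (n + 2) F q) | ∃ p : Fin (n + 2) → F, p ≠ 0 ∧ Cfsg.hermForm (n + 2) F q p p = 0 ∧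
          A = Subgroup.closure {g : ↥(Cfsg.SU (n + 2) F q) |
            (∀ v : Fin (n + 2) → F, ∃ c : F, ((g : Matrix.SpecialLinearGroup (Fin (n + 2)) F) : Matrix (Fin (n + 2)) (Fin (n + 2)) F) *ᵥ v = v + c • p) ∧
            ∀ v : Fin (n + 2) → F, Cfsg.hermForm (n + 2) F q v p = 0 →
              ((g : Matrix.SpecialLinearGroup (Fin (n + 2)) F) : Matrix (Fin (n + 2)) (Fin (n + 2)) F) *ᵥ v = v}}) ∧
    (∃ (L : Type) (_ : Field L) (_ : Fintype L), Fintype.card L = q ∧ Cfsg.IsKRootSubgroupSet L ((fun A : Subgroup ↥(Cfsg.SU (n + 2) F q) => A.subgroupOf (⨆ B ∈ {A : Subgroup ↥(Cfsg.SU (n + 2) F q) | ∃ p : Fin (n + 2) → F, p ≠ 0 ∧ Cfsg.hermForm (n + 2) F q p p = 0 ∧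
          A = Subgroup.closure {g : ↥(Cfsg.SU (n + 2) F q) |
            (∀ v : Fin (n + 2) → F, ∃ c : F, ((g : Matrix.SpecialLinearGroup (Fin (n + 2)) F) : Matrix (Fin (n + 2)) (Fin (n + 2)) F) *ᵥ v = v + c • p) ∧
            ∀ v : Fin (n + 2) → F, Cfsg.hermForm (n + 2) F q v p = 0 →
              ((g : Matrix.SpecialLinearGroup (Fin (n + 2)) F) : Matrix (Fin (n + 2)) (Fin (n + 2)) F) *ᵥ v = v}}, B)) ''
      {A : Subgroup ↥(Cfsg.SU (n + 2) F q) | ∃ p : Fin (n + 2) → F, p ≠ 0 ∧ Cfsg.hermForm (n + 2) F q p p = 0 ∧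
          A = Subgroup.closure {g : ↥(Cfsg.SU (n + 2) F q) |
            (∀ v : Fin (n + 2) → F, ∃ c : F, ((g : Matrix.SpecialLinearGroup (Fin (n + 2)) F) : Matrix (Fin (n + 2)) (Fin (n + 2)) F) *ᵥ v = v + c • p) ∧
            ∀ v : Fin (n + 2) → F, Cfsg.hermForm (n + 2) F q v p = 0 →
              ((g : Matrix.SpecialLinearGroup (Fin (n + 2)) F) : Matrix (Fin (n + 2)) (Fin (n + 2)) F) *ᵥ v = v}})) ∧
    Cfsg.IsConnectedFamily (Cfsg.FAdj ((fun A : Subgroup ↥(Cfsg.SU (n + 2) F q) => A.subgroupOf (⨆ B ∈ {A : Subgroup ↥(Cfsg.SU (n + 2) F q) | ∃ p : Fin (n + 2) → F, p ≠ 0 ∧ Cfsg.hermForm (n + 2) F q p p = 0 ∧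
          A = Subgroup.closure {g : ↥(Cfsg.SU (n + 2) F q) |
            (∀ v : Fin (n + 2) → F, ∃ c : F, ((g : Matrix.SpecialLinearGroup (Fin (n + 2)) F) : Matrix (Fin (n + 2)) (Fin (n + 2)) F) *ᵥ v = v + c • p) ∧
            ∀ v : Fin (n + 2) → F, Cfsg.hermForm (n + 2) F q v p = 0 →
              ((g : Matrix.SpecialLinearGroup (Fin (n + 2)) F) : Matrix (Fin (n + 2)) (Fin (n + 2)) F) *ᵥ v = v}}, B)) ''
      {A : Subgroup ↥(Cfsg.SU (n + 2) F q) | ∃ p : Fin (n + 2) → F, p ≠ 0 ∧ Cfsg.hermForm (n + 2) F q p p = 0 ∧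
          A = Subgroup.closure {g : ↥(Cfsg.SU (n + 2) F q) |
            (∀ v : Fin (n + 2) → F, ∃ c : F, ((g : Matrix.SpecialLinearGroup (Fin (n + 2)) F) : Matrix (Fin (n + 2)) (Fin (n + 2)) F) *ᵥ v = v + c • p) ∧
            ∀ v : Fin (n + 2) → F, Cfsg.hermForm (n + 2) F q v p = 0 →
              ((g : Matrix.SpecialLinearGroup (Fin (n + 2)) F) : Matrix (Fin (n + 2)) (Fin (n + 2)) F) *ᵥ v = v}})) ((fun A : Subgroup ↥(Cfsg.SU (n + 2) F q) => A.subgroupOf (⨆ B ∈ {A : Subgroup ↥(Cfsg.SU (n + 2) F q) | ∃ p : Fin (n + 2) → F, p ≠ 0 ∧ Cfsg.hermForm (n + 2) F q p p = 0 ∧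
          A = Subgroup.closure {g : ↥(Cfsg.SU (n + 2) F q) |
            (∀ v : Fin (n + 2) → F, ∃ c : F, ((g : Matrix.SpecialLinearGroup (Fin (n + 2)) F) : Matrix (Fin (n + 2)) (Fin (n + 2)) F) *ᵥ v = v + c • p) ∧
            ∀ v : Fin (n + 2) → F, Cfsg.hermForm (n + 2) F q v p = 0 →
              ((g : Matrix.SpecialLinearGroup (Fin (n + 2)) F) : Matrix (Fin (n + 2)) (Fin (n + 2)) F) *ᵥ v = v}}, B)) ''
      {A : Subgroup ↥(Cfsg.SU (n + 2) F q) | ∃ p : Fin (n + 2) → F, p ≠ 0 ∧ Cfsg.hermForm (n + 2) F q p p = 0 ∧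
          A = Subgroup.closure {g : ↥(Cfsg.SU (n + 2) F q) |
            (∀ v : Fin (n + 2) → F, ∃ c : F, ((g : Matrix.SpecialLinearGroup (Fin (n + 2)) F) : Matrix (Fin (n + 2)) (Fin (n + 2)) F) *ᵥ v = v + c • p) ∧
            ∀ v : Fin (n + 2) → F, Cfsg.hermForm (n + 2) F q v p = 0 →
              ((g : Matrix.SpecialLinearGroup (Fin (n + 2)) F) : Matrix (Fin (n + 2)) (Fin (n + 2)) F) *ᵥ v = v}}) := by
  have hF' := natCard_of_card hF
  have hI := inv_frob hF'
  obtain ⟨c, hc0, hc⟩ := hI.exists_skew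
  let L : Type := Shrink.{0} (fixF (frob hF'))
  let f : L →+* F := (fixF (frob hF')).subtype.comp (Shrink.ringEquiv.{0} (fixF (frob hF'))).toRingHom
  letI : Algebra L F := f.toAlgebra
  have hk : ∀ a : F, frob hF' a = a ↔ ∃ t : L, algebraMap L F t = a := fun a =>
    ⟨fun h => ⟨(Shrink.ringEquiv.{0} (fixF (frob hF'))).symm ⟨a, h⟩, by
      exact congrArg Subtype.val ((Shrink.ringEquiv.{0} (fixF (frob hF'))).apply_symm_apply ⟨a, h⟩)⟩, by rintro ⟨t, rfl⟩; exact ((Shrink.ringEquiv.{0} (fixF (frob hF'))) t).2⟩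
  rw [fam_eq hF' hk hc0 hc, image_fam]
  have hG := (good (N := n + 2) hF' hk hc0 hc).sub
  haveI : Finite L := Finite.of_equiv _ (equivShrink _)
  refine ⟨hG.cls sub_top ?_ (conn hF' hk hc0 hc), hG.degenerate sub_top fun α β => dich hF' hk hc0 hc,
    ⟨L, inferInstance, Fintype.ofFinite L, ?_, hG.kroot sub_top⟩, hG.conn (conn hF' hk hc0 hc)⟩
  · obtain ⟨v, h0, hv⟩ := (hf_sB hF' (n + 2)).exists_isotropic (by simp)
    exact ⟨_, v, h0, hv, rfl⟩
  · letI := Fintype.ofFinite L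
    rw [← Nat.card_eq_fintype_card, ← hI.card_fixF hF']
    exact Nat.card_congr (equivShrink _).symm

end Cfsg.Agent.S5071
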