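import Mathlib
import Cfsg.Statements.S5072
import Cfsg.Agent.Elu.Sieg

set_option autoImplicit false
set_option backward.isDefEq.respectTransparency false
open Matrix
open Cfsg

namespace Cfsg.Agent.S5072

open Cfsg.Agent.LocalEven Cfsg.Agent.Root Cfsg.Agent.Orth Cfsg.Agent.Elu.RootF Cfsg.Agent.Elu.Sieg
  Subgroup QuadraticMap

section
variable {F : Type*} [Field F] {ι : Type} [Fintype ι] [DecidableEq ι] {Q : QuadraticForm F (ι → F)}

variable (Q) in
/-- the embedding -/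
noncomputable def emb : isometryGroup F ⇑Q →* Module.End F (ι → F) :=
  (Matrix.toLinAlgEquiv' (R := F) (n := ι)).toMulEquiv.toMonoidHom.comp
    ((Units.coeHom _).comp (isometryGroup F ⇑Q).subtype)

theorem emb_apply (g : isometryGroup F ⇑Q) (v : ι → F) : emb Q g v = g.1.1 *ᵥ v := rfl

theorem emb_inj : Function.Injective (emb Q) := fun a b h =>
  Subtype.ext (Units.ext (mat_ext fun v => by rw [← emb_apply, h, emb_apply]))

theorem emb_Q (g : isometryGroup F ⇑Q) (v : ι → F) : Q (emb Q g v) = Q v :=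
  (mem_isometryGroup _ _).1 g.2 v

theorem good' (hQ : ND Q) : Elu.RootF.Good F (emb Q) (PP Q) :=
  good hQ emb_inj emb_Q fun f => ⟨(toOG Q).symm f, toOG_symm_mulVec f⟩

theorem T_eq (hQ : ND Q) {p r : ι → F} (h : Line Q p r) :
    closure {σ : isometryGroup F ⇑Q | ∀ v : ι → F, Q (v + p) - Q v - Q p = 0 →
      Q (v + r) - Q v - Q r = 0 → ((σ : GL ι F) : Matrix ι ι F) *ᵥ v = v} =
      TG F (emb Q) (al Q p r) h.sq := by
  rw [← closure_eq (TG F _ _ _)]
  congr 1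
  ext g
  exact mem_iff hQ emb_Q h g

theorem fam_eq (hQ : ND Q) : {A : Subgroup (isometryGroup F ⇑Q) | ∃ p r : ι → F,
    LinearIndependent F ![p, r] ∧ Q p = 0 ∧ Q r = 0 ∧ Q (p + r) = 0 ∧
    A = closure {σ : isometryGroup F ⇑Q | ∀ v : ι → F, Q (v + p) - Q v - Q p = 0 →
      Q (v + r) - Q v - Q r = 0 → ((σ : GL ι F) : Matrix ι ι F) *ᵥ v = v}} =
      Fam F (emb Q) (PP Q) := by
  ext A
  constructor
  · rintro ⟨p, r, h1, h2, h3, h4, rfl⟩
    have h : Line Q p r := ⟨LinearIndependent.pair_iff.1 h1, h2, h3, by simp [polar, h2, h3, h4]⟩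
    exact ⟨_, _, ⟨p, r, h, rfl⟩, T_eq hQ h⟩
  · rintro ⟨_, _, ⟨p, r, h, rfl⟩, rfl⟩
    exact ⟨p, r, LinearIndependent.pair_iff.2 h.li, h.qp, h.qr,
      by rw [q_add, h.qp, h.qr, h.pr]; simp, (T_eq hQ h).symm⟩

theorem conn' (m : ℕ) (α β : Module.End F (Fin (m + 3) ⊕ Fin (m + 3) → F))
    (ha : PP (plusQ (m + 3) F) α) (hb : PP (plusQ (m + 3) F) β) : Rch (plusQ (m + 3) F) α β := by
  refine conn (nd_plusQ _) (W := LinearMap.ker (LinearMap.funLeft F F Sum.inr)) ?_ ?_ ?_ α β ha hb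
  · intro v hv
    have : ∀ i, v (.inr i) = 0 := fun i => congrFun hv i
    simp [plusQ_apply, this]
  · intro v hv
    ext i
    have := hv (Pi.single (.inl i) 1) (by ext j; simp [LinearMap.funLeft_apply])
    simpa [polar_plusQ, Pi.single_apply] using this
  · intro a b
    obtain ⟨χ, h0, h1, h2⟩ := exists_dot_zero_two (k := F) (ι := Fin (m + 3)) (by simp)
      (a ∘ Sum.inr) (b ∘ Sum.inr)
    refine ⟨Sum.elim χ 0, by ext j; simp [LinearMap.funLeft_apply], fun e => h0 ?_, ?_, ?_⟩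
    · ext i; exact congrFun e (.inl i)
    · rw [← h1]; simp [polar_plusQ, dotProduct, mul_comm]
    · rw [← h2]; simp [polar_plusQ, dotProduct, mul_comm]

end

/-- Let F be a field, m a natural number and V = F^{2(m+3)} with the hyperbolic quadratic form q(x, y) = Σ xᵢ yᵢ (non-degenerate, Witt index m + 3 ≥ 3). For a singular line ℓ (a 2-dimensional subspace on which q vanishes) let T(ℓ) be the group of isometries of q fixing every vector of ℓ^⊥ (the Siegel transvection group of ℓ), let Σ be the set of these groups and G₀ the subgroup they generate. Then, viewed inside G₀, the members of Σ form a set of abstract F-root subgroups of G₀ (any two commute, or are the unipotent subgroups of a rank one group that is an image of SL₂(F) with central kernel, or satisfy the commutator case), and their graph of rank one pairs is connected. -/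
theorem result (F : Type*) [Field F] (m : ℕ) :
    Cfsg.IsKRootSubgroupSet F ((fun A : Subgroup ↥(Cfsg.isometryGroup F (Cfsg.quadFormPlus (m + 3) F)) => A.subgroupOf (⨆ B ∈ {A : Subgroup ↥(Cfsg.isometryGroup F (Cfsg.quadFormPlus (m + 3) F)) | ∃ p r : Fin (m + 3) ⊕ Fin (m + 3) → F, LinearIndependent F ![p, r] ∧
          Cfsg.quadFormPlus (m + 3) F p = 0 ∧ Cfsg.quadFormPlus (m + 3) F r = 0 ∧
          Cfsg.quadFormPlus (m + 3) F (p + r) = 0 ∧
          A = Subgroup.closure {σ : ↥(Cfsg.isometryGroup F (Cfsg.quadFormPlus (m + 3) F)) | ∀ v : Fin (m + 3) ⊕ Fin (m + 3) → F,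
            Cfsg.quadFormPlus (m + 3) F (v + p) - Cfsg.quadFormPlus (m + 3) F v - Cfsg.quadFormPlus (m + 3) F p = 0 →
            Cfsg.quadFormPlus (m + 3) F (v + r) - Cfsg.quadFormPlus (m + 3) F v - Cfsg.quadFormPlus (m + 3) F r = 0 →
              ((σ : Matrix.GeneralLinearGroup (Fin (m + 3) ⊕ Fin (m + 3)) F) : Matrix (Fin (m + 3) ⊕ Fin (m + 3)) (Fin (m + 3) ⊕ Fin (m + 3)) F) *ᵥ v = v}}, B)) ''
      {A : Subgroup ↥(Cfsg.isometryGroup F (Cfsg.quadFormPlus (m + 3) F)) | ∃ p r : Fin (m + 3) ⊕ Fin (m + 3) → F, LinearIndependent F ![p, r] ∧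
          Cfsg.quadFormPlus (m + 3) F p = 0 ∧ Cfsg.quadFormPlus (m + 3) F r = 0 ∧
          Cfsg.quadFormPlus (m + 3) F (p + r) = 0 ∧
          A = Subgroup.closure {σ : ↥(Cfsg.isometryGroup F (Cfsg.quadFormPlus (m + 3) F)) | ∀ v : Fin (m + 3) ⊕ Fin (m + 3) → F,
            Cfsg.quadFormPlus (m + 3) F (v + p) - Cfsg.quadFormPlus (m + 3) F v - Cfsg.quadFormPlus (m + 3) F p = 0 →
            Cfsg.quadFormPlus (m + 3) F (v + r) - Cfsg.quadFormPlus (m + 3) F v - Cfsg.quadFormPlus (m + 3) F r = 0 →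
              ((σ : Matrix.GeneralLinearGroup (Fin (m + 3) ⊕ Fin (m + 3)) F) : Matrix (Fin (m + 3) ⊕ Fin (m + 3)) (Fin (m + 3) ⊕ Fin (m + 3)) F) *ᵥ v = v}}) ∧
    Cfsg.IsConnectedFamily (Cfsg.FAdj {A : Subgroup ↥(Cfsg.isometryGroup F (Cfsg.quadFormPlus (m + 3) F)) | ∃ p r : Fin (m + 3) ⊕ Fin (m + 3) → F, LinearIndependent F ![p, r] ∧
          Cfsg.quadFormPlus (m + 3) F p = 0 ∧ Cfsg.quadFormPlus (m + 3) F r = 0 ∧
          Cfsg.quadFormPlus (m + 3) F (p + r) = 0 ∧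
          A = Subgroup.closure {σ : ↥(Cfsg.isometryGroup F (Cfsg.quadFormPlus (m + 3) F)) | ∀ v : Fin (m + 3) ⊕ Fin (m + 3) → F,
            Cfsg.quadFormPlus (m + 3) F (v + p) - Cfsg.quadFormPlus (m + 3) F v - Cfsg.quadFormPlus (m + 3) F p = 0 →
            Cfsg.quadFormPlus (m + 3) F (v + r) - Cfsg.quadFormPlus (m + 3) F v - Cfsg.quadFormPlus (m + 3) F r = 0 →
              ((σ : Matrix.GeneralLinearGroup (Fin (m + 3) ⊕ Fin (m + 3)) F) : Matrix (Fin (m + 3) ⊕ Fin (m + 3)) (Fin (m + 3) ⊕ Fin (m + 3)) F) *ᵥ v = v}})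
      {A : Subgroup ↥(Cfsg.isometryGroup F (Cfsg.quadFormPlus (m + 3) F)) | ∃ p r : Fin (m + 3) ⊕ Fin (m + 3) → F, LinearIndependent F ![p, r] ∧
          Cfsg.quadFormPlus (m + 3) F p = 0 ∧ Cfsg.quadFormPlus (m + 3) F r = 0 ∧
          Cfsg.quadFormPlus (m + 3) F (p + r) = 0 ∧
          A = Subgroup.closure {σ : ↥(Cfsg.isometryGroup F (Cfsg.quadFormPlus (m + 3) F)) | ∀ v : Fin (m + 3) ⊕ Fin (m + 3) → F,
            Cfsg.quadFormPlus (m + 3) F (v + p) - Cfsg.quadFormPlus (m + 3) F v - Cfsg.quadFormPlus (m + 3) F p = 0 →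
            Cfsg.quadFormPlus (m + 3) F (v + r) - Cfsg.quadFormPlus (m + 3) F v - Cfsg.quadFormPlus (m + 3) F r = 0 →
              ((σ : Matrix.GeneralLinearGroup (Fin (m + 3) ⊕ Fin (m + 3)) F) : Matrix (Fin (m + 3) ⊕ Fin (m + 3)) (Fin (m + 3) ⊕ Fin (m + 3)) F) *ᵥ v = v}} := by
  have e := fam_eq (nd_plusQ (F := F) (m + 3))
  rw [← coe_plusQ, e, image_fam]
  exact ⟨(good' (nd_plusQ _)).sub.kroot sub_top, (good' (nd_plusQ _)).conn (conn' m)⟩

end Cfsg.Agent.S5072
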