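import Mathlib
import Cfsg.Statements.S5073
import Cfsg.Agent.Root.Q7

set_option autoImplicit false
universe u
open Cfsg

namespace Cfsg.Agent.S5073

open Cfsg.Agent.LocalEven Cfsg.Agent.Root Subgroup
open scoped commutatorElement

/-- Let k be a field of characteristic not 2 with k not of order 3, M a finite-dimensional k-vector space and G ≤ GL(M) such that (G, M) is a quadratic pair (M irreducible for G, and G generated by its quadratically acting elements σ whose scalar family 1 + c(σ − 1), c ∈ k, lies in G). Write 𝒬_d for the quadratic elements of G of minimal commutator rank, E(σ) for the subgroup generated by the members of 𝒬_d with the same fixed space and commutator space as σ, and Σ for the set of these subgroups. Let E, F ∈ Σ. If some non-identity element of E commutes with some non-identity element of F, or some non-identity element of E normalizes F, then E and F commute elementwise. -/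
theorem result {k : Type u} [Field k] (hk2 : ringChar k ≠ 2) (hk3 : Nat.card k ≠ 3)
    {M : Type u} [AddCommGroup M] [Module k M] [FiniteDimensional k M]
    {G : Subgroup (LinearMap.GeneralLinearGroup k M)} (hG : Cfsg.IsQuadraticPair G)
    {E F : Subgroup (LinearMap.GeneralLinearGroup k M)} (hE : E ∈ Cfsg.quadraticRootSubgroups G) (hF : F ∈ Cfsg.quadraticRootSubgroups G)
    (h : (∃ e ∈ E, e ≠ 1 ∧ ∃ f ∈ F, f ≠ 1 ∧ e * f = f * e) ∨ E ⊓ Subgroup.normalizer (F : Set (LinearMap.GeneralLinearGroup k M)) ≠ ⊥) :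
    ⁅E, F⁆ = ⊥ := by
  have h0 := two_ne_zero_of_ringChar hk2
  have hN := noUnip_of_irred hG.1
  have hR := qrs_rs h0 hk3 hN
  rcases h with ⟨e, he, he1, f, hf, hf1, h⟩ | h
  · rcases hR.tri E hE F hF with h4 | h4 | ⟨h4, h5⟩
    · exact com_iff.2 h4
    · exact absurd (r1_eq_one_of_comm h4 he hf hf1 h) he1
    · have h6 := hR.cj_eq_of_comm_elt hF (qrs_ni h0 hk3 hN hF) (hR.cj_mem F hF E hE e he) hf hf1 h
      obtain ⟨c, hc, hc1⟩ := hR.exists_ne_one h4
      obtain ⟨b, hb, rfl⟩ := h5.sl e he he1 c hc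
      have h7 : ⁅e, b⁆ ∈ F := mul_mem (h6 ▸ conj_mem_cj hb) (inv_mem hb)
      have h8 := hR.ti hF h4 (qrs_ni h0 hk3 hN hF) h7 hc hc1
      have h9 := h5.cl
      rw [← h8] at h9
      exact com_iff.2 h9.symm
  · obtain ⟨⟨e, he, hn⟩, he1⟩ := Subgroup.ne_bot_iff_exists_ne_one.1 h
    have he1' : e ≠ 1 := fun h => he1 (Subtype.ext h)
    have h6 := cj_eq_self_iff.2 hn
    rcases hR.tri E hE F hF with h4 | h4 | ⟨h4, h5⟩
    · exact com_iff.2 h4
    · exact absurd (r1_eq_one h4 he h6) he1'
    · obtain ⟨c, hc, hc1⟩ := hR.exists_ne_one h4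
      obtain ⟨b, hb, rfl⟩ := h5.sl e he he1' c hc
      have h7 : ⁅e, b⁆ ∈ F := mul_mem (h6 ▸ conj_mem_cj hb) (inv_mem hb)
      have h8 := hR.ti hF h4 (qrs_ni h0 hk3 hN hF) h7 hc hc1
      have h9 := h5.cl
      rw [← h8] at h9
      exact com_iff.2 h9.symm

end Cfsg.Agent.S5073
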