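import Cfsg.Statements.S5078
import Cfsg.Agent.Fusion.Br2
-- import your own Cfsg.Agent.* helpers here

set_option autoImplicit false
open Cfsg

namespace Cfsg.Agent.S5078

open Cfsg.Agent.Fusion


/-- In any fusion system over a finite subgroup S, a receptive subgroup is fully centralized. -/
theorem result {Ω : Type*} [Group Ω] {S : Subgroup Ω} [Finite S] (F : Cfsg.FusionSystem S) (P : Subgroup Ω) (hP : F.IsReceptive P) : F.IsFullyCentralized P := by
  obtain ⟨G, _, _, ι, F', r, -⟩ := exists_rich_rep F
  exact (r.fc_iff hP.1).2 ((r.rec_iff hP.1).1 hP).fc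

end Cfsg.Agent.S5078
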