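import Cfsg.Statements.S5079
import Cfsg.Agent.Fusion.Br2
-- import your own Cfsg.Agent.* helpers here

set_option autoImplicit false
open Cfsg

namespace Cfsg.Agent.S5079

open Cfsg.Agent.Fusion


/-- In any fusion system over a finite p-group S: if P is fully automized and receptive and Q is conjugate to P in the system, then there is a map of the system with source N_S(Q) and values in N_S(P) carrying Q onto P. -/
theorem result {Ω : Type*} [Group Ω] {S : Subgroup Ω} [Finite S] (p : ℕ) [Fact p.Prime] (hS : IsPGroup p S) (F : Cfsg.FusionSystem S) (P Q : Subgroup Ω) (h₁ : F.IsFullyAutomized p P) (h₂ : F.IsReceptive P) (hQ : F.IsConj Q P) : ∃ φ ∈ F.Hom (Cfsg.FusionSystem.normalizerIn S Q), (∀ x, φ x ∈ Cfsg.FusionSystem.normalizerIn S P) ∧ (Q.subgroupOf (Cfsg.FusionSystem.normalizerIn S Q)).map φ = P := by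
  obtain ⟨G, _, _, ι, F', r, -⟩ := exists_rich_rep F
  have hQS := (isConj_le hQ).1
  obtain ⟨g, hg, e⟩ := (r.isConj_iff hQS h₁.1).1 hQ
  obtain ⟨h, hh, e'⟩ := FS.exists_NS_map (r.pg hS) ((r.fa_iff hS h₁.1).1 h₁)
    ((r.rec_iff h₁.1).1 h₂) hg e
  have h3 := FS.cj_inf_nz_le hh (inf_le_right : _ ≤ nz (im ι Q))
  rw [← r.im_NS hQS] at hh
  obtain ⟨φ, hφ, eφ⟩ := r.bwd' (r.NS_le Q) hh
  refine ⟨φ, hφ, fun x => ?_, ?_⟩
  · rw [← fn_mem_im_iff r.inj (r.memU hφ x), r.im_NS h₁.1, eφ, ← e']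
    exact h3 (conj_mem_cj_of (r.im_NS hQS ▸ fn_mem_im ι x.2))
  · rw [← im_inj r.inj _ h₁.1, eφ.im_map (r.leU hφ) (r.memU hφ) (le_inf hQS (le_nz Q)), e']
    rintro _ ⟨x, -, rfl⟩; exact r.memU hφ x

end Cfsg.Agent.S5079
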