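import Cfsg.Statements.S5081
import Cfsg.Agent.Fusion.Br3
-- import your own Cfsg.Agent.* helpers here

set_option autoImplicit false
open Cfsg

namespace Cfsg.Agent.S5081

open Cfsg.Agent.Fusion


/-- Let F be a saturated fusion system over a finite p-group S, P a proper subgroup of S that is fully normalized, and H the subgroup of Aut_F(P) generated by the automorphisms that extend to maps of the system defined on strictly larger subgroups of S. Then either P is not essential and H is all of Aut_F(P), or P is essential and the image of H in Out_F(P) = Aut_F(P)/Inn(P) is strongly p-embedded there. -/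
theorem result {Ω : Type*} [Group Ω] {S : Subgroup Ω} [Finite S] (p : ℕ) [Fact p.Prime] (hS : IsPGroup p S) (F : Cfsg.FusionSystem S) (hF : F.IsSaturated p) (P : Subgroup Ω) (hPS : P < S) (hPn : F.IsFullyNormalized P) (H : Subgroup (MulAut P)) (hH : H = Subgroup.closure {α : MulAut P | ∃ (Q : Subgroup Ω) (hPQ : P < Q) (φ : Q →* Ω), φ ∈ F.Hom Q ∧ ∀ x : P, φ (Subgroup.inclusion hPQ.le x) = α x}) : (¬ F.IsEssential p P ∧ H = F.autGroup P) ∨ (F.IsEssential p P ∧ ∃ _ : ((Cfsg.Inn P).subgroupOf (F.autGroup P)).Normal, Cfsg.IsStronglyPEmbedded p ((H.subgroupOf (F.autGroup P)).map (QuotientGroup.mk' ((Cfsg.Inn P).subgroupOf (F.autGroup P))))) := by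
  obtain ⟨G, _, _, ι, F', r, -⟩ := exists_rich_rep F
  have hF' := r.sat hS hF
  have hlt := (r.lt_S_iff hPS.le).2 hPS
  have e : H = dn (eta r.inj hPS.le) (F'.extAut (im ι P)) := by
    rw [hH]
    apply le_antisymm
    · rw [Subgroup.closure_le]
      rintro α ⟨Q, hPQ, φ, hφ, e⟩
      obtain ⟨g, hg, e'⟩ := r.fwd hφ
      have e2 : ∀ x : P, fn ι (α x) = g * fn ι x * g⁻¹ := fun x => by
        rw [← e x, e']; rfl
      have e3 : Ind ι (P.subtype.comp α.toMonoidHom) g := e2
      refine mem_dn.2 ⟨g, FS.mem_extAut ?_ ((im_lt_im r.inj hPS.le (hom_le hφ)).2 hPQ) (one_mem _)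
        (by simpa using hg), by simpa using e2⟩
      refine mem_nz_of_le ?_
      rw [← e3.im_range hPS.le fun x => hPS.le (α x).2]
      apply im_mono
      rintro _ ⟨x, rfl⟩; exact (α x).2
    · have hC : cz (im ι P) ≤ up (eta r.inj hPS.le) H := cz_le_up _ _
      rw [← hH]
      refine le_trans (dn_mono _ (FS.extAut_le_of hC fun Q' g hQ' hg hn => ?_)) ?_
      · obtain ⟨Q, hQ, rfl⟩ := r.lift (F'.le_S hg)
        obtain ⟨φ, hφ, e⟩ := r.bwd hQ hg
        have hPQ := (im_lt_im r.inj hPS.le hQ).1 hQ'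
        refine ⟨⟨g, hn⟩, ?_, rfl⟩
        rw [hH]
        refine Subgroup.subset_closure ⟨Q, hPQ, φ, hφ, fun x => ?_⟩
        rw [← fn_inj r.inj (r.memU hφ _) (hPS.le (rho _ _ x).2), e, ← eta_apply r.inj hPS.le,
          rho_apply, eta_apply]
        rfl
      · rw [dn, up, subgroupOf_eq_of_map rfl]
        exact Subgroup.map_comap_le _ _
  rw [r.ess_iff hPS.le]
  rcases hF'.extAut_cases ((r.fn_iff hPS.le).1 hPn) hlt with h | h
  · exact Or.inl ⟨h.1, by rw [e, h.2, r.autGroup_eq hPS.le]⟩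
  · have := r.inn_normal hPS.le
    exact Or.inr ⟨h.1, this, e ▸ (r.spe_iff hPS.le h.2.le h.2.lt.le).2 h.2⟩

end Cfsg.Agent.S5081
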