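import Cfsg.Statements.S5083
import Cfsg.Agent.Fusion.Br3
-- import your own Cfsg.Agent.* helpers here

set_option autoImplicit false
open Cfsg

namespace Cfsg.Agent.S5083

open Cfsg.Agent.Fusion


/-- If F is a saturated fusion system over a finite p-group S in which Aut_F(P) is a p-group for every P ≤ S, then F is the inner fusion system of S (all its maps are conjugations by elements of S). -/
theorem result {Ω : Type*} [Group Ω] {S : Subgroup Ω} [Finite S] (p : ℕ) [Fact p.Prime] (hS : IsPGroup p S) (F : Cfsg.FusionSystem S) (hF : F.IsSaturated p) (h : ∀ P : Subgroup Ω, P ≤ S → IsPGroup p (F.autGroup P)) : F = Cfsg.innerFusionSystem S := by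
  obtain ⟨G, _, _, ι, F', r, -⟩ := exists_rich_rep F
  refine fusionSystem_ext (r.isinner_iff.2 ((r.sat hS hF).isinn fun P hP => ?_))
  exact (r.forall_le (Φ' := fun P => PMod p (F'.aut P) (cz P))
    fun P hP => r.isPGroup_autGroup_iff hP).1 h P (hP.elim Eq.le FS.Ess.le)

end Cfsg.Agent.S5083
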