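import Cfsg.Statements.S5084
import Cfsg.Agent.Fusion.Br3
-- import your own Cfsg.Agent.* helpers here

set_option autoImplicit false
open Cfsg

namespace Cfsg.Agent.S5084

open Cfsg.Agent.Fusion


/-- In a saturated fusion system over a finite p-group S, a subgroup Q is central in the system if and only if Q ≤ S and no element of Q is conjugate in the system to any element other than itself. -/
theorem result {Ω : Type*} [Group Ω] {S : Subgroup Ω} [Finite S] (p : ℕ) [Fact p.Prime] (hS : IsPGroup p S) (F : Cfsg.FusionSystem S) (hF : F.IsSaturated p) (Q : Subgroup Ω) : F.IsCentral Q ↔ (Q ≤ S ∧ ∀ x ∈ Q, ∀ y : Ω, F.IsConjElt x y → y = x) := by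
  obtain ⟨G, _, _, ι, F', r, -⟩ := exists_rich_rep F
  constructor
  · intro h
    refine ⟨h.1, fun x hx y hy => ?_⟩
    have hyS : y ∈ S := by obtain ⟨φ, hφ, rfl⟩ := hy; exact hom_mem hφ _
    obtain ⟨g, hg, e⟩ := (r.ce_iff (h.1 hx) hyS).1 hy
    rw [← fn_inj r.inj hyS (h.1 hx), ← e]
    exact ((r.cen_iff h.1).1 h).conj_eq hg (Subgroup.mem_zpowers _) (fn_mem_im ι hx)
  · rintro ⟨h1, h2⟩
    refine (r.cen_iff h1).2 ((r.sat hS hF).cen_of_forall (r.im_le h1) fun P g hg x' hx' hQ => ?_)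
    obtain ⟨x, hx, rfl⟩ := (mem_im h1).1 hQ
    obtain ⟨y, hy, e⟩ := r.lift_mem (FS.conj_mem hg hx')
    rw [← e, h2 x hx y ((r.ce_iff (h1 hx) hy).2
      ⟨g, F'.mono hg (Subgroup.zpowers_le.2 hx'), e.symm⟩)]

end Cfsg.Agent.S5084
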