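import Cfsg.Statements.S5085
import Cfsg.Agent.Fusion.Br3
-- import your own Cfsg.Agent.* helpers here

set_option autoImplicit false
open Cfsg

namespace Cfsg.Agent.S5085

open Cfsg.Agent.Fusion


/-- In any fusion system, a characteristic subgroup of a subgroup that is normal in the system is itself normal in the system. -/
theorem result {Ω : Type*} [Group Ω] {S : Subgroup Ω} (F : Cfsg.FusionSystem S) (Q U : Subgroup Ω) (hQ : F.IsNormal Q) (hUQ : U ≤ Q) (hU : (U.subgroupOf Q).Characteristic) : F.IsNormal U := by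
  refine ⟨hUQ.trans hQ.1, fun P φ hφ => ?_⟩
  obtain ⟨ψ, hψ, h1, h2⟩ := hQ.2 P φ hφ
  have hle : P ⊔ U ≤ P ⊔ Q := sup_le_sup_left hUQ P
  refine ⟨_, hom_restrict hψ hle, h1, ?_⟩
  have hm : ∀ x : Q, ψ (Subgroup.inclusion le_sup_right x) ∈ Q := fun x => h2.le ⟨_, x.2, rfl⟩
  let α₀ : Q →* Q := (ψ.comp (Subgroup.inclusion le_sup_right)).codRestrict Q hm
  have hb : Function.Bijective α₀ := by
    refine ⟨fun a b e => Subgroup.inclusion_injective _
      (F.injective_of_mem hψ (congrArg Subtype.val e)), fun y => ?_⟩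
    obtain ⟨x, hx, e⟩ := h2.ge y.2
    exact ⟨⟨x, hx⟩, Subtype.ext e⟩
  have := Subgroup.characteristic_iff_map_eq.1 hU (MulEquiv.ofBijective α₀ hb)
  ext y
  constructor
  · rintro ⟨x, hx, rfl⟩
    exact this.le ⟨⟨x, hUQ hx⟩, hx, rfl⟩
  · intro hy
    obtain ⟨x, hx, e⟩ := this.ge (show (⟨y, hUQ hy⟩ : Q) ∈ U.subgroupOf Q from hy)
    exact ⟨⟨x, Subgroup.mem_sup_right hx⟩, hx, congrArg Subtype.val e⟩

end Cfsg.Agent.S5085
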