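import Cfsg.Statements.S5086
import Cfsg.Agent.Fusion.Br3
-- import your own Cfsg.Agent.* helpers here

set_option autoImplicit false
open Cfsg

namespace Cfsg.Agent.S5086

open Cfsg.Agent.Fusion


/-- In a saturated fusion system over a finite p-group, a subgroup Q is normal in the system if and only if Q is strongly closed in the system and is contained in every centric-radical subgroup. -/
theorem result {Ω : Type*} [Group Ω] {S : Subgroup Ω} [Finite S] (p : ℕ) [Fact p.Prime] (hS : IsPGroup p S) (F : Cfsg.FusionSystem S) (hF : F.IsSaturated p) (Q : Subgroup Ω) : F.IsNormal Q ↔ (F.StronglyClosed Q ∧ ∀ P : Subgroup Ω, F.IsCentric P → F.IsRadical p P → Q ≤ P) := by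
  obtain ⟨G, _, _, ι, F', r, -⟩ := exists_rich_rep F
  have hF' := r.sat hS hF
  constructor
  · intro h
    have h' := (r.nor_iff h.1).1 h
    exact ⟨(r.sc_iff h.1).2 h'.sc, fun P h1 h2 => (im_le_im r.inj h.1).1
      (h'.le_of_rad hF'.pg ((r.cent_iff h1.1).1 h1) ((r.rad_iff h1.1).1 h2))⟩
  · rintro ⟨h1, h2⟩
    refine (r.nor_iff h1.1).2 (hF'.nor_of_wc ((r.sc_iff h1.1).1 h1).wc fun P' hP' => ?_)
    obtain ⟨P, hP, rfl⟩ := r.lift hP'.le
    exact im_mono ι (h2 P ((r.cent_iff hP).2 hP'.cent) ((r.rad_iff hP).2 (hP'.rad hF'.pg)))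

end Cfsg.Agent.S5086
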