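import Cfsg.Statements.S5087
import Cfsg.Agent.Fusion.Br3
-- import your own Cfsg.Agent.* helpers here

set_option autoImplicit false
open Cfsg

namespace Cfsg.Agent.S5087

open Cfsg.Agent.Fusion


/-- In a saturated fusion system over a finite p-group S, a subgroup Q is normal in the system if and only if every subgroup P that equals S or is essential contains Q and every element of Aut_F(P) maps Q onto itself. -/
theorem result {Ω : Type*} [Group Ω] {S : Subgroup Ω} [Finite S] (p : ℕ) [Fact p.Prime] (hS : IsPGroup p S) (F : Cfsg.FusionSystem S) (hF : F.IsSaturated p) (Q : Subgroup Ω) : F.IsNormal Q ↔ ∀ P : Subgroup Ω, (P = S ∨ F.IsEssential p P) → (Q ≤ P ∧ ∀ α ∈ F.autGroup P, (Q.subgroupOf P).map α.toMonoidHom = Q.subgroupOf P) := by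
  obtain ⟨G, _, _, ι, F', r, -⟩ := exists_rich_rep F
  have hF' := r.sat hS hF
  have key : Q ≤ S → ((∀ P : Subgroup Ω, (P = S ∨ F.IsEssential p P) → (Q ≤ P ∧ ∀ α ∈ F.autGroup P,
      (Q.subgroupOf P).map α.toMonoidHom = Q.subgroupOf P)) ↔ ∀ P, P = F'.S ∨ F'.Ess p P →
      im ι Q ≤ P ∧ F'.aut P ≤ nz (im ι Q)) := fun hQ => r.forall_ess fun P hP => by
    rw [im_le_im r.inj hQ]
    exact and_congr_right fun h => r.aut_le_nz_iff hP h
  constructor
  · intro h
    have h' := (r.nor_iff h.1).1 h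
    refine (key h.1).2 fun P hP => ?_
    have h1 : im ι Q ≤ P := hP.elim (fun e => e ▸ h'.1)
      fun hP => h'.le_of_rad hF'.pg hP.cent (hP.rad hF'.pg)
    exact ⟨h1, h'.sc.wc.aut_le (hP.elim Eq.le FS.Ess.le) h1⟩
  · intro h
    have hQ := (h S (Or.inl rfl)).1
    exact (r.nor_iff hQ).2 (hF'.nor_of_ess ((key hQ).1 h))

end Cfsg.Agent.S5087
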