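import Cfsg.Statements.S5089
import Cfsg.Agent.Fusion.Br3
-- import your own Cfsg.Agent.* helpers here

set_option autoImplicit false
open Cfsg

namespace Cfsg.Agent.S5089

open Cfsg.Agent.Fusion


/-- A saturated fusion system over a finite p-group has a nontrivial subgroup that is normal in the system (O_p(F) ≠ 1) if and only if some nontrivial abelian subgroup is strongly closed in the system. -/
theorem result {Ω : Type*} [Group Ω] {S : Subgroup Ω} [Finite S] (p : ℕ) [Fact p.Prime] (hS : IsPGroup p S) (F : Cfsg.FusionSystem S) (hF : F.IsSaturated p) : F.core ≠ ⊥ ↔ ∃ Q : Subgroup Ω, Q ≠ ⊥ ∧ IsMulCommutative Q ∧ F.StronglyClosed Q := by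
  obtain ⟨G, _, _, ι, F', r, -⟩ := exists_rich_rep F
  have hF' := r.sat hS hF
  rw [Ne, r.core_eq_bot_iff, r.exists_iff (Φ' := fun Q => Q ≠ ⊥ ∧ Q ≤ cz Q ∧ F'.SC Q)
    (fun _ h => h.2.2.1) (fun _ h => h.2.2.1) fun Q hQ => and_congr
      (not_congr (im_eq_bot r.inj hQ).symm) (and_congr (by
        rw [isMulCommutative_iff_le_cz, im_le_cz_iff r.inj hQ hQ]) (r.sc_iff hQ))]
  constructor
  · intro h
    exact ⟨_, FS.center_ne_bot (hF'.pg_le F'.core_le) h,
      inf_le_right.trans (cz_anti inf_le_left), (F'.nor_core.of_char inf_le_left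
        fun g hg => mem_nz_inf hg (nz_le_nz_cz _ hg)).sc⟩
  · rintro ⟨Q, h1, h2, h3⟩ h
    exact h1 (le_bot_iff.1 (h ▸ (hF'.nor_of_abelian h3 h2).le_core))

end Cfsg.Agent.S5089
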