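import Cfsg.Statements.S5091
import Cfsg.Agent.Fusion.Model2
-- import your own Cfsg.Agent.* helpers here

set_option autoImplicit false
open Cfsg

namespace Cfsg.Agent.S5091

open Cfsg.Agent.Fusion


/-- Model Theorem, uniqueness: two models of a constrained saturated fusion system over a finite p-group S are isomorphic by an isomorphism compatible with the two embeddings of S. -/
theorem result {Ω : Type*} [Group Ω] {S : Subgroup Ω} [Finite S] (p : ℕ) [Fact p.Prime] (hS : IsPGroup p S) (F : Cfsg.FusionSystem S) (hF : F.IsConstrained p) {G₁ G₂ : Type*} [Group G₁] [Group G₂] (ι₁ : S →* G₁) (ι₂ : S →* G₂) (h₁ : F.IsModel p G₁ ι₁) (h₂ : F.IsModel p G₂ ι₂) : ∃ φ : G₁ ≃* G₂, ∀ x : S, φ (ι₁ x) = ι₂ x := by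
    obtain ⟨G, _, _, ι, F', r, hr⟩ := exists_rich_rep F
    have hle : F'.S ≤ ι.range := by rw [r.S_eq]; exact im_le_range ι S
    obtain ⟨ψ₁, i₁, e₁, m₁⟩ := r.exists_emb hr hle h₁
    obtain ⟨ψ₂, i₂, e₂, m₂⟩ := r.exists_emb hr hle h₂
    obtain ⟨φ, hφ⟩ := m₁.unique m₂
    refine ⟨((MonoidHom.ofInjective i₁).trans φ).trans (MonoidHom.ofInjective i₂).symm, fun x => ?_⟩
    rw [MulEquiv.trans_apply, MulEquiv.symm_apply_eq]
    apply Subtype.ext
    have h := hφ ⟨fn ι x, r.mem_S x.2⟩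
    have e : MonoidHom.ofInjective i₁ (ι₁ x) = ⟨fn ι x, m₁.le (r.mem_S x.2)⟩ := Subtype.ext (e₁ x)
    rw [MulEquiv.trans_apply, e, h]
    exact (e₂ x).symm

end Cfsg.Agent.S5091
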