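import Cfsg.Statements.S5094
import Mathlib
import Cfsg.Agent.Inv.ZStar
import Cfsg.Agent.Transfer.Abelian

set_option autoImplicit false
open Cfsg

namespace Cfsg.Agent.S5094

/-- Glauberman's Z*-Theorem in fusion language: for a finite group G with Sylow 2-subgroup S, the centre of the fusion system of G on S is the set of elements of S whose image in G/O(G) is central, O(G) being the largest normal subgroup of odd order. -/
theorem result {G : Type*} [Group G] [Finite G] (S : Sylow 2 G) : (Cfsg.groupFusionSystem (S : Subgroup G)).center = (S : Subgroup G) ⊓ (Subgroup.center (G ⧸ Cfsg.oddCore G)).comap (QuotientGroup.mk' (Cfsg.oddCore G)) := by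
  have : Fact (Nat.Prime 2) := ⟨Nat.prime_two⟩
  set W := (S : Subgroup G) ⊓
    (Subgroup.center (G ⧸ Cfsg.oddCore G)).comap (QuotientGroup.mk' (Cfsg.oddCore G)) with hWdef
  have hW : ∀ w ∈ W, Inv.WkCl (S : Subgroup G) w := by
    intro w hw
    refine ⟨hw.1, fun g hg => ?_⟩
    have h1 : QuotientGroup.mk' (Cfsg.oddCore G) (g * w * g⁻¹ * w⁻¹) = 1 := by
      have := Subgroup.mem_center_iff.1 hw.2 (QuotientGroup.mk' (Cfsg.oddCore G) g)
      simp only [map_mul, map_inv]
      rw [this]; group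
    have h2 : g * w * g⁻¹ * w⁻¹ ∈ Cfsg.oddCore G := (QuotientGroup.eq_one_iff _).1 h1
    have h3 := Inv.eq_one_of_odd_of_mem_two_group S.2 (mul_mem hg (inv_mem hw.1))
      (Inv.odd_orderOf_of_mem Inv.odd_card_oddCore h2)
    exact mul_inv_eq_one.1 h3
  apply le_antisymm
  · refine sSup_le fun Q hQ x hx => ⟨hQ.1 hx, ?_⟩
    have hw : Inv.WkCl (S : Subgroup G) x := by
      refine ⟨hQ.1 hx, fun g hg => ?_⟩
      obtain ⟨ψ, -, h1, h2⟩ := hQ.2 (Subgroup.zpowers x) (Cfsg.conjHom _ g)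
        ⟨Subgroup.zpowers_le.2 (hQ.1 hx), by
          rintro ⟨_, k, rfl⟩
          change g * x ^ k * g⁻¹ ∈ _
          rw [← conj_zpow]
          exact zpow_mem hg k, g, fun _ => rfl⟩
      exact (h1 ⟨x, Subgroup.mem_zpowers x⟩).symm.trans (h2 ⟨x, hx⟩)
    refine Subgroup.mem_comap.2 (Subgroup.mem_center_iff.2 fun g => ?_)
    obtain ⟨g, rfl⟩ := QuotientGroup.mk'_surjective (Cfsg.oddCore G) g
    have h1 := (QuotientGroup.eq_one_iff _).2 (Inv.zstar_elem hw g)
    change QuotientGroup.mk' (Cfsg.oddCore G) _ = 1 at h1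
    simp only [map_mul, map_inv] at h1
    rw [mul_inv_eq_one, mul_inv_eq_iff_eq_mul] at h1
    exact h1.symm
  · refine le_sSup ⟨inf_le_left, ?_⟩
    rintro P φ ⟨hP, hφ, g, hg⟩
    have hc : W ≤ Subgroup.centralizer ((S : Subgroup G) : Set G) := fun w hw s hs =>
      ((hW w hw).commute hs).eq
    have hwc : IsWeaklyClosed W (S : Subgroup G) := by
      refine ⟨inf_le_left, fun k hk => ?_⟩
      have h1 : ∀ w ∈ W, k * w * k⁻¹ = w := fun w hw => (hW w hw).2 k (hk ⟨w, hw, rfl⟩)
      ext y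
      constructor
      · rintro ⟨w, hw, rfl⟩
        change k * w * k⁻¹ ∈ W
        rwa [h1 w hw]
      · exact fun hy => ⟨y, hy, h1 y hy⟩
    obtain ⟨v, hv, hva⟩ := Transfer.control_of_isWeaklyClosed hc hwc (A := (P : Set G)) hP
      (g := g) (fun a ha => hg ⟨a, ha⟩ ▸ hφ ⟨a, ha⟩)
    have hvw : ∀ w ∈ W, v * w * v⁻¹ = w := fun w hw =>
      (hW w hw).2 v ((Subgroup.mem_normalizer_iff.1 hv w).1 hw).1
    refine ⟨Cfsg.conjHom _ v, ⟨sup_le hP inf_le_left, fun x => ?_, v, fun _ => rfl⟩, fun x => ?_,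
      fun x => hvw x x.2⟩
    · have : P ⊔ W ≤ (S : Subgroup G).comap (MulAut.conj v).toMonoidHom := by
        refine sup_le (fun a ha => ?_) (fun w hw => ?_)
        · change v * a * v⁻¹ ∈ (S : Subgroup G)
          rw [hva a ha, ← hg ⟨a, ha⟩]
          exact hφ _
        · change v * w * v⁻¹ ∈ (S : Subgroup G)
          rw [hvw w hw]
          exact hw.1
      exact this x.2
    · exact (hva x x.2).trans (hg x).symm

end Cfsg.Agent.S5094
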