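import Cfsg.Statements.S5095
import Cfsg.Agent.Fusion.Br3
-- import your own Cfsg.Agent.* helpers here

set_option autoImplicit false
open Cfsg

namespace Cfsg.Agent.S5095

open Cfsg.Agent.Fusion


/-- In a saturated fusion system over a finite p-group S: if Q ≤ P ≤ S with Q centric, and two maps of the system with source P agree on Q, then they differ by an inner automorphism of P induced by an element of the centre of Q. -/
theorem result {Ω : Type*} [Group Ω] {S : Subgroup Ω} [Finite S] (p : ℕ) [Fact p.Prime] (hS : IsPGroup p S) (F : Cfsg.FusionSystem S) (hF : F.IsSaturated p) (P Q : Subgroup Ω) (hQP : Q ≤ P) (hQ : F.IsCentric Q) (φ φ' : P →* Ω) (hφ : φ ∈ F.Hom P) (hφ' : φ' ∈ F.Hom P) (h : ∀ x : P, (x : Ω) ∈ Q → φ x = φ' x) : ∃ z : P, (z : Ω) ∈ Q ∧ (z : Ω) ∈ Subgroup.centralizer (Q : Set Ω) ∧ ∀ y : P, φ' y = φ (z * y * z⁻¹) := by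
  obtain ⟨G, _, _, ι, F', r, -⟩ := exists_rich_rep F
  obtain ⟨g, hg, e⟩ := r.fwd hφ
  obtain ⟨g', hg', e'⟩ := r.fwd hφ'
  obtain ⟨z', hz', h1⟩ := (r.sat hS hF).cent_unique' ((r.cent_iff hQ.1).1 hQ) (im_mono ι hQP) hg hg'
    ((e.agree_iff r.inj e' (r.memU hφ) (r.memU hφ') hQ.1 hQP hQP).1
      fun x hx => (h ⟨x, hQP hx⟩ hx).symm)
  rw [← im_inf_cz r.inj hQ.1 hQ.1] at hz'
  obtain ⟨z, hz, rfl⟩ := (mem_im (inf_le_left.trans hQ.1)).1 hz'
  refine ⟨⟨z, hQP hz.1⟩, hz.1, hz.2, fun y => ?_⟩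
  rw [← fn_inj r.inj (r.memU hφ' _) (r.memU hφ _), e', e, inv_mul_mem_cz.1 h1 _ (fn_mem_im ι y.2)]
  have := fn_conj ι (hQ.1 hz.1) (r.leU hφ y.2)
  simp only [Subgroup.coe_mul, Subgroup.coe_inv]
  rw [this]; group

end Cfsg.Agent.S5095
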