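import Cfsg.Statements.S5097
import Cfsg.Agent.Fusion.Br2
-- import your own Cfsg.Agent.* helpers here

set_option autoImplicit false
open Cfsg

namespace Cfsg.Agent.S5097

open Cfsg.Agent.Fusion


/-- For any fusion system over a subgroup S and any Q ≤ S, the maps of the centralizer system C_F(Q) — those maps between subgroups of C_S(Q) that extend to the subgroup generated with Q fixing Q elementwise — form a fusion system over C_S(Q). -/
theorem result {Ω : Type*} [Group Ω] {S : Subgroup Ω} (F : Cfsg.FusionSystem S) (Q : Subgroup Ω) (hQ : Q ≤ S) : ∃ E : Cfsg.FusionSystem (Cfsg.FusionSystem.centralizerIn S Q), F.IsCentralizerSystem Q E := by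
  refine ⟨⟨fun P => F.centralizerHom Q P, fun h => ⟨h.2.1, h.2.2.1⟩,
    fun h => F.injective_of_mem h.1, ?_, ?_, ?_⟩, fun _ => rfl⟩
  · intro P g hP hg
    exact ⟨F.conj_mem (hP.trans inf_le_left) hg.1, hP,
      fun x => mul_mem (mul_mem hg (hP x.2)) (inv_mem hg), conjHom (P ⊔ Q) g,
      F.conj_mem (sup_le (hP.trans inf_le_left) hQ) hg.1, fun _ => rfl,
      fun x => conj_eq_of_cz hg.2 x.2⟩
  · rintro P R φ ψ ⟨a1, a2, a3, φ', a4, a5, a6⟩ ⟨b1, b2, b3, ψ', b4, b5, b6⟩ h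
    have hm : ∀ x, φ' x ∈ R ⊔ Q := by
      have : (P.subgroupOf (P ⊔ Q) ⊔ Q.subgroupOf (P ⊔ Q)).map φ' ≤ R ⊔ Q := by
        rw [Subgroup.map_sup]
        refine sup_le_sup ?_ ?_
        · rintro _ ⟨x, hx, rfl⟩
          exact a5 ⟨x, hx⟩ ▸ h _
        · rintro _ ⟨x, hx, rfl⟩
          exact mem_of_eq hx (a6 ⟨x, hx⟩).symm
      rw [← Subgroup.subgroupOf_sup le_sup_left le_sup_right, Subgroup.subgroupOf_self] at this
      exact fun x => this ⟨x, trivial, rfl⟩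
    refine ⟨F.comp_mem a1 b1 h, a2, fun x => b3 _, _, F.comp_mem a4 b4 hm, fun x => ?_, fun x => ?_⟩
    · refine Eq.trans ?_ (b5 ⟨φ x, h x⟩)
      exact congrArg ψ' (Subtype.ext (a5 x))
    · refine Eq.trans ?_ (b6 x)
      exact congrArg ψ' (Subtype.ext (a6 x))
  · rintro P φ ⟨a1, a2, a3, φ', a4, a5, a6⟩
    obtain ⟨ψ, hψ, e⟩ := F.inv_mem a1
    obtain ⟨ψ', hψ', e'⟩ := F.inv_mem a4
    have hle : φ.range ⊔ Q ≤ φ'.range := by
      refine sup_le ?_ fun x hx => ⟨_, a6 ⟨x, hx⟩⟩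
      rintro _ ⟨x, rfl⟩; exact ⟨_, a5 x⟩
    refine ⟨ψ, ⟨hψ, by rintro _ ⟨x, rfl⟩; exact a3 x, ?_, _, hom_restrict hψ' hle, ?_, ?_⟩, e⟩
    · rintro ⟨_, x, rfl⟩; rw [e]; exact a2 x.2
    · rintro ⟨_, x, rfl⟩
      rw [e]
      refine Eq.trans ?_ (e' (Subgroup.inclusion le_sup_left x))
      exact congrArg ψ' (Subtype.ext (a5 x).symm)
    · intro x
      refine Eq.trans ?_ (e' (Subgroup.inclusion le_sup_right x))
      exact congrArg ψ' (Subtype.ext (a6 x).symm)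

end Cfsg.Agent.S5097
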