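import Cfsg.Statements.S5105
import Cfsg.Agent.Fusion.H1
-- import your own Cfsg.Agent.* helpers here

set_option autoImplicit false
open Cfsg

namespace Cfsg.Agent.S5105

open Cfsg.Agent.Fusion


/-- Model Theorem, rigidity: if G is a model of a constrained fusion system over a finite p-group S (through ι : S → G), then every automorphism of G fixing ι(S) elementwise is conjugation by ι(z) for some z in the centre of S. -/
theorem result {Ω : Type*} [Group Ω] {S : Subgroup Ω} [Finite S] (p : ℕ) [Fact p.Prime] (hS : IsPGroup p S) (F : Cfsg.FusionSystem S) (hF : F.IsConstrained p) {G : Type*} [Group G] (ι : S →* G) (hG : F.IsModel p G ι) (ψ : G ≃* G) (hψ : ∀ x : S, ψ (ι x) = ι x) : ∃ z : S, z ∈ Subgroup.center S ∧ ∀ g : G, ψ g = ι z * g * (ι z)⁻¹ := by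
    obtain ⟨hfin, hr, ⟨T, hT⟩, hC⟩ := hG
    have hQT : (pCore p G : Subgroup G) ≤ ι.range := by
      rw [← hT, ← opm_top_bot]; exact (syl_top T).opm_le
    haveI hQn : (pCore p G : Subgroup G).Normal := by
      rw [← top_le_nz_iff, ← opm_top_bot]; exact le_nz_opm_bot p ⊤
    have hfix : ∀ t ∈ ι.range, ψ t = t := by rintro _ ⟨x, rfl⟩; exact hψ x
    set Q : Subgroup G := pCore p G with hQ
    haveI : (cz Q).Normal := inferInstance
    have hA : cz Q ≤ cz (cz Q) := le_cz_comm.1 (cz_anti hC |>.trans' le_rfl |> fun h => by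
      intro x hx; exact mem_cz.2 fun y hy => (mem_cz.1 hx y (hC hy)))
    have hd : ∀ g, ψ g * g⁻¹ ∈ cz Q := by
      intro g
      refine mem_cz'.2 fun x hx => ?_
      have h1 : g⁻¹ * x * g ∈ Q := by simpa using hQn.conj_mem x hx g⁻¹
      have h2 := hfix x (hQT hx)
      have h3 := hfix _ (hQT h1)
      calc ψ g * g⁻¹ * x * (ψ g * g⁻¹)⁻¹ = ψ g * (g⁻¹ * x * g) * (ψ g)⁻¹ := by group
        _ = ψ g * ψ (g⁻¹ * x * g) * (ψ g)⁻¹ := by rw [h3]
        _ = ψ x := by simp [mul_assoc]
        _ = x := h2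
    have hcop : (Nat.card (cz Q)).Coprime ι.range.index := by
      have h1 : IsPGroup p (cz Q) := (T.isPGroup'.to_le (hT ▸ hC.trans hQT))
      obtain ⟨k, hk⟩ := h1.exists_card_eq
      rw [hk, ← hT]
      exact Nat.Coprime.pow_left _ ((Nat.Prime.coprime_iff_not_dvd Fact.out).2 T.not_dvd_index)
    obtain ⟨z, hz, hzz⟩ := exists_cobdry hA hcop (fun g => ψ g * g⁻¹) hd (fun g h => by
        have := mem_cz.1 (hA (hd g)) _ ((inferInstance : (cz Q).Normal).conj_mem _ (hd h) g)
        simp [mul_assoc]) (fun t ht => by simp [hfix t ht])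
    obtain ⟨s, rfl⟩ := hQT (hC hz)
    have key : ∀ g, ψ g = ι s * g * (ι s)⁻¹ := fun g => by
      have := hzz g
      rw [mul_inv_eq_iff_eq_mul] at this
      rw [this]; group
    refine ⟨s, Subgroup.mem_center_iff.2 fun y => hr.1 ?_, key⟩
    have := key (ι y)
    rw [hψ, eq_mul_inv_iff_mul_eq] at this
    simpa using this

end Cfsg.Agent.S5105
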