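import Cfsg.Statements.S5106
import Cfsg.Agent.Fusion.Br3
-- import your own Cfsg.Agent.* helpers here

set_option autoImplicit false
open Cfsg

namespace Cfsg.Agent.S5106

open Cfsg.Agent.Fusion


/-- In a saturated fusion system over a finite p-group S, a subgroup R ≤ S is normal in the system if and only if every map of the system whose source is a subgroup of R is the restriction of an element of Aut_F(R). -/
theorem result {Ω : Type*} [Group Ω] {S : Subgroup Ω} [Finite S] (p : ℕ) [Fact p.Prime] (hS : IsPGroup p S) (F : Cfsg.FusionSystem S) (hF : F.IsSaturated p) (R : Subgroup Ω) (hRS : R ≤ S) : F.IsNormal R ↔ ∀ (P : Subgroup Ω) (hPR : P ≤ R) (φ : P →* Ω), φ ∈ F.Hom P → ∃ α ∈ F.autGroup R, ∀ x : P, ((α (Subgroup.inclusion hPR x) : R) : Ω) = φ x := by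
  obtain ⟨G, _, _, ι, F', r, -⟩ := exists_rich_rep F
  rw [r.nor_iff hRS]
  constructor
  · intro h P hPR φ hφ
    obtain ⟨g, hg, e⟩ := r.fwd hφ
    obtain ⟨c, hc, h1⟩ := h.extend hg
    obtain ⟨α, hα, e'⟩ := r.exists_mem_autGroup hRS h1
    refine ⟨α, hα, fun x => ?_⟩
    rw [← fn_inj r.inj (hRS (α _).2) (r.memU hφ _), e', e]
    exact conj_mul_cz hc (fn_mem_im ι x.2)
  · intro h
    refine (r.sat hS hF).nor_of_extend (r.im_le hRS) fun P' g hP' hg => ?_
    obtain ⟨P, hP, rfl⟩ := exists_im_eq ι hP'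
    obtain ⟨φ, hφ, e⟩ := r.bwd (hP.trans hRS) hg
    obtain ⟨α, hα, e'⟩ := h P hP φ hφ
    obtain ⟨a, ha, e''⟩ := (r.mem_autGroup_iff hRS).1 hα
    refine ⟨g⁻¹ * a, ?_, by simpa using ha⟩
    rw [inv_mul_mem_cz, forall_mem_im (hP.trans hRS)]
    intro x hx
    rw [← e ⟨x, hx⟩, ← e', e'']; rfl

end Cfsg.Agent.S5106
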