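import Cfsg.Statements.S5107
import Cfsg.Agent.Fusion.Br3
-- import your own Cfsg.Agent.* helpers here

set_option autoImplicit false
open Cfsg

namespace Cfsg.Agent.S5107

open Cfsg.Agent.Fusion


/-- If a Sylow p-subgroup S of a finite group G has nilpotency class at most two and its centre is strongly closed in S with respect to G, then every map of the fusion system of G on S is conjugation by an element of N_G(S), and S is the largest subgroup normal in that fusion system. -/
theorem result {G : Type*} [Group G] [Finite G] (p : ℕ) [Fact p.Prime] (S : Sylow p G) (hcl : ⁅(S : Subgroup G), (S : Subgroup G)⁆ ≤ (S : Subgroup G) ⊓ Subgroup.centralizer ((S : Subgroup G) : Set G)) (hZ : Cfsg.IsStronglyClosed ((S : Subgroup G) ⊓ Subgroup.centralizer ((S : Subgroup G) : Set G)) (S : Subgroup G)) : (∀ (P : Subgroup G) (φ : P →* G), φ ∈ (Cfsg.groupFusionSystem (S : Subgroup G)).Hom P → ∃ g ∈ Subgroup.normalizer ((S : Subgroup G) : Set G), ∀ x : P, φ x = g * (x : G) * g⁻¹) ∧ (Cfsg.groupFusionSystem (S : Subgroup G)).core =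 S := by
  have r := rep_group (S : Subgroup G)
  have hF := FS.ofGroup_sat (syl_top S)
  have h1 : (FS.ofGroup (S : Subgroup G) ⊤).SC ((S : Subgroup G) ⊓ cz (S : Subgroup G)) :=
    (FS.ofGroup_SC_iff le_top).2 ⟨inf_le_left, fun x hx g _ => hZ.2 x hx g⟩
  have h2 := hF.nor_of_wc_chain (FS.sc_S _) (n := 2) ![⊥, (S : Subgroup G) ⊓ cz (S : Subgroup G), S]
    rfl rfl (Fin.monotone_iff_le_succ.2 fun i => by
      fin_cases i
      · exact bot_le
      · exact inf_le_left) (fun i => by
      fin_cases i
      · exact (Subgroup.commutator_eq_bot_iff_le_centralizer.2 inf_le_right).le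
      · exact hcl) (fun i => by
      fin_cases i
      · exact (FS.sc_bot _).wc
      · exact h1.wc)
  refine ⟨fun P φ hφ => ?_, ?_⟩
  · obtain ⟨g, hg, e⟩ := r.fwd hφ
    obtain ⟨c, hc, h3⟩ := h2.extend hg
    rw [im_subtype_top] at hc
    exact ⟨g * c, FS.aut_le_nz _ _ h3, fun x => by rw [conj_mul_cz hc x.2, ind_tp.1 e x]⟩
  · rw [← im_subtype_top (FusionSystem.core _), r.im_core]
    exact le_antisymm (FS.core_le _) h2.le_core

end Cfsg.Agent.S5107
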