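import Cfsg.Statements.S5110
import Cfsg.Agent.Fusion.ThmA
-- import your own Cfsg.Agent.* helpers here

set_option autoImplicit false
open Cfsg

namespace Cfsg.Agent.S5110

open Cfsg.Agent.Fusion


/-- Saturation criterion: let F be a fusion system over a finite p-group S and H a family of subgroups of S closed under conjugacy in F, such that every conjugacy class inside H contains a fully automized receptive member, F is the smallest fusion system over S containing all its maps with source in H, and every centric subgroup outside H is conjugate in F to some P for which Aut_S(P) ∩ O_p(Aut_F(P)) is not contained in Inn(P). Then F is saturated. -/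
theorem result {Ω : Type*} [Group Ω] {S : Subgroup Ω} [Finite S] (p : ℕ) [Fact p.Prime] (hS : IsPGroup p S) (F : Cfsg.FusionSystem S) (ℋ : Set (Subgroup Ω)) (hℋS : ∀ P ∈ ℋ, P ≤ S) (hℋconj : ∀ P ∈ ℋ, ∀ Q, F.IsConj P Q → Q ∈ ℋ) (hsat : ∀ P ∈ ℋ, ∃ Q, F.IsConj P Q ∧ F.IsFullyAutomized p Q ∧ F.IsReceptive Q) (hgen : ∀ E : Cfsg.FusionSystem S, (∀ P ∈ ℋ, F.Hom P ⊆ E.Hom P) → F ≤ E) (hstar : ∀ P : Subgroup Ω, F.IsCentric P → P ∉ ℋ → ∃ Q, F.IsConj P Q ∧ ¬ (Cfsg.autInducedBy S Q ⊓ (Cfsg.pCore p ↥(F.autGroup Q)).map (F.autGroup Q).subtype ≤ Cfsg.Inn Q)) : F.IsSaturated p := by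
  obtain ⟨G, _, _, ι, F', r, -⟩ := exists_rich_rep F
  refine r.sat_of (FS.sat_of_gen (r.pg hS) (fun P' => ∃ P ∈ ℋ, im ι P = P') ?_ ?_ ?_ ?_)
  · rintro _ g ⟨P, hP, rfl⟩ hg
    obtain ⟨Q, h1, -, h2⟩ := r.exists_conj (hℋS P hP) hg
    exact ⟨Q, hℋconj P hP Q h1, h2⟩
  · rintro _ ⟨P, hP, rfl⟩ -
    obtain ⟨Q, h1, h2, h3⟩ := hsat P hP
    have h4 := (isConj_le h1).2
    obtain ⟨g, h5, h6⟩ := (r.isConj_iff (hℋS P hP) h4).1 h1
    exact ⟨g, h5, h6 ▸ (r.fa_iff hS h4).1 h2, h6 ▸ (r.rec_iff h4).1 h3⟩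
  · intro E' e h
    obtain ⟨E, s⟩ := exists_rep' r.inj le_rfl E' (e.trans r.S_eq)
    exact (r.le_iff_le s).1 (hgen E fun P hP => (r.hom_sub_iff s (hℋS P hP)).2 fun g =>
      h _ g ⟨P, hP, rfl⟩)
  · intro P' h1 h2
    obtain ⟨P, hP, rfl⟩ := r.lift h1.1
    obtain ⟨Q, h3, h4⟩ := hstar P ((r.cent_iff hP).2 h1) fun h => h2 ⟨P, h, rfl⟩
    have h5 := (isConj_le h3).2
    obtain ⟨g, h6, h7⟩ := (r.isConj_iff hP h5).1 h3
    refine ⟨g, h6, fun e => h4 ?_⟩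
    rw [r.autS_eq h5, r.pCore_eq h5, r.inn_eq h5, ← dn_inf _ _ (F'.cz_le_opm _)]
    refine dn_mono _ fun x hx => ?_
    obtain ⟨s, s1, -, c, hc, rfl⟩ := mem_ai'.1 hx.1
    exact mul_mem (le_ai_self _ ((h7 ▸ e) ⟨s1, by
      simpa using Subgroup.mul_mem _ hx.2 (Subgroup.inv_mem _ (F'.cz_le_opm _ hc))⟩)) (cz_le_ai _ _ hc)

end Cfsg.Agent.S5110
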