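import Cfsg.Statements.S5111
import Cfsg.Agent.Fusion.Br2
-- import your own Cfsg.Agent.* helpers here

set_option autoImplicit false
open Cfsg

namespace Cfsg.Agent.S5111

open Cfsg.Agent.Fusion


/-- A fusion system over a finite p-group S is saturated if and only if the inner automorphisms of S form a Sylow p-subgroup of Aut_F(S) and every fully normalized subgroup of S is receptive. -/
theorem result {Ω : Type*} [Group Ω] {S : Subgroup Ω} [Finite S] (p : ℕ) [Fact p.Prime] (hS : IsPGroup p S) (F : Cfsg.FusionSystem S) : F.IsSaturated p ↔ (F.IsFullyAutomized p S ∧ ∀ P : Subgroup Ω, F.IsFullyNormalized P → F.IsReceptive P) := by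
  obtain ⟨G, _, _, ι, F', r, -⟩ := exists_rich_rep F
  rw [r.sat_iff hS, r.fa_iff hS le_rfl, ← r.S_eq, r.forall_le' (Ψ' := F'.FN) (Φ' := F'.Rec)
    (fun _ h => h.1) (fun _ h => h.1) (fun _ h => r.fn_iff h) (fun _ h => r.rec_iff h)]
  exact ⟨fun h => ⟨h.fa F'.FN_S, fun _ hP => h.rc hP⟩, fun h => FS.sat_of_FA_S (r.pg hS) h.1 h.2⟩

end Cfsg.Agent.S5111
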