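import Cfsg.Statements.S5112
import Cfsg.Agent.Fusion.GrpF
import Cfsg.Agent.S3116
import Cfsg.Agent.Inv.Wr2
-- import your own Cfsg.Agent.* helpers here

set_option autoImplicit false
open Cfsg

namespace Cfsg.Agent.S5112

open Cfsg.Agent.Fusion


/-- If S is a dihedral or generalized quaternion 2-group of order at least 16, then in every saturated fusion system over S (at the prime 2) the automorphism group Aut_F(S) consists of the inner automorphisms of S. -/
theorem result {Ω : Type*} [Group Ω] {S : Subgroup Ω} [Finite S] (n : ℕ) (hn : 4 ≤ n) (hshape : Nonempty (S ≃* DihedralGroup (2 ^ (n - 1))) ∨ Nonempty (S ≃* QuaternionGroup (2 ^ (n - 2)))) (F : Cfsg.FusionSystem S) (hF : F.IsSaturated 2) : F.autGroup S = Cfsg.Inn S := by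
  haveI : Fact (Nat.Prime 2) := ⟨Nat.prime_two⟩
  obtain ⟨n, rfl⟩ : ∃ m, n = m + 4 := ⟨n - 4, by omega⟩
  have hS : IsPGroup 2 S := by
    rcases hshape with ⟨⟨e⟩⟩ | ⟨⟨e⟩⟩
    · exact IsPGroup.of_card (n := n + 4) (by
        rw [Nat.card_congr e.toEquiv, DihedralGroup.nat_card, ← pow_succ']; rfl)
    · exact IsPGroup.of_card (n := n + 4) (by
        haveI : NeZero (2 ^ (n + 4 - 2)) := ⟨by positivity⟩
        rw [Nat.card_congr e.toEquiv, Nat.card_eq_fintype_card, QuaternionGroup.card,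
          show n + 4 - 2 = n + 2 from rfl]; ring)
  have hA : IsPGroup 2 (MulAut S) := by
    rcases hshape with ⟨⟨e⟩⟩ | ⟨⟨e⟩⟩
    · exact S3116.result hS (Or.inl ⟨_, by
        have : 0 < 2 ^ n := by positivity
        rw [show n + 4 - 1 = n + 3 from rfl]; simp only [pow_succ]; omega, ⟨e⟩⟩)
    · obtain ⟨x, y, h1, h2⟩ := Inv.exists_quat (S := ⊤) (Subgroup.topEquiv.trans e)
      refine S3116.aux h1 fun t ht h3 => ?_
      have h4 : t ^ 4 = 1 := by
        rw [show t ^ 4 = t * t * (t * t) by simp [pow_succ, mul_assoc], h2 t trivial ht]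
        exact h1.zz
      have h5 := Nat.le_of_dvd (by norm_num) (orderOf_dvd_of_pow_eq_one h4)
      rw [h3, h1.ord, show n + 4 - 2 = n + 2 from rfl] at h5
      have : 0 < 2 ^ n := by positivity
      simp only [pow_succ] at h5
      omega
  obtain ⟨G, _, _, ι, F', r, -⟩ := exists_rich_rep F
  have hF' := r.sat hS hF
  have h1 := (r.isPGroup_autGroup_iff le_rfl).1 (hA.to_subgroup _)
  rw [r.aut_eq_inn_iff le_rfl]
  rw [← r.S_eq] at h1 ⊢
  exact le_antisymm ((h1.le_sup (F'.aut_le_nz_cz _) hF'.aut_S_nd).trans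
    (sup_le le_rfl (cz_le_ai _ _))) (FS.aiS_le_aut le_rfl)

end Cfsg.Agent.S5112
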