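import Cfsg.Statements.S5113
import Cfsg.Agent.Fusion.PInd
-- import your own Cfsg.Agent.* helpers here

set_option autoImplicit false
open Cfsg

namespace Cfsg.Agent.S5113

open Cfsg.Agent.Fusion


/-- Let F be a saturated fusion system over a finite p-group S and T a subgroup of S containing the hyperfocal subgroup of F. Then there is exactly one saturated fusion system over T that is a subsystem of F of p-power index. -/
theorem result {Ω : Type*} [Group Ω] {S : Subgroup Ω} [Finite S] (p : ℕ) [Fact p.Prime] (hS : IsPGroup p S) (F : Cfsg.FusionSystem S) (hF : F.IsSaturated p) (T : Subgroup Ω) (hTS : T ≤ S) (hT : F.hyperfocalSubgroup p ≤ T) : ∃ E : Cfsg.FusionSystem T, (E.IsSaturated p ∧ E.HasPPowerIndexIn F p) ∧ ∀ E' : Cfsg.FusionSystem T, E'.IsSaturated p → E'.HasPPowerIndexIn F p → E' = E := by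
  obtain ⟨G, _, _, ι, F', r, -⟩ := exists_rich_rep F
  obtain ⟨E', e, h1, h2⟩ := (r.sat hS hF).exists_ppi (r.im_hyp.ge.trans (im_mono ι hT)) (r.im_le hTS)
  obtain ⟨E, s⟩ := exists_rep' r.inj hTS E' e
  refine ⟨E, ⟨s.sat_of h1, (r.ppi_iff s).2 h2⟩, fun D a b => ?_⟩
  obtain ⟨D', t⟩ := r.exists_sub b.1
  obtain rfl := h2.unique ((r.ppi_iff t).1 b) h1 (t.sat (hS.to_le hTS) a) (t.S_eq.trans e.symm)
  exact s.unique' t

end Cfsg.Agent.S5113
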