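import Cfsg.Statements.S5114
import Cfsg.Agent.Fusion.PQI
-- import your own Cfsg.Agent.* helpers here

set_option autoImplicit false
open Cfsg

namespace Cfsg.Agent.S5114

open Cfsg.Agent.Fusion


/-- Let F be a saturated fusion system over a finite p-group S and E a fusion system over S contained in F. If Aut_E(P) contains the subgroup of Aut_F(P) generated by its elements of p-power order for every subgroup P that is centric in F, then the same holds for every subgroup of S (E has index prime to p in F), every map of F with source a subgroup P of S is an element of Aut_F(S) composed with a map of E, and a subgroup is centric in E exactly when it is centric in F. -/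
theorem result {Ω : Type*} [Group Ω] {S : Subgroup Ω} [Finite S] (p : ℕ) [Fact p.Prime] (hS : IsPGroup p S) (F : Cfsg.FusionSystem S) (hF : F.IsSaturated p) (E : Cfsg.FusionSystem S) (hEF : E.IsSubsystemOf F) (h : ∀ P : Subgroup Ω, F.IsCentric P → (Subgroup.closure {α : ↥(F.autGroup P) | ∃ k : ℕ, orderOf α = p ^ k}).map (F.autGroup P).subtype ≤ E.autGroup P) : E.HasPrimeToPIndexIn F p ∧ (∀ (P : Subgroup Ω) (φ : P →* Ω), φ ∈ F.Hom P → ∃ α ∈ F.autGroup S, ∃ φ₀ ∈ E.Hom P, ∀ (x : P) (hx : φ₀ x ∈ S), φ x = ((α ⟨φ₀ x, hx⟩ : S) : Ω)) ∧ ∀ P : Subgroup Ω, E.IsCentric P ↔ F.IsCentric P := by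
  obtain ⟨G, _, _, ι, F', r, -⟩ := exists_rich_rep F
  have hF' := r.sat hS hF
  obtain ⟨E', s⟩ := r.exists_sub hEF
  have e := (r.S_eq_iff s).2 rfl
  have h1 : E'.PQI F' p := (((FS.fam_cent p F').invt hF').pqi hF' rfl).mono
    (FS.q0_le_of e.ge fun P' h1 h2 => by
      obtain ⟨P, hP, rfl⟩ := r.lift h2
      have := h P ((r.cent_iff hP).2 h1)
      rw [r.closure_p_eq hP, s.autGroup_eq hP] at this
      exact (dn_le_iff _ ((pres'_le _).trans (F'.aut_le_nz _)) (E'.cz_le_aut _)).1 this)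
    ((r.le_iff_sub s).1 hEF)
  refine ⟨(r.pqi_iff s).2 h1, fun P φ hφ => ?_, fun P => ?_⟩
  · obtain ⟨g, h2, h3⟩ := r.fwd hφ
    obtain ⟨a, ha, h4⟩ := h1.frat hF' h2
    obtain ⟨α, a1, a2⟩ := r.exists_mem_autGroup le_rfl (r.S_eq ▸ ha)
    obtain ⟨ψ, b1, b2⟩ := s.bwd (hom_le hφ) h4
    refine ⟨α, a1, ψ, b1, fun x hx => (fn_inj r.inj (hom_mem hφ x) (α _).2).1 ?_⟩
    rw [a2, h3 x, b2 x]; group
  · by_cases hP : P ≤ S
    · rw [r.cent_iff hP, s.cent_iff hP, h1.cent_iff hF']
    · exact ⟨fun h => absurd h.1 hP, fun h => absurd h.1 hP⟩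

end Cfsg.Agent.S5114
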