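import Cfsg.Statements.S5121
import Cfsg.Agent.Fusion.NM
-- import your own Cfsg.Agent.* helpers here

set_option autoImplicit false
open Cfsg

namespace Cfsg.Agent.S5121

open Cfsg.Agent.Fusion


/-- Let G be a finite group with Sylow p-subgroup S and C_G(O_p(G)) ≤ O_p(G). For every subgroup T ≤ S and every normal subsystem E over T of the fusion system of G on S there is exactly one normal subgroup H of G containing T as a Sylow p-subgroup whose fusion system on T is E. -/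
theorem result {G : Type*} [Group G] [Finite G] (p : ℕ) [Fact p.Prime] (S : Sylow p G) (hG : Subgroup.centralizer ((Cfsg.pCore p G : Subgroup G) : Set G) ≤ Cfsg.pCore p G) (T : Subgroup G) (hTS : T ≤ S) (E : Cfsg.FusionSystem T) (hE : E.IsNormalIn (Cfsg.groupFusionSystem (S : Subgroup G)) p) : ∃ H : Subgroup G, (∃ hTH : T ≤ H, H.Normal ∧ (∃ R : Sylow p H, (R : Subgroup H) = T.subgroupOf H) ∧ ∀ P : Subgroup G, E.Hom P = (Cfsg.fusionSystemOfSubgroup H T hTH).Hom P) ∧ ∀ H' : Subgroup G, (∃ hTH' : T ≤ H', H'.Normal ∧ (∃ R : Sylow p H', (R : Subgroup H') = T.subgroupOf H') ∧ ∀ P : Subgroup G, E.Hom P = (Cfsg.fusionSystemOfSubgroup H' T hTH').Hom P) → H' = H := by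
  have r := rep_group (S : Subgroup G)
  obtain ⟨E', s⟩ := r.exists_sub hE.1.2.2.1
  have h := (r.norIn_iff s S.2).1 hE
  have eT : E'.S = T := s.S_eq.trans (im_tp T)
  have m : FS.IsMod p (FS.ofGroup (S : Subgroup G) ⊤) ⊤ :=
    ⟨rfl, syl_top S, by rw [opm_top_bot, top_inf_eq]; exact hG⟩
  obtain ⟨N, -, h2, h3⟩ := m.exists_normal h
  have k := fun H (hH : ∃ hTH' : T ≤ H, H.Normal ∧ (∃ R : Sylow p H, (R : Subgroup H) = T.subgroupOf H) ∧
      ∀ P : Subgroup G, E.Hom P = (Cfsg.fusionSystemOfSubgroup H T hTH').Hom P) =>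
    m.normal_eq (E := E') (N := H) le_top (top_le_nz_iff.2 hH.2.1)
      (eT ▸ (syl_iff_sylow hH.1).2 hH.2.2.1) (eT ▸ ((rep_ofSubgroup hH.1).eq_iff s).1 hH.2.2.2)
      (eT ▸ hTS)
  have h4 : T ≤ N := eT ▸ h3.le
  have h5 : ∃ hTH' : T ≤ N, N.Normal ∧ (∃ R : Sylow p N, (R : Subgroup N) = T.subgroupOf N) ∧
      ∀ P : Subgroup G, E.Hom P = (Cfsg.fusionSystemOfSubgroup N T hTH').Hom P :=
    ⟨h4, top_le_nz_iff.1 h2, (syl_iff_sylow h4).1 (eT ▸ h3.syl),
      ((rep_ofSubgroup h4).eq_iff s).2 (eT ▸ h3.eq)⟩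
  exact ⟨N, h5, fun H hH => (k H hH).trans (k N h5).symm⟩

end Cfsg.Agent.S5121
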