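import Cfsg.Statements.S5122
import Cfsg.Agent.Fusion.Br2
import Cfsg.Agent.Fusion.GroupSat
-- import your own Cfsg.Agent.* helpers here

set_option autoImplicit false
open Cfsg

namespace Cfsg.Agent.S5122

open Cfsg.Agent.Fusion


/-- Let G be a finite group with Sylow p-subgroup S. Every subgroup P of S has a G-conjugate Q ≤ S such that N_S(Q) is a Sylow p-subgroup of N_G(Q); and for any Q ≤ S with that property, C_S(Q) is a Sylow p-subgroup of C_G(Q) and the automorphisms of Q induced by N_S(Q) form a Sylow p-subgroup of those induced by N_G(Q). -/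
theorem result {G : Type*} [Group G] [Finite G] (p : ℕ) [Fact p.Prime] (S : Sylow p G) : (∀ P : Subgroup G, P ≤ S → ∃ g : G, P.map (MulAut.conj g).toMonoidHom ≤ S ∧ (∃ R : Sylow p ↥(Subgroup.normalizer ((P.map (MulAut.conj g).toMonoidHom : Subgroup G) : Set G)), (R : Subgroup ↥(Subgroup.normalizer ((P.map (MulAut.conj g).toMonoidHom : Subgroup G) : Set G))) = (Cfsg.FusionSystem.normalizerIn (S : Subgroup G) (P.map (MulAut.conj g).toMonoidHom)).subgroupOf (Subgroup.normalizer ((P.map (MulAut.conj g).toMonoidHom : Subgroup G) : Set G)))) ∧ ∀ Q : Subgroup G, Q ≤ S → (∃ R : Sylow p ↥(Subgroup.normalizer (Q : Set G)), (R : Subgroup ↥(Subgroup.normalizer (Q : Set G))) = (Cfsg.FusionSystem.normalizerIn (S : Subgroup G) Q).subgroupOf (Subgroup.normalizer (Q : Set G))) → (∃ R : Sylow p ↥(Subgroup.centralizer (Q : Set G)), (R : Subgroup ↥(Subgroup.centralizer (Q : Set G))) = (Cfsg.FusionSystem.centralizerIn (S : Subgroup G) Q).subgroupOf (Subgroup.centralizer (Q : Set G)))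 ∧ (∃ R : Sylow p ↥(Cfsg.autInducedBy ⊤ Q), (R : Subgroup ↥(Cfsg.autInducedBy ⊤ Q)) = (Cfsg.autInducedBy (S : Subgroup G) Q).subgroupOf (Cfsg.autInducedBy ⊤ Q)) := by
  have hS := syl_top S
  have r := rep_group (S : Subgroup G)
  have key : ∀ Q : Subgroup G, Q ≤ S → ((FS.ofGroup (S : Subgroup G) ⊤).FN Q ↔
      ∃ R : Sylow p ↥(Subgroup.normalizer (Q : Set G)),
        (R : Subgroup ↥(Subgroup.normalizer (Q : Set G))) =
          (Cfsg.FusionSystem.normalizerIn (S : Subgroup G) Q).subgroupOf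
            (Subgroup.normalizer (Q : Set G))) := fun Q hQ => by
    rw [FS.ofGroup_FN_iff hS hQ, top_inf_eq, syl_iff_sylow inf_le_right]; rfl
  refine ⟨fun P hP => ?_, fun Q hQ h => ?_⟩
  · obtain ⟨g, -, h⟩ := (FS.ofGroup (S : Subgroup G) ⊤).exists_FN hP
    exact ⟨g, h.1, (key _ h.1).1 h⟩
  · have h1 := (key Q hQ).2 h
    have h2 := (FS.ofGroup_sat hS).fc h1
    rw [FS.ofGroup_FC_iff hS hQ, top_inf_eq, syl_iff_sylow inf_le_right] at h2
    refine ⟨h2, ?_⟩
    have h3 := (FS.ofGroup_sat hS).fa h1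
    rw [← im_subtype_top Q, ← r.fa_iff S.isPGroup' le_top] at h3
    have e : (groupFusionSystem (S : Subgroup G)).autGroup Q = autInducedBy ⊤ Q := by
      rw [r.autGroup_eq le_top, autInducedBy_eq_dn r.inj le_top le_top,
        FS.ofGroup_aut le_top (by simpa using hQ), dn_ai, im_subtype_top ⊤]
    have h4 := h3.2
    rwa [e] at h4

end Cfsg.Agent.S5122
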