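import Cfsg.Statements.S5123
import Cfsg.Agent.Fusion.Br2
import Cfsg.Agent.Fusion.GroupSat
-- import your own Cfsg.Agent.* helpers here

set_option autoImplicit false
open Cfsg

namespace Cfsg.Agent.S5123

open Cfsg.Agent.Fusion


/-- Let G be a finite group with Sylow p-subgroup S, P, Q ≤ S and g ∈ G with gPg⁻¹ = Q, and suppose N_S(Q) is a Sylow p-subgroup of N_G(Q). Let N be the set of x ∈ N_S(P) with gxg⁻¹ ∈ N_S(Q)C_G(Q). Then some h ∈ C_G(Q) satisfies (hg)N(hg)⁻¹ ≤ S. -/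
theorem result {G : Type*} [Group G] [Finite G] (p : ℕ) [Fact p.Prime] (S : Sylow p G) (P Q : Subgroup G) (hP : P ≤ S) (hQ : Q ≤ S) (g : G) (hg : P.map (MulAut.conj g).toMonoidHom = Q) (hN : (∃ R : Sylow p ↥(Subgroup.normalizer (Q : Set G)), (R : Subgroup ↥(Subgroup.normalizer (Q : Set G))) = (Cfsg.FusionSystem.normalizerIn (S : Subgroup G) Q).subgroupOf (Subgroup.normalizer (Q : Set G)))) : ∃ h ∈ Subgroup.centralizer (Q : Set G), ((Cfsg.FusionSystem.normalizerIn (S : Subgroup G) P) ⊓ (Cfsg.FusionSystem.normalizerIn (S : Subgroup G) Q ⊔ Subgroup.centralizer (Q : Set G)).comap (MulAut.conj g).toMonoidHom).map (MulAut.conj (h * g)).toMonoidHom ≤ S := by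
  have hS := syl_top S
  have h1 : (FS.ofGroup (S : Subgroup G) ⊤).FN Q := by
    rw [FS.ofGroup_FN_iff hS hQ, top_inf_eq, syl_iff_sylow inf_le_right]; exact hN
  have h2 := (FS.ofGroup_FC_iff hS hQ).1 ((FS.ofGroup_sat hS).fc h1)
  obtain ⟨c, hc, h⟩ := FS.exists_cz_conj_le hS hQ h2 (X := cj g (FusionSystem.normalizerIn S P ⊓
    (FusionSystem.normalizerIn (S : Subgroup G) Q ⊔ cz Q).comap (MulAut.conj g).toMonoidHom))
    le_top (isPGroup_cj _ (S.isPGroup'.to_inf_left.to_inf_left))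
    (by rw [cj_le_iff, ai_eq]; exact fun x hx => hx.2)
  exact ⟨c, hc.2, by rwa [← cj_mul] at h⟩

end Cfsg.Agent.S5123
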