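import Cfsg.Statements.S5129
import Cfsg.Agent.Fusion.Wedge
-- import your own Cfsg.Agent.* helpers here

set_option autoImplicit false
open Cfsg

namespace Cfsg.Agent.S5129

open Cfsg.Agent.Fusion


/-- Let F be a saturated fusion system over a finite p-group S and E₁, E₂ normal subsystems over T₁, T₂. Then there is a normal subsystem of F over T₁ ∩ T₂ that is normal in E₁ and in E₂ and contains every other such subsystem. -/
theorem result {Ω : Type*} [Group Ω] {S : Subgroup Ω} [Finite S] (p : ℕ) [Fact p.Prime] (hS : IsPGroup p S) (F : Cfsg.FusionSystem S) (hF : F.IsSaturated p) {T₁ T₂ : Subgroup Ω} (E₁ : Cfsg.FusionSystem T₁) (E₂ : Cfsg.FusionSystem T₂) (h₁ : E₁.IsNormalIn F p) (h₂ : E₂.IsNormalIn F p) : ∃ D : Cfsg.FusionSystem (T₁ ⊓ T₂), (D.IsNormalIn F p ∧ D.IsNormalIn E₁ p ∧ D.IsNormalIn E₂ p) ∧ ∀ D' : Cfsg.FusionSystem (T₁ ⊓ T₂), D'.IsNormalIn F p →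 D'.IsNormalIn E₁ p → D'.IsNormalIn E₂ p → D'.IsSubsystemOf D := by
  obtain ⟨G, _, _, ι, F', r, hr⟩ := exists_rich_rep F
  obtain ⟨E₁', s₁⟩ := r.exists_sub h₁.1.2.2.1
  obtain ⟨E₂', s₂⟩ := r.exists_sub h₂.1.2.2.1
  replace hr := r.rich hr
  have e : E₁'.S ⊓ E₂'.S = im ι (T₁ ⊓ T₂) := by rw [im_inf r.inj, s₁.S_eq, s₂.S_eq]
  obtain ⟨D', d1, d2, d3, d4, d5⟩ := ((r.norIn_iff s₁ hS).1 h₁).exists_wedge
    ((r.norIn_iff s₂ hS).1 h₂) hr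
  obtain ⟨D, t⟩ := exists_rep' r.inj (inf_le_left.trans s₁.le) D' (d2.trans e)
  refine ⟨D, ⟨r.norIn_of t d1, s₁.norIn_of t d3, s₂.norIn_of t d4⟩, fun A a a₁ a₂ => ?_⟩
  obtain ⟨A', u⟩ := r.exists_sub a.1.2.2.1
  exact (t.le_iff_sub u).2 (d5 A' ((r.norIn_iff u hS).1 a) ((s₁.norIn_iff u (hS.to_le s₁.le)).1 a₁)
    ((s₂.norIn_iff u (hS.to_le s₂.le)).1 a₂) (u.S_eq.trans e.symm))

end Cfsg.Agent.S5129
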