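import Cfsg.Statements.S5130
import Cfsg.Agent.Fusion.NB
import Cfsg.Agent.Fusion.Br3
-- import your own Cfsg.Agent.* helpers here

set_option autoImplicit false
open Cfsg

namespace Cfsg.Agent.S5130

open Cfsg.Agent.Fusion

theorem rep_res {Ω G : Type*} [Group Ω] [Group G] [Finite G] {U S T : Subgroup Ω} {ι : U →* G}
    {F : FusionSystem S} {F' : FS G} (r : Rep ι F F') (R : FusionSystem T)
    (h : ∀ P : Subgroup Ω, P ≤ T → R.Hom P = F.Hom P) (hT : F'.SC (im ι T)) :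
    Rep ι R (F'.restrict (im ι T)) := by
  obtain ⟨R', s⟩ := r.exists_sub (E := R) fun P φ hφ => h P (hom_le hφ) ▸ hφ
  suffices R' = F'.restrict (im ι T) from this ▸ s
  refine FS.ext_M fun P g => ⟨fun hg => ?_, fun hg => ?_⟩
  · obtain ⟨P, h1, rfl⟩ := s.lift (R'.le_S hg)
    exact ⟨(s.hom_sub_iff r (h1.trans s.le)).1 (h P h1).le g hg, s.S_eq ▸ R'.le_S hg,
      s.S_eq ▸ R'.cj_le hg⟩
  · obtain ⟨P, h1, rfl⟩ := s.lift (s.S_eq ▸ hg.2.1)
    exact (r.hom_sub_iff s (h1.trans s.le)).1 (h P h1).ge g hg.1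

theorem main {G : Type*} [Group G] [Finite G] {p : ℕ} [Fact p.Prime] {F' : FS G} {A B : Subgroup G}
    (hF' : F'.Sat p) (b1 : F'.SC A) (b2 : F'.SC B) (b3 : A ≤ cz B) (b4 : F'.S = A ⊔ B)
    (b5 : A ≤ (F'.CF B).S) (b6 : (F'.CF B).SC A) :
    (F'.restrict A).Sat p ∧ ((F'.CF B).restrict A).Sat p ∧ FS.NorIn p ((F'.CF B).restrict A) F' ∧
      FS.NorIn p ((F'.CF B).restrict A) (F'.restrict A) ∧ FS.WN p (F'.restrict A) F' := by
  have b7 : F'.S ≤ A ⊔ cz A := b4.le.trans (sup_le_sup_left (le_cz_comm.1 b3) _)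
  have d1 := hF'.restrict b1 b7
  have d2 := (hF'.CF (hF'.fc b2.fn)).restrict b6 ((FS.S_le (F'.normK_le _ _)).trans b7)
  have e1 : (F'.restrict A).S = A := inf_eq_right.2 b1.1
  have e2 : ((F'.CF B).restrict A).S = A := inf_eq_right.2 b5
  have l1 : (F'.CF B).restrict A ≤ F'.restrict A := fun _ _ h => ⟨F'.normK_le _ _ _ _ h.1, h.2⟩
  have i1 := b1.invt_restrict
  have i2 : ((F'.CF B).restrict A).Invt F' := by
    refine ⟨l1.trans i1.le, by rwa [e2], fun P g a hg ha => ?_, fun P g hP hg => ?_⟩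
    · rw [e2] at ha
      obtain ⟨c, hc, h1⟩ := hF'.ext_cz b2.wc (FS.M_of_aut b1.1 ha) (le_cz_comm.1 b3)
        (by rw [cj_of_nz (F'.aut_le_nz _ ha)]; exact le_cz_comm.1 b3)
      have h2 := FS.CF_cjs (D := (F'.CF B).restrict A) b2.1
        (F'.mono h1 (by rw [e2, sup_comm])) fun _ _ h => h.1
      rw [cj_of_nz (b2.mem_nz h1 le_sup_right), FS.cjs_congr (a := a) (by simpa [e2] using hc)] at h2
      exact ⟨FS.cjs_le_iff.1 h2 _ _ hg, (i1.conj P g a (l1 _ _ hg) (by rwa [e1])).2⟩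
    · rw [e2] at hP ⊢
      have h0 := b1.2 _ _ hP hg
      obtain ⟨c, hc, h1⟩ := hF'.ext_cz b2.wc hg (le_cz_comm.1 (hP.trans b3))
        (le_cz_comm.1 (h0.trans b3))
      have h2 := b2.mem_nz h1 le_sup_right
      obtain ⟨d, hd, h3⟩ := (hF'.rc b2.fn).extend_cz (F'.mono h1 le_sup_right) (cj_of_nz h2)
      replace h3 := F'.mono h3 (b4.le.trans
        (sup_le ((le_inf b1.1 b3).trans le_sup_right) le_sup_left))
      have h5 := FS.mul' h1 (FS.M_of_aut le_rfl (inv_mem (FS.mem_aut_S.2 h3))) (F'.cj_le h1)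
      rw [show (g * c * d)⁻¹ * (g * c) = d⁻¹ by group] at h5
      have h4 := FS.mul_cz _ (FS.normK_M_of b2.1 (cz_le_nz B) (hP.trans b3) (inv_mem hd) h5)
        (inv_mem hc)
      rw [show d⁻¹ * c⁻¹ = (g * c * d)⁻¹ * g by group] at h4
      exact ⟨g * c * d, FS.aut_restrict le_rfl (FS.mem_aut_S.2 h3) b1.1 (b1.mem_nz h3 b1.1), h4, hP,
        b6.2 _ _ hP h4⟩
  refine ⟨d1, d2, ⟨⟨d2, hF', i2⟩, FS.extc_iff.2 fun a ha => ?_⟩,
    ⟨⟨d2, d1, i2.of_le d1 l1 i1.le⟩, FS.extc_of_S_eq l1 (e2.trans e1.symm)⟩, d1, hF', i1⟩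
  rw [e2] at ha ⊢
  obtain ⟨-, c, c1, c2, c3⟩ := (FS.CF_M b2.1).1 (FS.M_of_aut e2.ge ha).1
  have h1 := mul_mem (FS.aut_le_nz _ _ ha) (cz_le_nz _ c1)
  have h2 := (FS.sup_CS_le b1.1).trans b4.le
  exact FS.mem_exb.2 ⟨c, c1, FS.M_nz_sup_CS (F'.mono c3 h2) h1,
    trv_anti h2 _ (mem_trv_sup (le_nz _) (b2.1.trans b1.S_le_nz)
      (mem_trv_self h1) (mem_trv_of_cz c2 h1))⟩


/-- Let F be a saturated fusion system over a finite p-group S that is the direct product of two subgroups S₁ and S₂, each strongly closed in F. Let R be the full subsystem of F over S₁ (all maps of F between subgroups of S₁) and R′ the subsystem over S₁ of those maps that extend to the subgroup generated with S₂ fixing S₂ elementwise. Then R and R′ are saturated, R′ is normal in F and in R, and R is weakly normal in F. -/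
theorem result {Ω : Type*} [Group Ω] {S : Subgroup Ω} [Finite S] (p : ℕ) [Fact p.Prime] (hS : IsPGroup p S) (F : Cfsg.FusionSystem S) (hF : F.IsSaturated p) (S₁ S₂ : Subgroup Ω) (hprod : Cfsg.IsInternalDirectProduct S₁ S₂ S) (h₁ : F.StronglyClosed S₁) (h₂ : F.StronglyClosed S₂) (R R' : Cfsg.FusionSystem S₁) (hR : ∀ P : Subgroup Ω, P ≤ S₁ → R.Hom P = F.Hom P) (hR' : ∀ P : Subgroup Ω, P ≤ S₁ → R'.Hom P = F.centralizerHom S₂ P) : R.IsSaturated p ∧ R'.IsSaturated p ∧ R'.IsNormalIn F p ∧ R'.IsNormalIn R p ∧ R.IsWeaklyNormalIn F p := by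
  obtain ⟨G, _, _, ι, F', r, -⟩ := exists_rich_rep F
  obtain ⟨a1, a2, a3, a4, a5⟩ := hprod
  have b1 := (r.sc_iff a1).1 h₁
  have b3 : im ι S₁ ≤ cz (im ι S₂) :=
    im_le_cz ι a1 a2 fun x hx => mem_cz.2 fun y hy => (a3 x hx y hy).symm
  obtain ⟨C, c1, t⟩ := r.exists_crep a2
  have b5 : im ι S₁ ≤ (F'.CF (im ι S₂)).S := by simpa using ⟨b1.1, b3⟩
  have b6 := b1.of_le' (F'.normK_le _ _) b5
  have s := rep_res r R hR b1
  have s' := rep_res t R' (fun P hP => (hR' P hP).trans (c1 P).symm) b6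
  obtain ⟨d1, d2, d3, d4, d5⟩ := main (r.sat hS hF) b1 ((r.sc_iff a2).1 h₂) b3
    (by rw [← im_sup ι a1 a2, a5, r.S_eq]) b5 b6
  exact ⟨s.sat_of d1, s'.sat_of d2, r.norIn_of s' d3, s.norIn_of s' d4, (r.wn_iff s hS).2 d5⟩

end Cfsg.Agent.S5130
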