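import Cfsg.Statements.S5142
import Cfsg.Agent.Fusion.Wedge
-- import your own Cfsg.Agent.* helpers here

set_option autoImplicit false
open Cfsg

namespace Cfsg.Agent.S5142

open Cfsg.Agent.Fusion


/-- Let F be a saturated fusion system over a finite p-group S and E a normal subsystem of F over T. Then the p'-residual subsystem of E (the least saturated subsystem of E over T of index prime to p) is contained in every normal subsystem of F over T; together with its normality in F (the case of a weakly normal E) this makes it the least normal subsystem of F over T. -/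
theorem result {Ω : Type*} [Group Ω] {S : Subgroup Ω} [Finite S] (p : ℕ) [Fact p.Prime] (hS : IsPGroup p S) (F : Cfsg.FusionSystem S) (hF : F.IsSaturated p) {T : Subgroup Ω} (E : Cfsg.FusionSystem T) (hE : E.IsNormalIn F p) (D : Cfsg.FusionSystem T) (hD : E.IsPPrimeResidual p D) : ∀ D' : Cfsg.FusionSystem T, D'.IsNormalIn F p → D.IsSubsystemOf D' := by
  intro A hA
  obtain ⟨G, _, _, ι, F', r, hr⟩ := exists_rich_rep F
  obtain ⟨E', s⟩ := r.exists_sub hE.1.2.2.1
  obtain ⟨A', a⟩ := r.exists_sub hA.1.2.2.1
  obtain ⟨D', d⟩ := s.exists_sub hD.2.1.1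
  replace hr := r.rich hr
  have h := (r.norIn_iff s hS).1 hE
  obtain ⟨W, -, w2, w3, w4, -⟩ := h.exists_wedge ((r.norIn_iff a hS).1 hA) hr
  exact (a.le_iff_sub d).2 ((((s.qres_iff d (hS.to_le s.le)).1 hD).le_of_invt h.wn.satE w3.wn.satE
    w3.wn.invt (by rw [w2, s.S_eq, a.S_eq, inf_idem])).trans w4.wn.invt.le)

end Cfsg.Agent.S5142
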