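import Cfsg.Statements.S5143
import Cfsg.Agent.Fusion.Prd2
-- import your own Cfsg.Agent.* helpers here

set_option autoImplicit false
open Cfsg

namespace Cfsg.Agent.S5143

open Cfsg.Agent.Fusion


/-- Let F be a saturated fusion system over a finite p-group S, E a normal subsystem over T, and R a subgroup with T ≤ R ≤ S. Then there is exactly one saturated subsystem D of F over R (exactly one family of map sets) whose p-residual subsystem is that of E: the hyperfocal subgroups of D and E coincide and the p-residual subsystems of D and of E have the same maps. -/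
theorem result {Ω : Type*} [Group Ω] {S : Subgroup Ω} [Finite S] (p : ℕ) [Fact p.Prime] (hS : IsPGroup p S) (F : Cfsg.FusionSystem S) (hF : F.IsSaturated p) {T : Subgroup Ω} (E : Cfsg.FusionSystem T) (hE : E.IsNormalIn F p) (R : Subgroup Ω) (hTR : T ≤ R) (hRS : R ≤ S) : ∃ D : Cfsg.FusionSystem R, (D.IsSaturated p ∧ D.IsSubsystemOf F ∧ D.hyperfocalSubgroup p = E.hyperfocalSubgroup p ∧ ∀ (D₁ : Cfsg.FusionSystem (D.hyperfocalSubgroup p)) (E₁ : Cfsg.FusionSystem (E.hyperfocalSubgroup p)), D.IsPResidual p D₁ → E.IsPResidual p E₁ → ∀ P : Subgroup Ω, D₁.Hom P = E₁.Hom P) ∧ ∀ D' : Cfsg.FusionSystem R, D'.IsSaturated p → D'.IsSubsystemOf F → D'.hyperfocalSubgroup p = E.hyperfocalSubgroup p → (∀ (D₁ : Cfsg.FusionSystem (D'.hyperfocalSubgroup p)) (E₁ : Cfsg.FusionSystem (E.hyperfocalSubgroup p)), D'.IsPResidual p D₁ → E.IsPResidual p E₁ → ∀ P : Subgroup Ω, D₁.Hom P = E₁.Hom P) → ∀ P : Subgroup Ω, D'.Hom P = D.Hom P :=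 by
  obtain ⟨G, _, _, ι, F', r, hr⟩ := exists_rich_rep F
  obtain ⟨E', s⟩ := r.exists_sub hE.1.2.2.1
  have h := (r.norIn_iff s hS).1 hE
  replace hr := r.rich hr
  have hR := hS.to_le hRS
  have hT := hR.to_le hTR
  obtain ⟨D', d1, d2, d3, d4, -⟩ := h.exists_prod hr (R := im ι R) (s.S_eq ▸ im_mono ι hTR)
    (r.im_le hRS)
  obtain ⟨D, t⟩ := exists_rep' r.inj hRS D' d1
  obtain ⟨A', a1⟩ := h.wn.satE.exists_pres
  have a2 := d4.pres d2 a1
  have hE' := (hyperfocal_le E p).trans s.le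
  obtain ⟨A, a⟩ := exists_rep' r.inj hE' A' (a1.1.trans s.im_hyp.symm)
  refine ⟨D, ⟨t.sat_of d2, (r.le_iff_sub t).2 d3, ?_, fun D₁ E₁ h1 h2 => ?_⟩,
    fun D₂ h1 h2 h3 h4 => ?_⟩
  · rw [← im_inj r.inj ((hyperfocal_le D p).trans hRS) hE', t.im_hyp, s.im_hyp, d4.hyp_eq d2]
  · obtain ⟨D₁', t1⟩ := t.exists_sub h1.2.1
    obtain ⟨E₁', s1⟩ := s.exists_sub h2.2.1
    rw [s1.eq_iff t1, a1.unique ((s.pres_iff s1 hT).1 h2), a2.unique ((t.pres_iff t1 hR).1 h1)]
  obtain ⟨D₂', u⟩ := r.exists_sub h2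
  have h5 := u.sat hR h1
  obtain ⟨B', b1⟩ := h5.exists_pres
  obtain ⟨B, b⟩ := exists_rep' r.inj ((hyperfocal_le D₂ p).trans hRS) B' (b1.1.trans u.im_hyp.symm)
  obtain rfl := (a.eq_iff b).1 (h4 B A ((u.pres_iff b hR).2 b1) ((s.pres_iff a hT).2 a1))
  exact (t.eq_iff u).2 ((h.pres hr a1).prod_unique hr d2 h5 d3 ((r.le_iff_sub u).1 h2)
    (u.S_eq.trans d1.symm) a2 b1)

end Cfsg.Agent.S5143
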