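import Cfsg.Statements.S5144
import Cfsg.Agent.Fusion.Br3
-- import your own Cfsg.Agent.* helpers here

set_option autoImplicit false
open Cfsg

namespace Cfsg.Agent.S5144

open Cfsg.Agent.Fusion


/-- For a fusion system over a finite subgroup S, the centre of the system (the join of all subgroups central in it) is itself central in the system, hence its largest central subgroup. -/
theorem result {Ω : Type*} [Group Ω] {S : Subgroup Ω} [Finite S] (F : Cfsg.FusionSystem S) : F.IsCentral F.center := by
  obtain ⟨G, _, _, ι, F', r, -⟩ := exists_rich_rep F
  rw [r.cen_iff (center_le F), r.im_center]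
  exact F'.cen_center

end Cfsg.Agent.S5144
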