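import Cfsg.Statements.S5147
import Cfsg.Agent.Fusion.GrpF
-- import your own Cfsg.Agent.* helpers here

set_option autoImplicit false
open Cfsg

namespace Cfsg.Agent.S5147

open Cfsg.Agent.Fusion


/-- Let G be a finite group with Sylow 2-subgroup S whose 2-fusion system on S is constrained, and L a component of G (a subnormal quasisimple subgroup). Then the 2-fusion system of L/Z(L) on the image of S ∩ L is constrained. -/
theorem result {G : Type*} [Group G] [Finite G] (S : Sylow 2 G) (hF : (Cfsg.groupFusionSystem (S : Subgroup G)).IsConstrained 2) (L : Subgroup G) (hL : Cfsg.IsComponent L) : (Cfsg.groupFusionSystem (((S : Subgroup G).subgroupOf L).map (QuotientGroup.mk' (Subgroup.center L)))).IsConstrained 2 := by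
  have h := FS.subN_ofGroup (syl_top S) hL.1
  have q := FS.quo_ofGroup (QuotientGroup.mk' (Subgroup.center L)) h.1
  rw [im_eq_map, Subgroup.inf_subgroupOf_right, MonoidHom.range_eq_top.2 (QuotientGroup.mk'_surjective _)] at q
  refine ((rep_group _).con_iff ((S.2.comap_subtype).map _)).2 (q.con_of_cen
    ((((rep_group _).con_iff S.2).1 hF).subN h.2) (FS.ofGroup_cen inf_le_right inf_le_left
      (le_cz_comm.1 fun x hx y hy => ?_)))
  obtain ⟨h1, h2⟩ := mem_pre.1 hx.2
  rw [fn_of_mem _ h1, Subgroup.mem_bot, QuotientGroup.mk'_apply, QuotientGroup.eq_one_iff] at h2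
  exact congrArg Subtype.val (Subgroup.mem_center_iff.1 h2 ⟨y, hy⟩)

end Cfsg.Agent.S5147
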