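import Cfsg.Statements.S5156
import Cfsg.Agent.Fusion.GrpF
-- import your own Cfsg.Agent.* helpers here

set_option autoImplicit false
universe u
open Cfsg

namespace Cfsg.Agent.S5156

open Cfsg.Agent.Fusion

theorem fwd {Ω G : Type u} [Group Ω] [Group G] [Finite G] {U : Subgroup Ω} {ι : U →* G}
    {S : Subgroup Ω} {F : FusionSystem S} {p : ℕ} (h : F.HasTerminatingResidualSeries p)
    (hp : Fact p.Prime) {F' : FS G} (r : Rep ι F F') (hF : F'.Sat p) :
    F'.Solv ∧ ∀ H, FS.IsMod p F' H → IsPSolvable p H := by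
  induction h generalizing F' with
  | trivial F p h =>
    have h0 := r.S_eq_bot_iff.2 h
    refine ⟨hF.solv_of_chain (n := 0) (fun _ => ⊥) rfl h0.symm (fun _ => F'.sc_bot) fun i => i.elim0,
      fun H hH => Core.isPSolvable_of_coprime ?_⟩
    have := hH.syl.nd
    rw [h0, Subgroup.relIndex_bot_left] at this
    exact ((Nat.Prime.coprime_iff_not_dvd Fact.out).2 this).symm
  | step F E p D h1 h2 _ ih =>
    have hS := r.pg_of hF.pg
    obtain ⟨E', s⟩ := r.exists_sub h1.2.1.1
    obtain ⟨D', t⟩ := s.exists_sub h2.2.1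
    have a := (r.qres_iff s hS).1 h1
    have b := (s.pres_iff t hS).1 h2
    obtain ⟨c1, c2⟩ := ih hp t b.2.1
    have d1 : E'.Solv := by
      obtain ⟨G', _, _, θ, Q, q, hK, -⟩ := a.1.exists_quo a.1.sc_hyp
      have hQ := q.sat a.1
      refine q.solv_of a.1 (b.norIn a.1).wn.invt b.2.1 (hK.trans b.1.symm).le c1 ?_
      have e := hQ.isinn_of_hyp (by
        rw [← q.im_hyp, im_eq_bot_iff ((E'.hyp_le p).trans q.le), ← hK]; exact inf_le_right)
      obtain ⟨n, c, a0, a1, -, a2, a3⟩ := exists_char_central_series hQ.pg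
      refine hQ.solv_of_chain c a0 a1 (fun i => ?_) fun i =>
        (Subgroup.commutator_mono le_rfl (a2 _).1).trans (a3 i)
      rw [e]
      exact (FS.ofGroup_nor le_rfl (a2 i).1 ((le_nz _).trans (a2 i).2)).sc
    refine ⟨?_, fun H hH => ?_⟩
    · obtain ⟨G', _, _, θ, Q, q, hK, -⟩ := hF.exists_quo F'.sc_S
      refine q.solv_of hF (a.invt hF) a.1 (hK.trans a.2.1.1.symm).le d1
        ((q.sat hF).solv_of_chain (n := 0) (fun _ => ⊥) rfl ?_ (fun _ => Q.sc_bot) fun i => i.elim0)
      rw [q.S_eq, eq_comm, im_eq_bot_iff q.le]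
      exact hK.ge.trans inf_le_right
    · have n1 := (le_nz H).trans (nz_le_nz_pres' (p := p) H)
      have n2 := (le_nz (pres' p H)).trans (nz_le_nz_pres (p := p) _)
      have m1 := hH.normal (pres'_le _) n1
      rw [inf_eq_left.2 hH.le_pres', ← hH.qres.unique a] at m1
      have m2 := m1.normal (pres_le _) n2
      have m3 := FS.pres_ofGroup m1.syl
      rw [← m1.eq] at m3
      rw [← m3.unique b] at m2
      exact psolv_of_normal (pres'_le _) n1 (psolv_of_normal (pres_le _) n2 (c2 _ m2)
        (Or.inl (pmod_pres _))) (Or.inr (nd_pres' _))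

theorem bwd {Ω G : Type u} [Group Ω] [Group G] [Finite G] {U : Subgroup Ω} {ι : U →* G} {p : ℕ}
    [Fact p.Prime] (H : Subgroup G) : ∀ {S : Subgroup Ω} {F : FusionSystem S} {F' : FS G},
    Rep ι F F' → FS.IsMod p F' H → IsPSolvable p H → F.HasTerminatingResidualSeries p := by
  induction H using up_induction with
  | h H ih =>
  intro S F F' r hH h
  by_cases h0 : H = ⊥
  · exact .trivial F p (r.S_eq_bot_iff.1 (eq_bot_iff.2 (h0 ▸ hH.le)))
  have hS := r.pg_of hH.sat.pg
  have n1 := (le_nz H).trans (nz_le_nz_pres' (p := p) H)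
  have n2 := (le_nz (pres' p H)).trans (nz_le_nz_pres (p := p) _)
  have m1 := hH.normal (pres'_le _) n1
  rw [inf_eq_left.2 hH.le_pres'] at m1
  have m2 := m1.normal (pres_le _) n2
  have b := FS.pres_ofGroup m1.syl
  obtain ⟨E, s⟩ := exists_rep' r.inj r.le (FS.ofGroup F'.S (pres' p H)) r.S_eq
  obtain ⟨D, t⟩ := exists_rep' r.inj ((hyperfocal_le E p).trans r.le) _ (b.1.trans s.im_hyp.symm)
  refine .step F E p D ((r.qres_iff s hS).2 hH.qres) ((s.pres_iff t hS).2 b)
    (ih _ (card_lt_of_lt ?_) t m2 (Core.IsPSolvable.of_le h ((pres_le _).trans (pres'_le _))))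
  rcases pres_lt_or h h0 with h1 | h1
  · exact (pres_mono (pres'_le _)).trans_lt h1
  · exact (pres_le _).trans_lt h1


/-- A saturated fusion system over a finite p-group has a terminating alternating chain of p'-residual and p-residual subsystems (the chain reaches the trivial system — the notion of solvability adapted to fusion systems of p-solvable groups) if and only if it is constrained and its models are p-solvable (a model is a finite group realizing the system on a Sylow p-subgroup with self-centralizing largest normal p-subgroup; it exists and is unique up to isomorphism for constrained systems). -/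
theorem result {Ω : Type u} [Group Ω] {S : Subgroup Ω} [Finite S] (p : ℕ) [Fact p.Prime] (hS : IsPGroup p S) (F : Cfsg.FusionSystem S) (hF : F.IsSaturated p) : F.HasTerminatingResidualSeries p ↔ (F.IsConstrained p ∧ ∀ (G : Type u) [Group G] (ι : S →* G), F.IsModel p G ι → Cfsg.IsPSolvable p G) := by
  obtain ⟨G, _, _, ι, F', r, hr⟩ := exists_rich_rep F
  have hF' := r.sat hS hF
  refine ⟨fun h => ?_, fun ⟨h1, h2⟩ => ?_⟩
  · obtain ⟨h1, h2⟩ := fwd h inferInstance r hF'
    refine ⟨(r.con_iff hS).2 (hF'.con_of_solv h1), fun L _ κ h3 => ?_⟩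
    obtain ⟨ψ, h4, -, h5⟩ := r.exists_emb (r.rich hr) le_rfl h3
    exact Core.IsPSolvable.of_mulEquiv (h2 _ h5) (MonoidHom.ofInjective h4).symm
  · obtain ⟨H, hH⟩ := ((r.con_iff hS).1 h1).exists_model (r.rich hr) le_rfl
    exact bwd H r hH (h2 _ _ (r.isModel_toSub hH))

end Cfsg.Agent.S5156
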