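import Cfsg.Statements.S5159
import Cfsg.Agent.Fusion.Solv
-- import your own Cfsg.Agent.* helpers here

set_option autoImplicit false
open Cfsg

namespace Cfsg.Agent.S5159

open Cfsg.Agent.Fusion


/-- Let F be a saturated fusion system over a finite p-group S, E a normal subsystem over T, and D the factor system of F modulo T (read through any homomorphism on S with kernel T). Then F is solvable if and only if E and D are solvable (solvable, for a system over a subgroup S: for every subgroup R other than S that is strongly closed in F, the factor system of F modulo R has a nontrivial subgroup normal in it). -/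
theorem result {Ω : Type*} [Group Ω] {S : Subgroup Ω} [Finite S] (p : ℕ) [Fact p.Prime] (hS : IsPGroup p S) (F : Cfsg.FusionSystem S) (hF : F.IsSaturated p) {T : Subgroup Ω} (E : Cfsg.FusionSystem T) (hE : E.IsNormalIn F p) {Ω' : Type*} [Group Ω'] {S' : Subgroup Ω'} (θ : S →* Ω') (D : Cfsg.FusionSystem S') (hD : F.IsFactorSystem T θ D) : F.IsSolvableSystem ↔ (E.IsSolvableSystem ∧ D.IsSolvableSystem) := by
  have := finite_of_range hD.2.2.1
  obtain ⟨G, _, _, ι, F₁, r, -⟩ := exists_rich_rep F
  obtain ⟨E₁, s₁⟩ := r.exists_sub hE.1.2.2.1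
  obtain ⟨G', _, _, κ, D', θ', s, -, t⟩ := r.exists_tr D (mem_of_isFactorSystem hD)
  have hF' := r.sat hS hF
  obtain ⟨q, e⟩ := t.quo r s hD hF' hE.1.2.2.2.1
  have hn := (r.norIn_iff s₁ hS).1 hE
  rw [r.solv_iff hF', s₁.solv_iff hn.wn.satE, s.solv_iff (q.sat hF')]
  exact ⟨fun h => ⟨h.of_le hn.wn.satE hn.wn.invt.le, q.solv hF' h⟩,
    fun h => q.solv_of hF' hn.wn.invt hn.wn.satE (e.trans s₁.S_eq.symm).le h.1 h.2⟩

end Cfsg.Agent.S5159
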