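import Cfsg.Statements.S5160
import Cfsg.Agent.Fusion.Norm1
-- import your own Cfsg.Agent.* helpers here

set_option autoImplicit false
open Cfsg

namespace Cfsg.Agent.S5160

open Cfsg.Agent.Fusion


/-- Let G be a finite group with nontrivial Sylow p-subgroup S and F its fusion system on S. Suppose (a) no nontrivial proper subgroup of S is strongly closed in F, and (b) the automorphisms of S induced by G are generated by those induced, for R running over the fully normalized radical centric subgroups of F, by the subgroup of N_G(R) generated by its elements of p-power order. Then F is simple. -/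
theorem result {G : Type*} [Group G] [Finite G] (p : ℕ) [Fact p.Prime] (S : Sylow p G) (hS1 : (S : Subgroup G) ≠ ⊥) (ha : ∀ T : Subgroup G, (Cfsg.groupFusionSystem (S : Subgroup G)).StronglyClosed T → T = ⊥ ∨ T = (S : Subgroup G)) (hb : Cfsg.autInducedBy ⊤ (S : Subgroup G) = ⨆ (R : Subgroup G) (_ : (Cfsg.groupFusionSystem (S : Subgroup G)).IsFullyNormalized R ∧ (Cfsg.groupFusionSystem (S : Subgroup G)).IsRadical p R ∧ (Cfsg.groupFusionSystem (S : Subgroup G)).IsCentric R), Cfsg.autInducedBy (Subgroup.closure {g : G | g ∈ Subgroup.normalizer (R : Set G) ∧ ∃ k : ℕ, orderOf g = p ^ k}) (S : Subgroup G)) : (Cfsg.groupFusionSystem (S : Subgroup G)).IsSimple p := by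
  have r := rep_group (S : Subgroup G)
  have hF := FS.ofGroup_sat (syl_top S)
  refine (r.simple_iff S.isPGroup').2 ⟨hF, hS1, fun E hE => ?_⟩
  refine (ha E.S ((r.sc_iff le_top).2 (by rw [im_tp]; exact hE.wn.invt.sc))).imp_right fun e => ?_
  refine hE.wn.invt.same_of_aut e fun a h => ?_
  have h1 : autInducedBy ⊤ (S : Subgroup G) ≤ autInducedBy (E.aut S) S := by
    rw [hb]
    refine iSup₂_le fun R ⟨h1, h2, h3⟩ α hα => ?_
    obtain ⟨g, h4, h5⟩ := mem_autInducedBy.1 hα
    rw [r.cent_iff le_top, im_tp] at h3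
    have h6 : g ∈ nz (S : Subgroup G) := mem_nz_of_forall fun x hx => h5 ⟨x, hx⟩ ▸ (α ⟨x, hx⟩).2
    refine mem_autInducedBy.2 ⟨g, FS.mem_aut_of (hF.M_of_cent hE.wn.satE hE.wn.invt.le e h3 h3.1
      (FS.ofGroup_M_of le_rfl (cj_of_nz h6).le trivial) (FS.M_of_aut (h3.1.trans e.ge)
        ((hE.wn.invt.pqi hF e).2.2 R h3.1 ?_))) h6, h5⟩
    refine (Subgroup.closure_le _).2 (fun y hy => ?_) h4
    obtain ⟨k1, k, k2⟩ := hy
    refine mem_pres' (k := k) ?_ (k2 ▸ pow_orderOf_eq_one y)
    exact (FS.ofGroup_aut le_top h3.1).ge (mem_ai_of_mem trivial k1)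
  obtain ⟨α, -, a2⟩ := exists_mem_dn (MulEquiv.refl (S : Subgroup G)) h (FS.aut_le_nz _ _ h)
  exact mem_of_mem_dn (η := MulEquiv.refl (S : Subgroup G)) (E.cz_le_aut _)
    (mem_dn.2 (mem_autInducedBy.1 (h1 (mem_autInducedBy.2 ⟨a, trivial, a2⟩)))) a2

end Cfsg.Agent.S5160
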