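import Cfsg.Statements.S5311
import Cfsg.Agent.Fusion.QS
-- import your own Cfsg.Agent.* helpers here

set_option autoImplicit false
open Cfsg

namespace Cfsg.Agent.S5311

open Cfsg.Agent.Fusion


/-- The layer of a saturated fusion system F over a finite p-group S is characteristic in F: for every automorphism α of S that is an automorphism of F (α and its inverse are morphisms from F to F) and every layer E of F over T, α carries T onto T and, for every map φ of E with source P, the map induced by α on α(P) (that is, α ∘ φ ∘ α⁻¹) is a map of E. -/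
theorem result {Ω : Type*} [Group Ω] {S : Subgroup Ω} [Finite S] (p : ℕ) [Fact p.Prime] (hS : IsPGroup p S) (F : Cfsg.FusionSystem S) (hF : F.IsSaturated p)
    (α : ↥S ≃* ↥S) (hα : F.IsMorphism F (S.subtype.comp α.toMonoidHom))
    (hα' : F.IsMorphism F (S.subtype.comp α.symm.toMonoidHom))
    {T : Subgroup Ω} (E : Cfsg.FusionSystem T) (hE : E.IsLayerOf F p) :
    Cfsg.FusionSystem.imageAlong (S.subtype.comp α.toMonoidHom) T = T ∧
      ∀ (P : Subgroup Ω) (φ : ↥P →* Ω), φ ∈ E.Hom P →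
        ∀ φ' : ↥(Cfsg.FusionSystem.imageAlong (S.subtype.comp α.toMonoidHom) P) →* Ω,
          Cfsg.FusionSystem.InducedAlong (S.subtype.comp α.toMonoidHom) φ φ' →
            φ' ∈ E.Hom (Cfsg.FusionSystem.imageAlong (S.subtype.comp α.toMonoidHom) P) := by
  obtain ⟨G, _, _, ι, F', r, hr₀⟩ := exists_rich_rep F
  have hr := r.rich hr₀
  obtain ⟨L, s, h⟩ := r.exists_lay hS hr hE
  have hm : ∀ x, (S.subtype.comp α.toMonoidHom) x ∈ S := fun x => (α x).2
  obtain ⟨a, e⟩ := hr₀.full.exists_ind r.inj le_rfl (S.subtype.comp α.toMonoidHom)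
    (S.subtype_injective.comp α.injective) hm
  have t := e.tr hm
  have k := h.cjs_eq (FS.cjs_eq_of_le ((t.mor_iff r r).1 hα).cjs_le)
  have him : ∀ P, P ≤ S → im ι (im (S.subtype.comp α.toMonoidHom) P) = cj a (im ι P) :=
    fun P hP => by rw [← t.im_im le_rfl hP, im_cjh]
  refine ⟨?_, fun P φ hφ φ' h' => ?_⟩
  · rw [im_eq_imageAlong, ← im_inj r.inj (t.im_le_V T) s.le, him T s.le, ← s.S_eq]
    exact congrArg FS.S k
  obtain ⟨g, h1, h2⟩ := s.fwd hφ
  have hP := s.leU hφ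
  obtain ⟨_, h3, _, h4⟩ := h'
  have h5 : ∀ x : P, φ' ⟨_, fn_mem_im (S.subtype.comp α.toMonoidHom) x.2⟩ =
      fn (S.subtype.comp α.toMonoidHom) (φ x) := fun x => by
    rw [fn_of_mem _ (h3 x), ← h4 x]
    congr 2
    exact fn_of_mem _ (hP x.2)
  refine s.mem_of (g := a * g * a⁻¹) (t.im_le_V P) (fun ⟨y, hy⟩ => ?_) (fun ⟨y, hy⟩ => ?_) ?_
  · obtain ⟨x, hx, rfl⟩ := (mem_im hP).1 hy
    rw [h5 ⟨x, hx⟩]; exact t.mem _
  · obtain ⟨x, hx, rfl⟩ := (mem_im hP).1 hy
    rw [h5 ⟨x, hx⟩, ← t.eq _ (h3 _), ← t.eq _ (hP hx), fn_cjh, fn_cjh, h2]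
    group
  · rw [im_eq_imageAlong, him P hP, ← k]
    exact FS.cjs_M'.2 h1

end Cfsg.Agent.S5311
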