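import Cfsg.Statements.S5346
import Mathlib
import Cfsg.Agent.Fischer.VW

set_option autoImplicit false
open Cfsg

namespace Cfsg.Agent.S5346

open Fischer

/-- Let D be a conjugation-invariant generating set of 3-transpositions of a finite group G and d a member of D. Then D has width 1 (no two different members of D commute) if and only if G is the product of the subgroup generated by d with the largest normal 3-subgroup of G. -/
theorem result {G : Type*} [Group G] [Finite G] {D : Set G} (hD : Cfsg.IsThreeTranspositionGroup D) {d : G} (hd : d ∈ D) : Cfsg.commutingWidth D = 1 ↔ Subgroup.zpowers d ⊔ Cfsg.pCore 3 G = ⊤ := by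
  rw [commutingWidth_eq_one_iff ⟨d, hd⟩]
  constructor
  · intro h
    rw [eq_top_iff, ← hD.2.2, Subgroup.closure_le]
    intro a ha
    rw [← tt_cancel hD.1 hd a]
    exact Subgroup.mul_mem_sup (Subgroup.mem_zpowers d) (mem_pCore_three_of_width_one hD h hd ha)
  · intro h
    have key : ∀ a ∈ D, d * a ∈ pCore 3 G := by
      intro a ha
      have : a ∈ Subgroup.zpowers d ⊔ pCore 3 G := by rw [h]; trivial
      obtain ⟨x, hx, n, hn, rfl⟩ := Subgroup.mem_sup_of_normal_right.1 this
      rcases mem_zpowers_invol (tt_sq hD.1 hd) hx with rfl | rfl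
      · exfalso
        rw [one_mul] at ha
        obtain ⟨k, hk⟩ := pow_eq_one_of_mem_isPGroup (Core.pCore_isPGroup 3) hn
        have := orderOf_dvd_of_pow_eq_one hk
        rw [hD.1.1 n ha] at this
        have := Nat.prime_two.dvd_of_dvd_pow this
        omega
      · rwa [tt_cancel hD.1 hd]
    intro a ha b hb hc
    refine eq_of_commute_of_mem_three hD.1 (Core.pCore_isPGroup 3) ha hb ?_ hc
    have := Subgroup.mul_mem _ (mul_mem_symm hD.1 hd ha (key a ha)) (key b hb)
    rwa [mul_assoc, tt_cancel hD.1 hd] at this

end Cfsg.Agent.S5346
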