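import Cfsg.Statements.S5349
import Mathlib
import Cfsg.Agent.Fischer.VW

set_option autoImplicit false
open Cfsg

namespace Cfsg.Agent.S5349

open Fischer

/-- Let D be a conjugacy class of 3-transpositions generating the finite group G, with at least two members, and d a member of D. Then the set of members of D commuting with exactly the same members of D as d coincides with the set of members of D lying in the coset of d modulo the largest normal 2-subgroup of G, and also with the orbit of d under conjugation by that normal 2-subgroup. -/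
theorem result {G : Type*} [Group G] [Finite G] {D : Set G} (hD : Cfsg.IsThreeTranspositionClass D) (hD2 : ∃ a ∈ D, ∃ b ∈ D, a ≠ b) {d : G} (hd : d ∈ D) : {v : G | v ∈ D ∧ ∀ e ∈ D, Commute v e ↔ Commute d e} = {v : G | v ∈ D ∧ d⁻¹ * v ∈ Cfsg.pCore 2 G} ∧ {v : G | v ∈ D ∧ ∀ e ∈ D, Commute v e ↔ Commute d e} = {v : G | ∃ g ∈ Cfsg.pCore 2 G, v = g * d * g⁻¹} := by
  have hG := class_group hD
  constructor
  · ext v
    simp only [Set.mem_setOf_eq, tt_inv hD.1 hd]
    exact and_congr_right fun hv => ⟨fun h => (relV_iff_mem hG hd hv).1 (relV.symm h),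
      fun h => ((relV_iff_mem hG hd hv).2 h).symm⟩
  · ext v
    constructor
    · rintro ⟨hv, h⟩
      obtain ⟨e, he, hde⟩ := exists_not_commute hD hD2 hd
      exact exists_conj_of_relV hG hd hv he hde (relV.symm h)
    · rintro ⟨g, hg, rfl⟩
      have hv := hG.2.1 g d hd
      exact ⟨hv, ((relV_iff_mem hG hd hv).2 (mul_conj_mem hD.1 hd hg)).symm⟩

end Cfsg.Agent.S5349
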