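import Cfsg.Statements.S5350
import Mathlib
import Cfsg.Agent.Fischer.VW

set_option autoImplicit false
open Cfsg

namespace Cfsg.Agent.S5350

open Fischer

/-- Let D be a conjugacy class of 3-transpositions generating the finite group G, with at least two members, and d a member of D. Then the set of members w of D whose commuting partners in D (other than w) are exactly those of d (other than d) coincides with the set of members of D lying in the coset of d modulo the largest normal 3-subgroup of G, and also with the orbit of d under conjugation by that normal 3-subgroup. -/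
theorem result {G : Type*} [Group G] [Finite G] {D : Set G} (hD : Cfsg.IsThreeTranspositionClass D) (hD2 : ∃ a ∈ D, ∃ b ∈ D, a ≠ b) {d : G} (hd : d ∈ D) : {w : G | w ∈ D ∧ {y : G | y ∈ D ∧ y ≠ d ∧ Commute d y} = {y : G | y ∈ D ∧ y ≠ w ∧ Commute w y}} = {w : G | w ∈ D ∧ d⁻¹ * w ∈ Cfsg.pCore 3 G} ∧ {w : G | w ∈ D ∧ {y : G | y ∈ D ∧ y ≠ d ∧ Commute d y} = {y : G | y ∈ D ∧ y ≠ w ∧ Commute w y}} = {w : G | ∃ g ∈ Cfsg.pCore 3 G, w = g * d * g⁻¹} := by
  have hG := class_group hD
  have key : ∀ w : G, ({y : G | y ∈ D ∧ y ≠ d ∧ Commute d y} = {y : G | y ∈ D ∧ y ≠ w ∧ Commute w y})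
      ↔ relW D d w := by
    intro w
    rw [Set.ext_iff]
    exact forall_congr' fun y => and_congr_right_iff
  simp only [key]
  constructor
  · ext v
    simp only [Set.mem_setOf_eq, tt_inv hD.1 hd]
    exact and_congr_right fun hv => relW_iff_mem hG hd hv
  · ext v
    constructor
    · rintro ⟨hv, h⟩
      exact exists_conj_of_relW hG hd hv h
    · rintro ⟨g, hg, rfl⟩
      have hv := hG.2.1 g d hd
      exact ⟨hv, (relW_iff_mem hG hd hv).2 (mul_conj_mem hD.1 hd hg)⟩

end Cfsg.Agent.S5350
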