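import Cfsg.Statements.S5351
import Mathlib
import Cfsg.Agent.Fischer.Structure

set_option autoImplicit false
open Cfsg

namespace Cfsg.Agent.S5351

open Fischer

/-- Let D be a conjugacy class of 3-transpositions generating the finite group G, with at least two members. Then for every prime p > 3 the largest normal p-subgroup of G is central, and exactly one of the following holds: the largest normal 2-subgroup of G is not central; the largest normal 3-subgroup of G is not central; the layer of G (the product of its components) is non-trivial. -/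
theorem result {G : Type*} [Group G] [Finite G] {D : Set G} (hD : Cfsg.IsThreeTranspositionClass D) (hD2 : ∃ a ∈ D, ∃ b ∈ D, a ≠ b) : (∀ p : ℕ, p.Prime → 3 < p → Cfsg.pCore p G ≤ Subgroup.center G) ∧ ((¬ Cfsg.pCore 2 G ≤ Subgroup.center G ∧ Cfsg.pCore 3 G ≤ Subgroup.center G ∧ Cfsg.layer G = ⊥) ∨ (Cfsg.pCore 2 G ≤ Subgroup.center G ∧ ¬ Cfsg.pCore 3 G ≤ Subgroup.center G ∧ Cfsg.layer G = ⊥) ∨ (Cfsg.pCore 2 G ≤ Subgroup.center G ∧ Cfsg.pCore 3 G ≤ Subgroup.center G ∧ Cfsg.layer G ≠ ⊥)) := by
  have hG := class_group hD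
  refine ⟨fun p hp h3 => pCore_central_of_gt hG hp h3, ?_⟩
  have key : ∀ {r : G → G → Prop}, (¬ ∀ a ∈ D, ∀ b ∈ D, r a b → a = b) →
      ∃ a ∈ D, ∃ b ∈ D, r a b ∧ a ≠ b := fun h => by
    push Not at h
    exact h
  by_cases h2 : pCore 2 G ≤ Subgroup.center G
  · by_cases h3 : pCore 3 G ≤ Subgroup.center G
    · exact Or.inr (Or.inr ⟨h2, h3, layer_ne_bot hD hD2 h2 h3⟩)
    · refine Or.inr (Or.inl ⟨h2, h3, ?_⟩)
      rw [pCore_three_central_iff hG] at h3
      obtain ⟨a, ha, b, hb, hab, hne⟩ := key h3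
      exact layer_eq_bot_of_relW hD ha hb hne hab
  · refine Or.inl ⟨h2, ?_⟩
    rw [pCore_two_central_iff hD hD2] at h2
    obtain ⟨a, ha, b, hb, hab, hne⟩ := key h2
    refine ⟨?_, layer_eq_bot_of_relV hD ha hb hne hab⟩
    rw [pCore_three_central_iff hG]
    intro c hc w hw hcw
    obtain ⟨g, rfl⟩ := class_isConj hD ha hc
    have hb' := hG.2.1 g b hb
    have hab' := hab.conj hG.2.1 g
    have h1 := (hcw _ hb').1 ⟨fun h => hne (by simpa using h.symm), hab'.commute hb'⟩
    by_contra hn
    exact hcw.not_commute hw hn ((hab' w hw).2 h1.2.symm)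

end Cfsg.Agent.S5351
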