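import Cfsg.Statements.S5352
import Mathlib
import Cfsg.Agent.Fischer.Structure

set_option autoImplicit false
open Cfsg

namespace Cfsg.Agent.S5352

open Fischer

/-- Let D be a conjugacy class of 3-transpositions generating the finite group G, with at least two members, and suppose the largest normal 2-subgroup and the largest normal 3-subgroup of G are both central. Then G has a quasisimple normal subgroup L such that the generalized Fitting subgroup of G is the product of L and the centre; and either L = G or the image of D in G/L has width 1, in the sense that two members of D whose commutator lies in L have the same image modulo L. -/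
theorem result {G : Type*} [Group G] [Finite G] {D : Set G} (hD : Cfsg.IsThreeTranspositionClass D) (hD2 : ∃ a ∈ D, ∃ b ∈ D, a ≠ b) (h2 : Cfsg.pCore 2 G ≤ Subgroup.center G) (h3 : Cfsg.pCore 3 G ≤ Subgroup.center G) : ∃ L : Subgroup G, L.Normal ∧ Cfsg.IsQuasisimple L ∧ Cfsg.generalizedFittingSubgroup G = L ⊔ Subgroup.center G ∧ (L = ⊤ ∨ ∀ a ∈ D, ∀ b ∈ D, a * b * a⁻¹ * b⁻¹ ∈ L → a⁻¹ * b ∈ L) := by
  have hG := class_group hD
  have hK := layer_isComponent hD (layer_ne_bot hD hD2 h2 h3)
  refine ⟨layer G, inferInstance, hK.2, genFitting_eq_layer_sup hG h2 h3, Or.inr ?_⟩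
  intro a ha b hb h
  rw [tt_inv hD.1 ha] at h ⊢
  by_cases hc : Commute a b
  · exact mul_mem_of_commute hD hK.2 ha hb hc
  · refine mem_of_sq_mem_of_cube ?_ (tt_cube hD.1 ha hb hc)
    rw [tt_inv hD.1 hb] at h
    simpa only [pow_two, mul_assoc] using h

end Cfsg.Agent.S5352
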