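import Cfsg.Statements.S5354
import Mathlib
import Cfsg.Agent.Fischer.Rank3

set_option autoImplicit false
open Cfsg

namespace Cfsg.Agent.S5354

open Fischer

/-- Let D be a conjugation-invariant generating set of 3-transpositions of the finite group G on which G acts primitively by conjugation, and suppose two different members of D commute (width at least 2). Then G has a quasisimple normal subgroup L of index at most 2 with the generalized Fitting subgroup of G equal to L times the centre, the commuting graph of D is connected, and for d in D the subgroup generated by the members of D commuting with d is a maximal D-subgroup: it is proper, and every subgroup generated by members of D that contains it is either it or G. -/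
theorem result {G : Type*} [Group G] [Finite G] {D : Set G} (hD : Cfsg.IsThreeTranspositionGroup D) (hprim : Cfsg.IsPrimitiveUnderConj D) (hw : ∃ a ∈ D, ∃ b ∈ D, a ≠ b ∧ Commute a b) : (∃ L : Subgroup G, L.Normal ∧ Cfsg.IsQuasisimple L ∧ L.index ≤ 2 ∧ Cfsg.generalizedFittingSubgroup G = L ⊔ Subgroup.center G) ∧ (Cfsg.commutingGraph D).Connected ∧ ∀ d ∈ D, Subgroup.closure {y : G | y ∈ D ∧ Commute d y} ≠ ⊤ ∧ ∀ H : Subgroup G, Cfsg.IsDSubgroup D H → Subgroup.closure {y : G | y ∈ D ∧ Commute d y} ≤ H → H = Subgroup.closure {y : G | y ∈ D ∧ Commute d y} ∨ H = ⊤ := by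
  have hC := prim_class hD hprim
  have h2 := (pCore_two_central_iff hC hprim.2.1).2 (prim_relV hD hprim)
  have h3 := (pCore_three_central_iff hD).2 (prim_relW hD hprim hw)
  have hK := layer_isComponent hC (layer_ne_bot hC hprim.2.1 h2 h3)
  have hc := prim_connected hD hprim hw
  refine ⟨⟨layer G, inferInstance, hK.2, index_le_two_of_connected hC hK.2 hc,
    genFitting_eq_layer_sup hD h2 h3⟩, hc, fun d hd => ⟨fun h => ?_, fun H hH hle => ?_⟩⟩
  · obtain ⟨e, -, he⟩ := exists_not_commute hC hprim.2.1 hd
    exact he (commute_of_mem_perpSub (D := D) (by rw [perpSub, h]; trivial))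
  · by_cases h : ∃ a ∈ D, a ∈ H ∧ ¬ Commute d a
    · right
      obtain ⟨a, ha, haH, hda⟩ := h
      rw [eq_top_iff, ← hD.2.2, Subgroup.closure_le]
      intro x hx
      by_cases hdx : Commute d x
      · exact hle (Subgroup.subset_closure ⟨hx, hdx⟩)
      · obtain ⟨g, hg, rfl⟩ := rank3_A hD hprim hw hd a ha x hx hda hdx
        exact H.mul_mem (H.mul_mem (hle hg) haH) (H.inv_mem (hle hg))
    · left
      refine le_antisymm ?_ hle
      conv_lhs => rw [← hH]
      apply Subgroup.closure_mono
      rintro x ⟨hx, hxH⟩
      exact ⟨hx, by_contra fun h' => h ⟨x, hx, hxH, h'⟩⟩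

end Cfsg.Agent.S5354
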