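import Cfsg.Statements.S5355
import Mathlib
import Cfsg.Agent.Fischer.Rank3

set_option autoImplicit false
open Cfsg

namespace Cfsg.Agent.S5355

open Fischer

/-- Let D be a conjugacy class of 3-transpositions generating the finite group G, with at least two members, and d a member of D. Suppose that every member of D commuting with d commutes with exactly the same members of D as d does, and that exactly one member of D other than d commutes with d. Then G is isomorphic to the symmetric group of degree 4. -/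
theorem result {G : Type*} [Group G] [Finite G] {D : Set G} (hD : Cfsg.IsThreeTranspositionClass D) (hD2 : ∃ a ∈ D, ∃ b ∈ D, a ≠ b) {d : G} (hd : d ∈ D) (hV : {y : G | y ∈ D ∧ Commute d y} = {v : G | v ∈ D ∧ ∀ e ∈ D, Commute v e ↔ Commute d e}) (hm : {y : G | y ∈ D ∧ Commute d y}.ncard = 2) : Nonempty (G ≃* Equiv.Perm (Fin 4)) := by
  have hG := class_group hD
  have part : ∀ a ∈ D, ∃ a' ∈ D, a' ≠ a ∧ relV D a a' ∧ ∀ y ∈ D, Commute a y → y = a ∨ y = a' := by
    have h0 : ∃ a' ∈ D, a' ≠ d ∧ relV D d a' ∧ ∀ y ∈ D, Commute d y → y = d ∨ y = a' := by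
      obtain ⟨x, y, hxy, h⟩ := Set.ncard_eq_two.1 hm
      have hd' : d ∈ ({x, y} : Set G) := by rw [← h]; exact ⟨hd, Commute.refl d⟩
      have hx : x ∈ {v : G | v ∈ D ∧ ∀ e ∈ D, Commute v e ↔ Commute d e} := by
        rw [← hV, h]; simp
      have hy : y ∈ {v : G | v ∈ D ∧ ∀ e ∈ D, Commute v e ↔ Commute d e} := by
        rw [← hV, h]; simp
      have hz : ∀ z ∈ D, Commute d z → z = x ∨ z = y := fun z hz hc => by
        have : z ∈ ({x, y} : Set G) := by rw [← h]; exact ⟨hz, hc⟩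
        exact this
      rcases hd' with rfl | rfl
      · exact ⟨y, hy.1, hxy.symm, relV.symm hy.2, hz⟩
      · exact ⟨x, hx.1, hxy, relV.symm hx.2, fun z h1 h2 => (hz z h1 h2).symm⟩
    intro a ha
    obtain ⟨g, rfl⟩ := class_isConj hD hd ha
    obtain ⟨a', ha', h1, h2, h3⟩ := h0
    refine ⟨_, hG.2.1 g a' ha', fun h => h1 (by simpa using h), h2.conj hG.2.1 g, fun y hy hc => ?_⟩
    rcases h3 _ (conj_mem_inv hG.2.1 g hy) ((commute_conj_left_iff _ _ _).1 hc) with h | h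
    · left; rw [← h]; simp [mul_assoc]
    · right; rw [← h]; simp [mul_assoc]
  have swp : ∀ a ∈ D, ∀ a' ∈ D, ∀ x ∈ D, a ≠ a' → Commute a a' → ¬ Commute a x → ¬ Commute x a' →
      (a * a') * x * (a * a')⁻¹ ≠ x ∧ Commute x ((a * a') * x * (a * a')⁻¹) := by
    intro a ha a' ha' x hx h1 h2 h3 h4
    obtain ⟨φ, hφ, rfl, rfl, rfl⟩ := tt_s4 hD.1 ha hx ha' h1 h2 h3 h4
    simp only [← map_mul, ← map_inv]
    refine ⟨fun h => absurd (hφ h) (by decide +kernel), ?_⟩
    exact Commute.map (by show _ = _; decide +kernel) φ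
  obtain ⟨d', hd', hne, hdd', hdu⟩ := part d hd
  obtain ⟨e, he, hde⟩ := exists_not_commute hD hD2 hd
  obtain ⟨φ, hφ, rfl, rfl, rfl⟩ := tt_s4 hD.1 hd he hd' hne.symm (hdd'.commute hd') hde
    (fun h => hde ((hdd' e he).2 h.symm))
  have hsw : ∀ i j : Fin 4, i ≠ j → φ (Equiv.swap i j) ∈ D := by
    intro i j hij
    obtain ⟨g, hg⟩ := isConj_iff.1 (Equiv.Perm.isConj_swap (by decide : (0 : Fin 4) ≠ 1) hij)
    rw [← hg, map_mul, map_mul, map_inv]
    exact hG.2.1 _ _ hd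
  have pair : ∀ i j k l : Fin 4, i ≠ j → k ≠ l → Equiv.swap i j ≠ Equiv.swap k l →
      Commute (Equiv.swap i j) (Equiv.swap k l) → ∀ x ∈ D, x ∉ φ.range →
      ∀ x', (∀ y ∈ D, Commute x y → y = x ∨ y = x') →
      φ (Equiv.swap i j * Equiv.swap k l) * x * (φ (Equiv.swap i j * Equiv.swap k l))⁻¹ = x' ∧
        x' ≠ x := by
    intro i j k l hij hkl hne hc x hx hxr x' hx'
    have key : ∀ a b : Equiv.Perm (Fin 4), φ a ∈ D → φ b ∈ D → a ≠ b → Commute a b →
        ¬ Commute (φ a) x := by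
      intro a b ha hb hab hc h
      obtain ⟨a', -, -, -, h3⟩ := part _ ha
      rcases h3 x hx h with h4 | h4
      · exact hxr ⟨a, h4.symm⟩
      · rcases h3 _ hb (hc.map φ) with h5 | h5
        · exact hab (hφ h5).symm
        · exact hxr ⟨b, h5.trans h4.symm⟩
    have h1 := swp _ (hsw i j hij) _ (hsw k l hkl) x hx (fun h => hne (hφ h)) (hc.map φ)
      (key _ _ (hsw i j hij) (hsw k l hkl) hne hc)
      (fun h => key _ _ (hsw k l hkl) (hsw i j hij) hne.symm hc.symm h.symm)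
    rw [← map_mul] at h1
    have h2 := (hx' _ (hG.2.1 _ x hx) h1.2).resolve_left h1.1
    exact ⟨h2, h2 ▸ h1.1⟩
  refine ⟨(MulEquiv.ofBijective φ ⟨hφ, ?_⟩).symm⟩
  rw [← MonoidHom.range_eq_top, eq_top_iff, ← hD.2.2, Subgroup.closure_le]
  intro x hx
  by_contra hxr
  obtain ⟨x', -, -, -, hx'⟩ := part x hx
  obtain ⟨h1, h0⟩ := pair 0 1 2 3 (by decide) (by decide) (by decide +kernel)
    (by show _ = _; decide +kernel) x hx hxr x' hx'
  obtain ⟨h2, -⟩ := pair 1 2 0 3 (by decide) (by decide) (by decide +kernel)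
    (by show _ = _; decide +kernel) x hx hxr x' hx'
  obtain ⟨h3, -⟩ := pair 0 2 1 3 (by decide) (by decide) (by decide +kernel)
    (by show _ = _; decide +kernel) x hx hxr x' hx'
  have h4 : (Equiv.swap 0 2 * Equiv.swap 1 3 : Equiv.Perm (Fin 4)) =
      (Equiv.swap 0 1 * Equiv.swap 2 3)⁻¹ * (Equiv.swap 1 2 * Equiv.swap 0 3) := by decide +kernel
  rw [h4, map_mul, map_inv] at h3
  apply h0
  rw [← h3]
  conv_rhs => rw [← mul_inv_cancel_left (φ (Equiv.swap 0 1 * Equiv.swap 2 3))⁻¹ x]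
  rw [← h1] at h2
  generalize φ (Equiv.swap 0 1 * Equiv.swap 2 3) = u at *
  generalize φ (Equiv.swap 1 2 * Equiv.swap 0 3) = v at *
  calc u⁻¹ * v * x * (u⁻¹ * v)⁻¹ = u⁻¹ * (v * x * v⁻¹) * u := by simp [mul_assoc]
    _ = _ := by rw [h2]; simp [mul_assoc]

end Cfsg.Agent.S5355
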