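import Cfsg.Statements.S5356
import Mathlib
import Cfsg.Agent.Fischer.Quot
import Cfsg.Agent.Fischer.Structure

set_option autoImplicit false
open Cfsg

namespace Cfsg.Agent.S5356

open Fischer

/-- Let D be a conjugacy class of 3-transpositions generating the finite group G, with at least two members, and d a member of D such that every member of D commuting with d commutes with exactly the same members of D as d. Then there is a Sylow 3-subgroup P of G normalized by d such that G is generated by d, P and the largest normal 2-subgroup of G. -/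
theorem result {G : Type*} [Group G] [Finite G] {D : Set G} (hD : Cfsg.IsThreeTranspositionClass D) (hD2 : ∃ a ∈ D, ∃ b ∈ D, a ≠ b) {d : G} (hd : d ∈ D) (hV : {y : G | y ∈ D ∧ Commute d y} = {v : G | v ∈ D ∧ ∀ e ∈ D, Commute v e ↔ Commute d e}) : ∃ P : Sylow 3 G, d ∈ Subgroup.normalizer (P : Set G) ∧ Subgroup.zpowers d ⊔ (P : Subgroup G) ⊔ Cfsg.pCore 2 G = ⊤ := by
  have hG := class_group hD
  have : Fact (Nat.Prime 3) := ⟨Nat.prime_three⟩
  have : Fact (Nat.Prime 2) := ⟨Nat.prime_two⟩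
  have hV' : ∀ a ∈ D, ∀ b ∈ D, Commute a b → relV D a b := by
    intro a ha b hb hc
    obtain ⟨g, rfl⟩ := class_isConj hD hd ha
    have h1 : g⁻¹ * b * g ∈ {y : G | y ∈ D ∧ Commute d y} :=
      ⟨conj_mem_inv hG.2.1 g hb, (commute_conj_left_iff _ _ _).1 hc⟩
    rw [hV] at h1
    have := (relV.symm h1.2).conj hG.2.1 g
    simpa [mul_assoc] using this
  obtain ⟨b, hb, hdb⟩ := exists_not_commute hD hD2 hd
  have hinv : ∀ e ∈ D, d * (d * e) * d⁻¹ = (d * e)⁻¹ := fun e he => by
    rw [tt_cancel hD.1 hd, mul_inv_rev, tt_inv hD.1 he]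
  have h3 : ∀ e ∈ D, ¬ Commute d e → IsPGroup 3 (Subgroup.zpowers (d * e)) := fun e he h =>
    K4.isPGroup_zpowers_of_pow (n := 1) (tt_cube hD.1 hd he h)
  obtain ⟨P, hP, hdP⟩ := exists_invariant_sylow (p := 3) (d := d) (h3 b hb hdb) (by
    apply Subgroup.mem_normalizer_fintype
    rintro _ ⟨n, rfl⟩
    simp only
    rw [← conj_zpow, hinv b hb]
    exact Subgroup.zpow_mem _ (Subgroup.inv_mem _ (Subgroup.mem_zpowers _)) n) (by
    intro R hR hdR hUR hmax y hy _
    have he := hG.2.1 y d hd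
    have e1 : d * y * d⁻¹ * y⁻¹ = d * (y * d * y⁻¹) := by
      rw [tt_inv hD.1 hd]; simp only [mul_assoc]
    rw [e1]
    have hn : d * (y * d * y⁻¹) ∈ Subgroup.normalizer (R : Set G) :=
      Subgroup.mul_mem _ hdR (Subgroup.mul_mem _ (Subgroup.mul_mem _ hy hdR) (Subgroup.inv_mem _ hy))
    by_cases hc : Commute d (y * d * y⁻¹)
    · by_cases hne : d = y * d * y⁻¹
      · rw [← hne, tt_sq hD.1 hd]; exact R.one_mem
      exfalso
      have h2 := mem_pCore_two_of_relV hG hd he (hV' d hd _ he hc)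
      set z := d * (y * d * y⁻¹) with hz
      have hu : d * b ∈ R := hUR (Subgroup.mem_zpowers _)
      have h4 : z * (d * b) * z⁻¹ * (d * b)⁻¹ = 1 := by
        refine Core.eq_one_of_mem_of_coprime (A := R) (K := pCore 2 G)
          (IsPGroup.coprime_card_of_ne 3 2 (by norm_num) _ _ hR (Core.pCore_isPGroup 2)) ?_ ?_
        · exact R.mul_mem ((Subgroup.mem_normalizer_iff.1 hn _).1 hu) (R.inv_mem hu)
        · have := Subgroup.mul_mem _ h2 ((inferInstance : (pCore 2 G).Normal).conj_mem _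
            (Subgroup.inv_mem _ h2) (d * b))
          simpa only [mul_assoc] using this
      have h5 : Commute z (d * b) := commutatorElement_eq_one_iff_commute.1 h4
      have h6 : Commute z d := ((Commute.refl d).mul_right hc).symm
      have h7 := h6.mul_right h5
      rw [tt_cancel hD.1 hd] at h7
      exact hdb ((tt_commute_mul_iff hD.1 hd he hb hne hc).1 h7.symm).1.symm
    · refine hmax _ hn (h3 _ he hc) ?_
      rw [hinv _ he]
      exact Subgroup.mem_sup_right (Subgroup.inv_mem _ (Subgroup.mem_zpowers _)))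
  refine ⟨P, hdP, ?_⟩
  have hno : ∀ a ∈ D, QuotientGroup.mk' (pCore 2 G) a ≠ 1 := by
    intro a ha h
    have h1 : pCore 2 G = ⊤ := by
      rw [eq_top_iff, ← hD.2.2, Subgroup.closure_le]
      intro e he
      obtain ⟨g, rfl⟩ := class_isConj hD ha he
      exact (inferInstance : (pCore 2 G).Normal).conj_mem _ ((QuotientGroup.eq_one_iff a).1 h) g
    exact hdb (S5345.commute_of_mem_twoGroup hD.1 (Core.pCore_isPGroup 2) hd hb
      (h1 ▸ Subgroup.mem_top _) (h1 ▸ Subgroup.mem_top _))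
  have hQ := tt_image hG (QuotientGroup.mk' (pCore 2 G)) (QuotientGroup.mk'_surjective _) hno
  have hw : ∀ a ∈ QuotientGroup.mk' (pCore 2 G) '' D, ∀ b ∈ QuotientGroup.mk' (pCore 2 G) '' D,
      Commute a b → a = b := by
    rintro _ ⟨a, ha, rfl⟩ _ ⟨c, hc, rfl⟩ h
    have h1 : (a * c) ^ 2 ∈ pCore 2 G := by
      rw [← QuotientGroup.eq_one_iff]
      exact sq_of_commute (tt_sq hQ.1 ⟨a, ha, rfl⟩) (tt_sq hQ.1 ⟨c, hc, rfl⟩) h
    obtain ⟨k, hk⟩ := pow_eq_one_of_mem_isPGroup (Core.pCore_isPGroup 2) h1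
    rw [← pow_mul, ← pow_succ'] at hk
    have h2 := tt_commute_of_pow hD.1 ha hc (fun h3 => by
      have := Nat.prime_three.dvd_of_dvd_pow h3
      omega) hk
    have h4 := mem_pCore_two_of_relV hG ha hc (hV' a ha c hc h2)
    rw [← tt_inv hD.1 ha] at h4
    exact QuotientGroup.eq.2 h4
  rw [eq_top_iff, ← hD.2.2, Subgroup.closure_le]
  intro a ha
  have h1 := mem_pCore_three_of_width_one hQ hw ⟨d, hd, rfl⟩ ⟨a, ha, rfl⟩
  have h2 := Core.pCore_le_sylow (P.mapSurjective (QuotientGroup.mk'_surjective (pCore 2 G))) h1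
  obtain ⟨x, hx, hx'⟩ := h2
  have h4 : x⁻¹ * (d * a) ∈ pCore 2 G := QuotientGroup.eq.1 hx'
  have := Subgroup.mul_mem_sup (Subgroup.mul_mem_sup (Subgroup.mem_zpowers d) hx) h4
  simpa [mul_assoc, tt_cancel hD.1 hd] using this

end Cfsg.Agent.S5356
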