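import Cfsg.Statements.S5361
import Mathlib
import Cfsg.Agent.Fischer.Rank3

set_option autoImplicit false
open Cfsg

namespace Cfsg.Agent.S5361

open Fischer

/-- Let D be a conjugacy class of 3-transpositions generating the finite group G, and suppose the centre of G is trivial and some two different members of D commute. Then the following are equivalent: (1) the commutator subgroup of G is simple (possibly of prime order); (2) G acts primitively on D by conjugation; (3) the largest normal 2-subgroup and the largest normal 3-subgroup of G are trivial and the commuting graph of D is connected. -/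
theorem result {G : Type*} [Group G] [Finite G] {D : Set G} (hD : Cfsg.IsThreeTranspositionClass D) (hZ : Subgroup.center G = ⊥) (hw : ∃ a ∈ D, ∃ b ∈ D, a ≠ b ∧ Commute a b) : (IsSimpleGroup (commutator G) ↔ Cfsg.IsPrimitiveUnderConj D) ∧ (Cfsg.IsPrimitiveUnderConj D ↔ (Cfsg.pCore 2 G = ⊥ ∧ Cfsg.pCore 3 G = ⊥ ∧ (Cfsg.commutingGraph D).Connected)) := by
  have hG := class_group hD
  have hD2 : ∃ a ∈ D, ∃ b ∈ D, a ≠ b := by
    obtain ⟨a, ha, b, hb, hab, -⟩ := hw
    exact ⟨a, ha, b, hb, hab⟩
  have hna : ¬ IsMulCommutative (commutator G) := fun h => by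
    obtain ⟨a, ha, b, hb, hab, hc⟩ := hw
    have hm := mul_mem_commutator hD ha hb
    have h1 : Commute a (a * b) := (Commute.refl a).mul_right hc
    have : a * b ∈ Subgroup.center G := by
      rw [Subgroup.mem_center_iff]
      intro g
      rcases mem_or_mul_mem hG ha (fun x hx => mul_mem_commutator hD ha hx) g with hg | hg
      · exact Core.comm_of_isMulCommutative h hg hm
      · have h2 : Commute (a * g) (a * b) := Core.comm_of_isMulCommutative h hg hm
        have := h1.mul_left h2
        rwa [tt_cancel hD.1 ha] at this
    rw [hZ, Subgroup.mem_bot] at this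
    exact hab ((eq_inv_of_mul_eq_one_left this).trans (tt_inv hD.1 hb))
  have e23 : Cfsg.IsPrimitiveUnderConj D → (Cfsg.pCore 2 G ≤ Subgroup.center G ∧
      Cfsg.pCore 3 G ≤ Subgroup.center G ∧ (Cfsg.commutingGraph D).Connected) := fun hp =>
    ⟨(pCore_two_central_iff hD hD2).2 (prim_relV hG hp),
      (pCore_three_central_iff hG).2 (prim_relW hG hp hw), prim_connected hG hp hw⟩
  refine ⟨⟨fun h => prim_of_simple hD h hna, fun hp => ?_⟩, fun hp => ?_, fun h => ?_⟩
  · obtain ⟨h2, h3, hc⟩ := e23 hp
    have hK := layer_isComponent hD (layer_ne_bot hD hD2 h2 h3)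
    have hi := index_le_two_of_connected hD hK.2 hc
    have hC := centralizer_le_center_of_genFitting hG h2 h3 (genFitting_eq_layer_sup hG h2 h3)
    have e : commutator G = layer G := by
      apply le_antisymm
      · obtain ⟨d, hd, -⟩ := hD2
        have key := mem_or_mul_mem_of_index hD hi hd
        have hq : ∀ g : G, (g : G ⧸ layer G) = 1 ∨ (g : G ⧸ layer G) = (d : G ⧸ layer G)⁻¹ := by
          intro g
          rcases key g with h | h
          · exact Or.inl ((QuotientGroup.eq_one_iff g).2 h)
          · right
            apply eq_inv_of_mul_eq_one_right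
            rw [← QuotientGroup.mk_mul]
            exact (QuotientGroup.eq_one_iff _).2 h
        rw [commutator, Subgroup.commutator_le]
        intro x _ y _
        rw [← QuotientGroup.eq_one_iff, commutatorElement_def]
        simp only [QuotientGroup.mk_mul, QuotientGroup.mk_inv]
        rcases hq x with h | h <;> rcases hq y with h' | h' <;> simp [h, h']
      · rw [← Comp2.layer_commutator_self]
        exact Subgroup.commutator_mono le_top le_top
    rw [e]
    refine Comp2.isSimpleGroup_of_quasisimple hK.2 ?_
    rw [eq_bot_iff]
    intro x hx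
    have : (x : G) ∈ Subgroup.center G := hC (by
      rw [Subgroup.mem_centralizer_iff]
      intro y hy
      exact congrArg Subtype.val (Subgroup.mem_center_iff.1 hx ⟨y, hy⟩))
    rw [hZ, Subgroup.mem_bot] at this
    exact Subtype.ext this
  · have := e23 hp
    rwa [hZ, le_bot_iff, le_bot_iff] at this
  · obtain ⟨h2, h3, hc⟩ := h
    have h2' : Cfsg.pCore 2 G ≤ Subgroup.center G := h2.le.trans bot_le
    have h3' : Cfsg.pCore 3 G ≤ Subgroup.center G := h3.le.trans bot_le
    have hK := layer_isComponent hD (layer_ne_bot hD hD2 h2' h3')
    exact prim_of_index_le_two hD hD2 h2' hK.2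
      (centralizer_le_center_of_genFitting hG h2' h3' (genFitting_eq_layer_sup hG h2' h3'))
      (index_le_two_of_connected hD hK.2 hc)

end Cfsg.Agent.S5361
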