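import Cfsg.Statements.S5363
import Mathlib
import Cfsg.Agent.Fischer.Dihedral

set_option autoImplicit false
open Cfsg

namespace Cfsg.Agent.S5363

open Fischer

/-- Let D be a conjugation-invariant set of involutions of a finite group G. Then every product of two members of D has odd order or order 2 if and only if, for every a in D and every b in D different from a and commuting with a, the members of D commuting with a b are exactly those commuting with both a and b. -/
theorem result {G : Type*} [Group G] [Finite G] {D : Set G} (hinv : ∀ d ∈ D, orderOf d = 2) (hconj : ∀ g : G, ∀ d ∈ D, g * d * g⁻¹ ∈ D) : (∀ a ∈ D, ∀ b ∈ D, Odd (orderOf (a * b)) ∨ orderOf (a * b) = 2) ↔ ∀ a ∈ D, ∀ b ∈ D, b ≠ a → Commute a b → {y : G | y ∈ D ∧ Commute (a * b) y} = {y : G | y ∈ D ∧ Commute a y} ∩ {y : G | y ∈ D ∧ Commute b y} := by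
  have hsq : ∀ d ∈ D, d * d = 1 := fun d hd => mul_self_of_orderOf_two (hinv d hd)
  constructor
  · intro h a ha b hb hba hab
    ext y
    refine ⟨fun ⟨hy, hc⟩ => ?_, fun ⟨⟨hy, h1⟩, _, h2⟩ => ⟨hy, h1.mul_left h2⟩⟩
    have key : Commute a y ↔ Commute b y := by
      constructor
      · intro h1
        have := h1.mul_left hc
        rwa [cancel_of_mul_self (hsq a ha)] at this
      · intro h1
        have := hc.mul_left h1
        rwa [mul_assoc, hsq b hb, mul_one] at this
    have : Commute a y := by
      rcases h y hy a ha with h1 | h1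
      · rcases h y hy b hb with h2 | h2
        · exfalso
          have hz : Commute (y * a) (a * b) :=
            hc.symm.mul_left ((Commute.refl a).mul_right hab)
          have e1 : y * b = (y * a) * (a * b) := by
            rw [mul_assoc, cancel_of_mul_self (hsq a ha)]
          have c2 : (y * b) ^ (orderOf (y * a) * orderOf (y * b)) = 1 := by
            rw [mul_comm, pow_mul, pow_orderOf_eq_one, one_pow]
          have hodd := h1.mul h2
          set k := orderOf (y * b)
          rw [e1, hz.mul_pow, pow_mul, pow_orderOf_eq_one, one_pow, one_mul] at c2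
          obtain ⟨j, hj⟩ := hodd
          rw [hj, pow_succ, pow_mul, sq_of_commute (hsq a ha) (hsq b hb) hab, one_pow,
            one_mul] at c2
          apply hba
          rw [← inv_of_mul_self (hsq a ha)]
          exact eq_inv_of_mul_eq_one_right c2
        · exact key.2 (commute_of_sq (hsq y hy) (hsq b hb)
            (by rw [← h2]; exact pow_orderOf_eq_one _)).symm
      · exact (commute_of_sq (hsq y hy) (hsq a ha) (by rw [← h1]; exact pow_orderOf_eq_one _)).symm
    exact ⟨⟨hy, this⟩, hy, key.1 this⟩
  · intro h a ha b hb
    rcases Nat.even_or_odd (orderOf (a * b)) with ⟨k, hk⟩ | hodd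
    swap
    · exact Or.inl hodd
    have hpos : 0 < orderOf (a * b) := orderOf_pos _
    have hz1 : (a * b) ^ k ≠ 1 := pow_ne_one_of_lt_orderOf (by omega) (by omega)
    have hz2 : (a * b) ^ k * (a * b) ^ k = 1 := by rw [← pow_add, ← hk, pow_orderOf_eq_one]
    have he := dihedral_mem hconj (hsq a ha) (hsq b hb) ha hb k
    have haz : Commute a ((a * b) ^ k) := by
      have := conj_pow_invol (hsq a ha) (hsq b hb) k
      rw [inv_of_mul_self hz2] at this
      exact mul_inv_eq_iff_eq_mul.1 this
    have hbz : Commute ((a * b) ^ k) b := by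
      have := haz.symm.mul_right ((Commute.refl (a * b)).pow_left k)
      rwa [cancel_of_mul_self (hsq a ha)] at this
    have := h a ha _ he (by simpa using hz1) ((Commute.refl a).mul_right haz)
    rw [cancel_of_mul_self (hsq a ha)] at this
    have hb' : b ∈ {y : G | y ∈ D ∧ Commute ((a * b) ^ k) y} := ⟨hb, hbz⟩
    rw [this] at hb'
    have hab : Commute a b := hb'.1.2
    have hdvd := orderOf_dvd_of_pow_eq_one (sq_of_commute (hsq a ha) (hsq b hb) hab)
    have := Nat.le_of_dvd (by norm_num) hdvd
    right; omega

end Cfsg.Agent.S5363
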