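import Cfsg.Statements.S5364
import Mathlib
import Cfsg.Agent.Fischer.Basic

set_option autoImplicit false
open Cfsg

namespace Cfsg.Agent.S5364

open Fischer

/-- Let D be a conjugation-invariant set of involutions of a finite group G and t an involution in the centre of G such that d t does not lie in D for any d in D. If the images of the members of D in G modulo the subgroup generated by t satisfy the 3-transposition order conditions (each has order 2 and any two have product of order at most 3), then so do the members of D. -/
theorem result {G : Type*} [Group G] [Finite G] {D : Set G} (hinv : ∀ d ∈ D, orderOf d = 2) (hconj : ∀ g : G, ∀ d ∈ D, g * d * g⁻¹ ∈ D) (t : G) (ht : orderOf t = 2) (htZ : t ∈ Subgroup.center G) (hDt : ∀ d ∈ D, d * t ∉ D) [(Subgroup.zpowers t).Normal] (himg : Cfsg.IsThreeTranspositionSet ((QuotientGroup.mk : G → G ⧸ Subgroup.zpowers t) '' D)) : Cfsg.IsThreeTranspositionSet D := by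
  refine ⟨hinv, fun d hd e he => ?_⟩
  have hd2 := mul_self_of_orderOf_two (hinv d hd)
  have he2 := mul_self_of_orderOf_two (hinv e he)
  have ht2 := mul_self_of_orderOf_two ht
  have htc : ∀ g : G, g * t = t * g := Subgroup.mem_center_iff.1 htZ
  have hz : ∀ x : G, (QuotientGroup.mk x : G ⧸ Subgroup.zpowers t) = 1 → x = 1 ∨ x = t := by
    intro x hx
    rw [QuotientGroup.eq_one_iff, Subgroup.mem_zpowers_iff] at hx
    obtain ⟨k, rfl⟩ := hx
    have h2 : t ^ (2 : ℤ) = 1 := by rw [zpow_two, ht2]
    rcases Int.emod_two_eq_zero_or_one k with h | h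
    · left; rw [← Int.mul_ediv_add_emod k 2, h, add_zero, zpow_mul, h2, one_zpow]
    · right; rw [← Int.mul_ediv_add_emod k 2, h, zpow_add, zpow_mul, h2, one_zpow, one_mul, zpow_one]
  rcases himg.2 _ ⟨d, hd, rfl⟩ _ ⟨e, he, rfl⟩ with h | h
  · rcases hz ((d * e) ^ 2) (by simpa using h) with h' | h'
    · exact Or.inl h'
    · exfalso
      apply hDt e he
      have : e * t = d * e * d⁻¹ := by
        rw [htc e, ← h', inv_of_mul_self hd2, pow_two]
        simp only [mul_assoc, he2, mul_one]
      rw [this]; exact hconj d e he
  · rcases hz ((d * e) ^ 3) (by simpa using h) with h' | h'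
    · exact Or.inr h'
    · exfalso
      apply hDt e he
      have : e * t = (d * e) * d * (d * e)⁻¹ := by
        rw [htc e, ← h', mul_inv_rev, inv_of_mul_self hd2, inv_of_mul_self he2]
        simp only [pow_succ, pow_zero, one_mul, mul_assoc, he2, mul_one]
      rw [this]; exact hconj _ d hd

end Cfsg.Agent.S5364
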