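import Cfsg.Statements.S5365
import Mathlib
import Cfsg.Agent.Fischer.Cubic

set_option autoImplicit false
open Cfsg

namespace Cfsg.Agent.S5365

open Fischer

/-- Let D be a non-empty conjugation-invariant set of involutions of a finite group G satisfying the 3-transposition order conditions, and suppose that for every d in D the members of D other than d commuting with d generate a subgroup isomorphic to the symmetric group of degree 3, and the largest normal 3-subgroup of the centralizer of d has order 3. Then the subgroup generated by D is isomorphic to the symmetric group of degree 5 or to the direct product of two symmetric groups of degree 3. -/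
theorem result {G : Type*} [Group G] [Finite G] {D : Set G} (hD : Cfsg.IsThreeTranspositionSet D) (hconj : ∀ g : G, ∀ d ∈ D, g * d * g⁻¹ ∈ D) (hne : D.Nonempty) (hloc : ∀ d ∈ D, Nonempty (↥(Subgroup.closure {y : G | y ∈ D ∧ y ≠ d ∧ Commute d y}) ≃* Equiv.Perm (Fin 3)) ∧ Nat.card (Cfsg.pCore 3 ↥(Subgroup.centralizer ({d} : Set G))) = 3) : Nonempty (↥(Subgroup.closure D) ≃* Equiv.Perm (Fin 5)) ∨ Nonempty (↥(Subgroup.closure D) ≃* Equiv.Perm (Fin 3) × Equiv.Perm (Fin 3)) := by
  have hH := tt_subgroup hD (E := D) le_rfl fun a ha b hb => by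
    simpa [tt_inv hD ha] using hconj a b hb
  haveI hn : (Subgroup.closure D).Normal := by
    refine ⟨fun x hx g => ?_⟩
    refine Subgroup.closure_induction (p := fun x _ => g * x * g⁻¹ ∈ Subgroup.closure D) ?_ ?_ ?_ ?_ hx
    · exact fun x hx => Subgroup.subset_closure (hconj g x hx)
    · simp
    · intro x y _ _ h1 h2
      rw [conj_mul_conj]; exact mul_mem h1 h2
    · intro x _ h1
      simpa [mul_assoc] using inv_mem h1
  obtain ⟨d0, hd0⟩ := hne
  refine cubic_classification hH ⟨⟨d0, Subgroup.subset_closure hd0⟩, hd0⟩ (fun d hd => ?_) ?_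
  · obtain ⟨⟨e⟩, -⟩ := hloc d hd
    have hl := line3_of_perm3 hD (S := nbr D d) (fun _ h => h.1) e
    have hm : ∀ x : Subgroup.closure D, x ∈ nbr (((↑) : Subgroup.closure D → G) ⁻¹' D) d ↔
        (x : G) ∈ nbr D d := fun x => by
      simp only [nbr, Set.mem_setOf_eq, Set.mem_preimage, Ne, Subtype.ext_iff, commute_iff_eq,
        Subgroup.coe_mul]
    obtain ⟨⟨a, ha, b, hb, hab⟩, h2⟩ := hl
    refine ⟨⟨⟨a, Subgroup.subset_closure ha.1⟩, (hm _).2 ha, ⟨b, Subgroup.subset_closure hb.1⟩,
      (hm _).2 hb, fun h => hab (congrArg Subtype.val h)⟩, fun x hx y hy hxy => ?_⟩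
    obtain ⟨h3, h4⟩ := h2 x ((hm _).1 hx) y ((hm _).1 hy) fun h => hxy (Subtype.ext h)
    refine ⟨fun h => h3 (congrArg Subtype.val h.eq), fun c hc => ?_⟩
    simpa only [Subtype.ext_iff, Subgroup.coe_mul] using h4 c ((hm _).1 hc)
  · intro d hd x hx y hy hdx hdy hx1
    obtain ⟨-, hc⟩ := hloc d hd
    have key : ∀ z ∈ Cfsg.pCore 3 (Subgroup.closure D), ∀ hz : (z : G) ∈ Subgroup.centralizer {(d : G)},
        (⟨z, hz⟩ : Subgroup.centralizer {(d : G)}) ∈ Cfsg.pCore 3 (Subgroup.centralizer {(d : G)}) :=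
      fun z hz hz' => Core.pCore_subgroupOf_le 3 _
        (Core.map_pCore_subtype_le 3 (Subgroup.closure D) ⟨z, hz, rfl⟩)
    have hx' : (x : G) ∈ Subgroup.centralizer {(d : G)} :=
      Subgroup.mem_centralizer_singleton_iff.2 (congrArg Subtype.val hdx.eq).symm
    have hy' : (y : G) ∈ Subgroup.centralizer {(d : G)} :=
      Subgroup.mem_centralizer_singleton_iff.2 (congrArg Subtype.val hdy.eq).symm
    let X : Cfsg.pCore 3 (Subgroup.centralizer {(d : G)}) := ⟨_, key x hx hx'⟩
    let Y : Cfsg.pCore 3 (Subgroup.centralizer {(d : G)}) := ⟨_, key y hy hy'⟩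
    haveI : Fact (Nat.Prime 3) := ⟨Nat.prime_three⟩
    have hX : X ≠ 1 := fun h => hx1 (Subtype.ext (congrArg (fun t => t.1.1) h))
    have h3 : X ^ 3 = 1 := by have := pow_card_eq_one' (x := X); rwa [hc] at this
    obtain ⟨k, hk⟩ := mem_powers_of_prime_card hc hX (g' := Y)
    have hk' : Y = X ^ (k % 3) := by
      rw [← hk]
      conv_lhs => rw [← Nat.div_add_mod k 3]
      simp only [pow_add, pow_mul, h3, one_pow, one_mul]
    have h2 : X ^ 2 = X⁻¹ := by rw [eq_inv_iff_mul_eq_one, ← pow_succ, h3]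
    have : k % 3 < 3 := Nat.mod_lt _ (by norm_num)
    interval_cases k % 3
    · rw [pow_zero] at hk'
      exact Or.inl (Subtype.ext (congrArg (fun t => t.1.1) hk'))
    · rw [pow_one] at hk'
      exact Or.inr (Or.inl (Subtype.ext (congrArg (fun t => t.1.1) hk')))
    · rw [h2] at hk'
      exact Or.inr (Or.inr (Subtype.ext (congrArg (fun t => t.1.1) hk')))

end Cfsg.Agent.S5365
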