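import Cfsg.Statements.S5366
import Mathlib
import Cfsg.Agent.Fischer.Space

set_option autoImplicit false
open Cfsg

namespace Cfsg.Agent.S5366

open Fischer

/-- Let L be a nondegenerate Fischer space on the point type X (every point on a line). Then for every point x the map t(x) — sending a point collinear with x to the third point of their common line and fixing every other point — is a permutation of X of order 2 and an automorphism of the line system; and the set of all t(x) satisfies the 3-transposition order conditions in the permutation group of X (any two have product of order at most 3). -/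
theorem result {X : Type*} (L : Set (Set X)) (hL : Cfsg.IsFischerSpace L) (hnd : Cfsg.LineSystem.IsNondegenerate L) : (∀ x : X, ∃ σ : Equiv.Perm X, ⇑σ = Cfsg.LineSystem.lineMap L x ∧ orderOf σ = 2 ∧ Cfsg.LineSystem.IsIso L L σ) ∧ Cfsg.IsThreeTranspositionSet {σ : Equiv.Perm X | ∃ x : X, ⇑σ = Cfsg.LineSystem.lineMap L x} := by
  have hp := hL.1
  let t : X → Equiv.Perm X := fun x => Function.Involutive.toPerm _ (lineMap_invol hp x)
  have ht : ∀ x y, t x y = LineSystem.lineMap L x y := fun _ _ => rfl
  have hsq : ∀ x, t x * t x = 1 := fun x => Equiv.ext fun y => lineMap_invol hp x y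
  have hord : ∀ x, orderOf (t x) = 2 := fun x => orderOf_two_of (hsq x) fun h => by
    obtain ⟨l, hl, hx⟩ := hnd x
    obtain ⟨y, z, h1, -⟩ := exists_third_of_mem_one hL.2.1 hl hx
    have := ht x y
    rw [h, lineMap_of_third hp h1] at this
    exact h1.2.1 this.symm
  have hconj : ∀ x a, t x * t a * t x = t (t x a) := fun x a => Equiv.ext fun y => by
    simp only [Equiv.Perm.mul_apply, ht]
    rw [lineMap_distrib hL, lineMap_invol hp]
  refine ⟨fun x => ⟨t x, rfl, hord x, isIso_of_third hL.2.1 hL.2.1 _ fun a b c =>
    ⟨third_lineMap hL x, fun h => ?_⟩⟩, ?_, ?_⟩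
  · have := third_lineMap hL x h
    simpa only [ht, lineMap_invol hp] using this
  · rintro σ ⟨x, hx⟩
    rw [show σ = t x from Equiv.ext fun y => congrFun hx y]
    exact hord x
  · rintro σ ⟨x, hx⟩ τ ⟨a, ha⟩
    rw [show σ = t x from Equiv.ext fun y => congrFun hx y,
      show τ = t a from Equiv.ext fun y => congrFun ha y]
    by_cases h : ∃ z, Third L x a z
    · obtain ⟨z, hz⟩ := h
      refine Or.inr (cube_of_braid (hsq x) (hsq a) ?_)
      rw [hconj, hconj, ht, ht, lineMap_of_third hp hz, lineMap_of_third hp hz.swap12]
    · refine Or.inl (sq_of_commute (hsq x) (hsq a) ((commute_iff_conj_eq (hsq x)).2 ?_))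
      rw [hconj, ht, lineMap_of_not h]

end Cfsg.Agent.S5366
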