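import Cfsg.Statements.S5367
import Mathlib
import Cfsg.Agent.Fischer.Space
import Cfsg.Agent.Fischer.PlaneLem

set_option autoImplicit false
open Cfsg

namespace Cfsg.Agent.S5367

open Fischer

/-- Let D be a conjugation-invariant generating set of 3-transpositions of a finite group G. Then the line system on D whose lines are the triples {x, y, y x y⁻¹} for non-commuting members x, y of D is a Fischer space: two points lie on at most one line, lines have three points, and two different meeting lines generate a subspace isomorphic to the dual affine plane of order two or to the affine plane of order three. -/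
theorem result {G : Type*} [Group G] [Finite G] {D : Set G} (hD : Cfsg.IsThreeTranspositionGroup D) : Cfsg.IsFischerSpace (Cfsg.threeTranspositionLines D) := by
  refine ⟨tl_partialLinear hD, tl_ncard hD, ?_⟩
  have hS := Chk.setting_of_group hD
  have hda : ∀ l ∈ threeTranspositionLines D, ∀ m ∈ threeTranspositionLines D, ∀ p q r : D,
      p ∈ l → q ∈ l → p ∈ m → r ∈ m → p ≠ q → p ≠ r → q ≠ r → Commute (q : G) r →
      LineSystem.Isomorphic (LineSystem.restrict (threeTranspositionLines D)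
        (LineSystem.span (threeTranspositionLines D) (l ∪ m))) dualAffinePlaneTwo := by
    intro l hl m hm p q r h1 h2 h3 h4 hpq hpr hqr hc
    obtain ⟨n1, l1⟩ := tl_mem hD hl h1 h2 hpq
    obtain ⟨n2, l2⟩ := tl_mem hD hm h3 h4 hpr
    obtain ⟨g, gD, ginj, gop, gp, gq, gr⟩ := PlaneLem.da hS p.2 q.2 r.2 n1 n2 hc
      fun h => hqr (Subtype.ext h)
    let idx : DualAffinePoint → Fin 6 := fun s => if 0 ∈ s.1 then (if 1 ∈ s.1 then 0 else
      if 2 ∈ s.1 then 1 else 2) else if 1 ∈ s.1 then (if 2 ∈ s.1 then 3 else 4) else 5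
    have i1 : Function.Injective idx := by decide +kernel
    have i2 : ∀ a b, idx (daOp a b) = PlaneLem.daOp (idx a) (idx b) := by decide +kernel
    have ep : g (idx ⟨{1, 2}, rfl⟩) = p := gp
    have eq : g (idx ⟨{0, 1}, rfl⟩) = q := gq
    have er : g (idx ⟨{2, 3}, rfl⟩) = r := gr
    have hop : ∀ a b, g (idx a) * g (idx b) * g (idx a) = g (idx (daOp a b)) := fun a b => by
      rw [gop, i2]
    refine tl_iso_of_model hD da_ncard da_third (f := fun y => g (idx y)) (fun y => gD _)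
      (ginj.comp i1) hop ?_ fun U hU hcl => ?_
    · rintro t (ht | ht)
      · rcases (l1 t).1 ht with rfl | rfl | h
        exacts [⟨_, ep⟩, ⟨_, eq⟩, ⟨_, by rw [h, ← ep, ← eq, hop]⟩]
      · rcases (l2 t).1 ht with rfl | rfl | h
        exacts [⟨_, ep⟩, ⟨_, er⟩, ⟨_, by rw [h, ← ep, ← er, hop]⟩]
    · have u1 := hU ⟨{1, 2}, rfl⟩ (Or.inl (by simpa only [ep] using h1))
      have u2 := hU ⟨{0, 1}, rfl⟩ (Or.inl (by simpa only [eq] using h2))
      have u3 := hU ⟨{2, 3}, rfl⟩ (Or.inr (by simpa only [er] using h4))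
      have u4 := hcl _ u1 _ u2
      have u5 := hcl _ u1 _ u3
      have u6 := hcl _ u2 _ u5
      intro y
      have : ∀ y : DualAffinePoint, y = ⟨{1, 2}, rfl⟩ ∨ y = ⟨{0, 1}, rfl⟩ ∨ y = ⟨{2, 3}, rfl⟩ ∨
        y = daOp ⟨{1, 2}, rfl⟩ ⟨{0, 1}, rfl⟩ ∨ y = daOp ⟨{1, 2}, rfl⟩ ⟨{2, 3}, rfl⟩ ∨
        y = daOp ⟨{0, 1}, rfl⟩ (daOp ⟨{1, 2}, rfl⟩ ⟨{2, 3}, rfl⟩) := by decide +kernel
      rcases this y with rfl | rfl | rfl | rfl | rfl | rfl <;> assumption
  rintro l hl m hm hne ⟨p, h1, h3⟩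
  obtain ⟨q, q', tq, hl'⟩ := exists_third_of_mem_one (tl_ncard hD) hl h1
  obtain ⟨r, r', tr, hm'⟩ := exists_third_of_mem_one (tl_ncard hD) hm h3
  have h2 : q ∈ l := by rw [hl']; simp
  have h4 : r ∈ m := by rw [hm']; simp
  have h5 : r' ∈ m := by rw [hm']; simp
  have hq : ∀ s ∈ m, q ≠ s := fun s hs h => hne
    (tl_partialLinear hD l hl m hm p q tq.2.2.1 h1 h2 h3 (h ▸ hs))
  by_cases c1 : Commute (q : G) r
  · exact Or.inl (hda l hl m hm p q r h1 h2 h3 h4 tq.2.2.1 tr.2.2.1 (hq r h4) c1)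
  by_cases c2 : Commute (q : G) r'
  · exact Or.inl (hda l hl m hm p q r' h1 h2 h3 h5 tq.2.2.1 tr.1.symm (hq r' h5) c2)
  right
  obtain ⟨n1, l1⟩ := tl_mem hD hl h1 h2 tq.2.2.1
  obtain ⟨n2, l2⟩ := tl_mem hD hm h3 h4 tr.2.2.1
  rw [((tl_third hD _ _ _).1 tr).2] at c2
  obtain ⟨g, gD, ginj, gop, gp, gq, gr⟩ := PlaneLem.ag hS p.2 q.2 r.2 n1 n2 c1 c2
  let idx : (Fin 2 → ZMod 3) → Fin 9 := fun v => ![![0, 1, 2], ![3, 4, 5], ![6, 7, 8]] (v 0) (v 1)
  have i1 : Function.Injective idx := by decide +kernel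
  have i2 : ∀ a b, idx (agOp a b) = PlaneLem.agOp (idx a) (idx b) := by decide +kernel
  have ep : g (idx ![0, 0]) = p := gp
  have eq : g (idx ![1, 0]) = q := gq
  have er : g (idx ![0, 1]) = r := gr
  have hop : ∀ a b, g (idx a) * g (idx b) * g (idx a) = g (idx (agOp a b)) := fun a b => by
    rw [gop, i2]
  refine tl_iso_of_model hD ag_ncard ag_third (f := fun y => g (idx y)) (fun y => gD _)
    (ginj.comp i1) hop ?_ fun U hU hcl => ?_
  · rintro t (ht | ht)
    · rcases (l1 t).1 ht with rfl | rfl | h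
      exacts [⟨_, ep⟩, ⟨_, eq⟩, ⟨_, by rw [h, ← ep, ← eq, hop]⟩]
    · rcases (l2 t).1 ht with rfl | rfl | h
      exacts [⟨_, ep⟩, ⟨_, er⟩, ⟨_, by rw [h, ← ep, ← er, hop]⟩]
  · have u1 := hU ![0, 0] (Or.inl (by simpa only [ep] using h1))
    have u2 := hU ![1, 0] (Or.inl (by simpa only [eq] using h2))
    have u3 := hU ![0, 1] (Or.inr (by simpa only [er] using h4))
    have u4 := hcl _ u1 _ u2
    have u5 := hcl _ u1 _ u3
    have u6 := hcl _ u2 _ u3
    have u7 := hcl _ u1 _ u6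
    have u8 := hcl _ u2 _ u5
    have u9 := hcl _ u1 _ u8
    intro y
    have : ∀ y : Fin 2 → ZMod 3, y = ![0, 0] ∨ y = ![1, 0] ∨ y = ![0, 1] ∨ y = agOp ![0, 0] ![1, 0] ∨
      y = agOp ![0, 0] ![0, 1] ∨ y = agOp ![1, 0] ![0, 1] ∨
      y = agOp ![0, 0] (agOp ![1, 0] ![0, 1]) ∨ y = agOp ![1, 0] (agOp ![0, 0] ![0, 1]) ∨
      y = agOp ![0, 0] (agOp ![1, 0] (agOp ![0, 0] ![0, 1])) := by
        set_option synthInstance.maxSize 2048 in decide +kernel
    rcases this y with rfl | rfl | rfl | rfl | rfl | rfl | rfl | rfl | rfl <;> assumption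

end Cfsg.Agent.S5367
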