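import Mathlib
import Cfsg.Statements.S5374
import Cfsg.Agent.FiC.F23.T
import Cfsg.Agent.FiC.Loc

set_option autoImplicit false
open scoped Pointwise commutatorElement
open Cfsg

namespace Cfsg.Agent.S5374

open Cfsg.Agent.Comp Cfsg.Agent.FiC Cfsg.Agent.FiC.F23
set_option maxRecDepth 100000
set_option Elab.async false
set_option linter.unusedSectionVars false
set_option linter.unusedVariables false

section
variable {G : Type*} [Group G] [Finite G] {D : Set G} {τ s : ℕ → G}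

theorem wid (b : Base D τ s d0 4089470473293004800) : Cfsg.commutingWidth D = 23 :=
  b.width [] .all subset_rfl (fun _ hj => iff_of_true (b.tau_mem hj) trivial) (CT.node [[nat_lit 0], [nat_lit 14], [nat_lit 22], [nat_lit 24], [nat_lit 26], [nat_lit 28], [nat_lit 30], [nat_lit 34], [nat_lit 40], [nat_lit 42], [nat_lit 44], [nat_lit 58], [nat_lit 60], [nat_lit 62]] [nat_lit 20] [nat_lit 1, nat_lit 2, nat_lit 3, nat_lit 4, nat_lit 11, nat_lit 12, nat_lit 5, nat_lit 9, nat_lit 13, nat_lit 10, nat_lit 6, nat_lit 7, nat_lit 2, nat_lit 11, nat_lit 8, nat_lit 9, nat_lit 5, nat_lit 6, nat_lit 0] CT.leaf (CT.node [[nat_lit 6], [nat_lit 10], [nat_lit 28], [nat_lit 30], [nat_lit 32], [nat_lit 34], [nat_lit 38], [nat_lit 40], [nat_lit 44], [nat_lit 50]] [nat_lit 8] [nat_lit 0, nat_lit 1, nat_lit 3, nat_lit 4, nat_lit 5, nat_lit 6, nat_lit 7, nat_lit 9, nat_lit 8, nat_lit 3, nat_lit 2, nat_lit 5, nat_lit 6, nat_lit 4, nat_lit 2] CT.leaf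 (CT.node [[nat_lit 0], [nat_lit 2], [nat_lit 4], [nat_lit 12], [nat_lit 44], [nat_lit 46], [nat_lit 50], [nat_lit 52]] [nat_lit 0] [nat_lit 1, nat_lit 0, nat_lit 2, nat_lit 4, nat_lit 5, nat_lit 3, nat_lit 4, nat_lit 7, nat_lit 4, nat_lit 1, nat_lit 5, nat_lit 4, nat_lit 7, nat_lit 6, nat_lit 1, nat_lit 4] CT.leaf (CT.node [[nat_lit 4], [nat_lit 16], [nat_lit 44], [nat_lit 46], [nat_lit 50], [nat_lit 52], [nat_lit 54], [nat_lit 42, nat_lit 55, nat_lit 35, nat_lit 54, nat_lit 46, nat_lit 10, nat_lit 44, nat_lit 47, nat_lit 48]] [nat_lit 18] [nat_lit 1, nat_lit 2, nat_lit 3, nat_lit 6, nat_lit 5, nat_lit 3, nat_lit 5, nat_lit 7, nat_lit 0, nat_lit 4, nat_lit 6, nat_lit 7] CT.leaf (CT.node [[nat_lit 4], [nat_lit 12], [nat_lit 16, nat_lit 42, nat_lit 6, nat_lit 43, nat_lit 4, nat_lit 48, nat_lit 20], [nat_lit 21, nat_lit 1, nat_lit 5, nat_lit 45, nat_lit 42, nat_lit 7, nat_lit 43, nat_lit 44], [nat_lit 9, nat_lit 51, nat_lit 45,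 nat_lit 52, nat_lit 54, nat_lit 43, nat_lit 55, nat_lit 34, nat_lit 5]] [nat_lit 12] [nat_lit 2, nat_lit 0, nat_lit 1, nat_lit 4, nat_lit 1, nat_lit 0, nat_lit 3, nat_lit 0, nat_lit 1, nat_lit 2, nat_lit 0, nat_lit 1, nat_lit 2] CT.leaf CT.leaf))))) [[nat_lit 20], [nat_lit 16], [nat_lit 8], [nat_lit 4], [nat_lit 12], [nat_lit 0], [nat_lit 45, nat_lit 18, nat_lit 44], [nat_lit 59, nat_lit 14, nat_lit 58], [nat_lit 28, nat_lit 8, nat_lit 29], [nat_lit 44, nat_lit 18, nat_lit 45], [nat_lit 46, nat_lit 16, nat_lit 47], [nat_lit 42, nat_lit 16, nat_lit 43], [nat_lit 45, nat_lit 12, nat_lit 44], [nat_lit 44, nat_lit 12, nat_lit 45], [nat_lit 14, nat_lit 23, nat_lit 10, nat_lit 22, nat_lit 15], [nat_lit 62, nat_lit 50, nat_lit 6, nat_lit 51, nat_lit 63], [nat_lit 45, nat_lit 34, nat_lit 10, nat_lit 35, nat_lit 44], [nat_lit 10, nat_lit 26, nat_lit 6, nat_lit 27, nat_lit 11], [nat_lit 18, nat_lit 22, nat_lit 2, nat_lit 23, nat_lit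 19], [nat_lit 62, nat_lit 64, nat_lit 4, nat_lit 65, nat_lit 63], [nat_lit 55, nat_lit 41, nat_lit 8, nat_lit 40, nat_lit 54], [nat_lit 42, nat_lit 29, nat_lit 2, nat_lit 28, nat_lit 43], [nat_lit 53, nat_lit 36, nat_lit 6, nat_lit 37, nat_lit 52]] 23 (by decide +kernel)

end

/-- Let G be a finite group with trivial centre generated by a conjugation-invariant set D of 3-transpositions on which it acts primitively, of type M(23), and suppose some finite primitive 3-transposition group of type M(24) exists. Then G is simple, D has exactly 31671 members, G has order 2^18 · 3^13 · 5^2 · 7 · 11 · 13 · 17 · 23, the width of D is 23, and for every d in D the subgroup H generated by the members of D other than d commuting with d is the centralizer of d and is quasisimple with centre generated by d. -/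
theorem result {G : Type*} [Group G] [Finite G] {D : Set G} (hD : Cfsg.IsThreeTranspositionGroup D) (hprim : Cfsg.IsPrimitiveUnderConj D) (ht : Cfsg.IsOfTypeM23 G D) (hex : ∃ (X : Type) (_ : Group X) (_ : Finite X) (E : Set X), Cfsg.IsThreeTranspositionClass E ∧ Cfsg.IsPrimitiveUnderConj E ∧ Cfsg.IsOfTypeM24 X E) : IsSimpleGroup G ∧ D.ncard = 31671 ∧ Nat.card G = 2 ^ 18 * 3 ^ 13 * 5 ^ 2 * 7 * 11 * 13 * 17 * 23 ∧ Cfsg.commutingWidth D = 23 ∧ ∀ d ∈ D, Subgroup.closure {y : G | y ∈ D ∧ y ≠ d ∧ Commute d y} = Subgroup.centralizer ({d} : Set G) ∧ Cfsg.IsQuasisimple ↥(Subgroup.closure {y : G | y ∈ D ∧ y ≠ d ∧ Commute d y}) ∧ Subgroup.center ↥(Subgroup.closure {y : G | y ∈ D ∧ y ≠ d ∧ Commute d y}) = (Subgroup.zpowers d).subgroupOf (Subgroup.closure {y : G | y ∈ D ∧ y ≠ d ∧ Commute d y}) := by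
  obtain ⟨τ, s, b⟩ := exists_base hD ht
  obtain ⟨e, -⟩ := Fischer.M23.iso hD ht
  have := Fi23.simple
  refine ⟨e.isSimpleGroup, b.ncard, b.card.trans (by norm_num), wid b, fun a ha => ?_⟩
  obtain ⟨-, a₀, ha₀, -, -, -, h0, -⟩ := ht
  obtain ⟨g, rfl⟩ := hprim.1 a₀ ha₀ a ha
  obtain ⟨f, -⟩ := loc_iso22 ((Fischer.M22.cl_of_group hD).loc a₀) h0
  have := Fi22.simple
  have h2 := ((Classical.Congr.centerQuotCongr (((MulAut.conj g).subgroupMap _).trans
    (MulEquiv.subgroupCongr (cl_conj hD.2.1 g a₀).symm))).symm.trans f.symm).isSimpleGroup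
  obtain ⟨τ', s', b', e'⟩ := b.wlog1 (tr1 b) ha
  rw [e', cla b'] at h2 ⊢
  exact ⟨by rw [← (ca b').1, Cen_top1], ⟨perfa b', h2⟩, center_eq ((zca b').trans (genW1 _ _))⟩

end Cfsg.Agent.S5374
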