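import Mathlib
import Cfsg.Statements.S5375
import Cfsg.Agent.FiC.F24.Iso
import Cfsg.Agent.Comp2.Component

set_option autoImplicit false
open scoped Pointwise commutatorElement
open Cfsg

namespace Cfsg.Agent.S5375

open Cfsg.Agent.Comp Cfsg.Agent.FiC Cfsg.Agent.FiC.F24
set_option maxRecDepth 100000
set_option Elab.async false
set_option linter.unusedSectionVars false
set_option linter.unusedVariables false

section
variable {G : Type*} [Group G] [Finite G] {D : Set G} {τ s : ℕ → G}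

theorem wid (b : Base D τ s d0 2510411418381323442585600) : Cfsg.commutingWidth D = 24 :=
  b.width [] .all subset_rfl (fun _ hj => iff_of_true (b.tau_mem hj) trivial) (CT.node [[nat_lit 0], [nat_lit 2], [nat_lit 24], [nat_lit 26], [nat_lit 28], [nat_lit 34], [nat_lit 36], [nat_lit 38], [nat_lit 40], [nat_lit 42], [nat_lit 44], [nat_lit 48], [nat_lit 50], [nat_lit 52]] [nat_lit 0] [nat_lit 1, nat_lit 2, nat_lit 3, nat_lit 2, nat_lit 6, nat_lit 7, nat_lit 8, nat_lit 10, nat_lit 11, nat_lit 12, nat_lit 4, nat_lit 13, nat_lit 5, nat_lit 3, nat_lit 9, nat_lit 2, nat_lit 7, nat_lit 8, nat_lit 4, nat_lit 12, nat_lit 3, nat_lit 9, nat_lit 0] CT.leaf (CT.node [[nat_lit 4], [nat_lit 6], [nat_lit 30], [nat_lit 32], [nat_lit 34], [nat_lit 36], [nat_lit 38], [nat_lit 40], [nat_lit 42], [nat_lit 44], [nat_lit 48], [nat_lit 50], [nat_lit 54]] [nat_lit 4] [nat_lit 1, nat_lit 2, nat_lit 3, nat_lit 4, nat_lit 5, nat_lit 7, nat_lit 8, nat_lit 10, nat_lit 6,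 nat_lit 2, nat_lit 11, nat_lit 12, nat_lit 3, nat_lit 8, nat_lit 9, nat_lit 6, nat_lit 10, nat_lit 2, nat_lit 0] CT.leaf (CT.node [[nat_lit 10], [nat_lit 36], [nat_lit 38], [nat_lit 40], [nat_lit 42], [nat_lit 44], [nat_lit 46], [nat_lit 48], [nat_lit 50], [nat_lit 52], [nat_lit 54]] [nat_lit 8] [nat_lit 0, nat_lit 1, nat_lit 3, nat_lit 2, nat_lit 4, nat_lit 6, nat_lit 8, nat_lit 5, nat_lit 2, nat_lit 9, nat_lit 3, nat_lit 7, nat_lit 10, nat_lit 9, nat_lit 3] CT.leaf (CT.node [[nat_lit 14], [nat_lit 42], [nat_lit 44], [nat_lit 48], [nat_lit 50], [nat_lit 52], [nat_lit 54]] [nat_lit 12] [nat_lit 0, nat_lit 1, nat_lit 2, nat_lit 4, nat_lit 5, nat_lit 1, nat_lit 6, nat_lit 2, nat_lit 3, nat_lit 1, nat_lit 6, nat_lit 4, nat_lit 0] CT.leaf (CT.node [[nat_lit 18], [nat_lit 22], [nat_lit 48], [nat_lit 50], [nat_lit 52], [nat_lit 54], [nat_lit 56]] [nat_lit 20] [nat_lit 1, nat_lit 2, nat_lit 3, nat_lit 4, nat_lit 2, nat_lit 3, nat_lit 4, nat_lit 6,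 nat_lit 5, nat_lit 2, nat_lit 0] CT.leaf (CT.node [[nat_lit 16], [nat_lit 18], [nat_lit 46], [nat_lit 56], [nat_lit 21, nat_lit 53, nat_lit 51, nat_lit 21, nat_lit 53, nat_lit 49, nat_lit 55]] [nat_lit 16] [nat_lit 1, nat_lit 0, nat_lit 2, nat_lit 3, nat_lit 1, nat_lit 4, nat_lit 2, nat_lit 1, nat_lit 0, nat_lit 1] CT.leaf CT.leaf)))))) [[nat_lit 0], [nat_lit 4], [nat_lit 8], [nat_lit 12], [nat_lit 20], [nat_lit 16], [nat_lit 25, nat_lit 22, nat_lit 24], [nat_lit 38, nat_lit 16, nat_lit 39], [nat_lit 53, nat_lit 22, nat_lit 52], [nat_lit 51, nat_lit 22, nat_lit 50], [nat_lit 46, nat_lit 18, nat_lit 47], [nat_lit 30, nat_lit 34, nat_lit 12, nat_lit 35, nat_lit 31], [nat_lit 51, nat_lit 52, nat_lit 20, nat_lit 53, nat_lit 50], [nat_lit 54, nat_lit 45, nat_lit 22, nat_lit 44, nat_lit 55], [nat_lit 53, nat_lit 27, nat_lit 6, nat_lit 26, nat_lit 52], [nat_lit 44, nat_lit 42, nat_lit 12, nat_lit 43, nat_lit 45], [nat_lit 52, nat_lit 52, nat_lit 20,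 nat_lit 53, nat_lit 53], [nat_lit 53, nat_lit 39, nat_lit 10, nat_lit 38, nat_lit 52], [nat_lit 53, nat_lit 53, nat_lit 20, nat_lit 52, nat_lit 52], [nat_lit 18, nat_lit 52, nat_lit 18, nat_lit 53, nat_lit 19], [nat_lit 42, nat_lit 44, nat_lit 16, nat_lit 45, nat_lit 43], [nat_lit 18, nat_lit 56, nat_lit 18, nat_lit 57, nat_lit 19], [nat_lit 60, nat_lit 51, nat_lit 60, nat_lit 50, nat_lit 61], [nat_lit 46, nat_lit 43, nat_lit 12, nat_lit 42, nat_lit 47]] 24 (by decide +kernel)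

end

/-- Let G be a finite group with trivial centre generated by a conjugation-invariant set D of 3-transpositions on which it acts primitively, of type M(24). Then the layer of G (its largest semisimple normal subgroup) has index 2, D has exactly 306936 members, G has order 2^22 · 3^16 · 5^2 · 7^3 · 11 · 13 · 17 · 23 · 29, the width of D is 24, and for every d in D the subgroup generated by the members of D other than d commuting with d is the centralizer of d. -/
theorem result {G : Type*} [Group G] [Finite G] {D : Set G} (hD : Cfsg.IsThreeTranspositionGroup D) (hprim : Cfsg.IsPrimitiveUnderConj D) (ht : Cfsg.IsOfTypeM24 G D) : (Cfsg.layer G).index = 2 ∧ D.ncard = 306936 ∧ Nat.card G = 2 ^ 22 * 3 ^ 16 * 5 ^ 2 * 7 ^ 3 * 11 * 13 * 17 * 23 * 29 ∧ Cfsg.commutingWidth D = 24 ∧ ∀ d ∈ D, Subgroup.closure {y : G | y ∈ D ∧ y ≠ d ∧ Commute d y} = Subgroup.centralizer ({d} : Set G) := by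
  obtain ⟨τ, s, b⟩ := exists_base hD hprim ht
  obtain ⟨e, -⟩ := iso hD hprim ht
  refine ⟨?_, b.ncard, b.card.trans (by norm_num), wid b, fun a ha => ?_⟩
  · have h1 : layer Spor.Fi24 = Fi24.eps.ker := by
      have := Fi24.simpleK
      refine le_antisymm (Fi24.comm_eq ▸ Comp2.layer_commutator_self.ge.trans
        (Subgroup.commutator_mono le_top le_top)) (Comp2.component_le_layer ?_)
      exact ⟨Subgroup.Normal.isSubnormal inferInstance, Comp2.quasisimple_of_isSimpleGroup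
        (not_comm_of_simple (by rw [Fi24.cardK]; norm_num))⟩
    rw [← Comp2.layer_map_equiv e.symm, h1]
    exact (Subgroup.index_map_equiv _ e.symm).trans Fi24.index2
  · obtain ⟨τ', s', b', rfl⟩ := b.wlog1 (tr1 b) ha
    rw [cla b', ← (ca b').1, Cen_top1]

end Cfsg.Agent.S5375
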