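import Mathlib
import Cfsg.Statements.S5376
import Cfsg.Agent.FiC.F22.T
import Cfsg.Agent.S0283

set_option autoImplicit false
open scoped Pointwise commutatorElement
open Cfsg

namespace Cfsg.Agent.S5376

open Cfsg.Agent.Comp Cfsg.Agent.FiC Cfsg.Agent.FiC.F22
set_option linter.unusedVariables false

/-- Let G be a finite group with trivial centre generated by a conjugation-invariant set D of 3-transpositions on which it acts primitively, of type M(22), and suppose some finite primitive 3-transposition group of type M(23) exists. Then G is simple, and for every d in D the subgroup generated by the members of D other than d commuting with d contains d and is quasisimple with centre generated by d. -/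
theorem result {G : Type*} [Group G] [Finite G] {D : Set G} (hD : Cfsg.IsThreeTranspositionGroup D) (hprim : Cfsg.IsPrimitiveUnderConj D) (ht : Cfsg.IsOfTypeM22 G D) (hex : ∃ (X : Type) (_ : Group X) (_ : Finite X) (E : Set X), Cfsg.IsThreeTranspositionClass E ∧ Cfsg.IsPrimitiveUnderConj E ∧ Cfsg.IsOfTypeM23 X E) : IsSimpleGroup G ∧ ∀ d ∈ D, d ∈ Subgroup.closure {y : G | y ∈ D ∧ y ≠ d ∧ Commute d y} ∧ Cfsg.IsQuasisimple ↥(Subgroup.closure {y : G | y ∈ D ∧ y ≠ d ∧ Commute d y}) ∧ Subgroup.center ↥(Subgroup.closure {y : G | y ∈ D ∧ y ≠ d ∧ Commute d y}) = (Subgroup.zpowers d).subgroupOf (Subgroup.closure {y : G | y ∈ D ∧ y ≠ d ∧ Commute d y}) := by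
  obtain ⟨τ, s, b⟩ := exists_base hD ht
  obtain ⟨e, -⟩ := Fischer.M22.iso hD ht
  have := Fi22.simple
  refine ⟨e.isSimpleGroup, fun a ha => ?_⟩
  obtain ⟨-, a₀, ha₀, -, -, -, ⟨F, _, _, hF, ⟨f⟩⟩, -⟩ := ht
  obtain ⟨g, rfl⟩ := hprim.1 a₀ ha₀ a ha
  have h1 := S0283.result (q := 2) hF 6 (by norm_num) (by norm_num)
  have h2 := ((Classical.Congr.centerQuotCongr (((MulAut.conj g).subgroupMap _).trans
    (MulEquiv.subgroupCongr (cl_conj hD.2.1 g a₀).symm))).symm.trans f).isSimpleGroup
  obtain ⟨τ', s', b', e'⟩ := b.wlog1 (tr1 b) ha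
  rw [e', cla b'] at h2 ⊢
  refine ⟨?_, ⟨perfa b', h2⟩, center_eq ((zca b').trans (genW1 _ _))⟩
  rw [← (ca b').1, Cen_top1]
  exact mem_cent1.2 (Commute.refl _)

end Cfsg.Agent.S5376
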