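import Cfsg.Statements.S5379
import Cfsg.Agent.SzI.F
-- import your own Cfsg.Agent.* helpers here

set_option autoImplicit false
open Cfsg

namespace Cfsg.Agent.S5379

/-- Let G be a finite group of Suzuki sporadic type: it has an involution z whose centralizer C has generalized Fitting subgroup Q extraspecial of order 2^7 with C/Q isomorphic to the commutator subgroup of the isometry group of the elliptic quadratic form in dimension 6 over the field with two elements, and some conjugate of z other than z lies in Q. Then G has exactly two conjugacy classes of involutions. -/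
theorem result {G : Type*} [Group G] [Finite G] (z : G) (hz : orderOf z = 2) (Q : Subgroup (Subgroup.centralizer ({z} : Set G))) [Q.Normal] (hF : Cfsg.generalizedFittingSubgroup (Subgroup.centralizer ({z} : Set G)) = Q) (hQ : Cfsg.IsExtraspecial 2 Q) (hcard : Nat.card Q = 2 ^ 7) (e : (Subgroup.centralizer ({z} : Set G)) ⧸ Q ≃* Cfsg.Omega (ZMod 2) (Cfsg.quadFormMinus 2 (ZMod 2) 1 1)) (hnwc : ∃ g : G, (∃ hq : g * z * g⁻¹ ∈ Subgroup.centralizer ({z} : Set G), (⟨g * z * g⁻¹, hq⟩ : Subgroup.centralizer ({z} : Set G)) ∈ Q) ∧ g * z * g⁻¹ ≠ z) : ∃ a b : G, orderOf a = 2 ∧ orderOf b = 2 ∧ ¬ IsConj a b ∧ ∀ x : G, orderOf x = 2 → IsConj x a ∨ IsConj x b := by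
  have h1 : IsExtraspecial 2 (Q.map (Subgroup.centralizer ({z} : Set G)).subtype) :=
    PGrp.isExtraspecial_of_equiv (Q.equivMapOfInjective _ (Subgroup.subtype_injective _)) hQ
  obtain ⟨g, ⟨hq, hq'⟩, hg⟩ := hnwc
  refine SzI.main (PLocal.ls_of_genFit hz (by rw [hF]) h1).1
    (by rw [Subgroup.card_map_of_injective (Subgroup.subtype_injective _), hcard]) ?_
    (Subgroup.mem_map_of_mem _ hq') hg
  rw [Subgroup.subgroupOf, Subgroup.comap_map_eq_self_of_injective (Subgroup.subtype_injective _),
    Subgroup.index, Nat.card_congr e.toEquiv, ← SzI.card_Om, SzI.Om, ← Orth.map_Omega,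
    Subgroup.card_map_of_injective (Orth.toOG _).injective]
  rfl

end Cfsg.Agent.S5379
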