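import Cfsg.Statements.S5387
import Mathlib
import Cfsg.Agent.H3x.Fib
import Cfsg.Agent.S2088

set_option autoImplicit false
open Cfsg

namespace Cfsg.Agent.S5387


/-- Up to isomorphism there is at most one quasisimple group whose centre is elementary abelian of order 4 and whose central quotient is isomorphic to the projective special linear group of dimension 3 over the field with four elements: any two such groups are isomorphic. -/
theorem result {L₁ L₂ : Type*} [Group L₁] [Finite L₁] [Group L₂] [Finite L₂] (F : Type) [Field F] [Fintype F] (hF : Fintype.card F = 4) (h₁ : Cfsg.IsQuasisimple L₁) (h₂ : Cfsg.IsQuasisimple L₂) (hc₁ : Nat.card (Subgroup.center L₁) = 4) (hc₂ : Nat.card (Subgroup.center L₂) = 4) (he₁ : ∀ x ∈ Subgroup.center L₁, x * x = 1) (he₂ : ∀ x ∈ Subgroup.center L₂, x * x = 1) (e₁ : L₁ ⧸ Subgroup.center L₁ ≃* Matrix.ProjectiveSpecialLinearGroup (Fin 3) F) (e₂ : L₂ ⧸ Subgroup.center L₂ ≃* Matrix.ProjectiveSpecialLinearGroup (Fin 3) F) : Nonempty (L₁ ≃* L₂) :=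 by
  have k₁ : (e₁.toMonoidHom.comp (QuotientGroup.mk' _)).ker = Subgroup.center L₁ := by
    ext x; simp
  have k₂ : (e₂.toMonoidHom.comp (QuotientGroup.mk' _)).ker = Subgroup.center L₂ := by
    ext x; simp
  refine H3x.unique_cover (e₁.toMonoidHom.comp (QuotientGroup.mk' _))
    (e₂.toMonoidHom.comp (QuotientGroup.mk' _)) (e₁.surjective.comp (QuotientGroup.mk'_surjective _))
    (e₂.surjective.comp (QuotientGroup.mk'_surjective _)) h₁.1.commutator_eq_top h₂.1.commutator_eq_top
    k₁.le k₂.le (e := 2) (m := 4) (fun x hx => (pow_two x).trans (he₁ x (k₁ ▸ hx)))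
    (fun x hx => (pow_two x).trans (he₂ x (k₂ ▸ hx))) (by rw [k₁, hc₁]) (by rw [k₂, hc₂]) fun Γ _ _ σ hσ h => ?_
  obtain ⟨π, hπ⟩ := (S2088.result hF).2 Γ σ hσ
  exact H3x.card_le_four π hπ fun x => Subtype.ext (h x x.2)

end Cfsg.Agent.S5387
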