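import Mathlib
import Cfsg.Statements.S5392
import Cfsg.Agent.Leech.Pairs

set_option autoImplicit false
open Cfsg

namespace Cfsg.Agent.S5392

open Leech in
theorem all_of_min (M : AddSubgroup V)
    (h : ∀ g : ↥Cfsg.Co0, ∀ v : ↥Cfsg.leechLattice, (v : V) ∈ M → ((g • v : ↥Cfsg.leechLattice) : V) ∈ M)
    {y : leechLattice} (hy : (y : V) ∈ M) (hn : sqNorm (y : V) ≤ 64) {x : leechLattice}
    (e : sqNorm (y : V) = sqNorm (x : V)) : (x : V) ∈ M := by
  obtain ⟨g, rfl⟩ := trans_norm y x hn e
  exact h g y hy

/-- The Leech lattice modulo twice itself is a faithful irreducible module for the first Conway group: an automorphism of the rank-24 lattice built from the length-24 code that moves every lattice vector only by twice a lattice vector lies in the centre of the automorphism group (the centre consists of ±1, which act trivially there, so the kernel is exactly the centre), and an additive subgroup lying between twice the lattice and the lattice that is invariant under all lattice automorphisms is one of the two. -/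
theorem result : (∀ g : ↥Cfsg.Co0, (∀ v : ↥Cfsg.leechLattice, ∃ w : ↥Cfsg.leechLattice, ((g • v : ↥Cfsg.leechLattice) : Cfsg.GolayPt → ℤ) - (v : Cfsg.GolayPt → ℤ) = 2 • (w : Cfsg.GolayPt → ℤ)) → g ∈ Subgroup.center ↥Cfsg.Co0) ∧ ∀ M : AddSubgroup (Cfsg.GolayPt → ℤ), (∀ v ∈ Cfsg.leechLattice, (2 : ℤ) • v ∈ M) → M ≤ Cfsg.leechLattice → (∀ g : ↥Cfsg.Co0, ∀ v : ↥Cfsg.leechLattice, (v : Cfsg.GolayPt → ℤ) ∈ M → ((g • v : ↥Cfsg.leechLattice) : Cfsg.GolayPt → ℤ) ∈ M) → (∀ x ∈ M, ∃ w ∈ Cfsg.leechLattice, x = (2 : ℤ) • w) ∨ M = Cfsg.leechLattice := by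
  constructor
  · intro g hg
    rw [Leech.mem_center_iff]
    exact Leech.pm_of_cong fun v => by
      obtain ⟨w, hw⟩ := hg v
      exact ⟨w, Subtype.ext hw⟩
  · intro M h2 hM hinv
    by_cases hh : ∀ x ∈ M, ∃ w ∈ Cfsg.leechLattice, x = (2 : ℤ) • w
    · exact Or.inl hh
    right
    push Not at hh
    obtain ⟨x, hx, hne⟩ := hh
    obtain ⟨y, hy, hn, z, hz, e⟩ := Leech.exists_short (hM hx)
    have e' : x - y = (2 : ℤ) • z := by rw [e]; norm_cast
    have hyM : y ∈ M := by
      have : y = x - (2 : ℤ) • z := by rw [← e']; abel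
      rw [this]; exact M.sub_mem hx (h2 z hz)
    have key : ∀ u : leechLattice, (u : Leech.V) ∈ M → sqNorm (u : Leech.V) = 32 → M = leechLattice := by
      intro u hu hn
      refine le_antisymm hM (Leech.leech_le_of_min M fun a ha hn' => ?_)
      exact all_of_min M hinv hu (by omega) (x := ⟨a, ha⟩) (hn.trans hn'.symm)
    rcases Leech.norm_cases hy hn with h | h | h | h
    · exact absurd (by rw [← e', h, sub_zero]) (hne z hz)
    · exact key ⟨y, hy⟩ hyM h
    · have h1 := all_of_min M hinv (y := ⟨y, hy⟩) hyM hn (x := Leech.oddL none + Leech.e8 none)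
        (h.trans (by decide +kernel))
      have h3 := all_of_min M hinv (y := ⟨y, hy⟩) hyM hn (x := Leech.oddL (some 0) + Leech.e8 (some 0))
        (h.trans (by decide +kernel))
      exact key (Leech.oddL none + Leech.e8 none - (Leech.oddL (some 0) + Leech.e8 (some 0)))
        (M.sub_mem h1 h3) (by decide +kernel)
    · let f : GolayPt → GolayPt → leechLattice := fun i j => ⟨_, Leech.fourVec_mem i j⟩
      have h1 := all_of_min M hinv (y := ⟨y, hy⟩) hyM hn (x := f none (some 0) + f (some 1) (some 2))
        (h.trans (by decide +kernel))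
      have h3 := all_of_min M hinv (y := ⟨y, hy⟩) hyM hn (x := f none (some 0) + f (some 1) (some 3))
        (h.trans (by decide +kernel))
      exact key (f none (some 0) + f (some 1) (some 2) - (f none (some 0) + f (some 1) (some 3)))
        (M.sub_mem h1 h3) (by decide +kernel)

end Cfsg.Agent.S5392
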