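import Mathlib
import Cfsg.Statements.S5394
import Cfsg.Agent.Golay.Cent

set_option autoImplicit false
open Cfsg

namespace Cfsg.Agent.S5394

open Cfsg.Agent.Golay

/-- The automorphism group of the length-24 code built from the squares modulo 23 has exactly two conjugacy classes of involutions: an involution either fixes exactly the eight points of an octad or has no fixed points, both kinds occur, and any two involutions of the same kind are conjugate in the group. -/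
theorem result : (∀ g ∈ Cfsg.M24, orderOf g = 2 → (Finset.univ.filter fun p => g p = p) ∈ Cfsg.octads ∨ ∀ p, g p ≠ p) ∧ (∃ g ∈ Cfsg.M24, orderOf g = 2 ∧ (Finset.univ.filter fun p => g p = p) ∈ Cfsg.octads) ∧ (∃ g ∈ Cfsg.M24, orderOf g = 2 ∧ ∀ p, g p ≠ p) ∧ ∀ g ∈ Cfsg.M24, ∀ h ∈ Cfsg.M24, orderOf g = 2 → orderOf h = 2 → ((∀ p, g p ≠ p) ↔ (∀ p, h p ≠ p)) → ∃ k ∈ Cfsg.M24, k * g * k⁻¹ = h := by
  refine ⟨fun g hg h => ?_, ⟨_, mem_2A, ord_2A, (show Fx _ ∈ _ from Fx_2A ▸ oct0_mem)⟩,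
    ⟨_, mem_2B, ord_2B, Fx_eq_empty.1 Fx_2B⟩, fun g hg h hh og oh e => ?_⟩
  · exact (Fx g).eq_empty_or_nonempty.symm.imp (Fx_involution hg h) Fx_eq_empty.1
  · rw [← Fx_eq_empty, ← Fx_eq_empty] at e
    have : ∃ x, (∃ k ∈ M24, k * x * k⁻¹ = g) ∧ ∃ k ∈ M24, k * x * k⁻¹ = h := by
      by_cases h1 : Fx g = ∅
      · exact ⟨_, conj_2B hg og h1, conj_2B hh oh (e.1 h1)⟩
      · exact ⟨_, conj_2A hg og (Finset.nonempty_iff_ne_empty.2 h1),
          conj_2A hh oh (Finset.nonempty_iff_ne_empty.2 fun h2 => h1 (e.2 h2))⟩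
    obtain ⟨x, ⟨k, hk, rfl⟩, k', hk', rfl⟩ := this
    exact ⟨k' * k⁻¹, M24.mul_mem hk' (M24.inv_mem hk), by group⟩

end Cfsg.Agent.S5394
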