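import Mathlib
import Cfsg.Statements.S5395
import Cfsg.Agent.PGrp.Extra2
-- import your own Cfsg.Agent.* helpers here

set_option autoImplicit false
open Cfsg

namespace Cfsg.Agent.S5395

/-- For a finite extraspecial 2-group E, an automorphism of E that induces the identity on E modulo its centre is inner (so these automorphisms form exactly the inner automorphism group, an elementary abelian 2-group of order |E|/2). -/
theorem result {E : Type*} [Group E] [Finite E] (hE : Cfsg.IsExtraspecial 2 E) (φ : E ≃* E) (hφ : ∀ x : E, φ x * x⁻¹ ∈ Subgroup.center E) : ∃ g : E, ∀ x : E, φ x = g * x * g⁻¹ := by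
  have : Fact (Nat.Prime 2) := ⟨Nat.prime_two⟩
  obtain ⟨m, D, a, hZ, -⟩ := PGrp.exists_cext_two hE
  refine D.exists_conj_of_χ_eq (D.nd_iff.mp a) φ.toMonoidHom fun x => ?_
  have h := hφ x
  rw [hZ, D.mem_Z, D.χ_mul, D.χ_inv, add_neg_eq_zero] at h
  exact h

end Cfsg.Agent.S5395
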