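import Mathlib
import Cfsg.Statements.S5396
import Cfsg.Agent.PGrp.Extra2
-- import your own Cfsg.Agent.* helpers here

set_option autoImplicit false
open Cfsg

namespace Cfsg.Agent.S5396

/-- For every n ≥ 1 there exist finite extraspecial 2-groups of order 2^(2n+1) whose 2-rank (the largest rank of an elementary abelian subgroup) is n, and ones whose 2-rank is n + 1 (so for each such order there are two non-isomorphic extraspecial 2-groups, told apart by their 2-rank). -/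
theorem result (n : ℕ) (hn : 1 ≤ n) : ∀ r ∈ ({n, n + 1} : Set ℕ), ∃ (E : Type) (_ : Group E) (_ : Finite E), Cfsg.IsExtraspecial 2 E ∧ Nat.card E = 2 ^ (2 * n + 1) ∧ sSup {k : ℕ | ∃ A : Subgroup E, Cfsg.IsElementaryAbelian 2 A ∧ Nat.card A = 2 ^ k} = r := by
  have : Fact (Nat.Prime 2) := ⟨Nat.prime_two⟩
  obtain ⟨m, rfl⟩ : ∃ m, n = m + 1 := ⟨n - 1, by omega⟩
  have key : ∀ {V : Type} [AddCommGroup V] [Module (ZMod 2) V] [Finite V]
      (Q : QuadraticForm (ZMod 2) V), Orth.ND Q → Module.finrank (ZMod 2) V = 2 * (m + 1) →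
      ∀ r, (∀ W, Orth.Sing Q W → Module.finrank (ZMod 2) W ≤ r) →
      (∃ W, Orth.Sing Q W ∧ Module.finrank (ZMod 2) W = r) →
      ∃ (E : Type) (_ : Group E) (_ : Finite E), Cfsg.IsExtraspecial 2 E ∧
        Nat.card E = 2 ^ (2 * (m + 1) + 1) ∧ sSup {k : ℕ | ∃ A : Subgroup E,
          Cfsg.IsElementaryAbelian 2 A ∧ Nat.card A = 2 ^ k} = r + 1 := by
    intro V _ _ _ Q hQ hd r h1 h2
    obtain ⟨β, rfl⟩ := PGrp.exists_cext_Q_eq Q
    have : Nontrivial V := Module.nontrivial_of_finrank_pos (R := ZMod 2) (by omega)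
    refine ⟨PGrp.Heis β, inferInstance, inferInstance,
      (PGrp.Heis.cext β).isExtraspecial ((PGrp.Heis.cext β).nd_iff.mp hQ), ?_, ?_⟩
    · rw [(PGrp.Heis.cext β).card_eq, Module.natCard_eq_pow_finrank (K := ZMod 2), Nat.card_zmod,
        hd, pow_succ']
    · refine IsGreatest.csSup_eq ⟨?_, ?_⟩
      · obtain ⟨W, hW, rfl⟩ := h2
        exact ⟨_, (PGrp.Heis.cext β).isElementaryAbelian_pre hW,
          (PGrp.Heis.cext β).card_pre_eq_pow W⟩
      · rintro k ⟨A, hA, hk⟩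
        have h3 := (PGrp.Heis.cext β).pRankLE_iff.mpr
          (fun W hW => Nat.succ_le_succ (h1 W hW)) A hA.1 hA.2
        rw [hk] at h3
        exact (Nat.pow_le_pow_iff_right one_lt_two).mp h3
  rintro r (rfl | rfl)
  · have h1 := PGrp.aniso_two
    have h2 := Orth.nd_minusQ m (Orth.aniso_disc_ne_zero h1)
    have h3 : Module.finrank (ZMod 2) ((Fin m ⊕ Fin m) ⊕ Fin 2 → ZMod 2) = 2 * (m + 1) := by
      simp; omega
    exact key _ h2 h3 m (fun W hW => Orth.finrank_le_of_sing_minusQ m h1 hW)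
      (PGrp.exists_sing_of_not_isPlus h2 (Orth.not_isPlus_minusQ m h1) h3)
  · have h2 := Orth.nd_plusQ (F := ZMod 2) (m + 1)
    have h3 : Module.finrank (ZMod 2) (Fin (m + 1) ⊕ Fin (m + 1) → ZMod 2) = 2 * (m + 1) := by
      simp; omega
    refine key _ h2 h3 (m + 1) (fun W hW => ?_) ?_
    · have := h2.two_mul_finrank_le hW
      omega
    · obtain ⟨W, hW, h4⟩ := Orth.isPlus_plusQ (F := ZMod 2) (m + 1)
      exact ⟨W, hW, by omega⟩

end Cfsg.Agent.S5396
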