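import Mathlib
import Cfsg.Statements.S5400
import Cfsg.Agent.FiC.F24.C2

set_option autoImplicit false
open scoped Pointwise commutatorElement
open Cfsg

namespace Cfsg.Agent.S5400

open Cfsg.Agent.Comp Cfsg.Agent.FiC Cfsg.Agent.FiC.F24
set_option maxRecDepth 100000
set_option synthInstance.maxSize 2048
set_option Elab.async false
set_option linter.unusedSectionVars false
set_option linter.unusedVariables false

section
variable {G : Type*} [Group G] [Finite G] {D : Set G} {τ s : ℕ → G}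


end

/-- Let G be a finite group with trivial centre generated by a conjugation-invariant set D of 3-transpositions on which it acts primitively, such that for some d in D the subgroup generated by the members of D other than d commuting with d has central largest normal 2- and 3-subgroups, and suppose G with D is of type M(24). Then G has exactly 4 conjugacy classes of involutions: every involution is a product of m distinct pairwise commuting members of D for some m between 1 and 4; for each such m these products form one non-empty conjugacy class; and the value of m is determined by the involution. -/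
theorem result {G : Type*} [Group G] [Finite G] {D : Set G} (hD : Cfsg.IsThreeTranspositionGroup D) (hprim : Cfsg.IsPrimitiveUnderConj D) (d : G) (hd : d ∈ D) (h3 : Cfsg.pCore 3 ↥(Subgroup.closure {y : G | y ∈ D ∧ y ≠ d ∧ Commute d y}) ≤ Subgroup.center ↥(Subgroup.closure {y : G | y ∈ D ∧ y ≠ d ∧ Commute d y})) (h2 : Cfsg.pCore 2 ↥(Subgroup.closure {y : G | y ∈ D ∧ y ≠ d ∧ Commute d y}) ≤ Subgroup.center ↥(Subgroup.closure {y : G | y ∈ D ∧ y ≠ d ∧ Commute d y})) (ht : Cfsg.IsOfTypeM24 G D) : (∀ x : G, orderOf x = 2 → ∃ m : ℕ, 1 ≤ m ∧ m ≤ 4 ∧ (∃ l : List G, l.Nodup ∧ l.length = m ∧ (∀ a ∈ l, a ∈ D) ∧ (∀ a ∈ l, ∀ b ∈ l, Commute a b) ∧ l.prod = x)) ∧ (∀ m : ℕ, 1 ≤ m → m ≤ 4 → (∃ x : G, orderOf x = 2 ∧ (∃ l : List G, l.Nodup ∧ l.length = m ∧ (∀ a ∈ l, a ∈ D) ∧ (∀ a ∈ l, ∀ b ∈ l, Commute a b) ∧ l.prod = x)) ∧ ∀ x y : G, (∃ l : List G, l.Nodup ∧ l.length = m ∧ (∀ a ∈ l, a ∈ D) ∧ (∀ a ∈ l, ∀ b ∈ l, Commute a b) ∧ l.prod = x) → (∃ l : List G, l.Nodup ∧ l.length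 = m ∧ (∀ a ∈ l, a ∈ D) ∧ (∀ a ∈ l, ∀ b ∈ l, Commute a b) ∧ l.prod = y) → IsConj x y) ∧ ∀ (m m' : ℕ) (x : G), 1 ≤ m → m ≤ 4 → 1 ≤ m' → m' ≤ 4 → (∃ l : List G, l.Nodup ∧ l.length = m ∧ (∀ a ∈ l, a ∈ D) ∧ (∀ a ∈ l, ∀ b ∈ l, Commute a b) ∧ l.prod = x) → (∃ l : List G, l.Nodup ∧ l.length = m' ∧ (∀ a ∈ l, a ∈ D) ∧ (∀ a ∈ l, ∀ b ∈ l, Commute a b) ∧ l.prod = x) → m = m' := by
  obtain ⟨τ, s, b⟩ := exists_base hD hprim ht
  let R : List (List ℕ) := [[], [nat_lit 0], [nat_lit 4, nat_lit 0], [nat_lit 8, nat_lit 4, nat_lit 0],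
    [nat_lit 12, nat_lit 8, nat_lit 4, nat_lit 0]]
  have h : ∀ m < 5, nf D (E s (R.getD m [])) = [306936, 31672, 3512, 696, 504].getD m 0 := fun m hm =>
    b.nf_eq _ _ (by interval_cases m <;> decide +kernel)
  refine invol_main (fun m => E s (R.getD m [])) (fun m h1 h2 => ?_)
    (fun y hy => (cls2' hD hprim ht b hy).imp_right ?_) fun m m' h1 h2 h3 e => ?_
  · interval_cases m
    exacts [pt1 b, pt2 b, pt3 b, pt4 b]
  · simp only [List.mem_cons, List.not_mem_nil, or_false, exists_eq_or_imp, exists_eq_left,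
      ← isConj_iff]
    rintro (h | h | h | h)
    exacts [⟨1, le_rfl, by norm_num, h.symm⟩, ⟨2, by norm_num, by norm_num, h.symm⟩,
      ⟨3, by norm_num, by norm_num, h.symm⟩, ⟨4, by norm_num, le_rfl, h.symm⟩]
  · obtain ⟨g, hg⟩ := isConj_iff.1 e
    have h4 : m < 4 := h2.trans_le h3
    have := nf_conj hD.2.1 g (E s (R.getD m []))
    rw [hg, h m (by omega), h m' (by omega)] at this
    interval_cases m <;> interval_cases m' <;> simp at this

end Cfsg.Agent.S5400
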