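import Cfsg.Statements.S5401
import Mathlib
import Cfsg.Agent.Fischer.O24

set_option autoImplicit false
open Cfsg

namespace Cfsg.Agent.S5401

open Fischer

theorem prim {X : Type} [Group X] [Finite X] {E : Set X} (h : IsThreeTranspositionClass E)
    (hs : IsSimpleGroup (commutator X)) (hc : ¬ (Nat.card (commutator X)).Prime) :
    IsPrimitiveUnderConj E :=
  prim_of_simple h hs fun e => by
    have := center_bot_of_simple hc
    refine top_ne_bot (α := Subgroup (commutator X)) ((eq_top_iff.2 ?_).symm.trans this)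
    exact fun x _ => Subgroup.mem_center_iff.2 fun y => e.is_comm.comm y x

theorem prim' {X : Type} [Group X] [Finite X] {E : Set X} (h : IsThreeTranspositionClass E)
    (hs : IsSimpleGroup X) (hc : ¬ (Nat.card X).Prime) : IsPrimitiveUnderConj E := by
  have e : commutator X = ⊤ := by
    refine (IsSimpleGroup.eq_bot_or_eq_top_of_normal _ inferInstance).resolve_left fun e => ?_
    rw [commutator_def, Subgroup.commutator_eq_bot_iff_le_centralizer, Subgroup.coe_top,
      Subgroup.centralizer_univ, center_bot_of_simple hc] at e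
    exact top_ne_bot (le_bot_iff.1 e)
  refine prim h ?_ ?_ <;> rw [e]
  exacts [Subgroup.topEquiv.isSimpleGroup, by rwa [Subgroup.card_top]]

/-- Existence of the Fischer 3-transposition groups: there exist finite groups generated by a conjugacy class of 3-transpositions on which they act primitively that are of type M(22), of type M(23), and of type M(24) respectively. -/
theorem result : (∃ (X : Type) (_ : Group X) (_ : Finite X) (E : Set X), Cfsg.IsThreeTranspositionClass E ∧ Cfsg.IsPrimitiveUnderConj E ∧ Cfsg.IsOfTypeM22 X E) ∧ (∃ (X : Type) (_ : Group X) (_ : Finite X) (E : Set X), Cfsg.IsThreeTranspositionClass E ∧ Cfsg.IsPrimitiveUnderConj E ∧ Cfsg.IsOfTypeM23 X E) ∧ (∃ (X : Type) (_ : Group X) (_ : Finite X) (E : Set X), Cfsg.IsThreeTranspositionClass E ∧ Cfsg.IsPrimitiveUnderConj E ∧ Cfsg.IsOfTypeM24 X E) := by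
  haveI := Comp.Fi22.card.1
  haveI := Comp.Fi23.card.1
  haveI := Comp.Fi24.card.1
  refine ⟨⟨_, _, inferInstance, F22.D, F22.pm.ttc, prim' F22.pm.ttc Comp.Fi22.simple ?_,
      type22_of_fi F22.pm.cl.fi_id F22.pm.center⟩,
    ⟨_, _, inferInstance, F23.D, F23.pm.ttc, prim' F23.pm.ttc Comp.Fi23.simple ?_,
      type23_of_fi F23.pm.cl.fi_id F23.pm.center⟩,
    ⟨_, _, inferInstance, F24.D, F24.pm.ttc, prim F24.pm.ttc Comp.Fi24.simple' ?_,
      type24_of_fi F24.pm.cl.fi_id F24.pm.center⟩⟩
  · rw [Comp.Fi22.card.2.1]; norm_num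
  · rw [Comp.Fi23.card.2.1]; norm_num
  · rw [show Nat.card (commutator Spor.Fi24) = _ from Comp.Fi24.card']; norm_num

end Cfsg.Agent.S5401
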