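import Cfsg.Statements.S5408
import Cfsg.Agent.MT.Four

set_option autoImplicit false
open Cfsg

namespace Cfsg.Agent.S5408

open Cfsg.Agent.LocalEven

/-- Let G be a finite group of Monster type at the involution z with Q the extraspecial normal subgroup of order 2^25 of C = C_G(z) (so C/Q is identified with the first Conway group with Q modulo its centre the Leech lattice modulo 2, and z is not weakly closed in Q). Then Q is of plus type: it contains an elementary abelian subgroup of order 2^13. -/
theorem result {G : Type*} [Group G] [Finite G] (z : G) (Q : Subgroup (Subgroup.centralizer ({z} : Set G))) [Q.Normal] (hM : Cfsg.IsOfMonsterType z Q) : ∃ E : Subgroup Q, Cfsg.IsElementaryAbelian 2 E ∧ Nat.card E = 2 ^ 13 := by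
  obtain ⟨R, φ, h⟩ := MT.exists_mt hM
  obtain ⟨k, h1, h2⟩ := h.nwc
  have hp := (h.pr h1 h2).1
  have hle : (Q.map (Subgroup.subtype _) ⊓ cj k (Q.map (Subgroup.subtype _))).subgroupOf _ ≤ Q :=
    fun a ha => mem_map_subtype.1 ha.1
  refine ⟨_, elemAb_subgroupOf (elemAb_subgroupOf ⟨⟨⟨fun a b => Subtype.ext ?_⟩⟩,
    fun a ha => by rw [pow_two, hp.E_sq ha]⟩ _) Q, (card_subgroupOf hle).trans
    ((card_subgroupOf (inf_le_left.trans (Subgroup.map_subtype_le _))).trans (h.card_inf h1 h2))⟩
  exact ((MT.es_sq_mul h.es a.2.1 b.2.1).1 (hp.E_sq (mul_mem a.2 b.2))).1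
    (by rw [hp.E_sq a.2, hp.E_sq b.2])

end Cfsg.Agent.S5408
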