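import Cfsg.Statements.S5410
import Cfsg.Agent.MT.Four

set_option autoImplicit false
open Cfsg

namespace Cfsg.Agent.S5410

open Cfsg.Agent.LocalEven

open Subgroup MT Leech

/-- Let G be a finite group of Monster type at the involution z with Q the extraspecial normal subgroup of order 2^25 of C = C_G(z) (so C/Q is identified with the first Conway group with Q modulo its centre the Leech lattice modulo 2, and z is not weakly closed in Q). Let g in G with s = g z g⁻¹ a member of Q other than z, let X be the image in C/Q of the centralizer of s in C, and let E be the image in C/Q of the intersection of g Q g⁻¹ with C. Then E is a normal subgroup of X, elementary abelian of order 2^11, and it has a complement in X isomorphic to the Mathieu group of degree 24 (the automorphism group of the length-24 binary Golay code). -/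
theorem result {G : Type*} [Group G] [Finite G] (z : G) (Q : Subgroup (Subgroup.centralizer ({z} : Set G))) [Q.Normal] (hM : Cfsg.IsOfMonsterType z Q) (s : G) (hsQ : ∃ hsc : s ∈ Subgroup.centralizer ({z} : Set G), (⟨s, hsc⟩ : Subgroup.centralizer ({z} : Set G)) ∈ Q) (hs : IsConj z s) (hs1 : s ≠ z) (g : G) (hg : g * z * g⁻¹ = s) (X E : Subgroup ((Subgroup.centralizer ({z} : Set G)) ⧸ Q)) (hX : X = ((Subgroup.centralizer ({z} : Set G) ⊓ Subgroup.centralizer ({s} : Set G)).subgroupOf (Subgroup.centralizer ({z} : Set G))).map (QuotientGroup.mk' Q)) (hE : E = (((Q.map (Subgroup.centralizer ({z} : Set G)).subtype).map (MulAut.conj g).toMonoidHom ⊓ Subgroup.centralizer ({z} : Set G)).subgroupOf (Subgroup.centralizer ({z} : Set G))).map (QuotientGroup.mk' Q)) : E ≤ X ∧ (∀ x ∈ X, ∀ y ∈ E, x * y * x⁻¹ ∈ E) ∧ Cfsg.IsElementaryAbelian 2 E ∧ Nat.card E = 2 ^ 11 ∧ ∃ K : Subgroup ((Subgroup.centralizer ({z} : Set G)) ⧸ Q), K ≤ X ∧ E ⊓ K = ⊥ ∧ E ⊔ K = X ∧ Nonempty (K ≃* Cfsg.M24)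 := by
  obtain ⟨R₀, φ₀, h₀⟩ := MT.exists_mt hM
  subst hg
  obtain ⟨hp, hc⟩ := h₀.pr (MT.mem_of_ex hsQ) hs1
  obtain ⟨R, φ, h, hv⟩ := h₀.std (MT.mem_of_ex hsQ) hs hs1
  let e := (QuotientGroup.quotientMulEquivOfEq (show Q = φ.ker from by
    ext a; rw [MonoidHom.mem_ker, h.φker, mem_map_subtype])).trans
    (QuotientGroup.quotientKerEquivOfSurjective φ h.φsurj)
  let θ := e.symm.toMonoidHom.comp (QuotientGroup.mk' (center Co0))
  have hk : θ.ker = center Co0 := by
    ext a; rw [MonoidHom.mem_ker, MonoidHom.comp_apply, MulEquiv.coe_toMonoidHom,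
      MulEquiv.map_eq_one_iff, QuotientGroup.mk'_apply, QuotientGroup.eq_one_iff]
  have hk' : θ.ker ≤ Sg := fun a ha => by
    rw [hk, Leech.mem_center_iff] at ha
    rcases ha with rfl | rfl
    exacts [one_mem _, neg_mem_Sg]
  have hθ : ∀ H : Subgroup G, (H.subgroupOf (centralizer {z})).map (QuotientGroup.mk' Q) =
      (img φ H).map θ := fun H => by
    rw [img, ← map_map, map_comap_eq_self_of_surjective (QuotientGroup.mk'_surjective _), map_map]
    congr 1
    exact MonoidHom.ext fun a => (e.symm_apply_apply _).symm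
  rw [hθ, h.img_cent hv hp.r.ne hp.ne, St_e8] at hX
  rw [hθ, h.img_eq hp hc hv] at hE
  subst hX hE
  have hi : ∀ σ, θ (permHom σ) ∈ Sg.map θ → σ = 1 := fun σ h1 => perm_mem_Sg (by
    rwa [← mem_comap, comap_map_eq_self hk'] at h1)
  refine ⟨map_mono Sg_le, ?_, elemAb_map ⟨⟨⟨fun a b => Subtype.ext (Sg_comm a.2 b.2)⟩⟩,
    fun a ha => by rw [pow_two, Sg_sq ha]⟩ θ, ?_, (θ.comp permHom).range, ?_, ?_, ?_,
    ⟨(MonoidHom.ofInjective ((injective_iff_map_eq_one (θ.comp permHom)).2 fun σ h1 =>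
      hi σ ((show θ (permHom σ) = 1 from h1) ▸ one_mem _))).symm⟩⟩
  · rintro - ⟨a, ha, rfl⟩ - ⟨b, hb, rfl⟩
    exact ⟨_, Sg_normIn.2 a ha b hb, by simp only [map_mul, map_inv]⟩
  · have := MT.card_map_ker θ Sg
    rw [inf_of_le_right hk', hk, card_center, card_Sg] at this
    omega
  · rintro - ⟨σ, rfl⟩; exact ⟨_, permCo_mem σ, rfl⟩
  · refine eq_bot_iff.2 ?_
    rintro - ⟨h1, σ, rfl⟩
    rw [hi σ h1, map_one]; exact one_mem _
  · refine le_antisymm (sup_le (map_mono Sg_le) ?_) ?_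
    · rintro - ⟨σ, rfl⟩; exact ⟨_, permCo_mem σ, rfl⟩
    · rintro - ⟨a, ha, rfl⟩
      obtain ⟨σ, t, ht, rfl⟩ := exists_dec ha
      rw [map_mul]
      exact mul_mem_sup (mem_map_of_mem θ ht) ⟨σ, rfl⟩

end Cfsg.Agent.S5410
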