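import Cfsg.Statements.S5414
import Cfsg.Agent.MT.C3B
import Cfsg.Agent.MT.P3A

set_option autoImplicit false
open Cfsg

namespace Cfsg.Agent.S5414

open Cfsg.Agent.LocalEven

open Cfsg.Agent.MT

/-- Let G be a finite group of Monster type at the involution z with Q the extraspecial normal subgroup of order 2^25 of C = C_G(z) (so C/Q is identified with the first Conway group with Q modulo its centre the Leech lattice modulo 2, and z is not weakly closed in Q). Let s be a conjugate of z in Q other than z and let Y be a subgroup of order 3 of the joint centralizer L of z and s that is not 3-central in L (Y lies in the centre of no Sylow 3-subgroup of L). Then the centralizer of Y modulo Y is a group of Thompson type (an involution whose centralizer D has generalized Fitting subgroup R extraspecial of order 2^9 with D/R the alternating group of degree 9, the involution not weakly closed in R). -/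
theorem result {G : Type*} [Group G] [Finite G] (z : G) (Q : Subgroup (Subgroup.centralizer ({z} : Set G))) [Q.Normal] (hM : Cfsg.IsOfMonsterType z Q) (s : G) (hsQ : ∃ hsc : s ∈ Subgroup.centralizer ({z} : Set G), (⟨s, hsc⟩ : Subgroup.centralizer ({z} : Set G)) ∈ Q) (hs : IsConj z s) (hs1 : s ≠ z) (Y : Subgroup G) (hY : Y ≤ Subgroup.centralizer ({z, s} : Set G)) (hY3 : Nat.card Y = 3) (hnc : ∀ P : Sylow 3 ↥(Subgroup.centralizer ({z, s} : Set G)), ¬ Y.subgroupOf (Subgroup.centralizer ({z, s} : Set G)) ≤ (Subgroup.center ↥(P : Subgroup ↥(Subgroup.centralizer ({z, s} : Set G)))).map (P : Subgroup ↥(Subgroup.centralizer ({z, s} : Set G))).subtype) [hn : (Y.subgroupOf (Subgroup.centralizer (Y : Set G))).Normal] : Cfsg.IsOfThompsonType (↥(Subgroup.centralizer (Y : Set G)) ⧸ Y.subgroupOf (Subgroup.centralizer (Y : Set G))) := by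
  obtain ⟨Q, R, φ, h, hv⟩ := exists_sd hM hsQ hs hs1
  have hc : Golay.m24Err P3A.c = 0 := by decide +kernel
  obtain ⟨β, R, φ, rfl, h1 | h1⟩ := h.sd_three hv hY hY3 (ord_pm hc (by norm_num)
    (by decide +kernel)).1 P3B.ord.1 ⟨some 4, by
      rw [Golay.Fx_eq_um (pc_pm hc) rfl]; decide +kernel⟩
    ((Golay.Fx_eq_um (pc_pm P3B.hc) (by decide +kernel)).trans Golay.um_zero)
  · obtain ⟨P, hP⟩ := (cent_iff (hY (Subgroup.mem_zpowers β)) h1.od.o1 (h.card_L hv)).2
      (h1.dvd_iff.2 (dvd_3A (pc_pm hc)))
    exact absurd hP (hnc P)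
  obtain ⟨⟨e'⟩, hb⟩ := P3B.kb
  obtain ⟨hz, Q0, -, -, hN, h2, -, e, -⟩ := h1.mt.odd_type h1.od (h1.mt.mem h1.hs) hs hs1 h1.cs
    P3B.rank hb _ rfl
  exact ⟨_, _, hN, h2, ⟨e.trans e'⟩⟩

end Cfsg.Agent.S5414
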