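import Cfsg.Statements.S5415
import Cfsg.Agent.MT.C3A
import Cfsg.Agent.MT.C3B

set_option autoImplicit false
open Cfsg

namespace Cfsg.Agent.S5415

open Cfsg.Agent.LocalEven

open Cfsg.Agent.MT Subgroup

theorem lift3 {D K T : Type*} [Group D] [Group K] [Group T] [Finite D] (Q : Subgroup D) [Q.Normal]
    (e : D ⧸ Q ≃* K) {N M : Subgroup K} [N.Normal] (h1 : N ≤ M) (h2 : Nat.card N = 3)
    (h3 : M.index = 2) (e' : M ⧸ N.subgroupOf M ≃* T) : ∃ (N M : Subgroup D) (_ : N.Normal)
    (_ : M.Normal), Q ≤ N ∧ N ≤ M ∧ Nat.card N = 3 * Nat.card Q ∧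
      Nonempty (M ⧸ N.subgroupOf M ≃* T) ∧ M.index = 2 := by
  let f := e.toMonoidHom.comp (QuotientGroup.mk' Q)
  have hf : Function.Surjective f := e.surjective.comp (QuotientGroup.mk'_surjective Q)
  have hk : f.ker = Q := by ext a; simp [f]
  have h4 := (index_comap_of_surjective M hf).trans h3
  have h5 := card_map_ker f (N.comap f)
  rw [map_comap_eq_self_of_surjective hf, h2, inf_of_le_right (ker_le_comap f N), hk] at h5
  refine ⟨N.comap f, M.comap f, inferInstance, normal_of_index_eq_two h4, hk ▸ ker_le_comap f N,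
    comap_mono h1, h5.symm, ⟨MulEquiv.trans ?_ e'⟩, h4⟩
  exact (QuotientGroup.quotientMulEquivOfEq (by ext a; simp [mem_subgroupOf]; rfl)).trans
    (QuotientGroup.quotientKerEquivOfSurjective ((QuotientGroup.mk' _).comp (f.subgroupComap M))
      ((QuotientGroup.mk'_surjective _).comp (f.subgroupComap_surjective_of_surjective M hf)))

/-- Let G be a finite group of Monster type at the involution z with Q the extraspecial normal subgroup of order 2^25 of C = C_G(z) (so C/Q is identified with the first Conway group with Q modulo its centre the Leech lattice modulo 2, and z is not weakly closed in Q). Let s be a conjugate of z in Q other than z and let Y be a subgroup of order 3 of the joint centralizer L of z and s that is 3-central in L (Y lies in the centre of some Sylow 3-subgroup of L). Then the centralizer of Y modulo Y is a group of large Fischer type (an involution whose centralizer D has generalized Fitting subgroup R extraspecial of order 2^13 and normal subgroups R ≤ N ≤ M with N/R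 of order 3, M/N the projective special unitary group of dimension 4 over the field with nine elements and M of index 2 in D; the involution not weakly closed in R). -/
theorem result {G : Type*} [Group G] [Finite G] (z : G) (Q : Subgroup (Subgroup.centralizer ({z} : Set G))) [Q.Normal] (hM : Cfsg.IsOfMonsterType z Q) (s : G) (hsQ : ∃ hsc : s ∈ Subgroup.centralizer ({z} : Set G), (⟨s, hsc⟩ : Subgroup.centralizer ({z} : Set G)) ∈ Q) (hs : IsConj z s) (hs1 : s ≠ z) (Y : Subgroup G) (hY : Y ≤ Subgroup.centralizer ({z, s} : Set G)) (hY3 : Nat.card Y = 3) (hc : ∃ P : Sylow 3 ↥(Subgroup.centralizer ({z, s} : Set G)), Y.subgroupOf (Subgroup.centralizer ({z, s} : Set G)) ≤ (Subgroup.center ↥(P : Subgroup ↥(Subgroup.centralizer ({z, s} : Set G)))).map (P : Subgroup ↥(Subgroup.centralizer ({z, s} : Set G))).subtype) [hn : (Y.subgroupOf (Subgroup.centralizer (Y : Set G))).Normal] : Cfsg.IsOfLargeFischerType (↥(Subgroup.centralizer (Y : Set G)) ⧸ Y.subgroupOf (Subgroup.centralizer (Y : Set G))) := by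
  obtain ⟨Q, R, φ, h, hv⟩ := exists_sd hM hsQ hs hs1
  have h0 := (Golay.Fx_eq_um (pc_pm P3B.hc) (by decide +kernel)).trans Golay.um_zero
  obtain ⟨β, R, φ, rfl, h1 | h1⟩ := h.sd_three hv hY hY3 P3A.ord.1 P3B.ord.1 ⟨some 4, by
      rw [P3A.σ, Golay.Fx_eq_um (pc_pm P3A.hc) rfl]; decide +kernel⟩ h0
  swap
  · exact absurd (h1.dvd_iff.1 ((cent_iff (hY (mem_zpowers β)) h1.od.o1 (h.card_L hv)).1 hc))
      (not_dvd_3B P3B.ord.2 h0)
  obtain ⟨⟨N, M, _, h3, h4, h5, ⟨e'⟩⟩, hb⟩ := P3A.kb
  obtain ⟨hz, Q0, -, -, hN, h2, -, e, -⟩ := h1.mt.odd_type h1.od (h1.mt.mem h1.hs) hs hs1 h1.cs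
    P3A.rank hb _ rfl
  have h6 : Fintype.card Comp.K9 = 9 := Comp.card_K9
  obtain ⟨e''⟩ := SchurG.U43.exists_iso _ h6
  obtain ⟨N, M, h7, h8, h9, h10, h11, h12, h13⟩ := lift3 _ e h3 h4 h5 (e'.trans e'')
  exact ⟨_, _, hN, h2, N, M, h7, h8, h9, h10, h11, ⟨_, _, _, h6, h12⟩, h13⟩

end Cfsg.Agent.S5415
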