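import Cfsg.Statements.S5418
import Cfsg.Agent.MT.W7

set_option autoImplicit false
open Cfsg

namespace Cfsg.Agent.S5418

open Cfsg.Agent.LocalEven

open Cfsg.Agent.LocalEven Cfsg.Agent.MT Subgroup

theorem mem_norm {G : Type*} [Group G] [Finite G] {a β : G} {k : ℕ} (h : a * β * a⁻¹ = β ^ k) :
    a ∈ normalizer (zpowers β : Set G) := mem_normalizer_fintype fun n ⟨i, hi⟩ => by
  rw [← hi, ← conj_zpow, h]
  exact zpow_mem (pow_mem (mem_zpowers β) k) i

theorem index_six {G : Type*} [Group G] [Finite G] {a β : G} (ho : orderOf β = 7)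
    (h : a * β * a⁻¹ = β ^ 3) :
    (centralizer (zpowers β : Set G)).relIndex (normalizer (zpowers β : Set G)) = 6 := by
  have h1 : ∀ n : ℕ, a ^ n * β * (a ^ n)⁻¹ = β ^ 3 ^ n := fun n => by
    induction n with
    | zero => simp
    | succ n ih =>
      rw [pow_succ', show a * a ^ n * β * (a * a ^ n)⁻¹ = a * (a ^ n * β * (a ^ n)⁻¹) * a⁻¹ by group,
        ih, ← conj_pow, h, ← pow_mul, pow_succ']
  have h2 : Nat.card (MulAut (zpowers β)) = 6 := by
    rw [IsCyclic.card_mulAut, Nat.card_zpowers, ho]; decide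
  rw [relIndex, ← normalizerMonoidHom_ker, index_ker]
  have h3 := card_subgroup_dvd_card (zpowers β).normalizerMonoidHom.range
  have h4 := (zpowers β).normalizerMonoidHom.range.orderOf_dvd_natCard ⟨⟨a, mem_norm h⟩, rfl⟩
  have h5 := pow_orderOf_eq_one ((zpowers β).normalizerMonoidHom ⟨a, mem_norm h⟩)
  rw [← map_pow, ← MonoidHom.mem_ker, normalizerMonoidHom_ker, mem_subgroupOf, mem_cz,
    Inv.commute_iff_conj, SubgroupClass.coe_pow, h1] at h5
  rw [h2] at h3
  have h6 := h4.trans h3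
  generalize orderOf ((zpowers β).normalizerMonoidHom _) = n at h4 h5 h6
  replace h5 := pow_eq_pow_iff_modEq.1 (h5.trans (pow_one β).symm)
  rw [ho] at h5
  obtain rfl : n = 6 := by
    have := Nat.le_of_dvd (by norm_num) h6
    interval_cases n <;> simp_all [Nat.ModEq]
  exact Nat.dvd_antisymm h3 h4

/-- Let G be a finite group of Monster type at the involution z with Q the extraspecial normal subgroup of order 2^25 of C = C_G(z) (so C/Q is identified with the first Conway group with Q modulo its centre the Leech lattice modulo 2, and z is not weakly closed in Q). Let s be a conjugate of z in Q other than z and let B be a Sylow 7-subgroup of the joint centralizer of z and s. Then the centralizer of B has index 6 in the normalizer of B; and some involution inverting B induces, by conjugation, a non-inner automorphism of the layer of the centralizer of B. -/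
theorem result {G : Type*} [Group G] [Finite G] (z : G) (Q : Subgroup (Subgroup.centralizer ({z} : Set G))) [Q.Normal] (hM : Cfsg.IsOfMonsterType z Q) (s : G) (hsQ : ∃ hsc : s ∈ Subgroup.centralizer ({z} : Set G), (⟨s, hsc⟩ : Subgroup.centralizer ({z} : Set G)) ∈ Q) (hs : IsConj z s) (hs1 : s ≠ z) (B : Subgroup G) (hB : B ≤ Subgroup.centralizer ({z, s} : Set G)) (hBp : Nat.card B = 7 ^ (Nat.card ↥(Subgroup.centralizer ({z, s} : Set G))).factorization 7) : (Subgroup.centralizer (B : Set G)).relIndex (Subgroup.normalizer (B : Set G)) = 6 ∧ ∃ t : G, orderOf t = 2 ∧ (∀ b ∈ B, t * b * t⁻¹ = b⁻¹) ∧ (∀ x ∈ (Cfsg.layer ↥(Subgroup.centralizer (B : Set G))).map (Subgroup.centralizer (B : Set G)).subtype, t * x * t⁻¹ ∈ (Cfsg.layer ↥(Subgroup.centralizer (B : Set G))).map (Subgroup.centralizer (B : Set G)).subtype) ∧ ¬ ∃ l ∈ (Cfsg.layer ↥(Subgroup.centralizer (B : Set G))).map (Subgroup.centralizer (B : Set G)).subtype, ∀ x ∈ (Cfsg.layer ↥(Subgroup.centralizer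 (B : Set G))).map (Subgroup.centralizer (B : Set G)).subtype, t * x * t⁻¹ = l * x * l⁻¹ := by
  obtain ⟨Q, R, φ, h, hv⟩ := exists_sd hM hsQ hs hs1
  obtain ⟨β, R, φ, rfl, h1⟩ := h.sd_prime hv hB (Or.inr rfl) hBp P7.ord.1
  obtain ⟨g3, e3⟩ := P7.ex3
  obtain ⟨a3, -, f3⟩ := h1.mt.lift_pow h1.od (by norm_num) e3
  obtain ⟨a, w, ha, a2, hw, w2, e6⟩ := P7.exW h1.mt
  obtain ⟨t, t2, -, f6⟩ := h1.mt.lift_inv h1.od ha a2 e6
  have h6 : β⁻¹ = β ^ 6 := inv_eq_of_mul_eq_one_right ((pow_succ' β 6).symm.trans h1.od.p1)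
  refine ⟨index_six h1.od.o1 f3, t, Inv.two_of_mul_self (fun e => ?_) t2, fun b ⟨i, hi⟩ => by
    rw [← hi, ← conj_zpow, f6, ← h6, inv_zpow], fun x hx => conj_mem_layer
      (normalizer_le_normalizer_centralizer _ (mem_norm f6)) hx, fun ⟨l, hl, hx⟩ => ?_⟩
  · rw [e, one_mul, inv_one, mul_one] at f6
    nth_rewrite 1 [← pow_one β] at f6
    rw [pow_eq_pow_iff_modEq, h1.od.o1] at f6
    exact absurd f6 (by decide)
  have h7 : ∀ v x, R v x → sqNorm (v : Leech.V) = 64 → Leech.permHom P7.σ • v = v →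
      Commute (l⁻¹ * t) x ∧ Commute (l⁻¹ * t) z := fun v x hx' e1 e2 => by
    have k1 := hx x (P7.fix_conj h1.mt h1.od hx' e1 e2)
    have k2 := hx _ (P7.fix_conj h1.mt h1.od (h1.mt.mulz hx') e1 e2)
    have k3 : ∀ y, t * y * t⁻¹ = l * y * l⁻¹ → Commute (l⁻¹ * t) y := fun y e =>
      Inv.commute_iff_conj.2 (by
        rw [show l⁻¹ * t * y * (l⁻¹ * t)⁻¹ = l⁻¹ * (t * y * t⁻¹) * l by group, e]; group)
    exact ⟨k3 x k1, by simpa using (k3 x k1).inv_right.mul_right (k3 _ k2)⟩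
  obtain ⟨v0, -, n0, f0⟩ := P7.exS _ (List.getElem_mem (show 0 < _ by decide))
  obtain ⟨x0, hx0⟩ := h1.mt.ex v0
  obtain ⟨g, hg⟩ := exists_pp φ (h7 v0 x0 hx0 n0 f0).2
  refine P7.moves hw w2 e6 (h1.od.conj hg ?_) fun v e1 e2 => ?_
  · rw [show l⁻¹ * t * β * (l⁻¹ * t)⁻¹ = l⁻¹ * (t * β * t⁻¹) * l⁻¹⁻¹ by group, f6]
    exact Inv.commute_iff_conj.1 ((mem_cz.1 (map_subtype_le _ hl)).inv_left.pow_right 6)
  · obtain ⟨x, hx'⟩ := h1.mt.ex v
    exact h1.mt.pp_St hx' hg (h7 v x hx' e1 e2).1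

end Cfsg.Agent.S5418
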