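import Cfsg.Statements.S5420
import Mathlib
import Cfsg.Agent.Fischer.ES

set_option autoImplicit false
open Cfsg

namespace Cfsg.Agent.S5420

open Fischer

/-- Let Q be an extraspecial 2-subgroup of the finite group G whose centralizer in G is its centre Z and which is normal in the centralizer of Z. If Z lies in the largest normal 2-subgroup of G, then Q is a large extraspecial 2-subgroup of G: it normalizes no non-trivial subgroup of G of odd order. -/
theorem result {G : Type*} [Group G] [Finite G] (Q : Subgroup G) (hL1 : Cfsg.IsExtraspecial 2 ↥Q) (hL2 : Subgroup.centralizer (Q : Set G) = ((Subgroup.center ↥Q).map Q.subtype)) (hL3 : Subgroup.centralizer (((Subgroup.center ↥Q).map Q.subtype) : Set G) ≤ Subgroup.normalizer (Q : Set G)) (hZ : ((Subgroup.center ↥Q).map Q.subtype) ≤ Cfsg.pCore 2 G) : Cfsg.IsLargeExtraspecial Q := by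
  obtain ⟨z, h, hc⟩ := exists_ls hL1 hL2 hL3
  refine h.large fun K hK hn => eq_bot_iff.2 fun k hk => h.eq_one_of_odd hK hn hk ?_
  have hz : z ∈ Cfsg.pCore 2 G := hZ (hc ▸ Subgroup.mem_zpowers z)
  have hnn : (Cfsg.pCore 2 G).Normal := inferInstance
  have h1 : k * z * k⁻¹ * z⁻¹ = 1 := Inv.eq_one_of_odd_of_mem_two_group LocalEven.isPGroup_pCore
    (mul_mem (hnn.conj_mem z hz k) (inv_mem hz)) (hK.of_dvd_nat (K.orderOf_dvd_natCard (by
      have := mul_mem hk ((Subgroup.mem_normalizer_iff.1 (hn h.mem) _).1 (inv_mem hk))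
      simpa [mul_assoc] using this)))
  exact Inv.commute_iff_conj.2 (mul_inv_eq_one.1 h1)

end Cfsg.Agent.S5420
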