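import Cfsg.Statements.S5422
import Mathlib
import Cfsg.Agent.Fischer.ES2

set_option autoImplicit false
open Cfsg

namespace Cfsg.Agent.S5422

open Fischer

/-- Let Q be an extraspecial 2-subgroup of the finite group G whose centralizer in G is its centre Z and which is normal in the centralizer of Z; suppose Q has width at least 2 (order 2^(2w+1) with w ≥ 2) and g is an element of G not normalizing Z with g Z g⁻¹ inside Q. Then Z lies inside g Q g⁻¹; writing V for the subgroup generated by Z and g Z g⁻¹ (a four-group), the normalizer of V induces on V its full automorphism group, that is, the centralizer of V has index 6 in the normalizer of V; and Q is a large extraspecial 2-subgroup of G. -/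
theorem result {G : Type*} [Group G] [Finite G] (Q : Subgroup G) (hL1 : Cfsg.IsExtraspecial 2 ↥Q) (hL2 : Subgroup.centralizer (Q : Set G) = ((Subgroup.center ↥Q).map Q.subtype)) (hL3 : Subgroup.centralizer (((Subgroup.center ↥Q).map Q.subtype) : Set G) ≤ Subgroup.normalizer (Q : Set G)) (w : ℕ) (hw : 2 ≤ w) (hcard : Nat.card ↥Q = 2 ^ (2 * w + 1)) (g : G) (hg : g ∉ Subgroup.normalizer (((Subgroup.center ↥Q).map Q.subtype) : Set G)) (hZg : (((Subgroup.center ↥Q).map Q.subtype)).map (MulAut.conj g).toMonoidHom ≤ Q) : ((Subgroup.center ↥Q).map Q.subtype) ≤ (Q).map (MulAut.conj g).toMonoidHom ∧ (Subgroup.centralizer ((((Subgroup.center ↥Q).map Q.subtype) ⊔ (((Subgroup.center ↥Q).map Q.subtype)).map (MulAut.conj g).toMonoidHom : Subgroup G) : Set G)).relIndex (Subgroup.normalizer ((((Subgroup.center ↥Q).map Q.subtype) ⊔ (((Subgroup.center ↥Q).map Q.subtype)).map (MulAut.conj g).toMonoidHom : Subgroup G) : Set G)) = 6 ∧ Cfsg.IsLargeExtraspecial Q := by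
  obtain ⟨z, h, hc⟩ := exists_ls hL1 hL2 hL3
  rw [hc] at hg hZg ⊢
  have hs : g * z * g⁻¹ ∈ Q := hZg (LocalEven.conj_mem_cj (Subgroup.mem_zpowers z))
  have hne : g * z * g⁻¹ ≠ z := fun e => hg (Subgroup.centralizer_le_normalizer _ fun a ha =>
    (Inv.commute_of_mem_zpowers (Inv.commute_iff_conj.2 e).symm ha).eq)
  have hz := h.symm hs
  have h' := h.cj g
  refine ⟨Subgroup.zpowers_le.2 hz, ?_, h.large_of_conj hs hne⟩
  have hV : Subgroup.zpowers z ⊔ (Subgroup.zpowers z).map (MulAut.conj g).toMonoidHom =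
      Subgroup.closure {z, g * z * g⁻¹} := by
    rw [Inv.closure_pair_eq_sup, MonoidHom.map_zpowers]; rfl
  rw [hV]
  have hzs := h.central _ hs
  have hm := fun x => Inv.mem_closure_commute_iff (x := x) h.zsq h'.zsq hzs
  have hk := Inv.isKleinFour_closure h.orderOf h'.orderOf hzs hne.symm
  obtain ⟨y, hy, hys⟩ := h.exists_conj hs h'.ne hne
  have h'' := h'.cj y
  rw [hys] at h''
  refine relIndex_eq_six hk (exists_induce (fun u hu => Inv.four_mul_self hk hu) fun u hu hu1 => ?_)
  have key : ∀ R : Subgroup G, ES R u → Subgroup.closure {z, g * z * g⁻¹} ≤ R →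
      R ≤ Subgroup.normalizer (Subgroup.closure {z, g * z * g⁻¹} : Subgroup G) := fun R hR hle r hr =>
    Subgroup.mem_normalizer_fintype fun v hv => by
      rcases hR.conj r hr v (hle hv) with e | e <;> rw [e]
      exacts [hv, mul_mem hv hu]
  have hle : ∀ R : Subgroup G, z ∈ R → g * z * g⁻¹ ∈ R → Subgroup.closure {z, g * z * g⁻¹} ≤ R :=
    fun R h1 h2 => (Subgroup.closure_le _).2 (by rintro _ (rfl | rfl) <;> assumption)
  rcases (hm u).1 hu with e | e | e | e
  · exact (hu1 e).elim
  · exact ⟨Q, e ▸ h.toES, hle _ h.mem hs, key _ (e ▸ h.toES) (hle _ h.mem hs)⟩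
  · exact ⟨_, e ▸ h'.toES, hle _ hz h'.mem, key _ (e ▸ h'.toES) (hle _ hz h'.mem)⟩
  · rw [hzs.eq] at e
    have h1 : z ∈ LocalEven.cj y (LocalEven.cj g Q) := by
      rw [← Inv.commute_iff_conj.1 (h.central y hy).symm]
      exact LocalEven.conj_mem_cj hz
    have h2 := hle _ h1 ((mul_mem_cancel_right h1).1 h''.mem)
    exact ⟨_, e ▸ h''.toES, h2, key _ (e ▸ h''.toES) h2⟩

end Cfsg.Agent.S5422
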