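import Mathlib
import Cfsg.Statements.S5425
import Cfsg.Agent.Golay.AGL
import Cfsg.Agent.Golay.LX2

set_option autoImplicit false
open Cfsg

namespace Cfsg.Agent.S5425

open Cfsg.Agent.Golay
open scoped Pointwise

/-- In the Mathieu group of degree 24 (the automorphism group of the length-24 binary Golay code, acting on the 24 coordinates), let z be an involution whose fixed points form an octad (the support of a code word of weight 8), and let Q be the largest normal 2-subgroup of the centralizer C of z. Then Q is extraspecial of order 2^7 with an elementary abelian subgroup of order 16 (plus type), Q is a large extraspecial 2-subgroup, and C is the split extension of Q by the special linear group of degree 3 over the field with two elements. -/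
theorem result (z : ↥Cfsg.M24) (hz : orderOf z = 2) (hfix : (Finset.univ.filter fun p : Cfsg.GolayPt => (z : Equiv.Perm Cfsg.GolayPt) p = p) ∈ Cfsg.octads) (Q : Subgroup ↥Cfsg.M24) (hQ : Q = (Cfsg.pCore 2 ↥(Subgroup.centralizer ({z} : Set ↥Cfsg.M24))).map (Subgroup.centralizer ({z} : Set ↥Cfsg.M24)).subtype) : Cfsg.IsExtraspecial 2 ↥Q ∧ Nat.card ↥Q = 2 ^ 7 ∧ (∃ E : Subgroup ↥Cfsg.M24, E ≤ Q ∧ Cfsg.IsElementaryAbelian 2 E ∧ Nat.card ↥E = 2 ^ 4) ∧ Cfsg.IsLargeExtraspecial Q ∧ ∃ K : Subgroup ↥Cfsg.M24, K ≤ Subgroup.centralizer ({z} : Set ↥Cfsg.M24) ∧ Q ⊓ K = ⊥ ∧ Q ⊔ K = Subgroup.centralizer ({z} : Set ↥Cfsg.M24) ∧ Nonempty (↥K ≃* Matrix.SpecialLinearGroup (Fin 3) (ZMod 2)) := by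
  obtain ⟨ψ, h1, h2, h3⟩ := oct_hom
  have h0 := (isCAct_mk M24).inj_tbl (um_spec (tbl := tbl32) fun v => get_lt _ _ _)
    (by decide +kernel)
  have hs : ψ ⟨_, mem_oct0_2A⟩ = (LX.el 1 0 0 1).1 := by
    refine Subtype.ext (Matrix.ext_iff_mulVec.2 fun v => h0 ((h3 _ v).symm.trans ?_))
    show tp c2A • um (tbl32 v) = um (tbl32 ((LX.bm 1 0 0 1).mulVec v))
    rw [← mk_inj, ← act_pc, pc_2A, tbl32, tbl32, mk_um_get, mk_um_get]
    revert v; decide +kernel
  obtain ⟨g, hg, e⟩ := conj_2A z.2 (by rw [Subgroup.orderOf_coe, hz]) 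
    (Finset.card_pos.1 (((mem_octads _).1 hfix).2 ▸ by norm_num))
  let ε : St M24 oct0 ≃* LX.P5 := (MonoidHom.ofInjective h1).trans (MulEquiv.subgroupCongr h2)
  let φ : LX.P5 →* M24 := (MulAut.conj (⟨g, hg⟩ : M24)).toMonoidHom.comp
    ((Subgroup.inclusion (fun _ h => h.1 : St M24 oct0 ≤ M24)).comp ε.symm.toMonoidHom)
  have hφ : ∀ x, (φ (ε x)).1 = g * x.1 * g⁻¹ := fun x => by simp [φ]
  have hz' : z = φ (LX.el 1 0 0 1) := by
    rw [show LX.el 1 0 0 1 = ε ⟨_, mem_oct0_2A⟩ from Subtype.ext hs.symm]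
    exact Subtype.ext (by rw [hφ, e])
  refine (LX.mod_of_hom φ (fun a b h => ε.symm.injective (Subgroup.inclusion_injective
    (fun _ h => h.1 : St M24 oct0 ≤ M24) ((MulAut.conj (⟨g, hg⟩ : M24)).injective h))) fun k hk => ?_).main hz' hQ
  have h4 : k.1 * z.1 = z.1 * k.1 := congrArg Subtype.val (hz' ▸ hk.eq :)
  refine ⟨ε ⟨g⁻¹ * k * g, cent2A_le (mem_St_cj.2 ⟨mul_mem (mul_mem (inv_mem hg) k.2) hg, ?_⟩)⟩,
    Subtype.ext (by rw [hφ]; group)⟩
  rw [← e] at h4
  calc g⁻¹ * k * g * tp c2A = g⁻¹ * (k * (g * tp c2A * g⁻¹)) * g := by group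
    _ = _ := by rw [h4]; group

end Cfsg.Agent.S5425
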