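import Mathlib
import Cfsg.Statements.S5428
import Cfsg.Agent.PLocal.LX2

set_option autoImplicit false
open Cfsg

namespace Cfsg.Agent.S5428

open Fischer PLocal LocalEven

/-- Let z be an involution of the finite group G whose centralizer C has generalized Fitting subgroup Q extraspecial (as a 2-group), let A be a subgroup of C of odd order, and let R be the centralizer of A in Q; suppose R has order at least 32, the largest normal subgroup of odd order of the centralizer of the subgroup generated by A and R lies in A, the order of that centralizer is not divisible by 4, and g is an element of G with g z g⁻¹ in R but outside the centre Z of Q. Let M be the subgroup generated by A and the centralizer of A (A is normal in it). Then: the centralizer in M of the subgroup generated by R and A, joined with A, equals the subgroup generated by A and Z; the image of R in M/A is a large extraspecial 2-subgroup of M/A; and g z g⁻¹ is conjugate to z inside the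 subgroup generated by R and the centralizer of A in g Q g⁻¹. -/
theorem result {G : Type*} [Group G] [Finite G] (z : G) (hz : orderOf z = 2) (Q : Subgroup G) (hQC : Q ≤ Subgroup.centralizer ({z} : Set G)) (hF : (Cfsg.generalizedFittingSubgroup ↥(Subgroup.centralizer ({z} : Set G))).map (Subgroup.centralizer ({z} : Set G)).subtype = Q) (hQ : Cfsg.IsExtraspecial 2 ↥Q) (A : Subgroup G) (hA : A ≤ Subgroup.centralizer ({z} : Set G)) (hAodd : Odd (Nat.card ↥A)) (R : Subgroup G) (hR : R = Q ⊓ Subgroup.centralizer (A : Set G)) (hR32 : 32 ≤ Nat.card ↥R) (hO : (Cfsg.oddCore ↥(Subgroup.centralizer ((A ⊔ R : Subgroup G) : Set G))).map (Subgroup.centralizer ((A ⊔ R : Subgroup G) : Set G)).subtype ≤ A) (h4 : ¬ 4 ∣ Nat.card ↥(Subgroup.centralizer ((A ⊔ R : Subgroup G) : Set G))) (g : G) (hgR : g * z * g⁻¹ ∈ R) (hgZ : g * z * g⁻¹ ∉ ((Subgroup.center ↥Q).map Q.subtype)) (M : Subgroup G) (hM : M = Subgroup.centralizer (A : Set G) ⊔ A) [hn : (A.subgroupOf M).Normal] :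 (M ⊓ Subgroup.centralizer ((R ⊔ A : Subgroup G) : Set G)) ⊔ A = A ⊔ ((Subgroup.center ↥Q).map Q.subtype) ∧ Cfsg.IsLargeExtraspecial ((R.subgroupOf M).map (QuotientGroup.mk' (A.subgroupOf M))) ∧ ∃ x ∈ R ⊔ ((Q).map (MulAut.conj g).toMonoidHom ⊓ Subgroup.centralizer (A : Set G)), x * (g * z * g⁻¹) * x⁻¹ = z := by
  obtain ⟨h, -⟩ := ls_of_genFit hz hF hQ
  have hne : g * z * g⁻¹ ≠ z := fun e => hgZ (by
    rw [e, h.center_eq]; exact Subgroup.mem_zpowers z)
  have hRQ : R ≤ Q := hR ▸ inf_le_left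
  have hRA : R ≤ Subgroup.centralizer (A : Set G) := hR ▸ inf_le_right
  have P' := pr_of h (hRQ hgR) hne
  set s := g * z * g⁻¹ with hs
  have hzA : z ∈ Subgroup.centralizer (A : Set G) := fun a ha =>
    Inv.mem_centralizer_single.1 (hA ha)
  have hzR : z ∈ R := hR ▸ ⟨h.mem, hzA⟩
  obtain ⟨y, hy, hys⟩ := es_fix h.toES (fun a ha => h.mem_normalizer (hzA a ha)) hAodd
    (hR ▸ hgR) P'.r.ne hne
  obtain ⟨y', hy', hyz⟩ := es_fix P'.r.toES (fun a ha => P'.r.mem_normalizer (hRA hgR a ha)) hAodd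
    ⟨P'.hz, hzA⟩ h.ne hne.symm
  obtain ⟨e1, e2⟩ := conj_swap h.zsq P'.r.zsq P'.comm
    (Inv.commute_iff_conj.1 (h.central y hy.1).symm) hys hyz
    (Inv.commute_iff_conj.1 (P'.r.central y' hy'.1).symm)
  have hmem : ∀ c, c ∈ Subgroup.centralizer ((A ⊔ R : Subgroup G) : Set G) ↔
      c ∈ Subgroup.centralizer (A : Set G) ∧ c ∈ Subgroup.centralizer (R : Set G) := fun c => by
    simp only [← Subgroup.zpowers_le, Subgroup.le_centralizer_iff (H := Subgroup.zpowers c),
      sup_le_iff]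
  have hzD := (hmem z).2 ⟨hzA, fun r hr => (h.central r (hRQ hr)).symm⟩
  have hD : ∀ c ∈ Subgroup.centralizer ((A ⊔ R : Subgroup G) : Set G), c ∈ A ∨ c * z ∈ A := by
    obtain ⟨N, hN, hNo, hNd⟩ := odd_compl (w := ⟨z, hzD⟩) (by rw [Subgroup.orderOf_mk, hz]) h4
    have := Comp2.le_pPrimeCore (p := 2) (N := N) (Nat.coprime_two_right.2 hNo)
    exact fun c hc => (hNd ⟨c, hc⟩).imp (fun e => hO ⟨_, this e, rfl⟩) fun e => hO ⟨_, this e, rfl⟩
  have hCM : Subgroup.centralizer (A : Set G) ≤ M := hM ▸ le_sup_left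
  refine ⟨?_, ?_, y' * y * y', mul_mem (mul_mem (Subgroup.mem_sup_right hy')
    (Subgroup.mem_sup_left (hR ▸ hy))) (Subgroup.mem_sup_right hy'), e2⟩
  · rw [h.center_eq, sup_comm R A]
    refine le_antisymm (sup_le (fun c hc => ?_) le_sup_left) (sup_le le_sup_right
      (Subgroup.zpowers_le.2 (Subgroup.mem_sup_left ⟨hCM hzA, hzD⟩)))
    rcases hD c hc.2 with e | e
    · exact Subgroup.mem_sup_left e
    · exact (mul_mem_cancel_right (Subgroup.mem_sup_right (Subgroup.mem_zpowers z))).1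
        (Subgroup.mem_sup_left e)
  have hRM := hRA.trans hCM
  set f := QuotientGroup.mk' (A.subgroupOf M)
  have hf : ∀ a : M, f a = 1 ↔ (a : G) ∈ A := fun a => QuotientGroup.eq_one_iff a
  have hlift : ∀ c : M, ∃ c' : M, f c' = f c ∧ (c' : G) ∈ Subgroup.centralizer (A : Set G) := by
    intro c
    obtain ⟨a, ha, b, hb, e⟩ := (mem_sup_iff_of_le_normalizer'
      (le_normalizer_centralizer Subgroup.le_normalizer)).1 (hM ▸ c.2 :
        (c : G) ∈ Subgroup.centralizer (A : Set G) ⊔ A)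
    refine ⟨⟨a, hCM ha⟩, ?_, ha⟩
    rw [← inv_mul_eq_one, ← map_inv, ← map_mul, hf]
    simpa [← e] using hb
  have hfc : ∀ (c : M) (x : G) (hx : x ∈ R), Commute (f c) (f ⟨x, hRM hx⟩) → Commute (c : G) x :=
    fun c x hx e => eq_one_of_odd_pow hAodd (hRA hx) (es_pow_four h.toES (hRQ hx))
      ((hf (c * ⟨x, hRM hx⟩ * c⁻¹ * ⟨x, hRM hx⟩⁻¹)).1 (by
        rw [map_mul, map_mul, map_mul, map_inv, map_inv, Inv.commute_iff_conj.1 e, mul_inv_cancel]))
  have hA1 : ∀ x ∈ Q, x ∈ A → x = 1 := fun x hx hxA => Inv.eq_one_of_odd_of_mem_two_group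
    h.isPGroup hx (hAodd.of_dvd_nat (A.orderOf_dvd_natCard hxA))
  have hL := ls_map h.toES hRQ hzR hRM f (QuotientGroup.mk'_surjective _)
    (fun e => h.ne (hA1 z h.mem ((hf _).1 e))) (fun c hc => by
      obtain ⟨c', e, hc'⟩ := hlift c
      rw [← e] at hc ⊢
      rcases hD c' ((hmem _).2 ⟨hc', fun r hr => (hfc c' r hr (hc ⟨r, hRM hr⟩ hr)).symm⟩) with e | e
      · exact Or.inl ((hf _).2 e)
      · right
        rw [← mul_inv_eq_one, ← map_inv, ← map_mul, hf]
        simpa [h.zinv] using e)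
    (fun c hc => by
      obtain ⟨c', e, hc'⟩ := hlift c
      refine ⟨c', e, ?_⟩
      rw [hR]
      exact le_normalizer_inf (L := Subgroup.zpowers (c' : G))
        (Subgroup.zpowers_le.2 (h.mem_normalizer (hfc c' z hzR (e ▸ hc))))
        (Subgroup.zpowers_le.2 (Subgroup.le_normalizer hc')) (Subgroup.mem_zpowers _))
    ⟨y, hR ▸ hy, s, hgR, h.not_commute_of_conj hys⟩
  have hx : y' * y * y' ∈ M := hCM (mul_mem (mul_mem hy'.2 hy.2) hy'.2)
  have e3 : f ⟨_, hx⟩ * f ⟨z, hRM hzR⟩ * (f ⟨_, hx⟩)⁻¹ = f ⟨s, hRM hgR⟩ := by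
    rw [← map_inv, ← map_mul, ← map_mul]; exact congrArg f (Subtype.ext e1)
  refine hL.large_of_conj (g := f ⟨_, hx⟩) (e3 ▸ ⟨_, hgR, rfl⟩) ?_
  rw [e3]
  intro e
  rw [← mul_inv_eq_one, ← map_inv, ← map_mul, hf] at e
  exact hne (mul_inv_eq_one.1 (hA1 _ (mul_mem P'.hs (inv_mem h.mem)) e))

end Cfsg.Agent.S5428
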