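import Mathlib
import Cfsg.Statements.S5429
import Cfsg.Agent.PLocal.LX2

set_option autoImplicit false
open Cfsg

namespace Cfsg.Agent.S5429

open Fischer PLocal LocalEven

/-- Let z be an involution of the finite group G with centralizer C whose generalized Fitting subgroup Q is extraspecial of width at least 3 (order 2^(2w+1), w ≥ 3); let g be an element of G with g z g⁻¹ in Q but outside the centre Z of Q, and t an involution lying in both Q and g Q g⁻¹ that is not conjugate to z; write P for the centralizer of t in Q and suppose that the elements of C acting trivially by conjugation on P modulo the subgroup generated by t and z are exactly the elements of Q. Then the image of P in the centralizer of t modulo the subgroup generated by t is a large extraspecial 2-subgroup there, and g z g⁻¹ is conjugate to z inside the subgroup generated by P and the centralizer of t in g Q g⁻¹. -/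
theorem result {G : Type*} [Group G] [Finite G] (z : G) (hz : orderOf z = 2) (Q : Subgroup G) (hQC : Q ≤ Subgroup.centralizer ({z} : Set G)) (hF : (Cfsg.generalizedFittingSubgroup ↥(Subgroup.centralizer ({z} : Set G))).map (Subgroup.centralizer ({z} : Set G)).subtype = Q) (hQ : Cfsg.IsExtraspecial 2 ↥Q) (w : ℕ) (hw : 3 ≤ w) (hcard : Nat.card ↥Q = 2 ^ (2 * w + 1)) (g : G) (hgQ : g * z * g⁻¹ ∈ Q) (hgZ : g * z * g⁻¹ ∉ ((Subgroup.center ↥Q).map Q.subtype)) (t : G) (ht : orderOf t = 2) (htQ : t ∈ Q ⊓ (Q).map (MulAut.conj g).toMonoidHom) (htz : ¬ IsConj z t) (P : Subgroup G) (hP : P = Q ⊓ Subgroup.centralizer ({t} : Set G)) (hCP : ∀ c ∈ Subgroup.centralizer ({z} : Set G), (∀ x ∈ P, ∃ y ∈ Subgroup.closure ({t, z} : Set G), c * x * c⁻¹ = x * y) ↔ c ∈ Q) [hn : ((Subgroup.zpowers t).subgroupOf (Subgroup.centralizer ({t} : Set G))).Normal] : Cfsg.IsLargeExtraspecial ((P.subgroupOf (Subgroup.centralizer ({t} : Set G))).map (QuotientGroup.mk' ((Subgroup.zpowers t).subgroupOf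 (Subgroup.centralizer ({t} : Set G))))) ∧ ∃ x ∈ P ⊔ ((Q).map (MulAut.conj g).toMonoidHom ⊓ Subgroup.centralizer ({t} : Set G)), x * (g * z * g⁻¹) * x⁻¹ = z := by
  obtain ⟨h, -⟩ := ls_of_genFit hz hF hQ
  have hne : g * z * g⁻¹ ≠ z := fun e => hgZ (by
    rw [e, h.center_eq]; exact Subgroup.mem_zpowers z)
  have P' := pr_of h hgQ hne
  set s := g * z * g⁻¹ with hs
  have hzs : IsConj z s := isConj_iff.2 ⟨g, rfl⟩
  have ht2 : t * t = 1 := by rw [← sq, ← ht, pow_orderOf_eq_one]
  have key : ∀ {Q Q' : Subgroup G} {z s : G}, Pr Q Q' z s → t ∈ Q → t ∈ Q' → ¬ IsConj z t →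
      ¬ IsConj s t → ¬ IsConj (t * z) s ∧ ∃ y ∈ Q ⊓ Subgroup.centralizer {t}, y * s * y⁻¹ = s * z := by
    intro Q Q' z s P h1 h2 h3 h4
    obtain ⟨y, -, hy⟩ := P.l.exists_conj h1 (Inv.ne_one_of_two ht) (fun e => h3 (e ▸ IsConj.refl _))
    have h5 : ¬ IsConj (t * z) s := fun e => h4 ((isConj_iff.2 ⟨y, hy⟩).trans e).symm
    refine ⟨h5, ?_⟩
    by_contra hcon
    push Not at hcon
    rcases P.l.cent_cent h1 P.hs (fun p hp htp => by
      by_contra hc
      exact hcon p ⟨hp, Inv.mem_centralizer_single.2 htp.symm⟩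
        (P.l.conj_eq hp P.hs fun e => hc e.symm)) with e | e | e | e
    exacts [P.r.ne e, P.ne e, h4 (e ▸ IsConj.refl _), h5 (e ▸ IsConj.refl _)]
  have hst : ¬ IsConj s t := fun e => htz (hzs.trans e)
  obtain ⟨k1, y, hy, hys⟩ := key P' htQ.1 htQ.2 htz hst
  obtain ⟨-, y', hy', hyz⟩ := key P'.symm htQ.2 htQ.1 hst htz
  obtain ⟨e1, e2⟩ := conj_swap h.zsq P'.r.zsq P'.comm
    (Inv.commute_iff_conj.1 (h.central y hy.1).symm) hys hyz
    (Inv.commute_iff_conj.1 (P'.r.central y' hy'.1).symm)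
  refine ⟨?_, y' * y * y', mul_mem (mul_mem (Subgroup.mem_sup_right hy')
    (Subgroup.mem_sup_left (hP ▸ hy))) (Subgroup.mem_sup_right hy'), e2⟩
  have hzt : Commute z t := h.central t htQ.1
  have hzP : z ∈ P := hP ▸ ⟨h.mem, Inv.mem_centralizer_single.2 hzt⟩
  have hsP : s ∈ P := hP ▸ ⟨hgQ, Inv.mem_centralizer_single.2 (P'.r.central t htQ.2)⟩
  have hPQ : P ≤ Q := hP ▸ inf_le_left
  have hPH : P ≤ Subgroup.centralizer {t} := hP ▸ inf_le_right
  set f := QuotientGroup.mk' ((Subgroup.zpowers t).subgroupOf (Subgroup.centralizer ({t} : Set G)))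
  have hf : ∀ a b : Subgroup.centralizer ({t} : Set G), f a = f b ↔ (b : G) = a ∨ (b : G) = a * t :=
    fun a b => by
      rw [QuotientGroup.mk'_apply, QuotientGroup.mk'_apply, QuotientGroup.eq,
        Subgroup.mem_subgroupOf, mem_zpowers_two ht2]
      simp only [Subgroup.coe_mul, Subgroup.coe_inv, inv_mul_eq_iff_eq_mul, mul_one]
  have hfc : ∀ a b : Subgroup.centralizer ({t} : Set G), Commute (f a) (f b) →
      (a : G) * b * (a : G)⁻¹ = b ∨ (a : G) * b * (a : G)⁻¹ = b * t := fun a b e =>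
    (hf b (a * b * a⁻¹)).1 (by rw [map_mul, map_mul, map_inv, Inv.commute_iff_conj.1 e])
  have hcz : ∀ c : Subgroup.centralizer ({t} : Set G), Commute (f c) (f ⟨z, hPH hzP⟩) →
      Commute (c : G) z := fun c e => by
    rcases hfc _ _ e with e | e
    · exact Inv.commute_iff_conj.2 e
    · exact (k1 (((isConj_iff.2 ⟨(c : G), e.trans hzt.eq⟩).symm).trans hzs)).elim
  have htz' : t ≠ z := fun e => htz (e ▸ IsConj.refl _)
  have hL := ls_map h.toES hPQ hzP hPH f (QuotientGroup.mk'_surjective _) (fun e => by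
      rcases (hf 1 _).1 e.symm with e | e
      exacts [h.ne e, htz' (by simpa using e.symm)]) (fun c hc => by
      have h1 := hcz c (hc ⟨z, hPH hzP⟩ hzP)
      have h2 : (c : G) ∈ Q := (hCP c (Inv.mem_centralizer_single.2 h1)).1 fun x hx => by
        rcases hfc c ⟨x, hPH hx⟩ (hc _ hx) with e | e
        · exact ⟨1, one_mem _, by simpa using e⟩
        · exact ⟨t, Subgroup.subset_closure (by simp), e⟩
      rcases h.cent_cent htQ.1 h2 (fun p hp htp => by
        have hpP : p ∈ P := hP ▸ ⟨hp, Inv.mem_centralizer_single.2 htp.symm⟩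
        rcases hfc c ⟨p, hPH hpP⟩ (hc _ hpP) with e | e
        · exact Inv.commute_iff_conj.2 e
        · by_contra hcp
          exact htz' (mul_left_cancel (e.symm.trans (h.conj_eq h2 hp hcp)))) with e | e | e | e
      · exact Or.inl (((hf 1 c).2 (Or.inl e)).symm.trans (map_one f))
      · exact Or.inr ((hf _ c).2 (Or.inl e)).symm
      · exact Or.inl (((hf 1 c).2 (Or.inr (by simpa using e))).symm.trans (map_one f))
      · exact Or.inr ((hf _ c).2 (Or.inr (e.trans hzt.eq.symm))).symm)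
    (fun c hc => ⟨c, rfl, by
      rw [hP]
      exact le_normalizer_inf (L := Subgroup.zpowers (c : G))
        (Subgroup.zpowers_le.2 (h.mem_normalizer (hcz c hc)))
        (Subgroup.zpowers_le.2 (Subgroup.le_normalizer c.2)) (Subgroup.mem_zpowers _)⟩)
    ⟨y, hP ▸ hy, s, hsP, h.not_commute_of_conj hys⟩
  have hx : y' * y * y' ∈ Subgroup.centralizer ({t} : Set G) := mul_mem (mul_mem hy'.2 hy.2) hy'.2
  have e3 : f ⟨_, hx⟩ * f ⟨z, hPH hzP⟩ * (f ⟨_, hx⟩)⁻¹ = f ⟨s, hPH hsP⟩ := by
    rw [← map_inv, ← map_mul, ← map_mul]; exact congrArg f (Subtype.ext e1)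
  refine hL.large_of_conj (g := f ⟨_, hx⟩) (e3 ▸ ⟨_, hsP, rfl⟩) ?_
  rw [e3]
  intro e
  rcases (hf _ _).1 e.symm with e | e
  · exact hne e
  · exact k1 ((e.trans hzt.eq) ▸ IsConj.refl _)

end Cfsg.Agent.S5429
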