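import Mathlib
import Cfsg.Statements.S5430
import Cfsg.Agent.PLocal.LX1

set_option autoImplicit false
open Cfsg

namespace Cfsg.Agent.S5430

open Fischer PLocal LocalEven

/-- Let Q be a large extraspecial 2-subgroup of the finite group G (extraspecial; centralizer equal to its centre; normal in the centralizer of its centre; normalizing no non-trivial subgroup of odd order) with centre generated by z, an involution, of width w ≥ 2 (order 2^(2w+1)); let g be an element outside the centralizer H of z with g z g⁻¹ in Q; write V for the subgroup generated by z and g z g⁻¹, X for the subgroup generated by Q and g Q g⁻¹, R for the subgroup generated by the centralizer of z in g Q g⁻¹ and the centralizer of g z g⁻¹ in Q, and E for the intersection of Q and g Q g⁻¹. Then R is the centralizer of V in X and is the largest normal 2-subgroup of X, and X/R is isomorphic to the symmetric group of degree 3; moreover the normalizer of V is the product of X and the centralizer of V in H, X is normal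 in it, and modulo R it is the direct product of X/R and of the centralizer of V in H modulo R. -/
theorem result {G : Type*} [Group G] [Finite G] (Q : Subgroup G) (hQ : Cfsg.IsLargeExtraspecial Q) (z : G) (hz : ((Subgroup.center ↥Q).map Q.subtype) = Subgroup.zpowers z) (hz2 : orderOf z = 2) (w : ℕ) (hw : 2 ≤ w) (hcard : Nat.card ↥Q = 2 ^ (2 * w + 1)) (g : G) (hgH : g ∉ Subgroup.centralizer ({z} : Set G)) (hgQ : g * z * g⁻¹ ∈ Q) (V X R E : Subgroup G) (hV : V = Subgroup.closure ({z, g * z * g⁻¹} : Set G)) (hX : X = Q ⊔ (Q).map (MulAut.conj g).toMonoidHom) (hR : R = ((Q).map (MulAut.conj g).toMonoidHom ⊓ Subgroup.centralizer ({z} : Set G)) ⊔ (Q ⊓ Subgroup.centralizer ({g * z * g⁻¹} : Set G))) (hE : E = Q ⊓ (Q).map (MulAut.conj g).toMonoidHom) : R = X ⊓ Subgroup.centralizer (V : Set G) ∧ R = (Cfsg.pCore 2 ↥X).map X.subtype ∧ (∃ h : (R.subgroupOf X).Normal, Nonempty (↥X ⧸ R.subgroupOf X ≃* Equiv.Perm (Fin 3))) ∧ Subgroup.normalizer (V : Set G) = X ⊔ (Subgroup.centralizer ({z} : Set G) ⊓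 Subgroup.centralizer (V : Set G)) ∧ (∀ y ∈ Subgroup.normalizer (V : Set G), ∀ x ∈ X, y * x * y⁻¹ ∈ X) ∧ R ≤ Subgroup.centralizer ({z} : Set G) ⊓ Subgroup.centralizer (V : Set G) ∧ (∀ x ∈ X, ∀ c ∈ Subgroup.centralizer ({z} : Set G) ⊓ Subgroup.centralizer (V : Set G), x * c * x⁻¹ * c⁻¹ ∈ R) ∧ X ⊓ (Subgroup.centralizer ({z} : Set G) ⊓ Subgroup.centralizer (V : Set G)) = R := by
  obtain ⟨w, h, hc⟩ := exists_ls hQ.1 hQ.2.1 hQ.2.2.1
  obtain rfl : z = w := ((mem_zpowers_two h.zsq).1 (hc ▸ hz ▸ Subgroup.mem_zpowers z)).resolve_left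
    (Inv.ne_one_of_two hz2)
  have P := pr_of h hgQ fun e => hgH (Inv.mem_centralizer_single.2 (Inv.commute_iff_conj.2 e))
  obtain ⟨h1, h2, h3⟩ := P.main hX hR
  subst hV
  have hCz : Subgroup.centralizer ({z} : Set G) ⊓ Subgroup.centralizer
      ((Subgroup.closure ({z, g * z * g⁻¹} : Set G) : Subgroup G) : Set G) = Subgroup.centralizer
      ((Subgroup.closure ({z, g * z * g⁻¹} : Set G) : Subgroup G) : Set G) :=
    inf_eq_right.2 fun c hc => Inv.mem_centralizer_single.2 (Pr.mem_CV.1 hc).1
  rw [hCz]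
  have hN : Subgroup.normalizer ((Subgroup.closure ({z, g * z * g⁻¹} : Set G) : Subgroup G) : Set G)
      = X ⊔ Subgroup.centralizer
      ((Subgroup.closure ({z, g * z * g⁻¹} : Set G) : Subgroup G) : Set G) := by
    refine le_antisymm (fun n hn => ?_) (sup_le (hX ▸ P.X_norm_V)
      (Subgroup.centralizer_le_normalizer _))
    obtain ⟨x, hx, e⟩ := P.induce (Subgroup.normalizerMonoidHom _ ⟨n, hn⟩)
    rw [show n = x * (x⁻¹ * n) by group]
    refine mul_mem (Subgroup.mem_sup_left (hX ▸ hx)) (Subgroup.mem_sup_right fun u hu => ?_)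
    have e' : x * u * x⁻¹ = n * u * n⁻¹ := e ⟨u, hu⟩
    calc u * (x⁻¹ * n) = x⁻¹ * (x * u * x⁻¹) * n := by group
      _ = _ := by rw [e']; group
  refine ⟨h1, h2, h3, hN, fun y hy x hx => ?_, h1 ▸ inf_le_right, fun x hx c hc => ?_, h1.symm⟩
  · rw [hN] at hy
    refine conj_mem_of_mem_normalizer (sup_le (a := X) Subgroup.le_normalizer ?_ hy) hx
    rw [hX]
    exact le_normalizer_sup (fun c hc => P.l.mem_normalizer (Pr.mem_CV.1 hc).1)
      fun c hc => P.r.mem_normalizer (Pr.mem_CV.1 hc).2
  · rw [hR]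
    exact (P.X_le_cmod (hX ▸ hx)).2 c hc

end Cfsg.Agent.S5430
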