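import Mathlib
import Cfsg.Statements.S5431
import Cfsg.Agent.PLocal.LX1

set_option autoImplicit false
open Cfsg

namespace Cfsg.Agent.S5431

open Fischer PLocal LocalEven

/-- Let Q be a large extraspecial 2-subgroup of the finite group G (extraspecial; centralizer equal to its centre; normal in the centralizer of its centre; normalizing no non-trivial subgroup of odd order) with centre generated by z, an involution, of width w ≥ 2 (order 2^(2w+1)); let g be an element outside the centralizer H of z with g z g⁻¹ in Q; write V for the subgroup generated by z and g z g⁻¹, X for the subgroup generated by Q and g Q g⁻¹, R for the subgroup generated by the centralizer of z in g Q g⁻¹ and the centralizer of g z g⁻¹ in Q, and E for the intersection of Q and g Q g⁻¹. Then V is the centre of R, E lies in the second centre of R, R is nilpotent of class at most 3, E and R/E are elementary abelian, R/E is the direct product of the images of the centralizer of g z g⁻¹ in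 Q and of the centralizer of z in g Q g⁻¹ (R is their product and they meet in E), and the commutator subgroup of X and E lies in V. -/
theorem result {G : Type*} [Group G] [Finite G] (Q : Subgroup G) (hQ : Cfsg.IsLargeExtraspecial Q) (z : G) (hz : ((Subgroup.center ↥Q).map Q.subtype) = Subgroup.zpowers z) (hz2 : orderOf z = 2) (w : ℕ) (hw : 2 ≤ w) (hcard : Nat.card ↥Q = 2 ^ (2 * w + 1)) (g : G) (hgH : g ∉ Subgroup.centralizer ({z} : Set G)) (hgQ : g * z * g⁻¹ ∈ Q) (V X R E : Subgroup G) (hV : V = Subgroup.closure ({z, g * z * g⁻¹} : Set G)) (hX : X = Q ⊔ (Q).map (MulAut.conj g).toMonoidHom) (hR : R = ((Q).map (MulAut.conj g).toMonoidHom ⊓ Subgroup.centralizer ({z} : Set G)) ⊔ (Q ⊓ Subgroup.centralizer ({g * z * g⁻¹} : Set G))) (hE : E = Q ⊓ (Q).map (MulAut.conj g).toMonoidHom) : (Subgroup.center ↥R).map R.subtype = V ∧ E ≤ (Subgroup.upperCentralSeries ↥R 2).map R.subtype ∧ Subgroup.upperCentralSeries ↥R 3 = ⊤ ∧ Cfsg.IsElementaryAbelian 2 E ∧ (∀ x ∈ R, ∀ y ∈ R,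 x * y * x⁻¹ * y⁻¹ ∈ E ∧ x ^ 2 ∈ E) ∧ ((Q).map (MulAut.conj g).toMonoidHom ⊓ Subgroup.centralizer ({z} : Set G)) ⊓ (Q ⊓ Subgroup.centralizer ({g * z * g⁻¹} : Set G)) = E ∧ ⁅X, E⁆ ≤ V := by
  obtain ⟨w, h, hc⟩ := exists_ls hQ.1 hQ.2.1 hQ.2.2.1
  obtain rfl : z = w := ((mem_zpowers_two h.zsq).1 (hc ▸ hz ▸ Subgroup.mem_zpowers z)).resolve_left
    (Inv.ne_one_of_two hz2)
  have P := pr_of h hgQ fun e => hgH (Inv.mem_centralizer_single.2 (Inv.commute_iff_conj.2 e))
  have h1 : (Subgroup.center R).map R.subtype = V := by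
    rw [center_map_subtype, hR, hV]; exact P.center_R
  have hXE : ∀ x ∈ X, ∀ e ∈ E, x * e * x⁻¹ * e⁻¹ ∈ V := fun x hx e he => by
    rw [hV]; exact (P.X_le_cmod_E (hX ▸ hx)).2 e (hE ▸ he)
  have hRX : R ≤ X := by
    rw [hR, hX]; exact sup_le (inf_le_left.trans le_sup_right) (inf_le_left.trans le_sup_left)
  have hER : E ≤ R := by rw [hE, hR]; exact P.PP.ge.trans (inf_le_left.trans le_sup_left)
  have h2 : ∀ e : R, (e : G) ∈ E → e ∈ Subgroup.upperCentralSeries R 2 := fun e he => by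
    rw [Subgroup.mem_upperCentralSeries_succ_iff]
    intro y
    rw [Subgroup.upperCentralSeries_one, ← mem_map_subtype, h1]
    have := inv_mem (hXE y (hRX y.2) e he)
    simpa [mul_assoc, commutatorElement_def] using this
  have h3 : ∀ x ∈ R, ∀ y ∈ R, x * y * x⁻¹ * y⁻¹ ∈ E := fun x hx y hy => by
    rw [hE]; exact P.R_comm (hR ▸ hx) (hR ▸ hy)
  have h4 : ∀ x ∈ E, x * x = 1 := fun x hx => P.E_sq (hE ▸ hx)
  refine ⟨h1, fun e he => ⟨⟨e, hER he⟩, h2 _ he, rfl⟩, eq_top_iff.2 fun x _ => ?_,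
    ⟨⟨⟨fun a b => Subtype.ext (Inv.commute_of_mul_self (h4 a a.2) (h4 b b.2)
      (h4 _ (mul_mem a.2 b.2)))⟩⟩, fun a ha => by rw [sq, h4 a ha]⟩,
    fun x hx y hy => ⟨h3 x hx y hy, ?_⟩, hE ▸ P.PP, Subgroup.commutator_le.2 hXE⟩
  · rw [Subgroup.mem_upperCentralSeries_succ_iff]
    exact fun y => h2 _ (h3 x x.2 y y.2)
  · rw [hE, sq]; exact P.R_sq (hR ▸ hx)

end Cfsg.Agent.S5431
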