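import Mathlib
import Cfsg.Statements.S5432
import Cfsg.Agent.PGrp.Extra2
-- import your own Cfsg.Agent.* helpers here

set_option autoImplicit false
open Cfsg

namespace Cfsg.Agent.S5432

/-- Let E be an extraspecial 2-group of order 2^(2n+1), n ≥ 1. If E contains an elementary abelian subgroup of order 2^(n+1) (plus type), then its outer automorphism group is isomorphic to the full isometry group of the hyperbolic quadratic form in dimension 2n over the field with two elements; otherwise (minus type) it is isomorphic to the full isometry group of the elliptic quadratic form in dimension 2n over that field. -/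
theorem result {E : Type*} [Group E] [Finite E] (hE : Cfsg.IsExtraspecial 2 E) (n : ℕ) (hn : 1 ≤ n) (hcard : Nat.card E = 2 ^ (2 * n + 1)) : ((∃ A : Subgroup E, Cfsg.IsElementaryAbelian 2 A ∧ Nat.card ↥A = 2 ^ (n + 1)) → Nonempty (Cfsg.Out E ≃* Cfsg.isometryGroup (ZMod 2) (Cfsg.quadFormPlus n (ZMod 2)))) ∧ ((¬ ∃ A : Subgroup E, Cfsg.IsElementaryAbelian 2 A ∧ Nat.card ↥A = 2 ^ (n + 1)) → Nonempty (Cfsg.Out E ≃* Cfsg.isometryGroup (ZMod 2) (Cfsg.quadFormMinus (n - 1) (ZMod 2) 1 1))) := by
  have : Fact (Nat.Prime 2) := ⟨Nat.prime_two⟩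
  obtain ⟨m, D, a, hZ, c⟩ := PGrp.exists_cext_two hE
  have hd := PGrp.finrank_fin_fun_zmod 2 (2 * (m + 1))
  obtain rfl : n = m + 1 := by
    rw [c] at hcard
    have := Nat.pow_right_injective le_rfl hcard
    omega
  obtain ⟨e⟩ := D.nonempty_out_equiv hZ
  rw [← D.isPlus_iff_exists hd a]
  constructor
  · intro h
    obtain ⟨σ⟩ := a.iso_plusQ h hd
    rw [← Orth.coe_plusQ]
    exact ⟨e.trans ((Orth.ogCongr σ.symm).trans (Orth.toOG _).symm)⟩
  · intro h
    obtain ⟨σ⟩ := a.iso_minusQ h (m := m) (by omega) PGrp.aniso_two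
    rw [← Orth.coe_minusQ]
    exact ⟨e.trans ((Orth.ogCongr σ.symm).trans (Orth.toOG _).symm)⟩

end Cfsg.Agent.S5432
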