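import Cfsg.Statements.S5433
import Mathlib
import Cfsg.Agent.Fischer.ES2
import Cfsg.Agent.Core.SylowOf

set_option autoImplicit false
open Cfsg

namespace Cfsg.Agent.S5433

open Fischer

/-- Let Q be a large extraspecial 2-subgroup of the finite group G (extraspecial; centralizer equal to its centre; normal in the centralizer of its centre; normalizing no non-trivial subgroup of odd order), and L a normal subgroup of G containing Q. Then G is the product of L and the normalizer of Q. -/
theorem result {G : Type*} [Group G] [Finite G] (Q : Subgroup G) (hQ : Cfsg.IsLargeExtraspecial Q) (L : Subgroup G) [L.Normal] (hQL : Q ≤ L) : L ⊔ Subgroup.normalizer (Q : Set G) = ⊤ := by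
  haveI : Fact (Nat.Prime 2) := ⟨Nat.prime_two⟩
  obtain ⟨z, h, -⟩ := exists_ls hQ.1 hQ.2.1 hQ.2.2.1
  obtain ⟨S, hS, hQS⟩ := Core.exists_isSylowOf_ge h.isPGroup hQL
  rw [eq_top_iff, ← hS.frattini_top]
  refine sup_le_sup_left (fun g hg => h.mem_normalizer ?_) L
  obtain ⟨w, hwT, hwc, hw⟩ := LocalEven.exists_mem_inf_centralizer hS.isPGroup hS.isPGroup
    Subgroup.le_normalizer (fun e => h.ne (by have := hQS h.mem; rwa [e, Subgroup.mem_bot] at this))
  have key : ∀ u : G, u ≠ 1 → (∀ t ∈ S, t * u = u * t) → u = z := fun u hu hc =>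
    (h.cent' fun x hx => (hc x (hQS hx)).symm).resolve_left hu
  obtain rfl := key w (Inv.ne_one_of_two hw) hwc
  refine Inv.commute_iff_conj.2 (key _ (by simpa using h.ne) fun t ht => ?_)
  have := hwc _ ((Subgroup.mem_normalizer_iff''.1 hg t).1 ht)
  calc t * (g * w * g⁻¹) = g * (g⁻¹ * t * g * w) * g⁻¹ := by group
    _ = _ := by rw [this]; group

end Cfsg.Agent.S5433
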