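import Mathlib
import Cfsg.Statements.S5434
import Cfsg.Agent.PGrp.Special
-- import your own Cfsg.Agent.* helpers here

set_option autoImplicit false
open Cfsg

namespace Cfsg.Agent.S5434

/-- Let Q be a large extraspecial 2-subgroup of the finite group G (extraspecial; centralizer equal to its centre; normal in the centralizer of its centre; normalizing no non-trivial subgroup of odd order), and A a non-trivial subgroup of odd order of the normalizer of Q. Then Q is the central product of the centralizer of A in Q and the commutator subgroup [Q, A] (they generate Q and commute elementwise), [Q, A] is extraspecial, and the centralizer of A in Q is either the centre of Q or extraspecial. -/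
theorem result {G : Type*} [Group G] [Finite G] (Q : Subgroup G) (hQ : Cfsg.IsLargeExtraspecial Q) (A : Subgroup G) (hA : A ≤ Subgroup.normalizer (Q : Set G)) (hAodd : Odd (Nat.card ↥A)) (hA1 : A ≠ ⊥) : (Q ⊓ Subgroup.centralizer (A : Set G)) ⊔ ⁅Q, A⁆ = Q ∧ (∀ x ∈ Q ⊓ Subgroup.centralizer (A : Set G), ∀ y ∈ ⁅Q, A⁆, x * y = y * x) ∧ Cfsg.IsExtraspecial 2 ↥⁅Q, A⁆ ∧ (Q ⊓ Subgroup.centralizer (A : Set G) = ((Subgroup.center ↥Q).map Q.subtype) ∨ Cfsg.IsExtraspecial 2 ↥(Q ⊓ Subgroup.centralizer (A : Set G))) := by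
  obtain ⟨h1, h2, -, -⟩ := hQ
  have : Fact (Nat.Prime 2) := ⟨Nat.prime_two⟩
  obtain ⟨k1, k2, k3, k4⟩ := PGrp.isExtraspecial_iff.mp h1
  rw [BG.Rank.map_center_subtype] at h2 ⊢
  have hcop : (Nat.card A).Coprime 2 := (Nat.coprime_two_right).mpr hAodd
  have hZ : Q ⊓ Subgroup.centralizer (Q : Set G) ≤ Subgroup.centralizer (A : Set G) :=
    Subgroup.le_centralizer_iff.mp ((hA.trans (BG.Rank.normalizer_le_normalizer_center Q)).trans
      (PGrp.normalizer_le_centralizer_of_card_eq_two k2))
  have hnc : ¬ A ≤ Subgroup.centralizer (Q : Set G) := by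
    intro h
    rw [h2] at h
    have := Subgroup.card_dvd_of_le h
    rw [k2] at this
    exact hA1 (Subgroup.card_eq_one.mp (Nat.Coprime.eq_one_of_dvd hcop this))
  obtain ⟨a1, a2, a3, a4⟩ := PGrp.extraspecial_decomp h1 hA hcop hZ hnc
  exact ⟨a1, fun x hx y hy => a2 hy x hx, a3, a4⟩

end Cfsg.Agent.S5434
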