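import Mathlib
import Cfsg.Statements.S5436
import Cfsg.Agent.PLocal.LX2
import Cfsg.Agent.PGrp.Extra2

set_option autoImplicit false
open Cfsg

namespace Cfsg.Agent.S5436

open Fischer PLocal LocalEven

/-- Let z be an involution of the finite group G with centralizer H whose generalized Fitting subgroup Q is extraspecial of width at least 2 (order 2^(2w+1), w ≥ 2); suppose some conjugate of z other than z lies in Q, H/Q is a non-abelian simple group, H acts irreducibly by conjugation on Q modulo the subgroup generated by z (the only H-invariant subgroups of Q containing z are that subgroup and Q), and Q is not the subgroup generated by the conjugates of z lying in H. Then G is simple. -/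
theorem result {G : Type*} [Group G] [Finite G] (z : G) (hz : orderOf z = 2) (Q : Subgroup (Subgroup.centralizer ({z} : Set G))) [Q.Normal] (hF : Cfsg.generalizedFittingSubgroup ↥(Subgroup.centralizer ({z} : Set G)) = Q) (hQ : Cfsg.IsExtraspecial 2 ↥Q) (w : ℕ) (hw : 2 ≤ w) (hcard : Nat.card ↥Q = 2 ^ (2 * w + 1)) (hnwc : ∃ g : G, (∃ hq : g * z * g⁻¹ ∈ Subgroup.centralizer ({z} : Set G), (⟨g * z * g⁻¹, hq⟩ : Subgroup.centralizer ({z} : Set G)) ∈ Q) ∧ g * z * g⁻¹ ≠ z) (hsimp : IsSimpleGroup (↥(Subgroup.centralizer ({z} : Set G)) ⧸ Q)) (hna : ¬ IsMulCommutative (↥(Subgroup.centralizer ({z} : Set G)) ⧸ Q)) (hirr : ∀ W : Subgroup (Subgroup.centralizer ({z} : Set G)), W.Normal → W ≤ Q → (W = Q ∨ ∀ x ∈ W, (x : G) ∈ Subgroup.zpowers z)) (hwcl : Subgroup.closure {x : Subgroup.centralizer ({z} : Set G) | IsConj z (x : G)} ≠ Q) : IsSimpleGroup G := by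
  obtain ⟨h, hO⟩ := ls_of_genFit (Q := Q.map (Subgroup.centralizer ({z} : Set G)).subtype) hz
    (by rw [hF]) (PGrp.isExtraspecial_of_equiv
      (Q.equivMapOfInjective _ (Subgroup.subtype_injective _)) hQ)
  obtain ⟨g, ⟨hq, hgQ⟩, hne⟩ := hnwc
  refine simple_of_large h (h.large_of_conj (g := g) ⟨_, hgQ, rfl⟩ hne) hO ?_
  set W := Subgroup.closure {x : Subgroup.centralizer ({z} : Set G) | IsConj z (x : G)} with hW
  have hWn : W.Normal := ⟨fun x hx c => by
    have : W ≤ W.comap (MulAut.conj c).toMonoidHom := (Subgroup.closure_le _).2 fun y hy =>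
      Subgroup.subset_closure (IsConj.trans hy (isConj_iff.2 ⟨(c : G), rfl⟩))
    exact this hx⟩
  have hQW : Q ≤ W := by
    rcases hirr (W ⊓ Q) inferInstance inf_le_right with e | e
    · exact inf_eq_right.1 e
    · rcases (mem_zpowers_two h.zsq).1 (e ⟨_, hq⟩
        ⟨Subgroup.subset_closure (isConj_iff.2 ⟨g, rfl⟩), hgQ⟩) with e | e
      · exact ((h.cj g).ne e).elim
      · exact (hne e).elim
  have htop : W = ⊤ := by
    rcases (hWn.map _ (QuotientGroup.mk'_surjective Q)).eq_bot_or_eq_top with e | e
    · rw [Subgroup.map_eq_bot_iff, QuotientGroup.ker_mk'] at e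
      exact (hwcl (le_antisymm e hQW)).elim
    · have := congrArg (Subgroup.comap (QuotientGroup.mk' Q)) e
      rwa [Subgroup.comap_map_eq, QuotientGroup.ker_mk', sup_eq_left.2 hQW,
        Subgroup.comap_top] at this
  intro c hc
  have : W ≤ (Subgroup.normalClosure ({z} : Set G)).comap (Subgroup.subtype _) :=
    (Subgroup.closure_le _).2 fun y hy => by
      obtain ⟨k, hk⟩ := isConj_iff.1 hy
      have := Subgroup.Normal.conj_mem inferInstance _
        (Subgroup.subset_normalClosure (s := {z}) rfl) k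
      rw [hk] at this
      exact this
  exact this (htop.ge (Subgroup.mem_top (⟨c, hc⟩ : Subgroup.centralizer ({z} : Set G))))

end Cfsg.Agent.S5436
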