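import Cfsg.Statements.S5437
import Mathlib
import Cfsg.Agent.Fischer.ES2

set_option autoImplicit false
open Cfsg

namespace Cfsg.Agent.S5437

open Fischer

/-- Let I be a set of involutions of the finite group G closed under conjugation, and H a subgroup of G. The following are equivalent: (1) for every member x of I lying in H, the conjugates of x lying in H form a single H-class and the centralizer of x lies in H; (2) for every g outside H, no member of I lies in both H and g H g⁻¹; (3) every member of I lying in H fixes exactly one coset in the action of G on the cosets of H. -/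
theorem result {G : Type*} [Group G] [Finite G] (I : Set G) (hI : ∀ x ∈ I, orderOf x = 2) (hIc : ∀ g : G, ∀ x ∈ I, g * x * g⁻¹ ∈ I) (H : Subgroup G) : ((∀ x ∈ I, x ∈ H → (∀ g : G, g * x * g⁻¹ ∈ H → ∃ h ∈ H, h * x * h⁻¹ = g * x * g⁻¹) ∧ Subgroup.centralizer ({x} : Set G) ≤ H) ↔ (∀ g : G, g ∉ H → ∀ x ∈ I, ¬ (x ∈ H ∧ x ∈ (H : Subgroup G).map (MulAut.conj g).toMonoidHom))) ∧ ((∀ g : G, g ∉ H → ∀ x ∈ I, ¬ (x ∈ H ∧ x ∈ (H : Subgroup G).map (MulAut.conj g).toMonoidHom)) ↔ ∀ x ∈ I, x ∈ H → ∃! c : G ⧸ H, x • c = c) := by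
  constructor
  · constructor
    · rintro h g hg x hx ⟨hxH, hxg⟩
      rw [LocalEven.mem_cj] at hxg
      obtain ⟨k, hk, e⟩ := (h x hx hxH).1 g⁻¹ (by simpa using hxg)
      have := (h x hx hxH).2 (Inv.mem_centralizer_single.2 (Inv.commute_iff_conj.2
        (show (g * k) * x * (g * k)⁻¹ = x by
          calc (g * k) * x * (g * k)⁻¹ = g * (k * x * k⁻¹) * g⁻¹ := by group
            _ = x := by rw [e]; group)))
      exact hg ((mul_mem_cancel_right hk).1 this)
    · intro h x hx hxH
      refine ⟨fun g hg => ⟨g, ?_, rfl⟩, fun g hg => ?_⟩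
      · by_contra hgH
        exact h g hgH _ (hIc g x hx) ⟨hg, LocalEven.conj_mem_cj hxH⟩
      · by_contra hgH
        refine h g hgH x hx ⟨hxH, ?_⟩
        rw [← Inv.commute_iff_conj.1 (Inv.mem_centralizer_single.1 hg)]
        exact LocalEven.conj_mem_cj hxH
  · have key : ∀ x g : G, x • (g : G ⧸ H) = g ↔ g⁻¹ * x * g ∈ H := fun x g => by
      rw [MulAction.Quotient.smul_mk, eq_comm, QuotientGroup.eq, smul_eq_mul, mul_assoc]
    constructor
    · intro h x hx hxH
      refine ⟨(1 : G), (key x 1).2 (by simpa using hxH), fun c hc => ?_⟩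
      obtain ⟨g, rfl⟩ := QuotientGroup.mk_surjective c
      by_contra hne
      exact h g (fun hg => hne (QuotientGroup.eq.2 (by simpa using hg))) x hx
        ⟨hxH, LocalEven.mem_cj.2 ((key x g).1 hc)⟩
    · rintro h g hg x hx ⟨hxH, hxg⟩
      have := (h x hx hxH).unique ((key x 1).2 (by simpa using hxH))
        ((key x g).2 (LocalEven.mem_cj.1 hxg))
      exact hg (by simpa using QuotientGroup.eq.1 this)

end Cfsg.Agent.S5437
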