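import Cfsg.Statements.S5438
import Mathlib
import Cfsg.Agent.Fischer.ES2
import Cfsg.Agent.Core.SylowOf
import Cfsg.Agent.LocalEven.SylowIn

set_option autoImplicit false
open Cfsg

namespace Cfsg.Agent.S5438

open Fischer

/-- Let z be a 2-central involution of the finite group G (an involution central in some Sylow 2-subgroup) and H a subgroup containing z such that the coset H is the only coset of H fixed by z (in the action of G on the cosets of H). Then H has odd index in G, and for every 2-element x of H the conjugates of x lying in H form a single H-class. -/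
theorem result {G : Type*} [Group G] [Finite G] (z : G) (hz : Cfsg.IsTwoCentralInvolution z) (H : Subgroup G) (hzH : z ∈ H) (hfix : ∀ g : G, g⁻¹ * z * g ∈ H → g ∈ H) : Odd H.index ∧ ∀ x ∈ H, (∃ k : ℕ, orderOf x = 2 ^ k) → ∀ g : G, g * x * g⁻¹ ∈ H → ∃ h ∈ H, h * x * h⁻¹ = g * x * g⁻¹ := by
  haveI : Fact (Nat.Prime 2) := ⟨Nat.prime_two⟩
  obtain ⟨hz2, S, hzS, hS⟩ := hz
  have hT : ∀ T : Subgroup G, IsPGroup 2 T → z ∈ T → T ≤ H := fun T hT hzT => by
    by_contra hcon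
    have hlt : T ⊓ H < T := lt_of_le_of_ne inf_le_left fun e => hcon (e ▸ inf_le_right)
    obtain ⟨t, ht, htn⟩ := SetLike.exists_of_lt
      (Core.lt_inf_normalizer_of_nilpotent hT.isNilpotent hlt)
    exact htn ⟨ht.1, hfix t ((Subgroup.mem_normalizer_iff''.1 ht.2 z).1 ⟨hzT, hzH⟩).2⟩
  have hSH := hT S S.2 hzS
  refine ⟨?_, ?_⟩
  · rw [← Nat.not_even_iff_odd, even_iff_two_dvd]
    exact fun h => S.not_dvd_index (h.trans (Subgroup.index_dvd_of_le hSH))
  rintro x hx ⟨k, hk⟩ g hg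
  have hSy := LocalEven.isSylowIn_of_sylow_le S hSH
  obtain ⟨h1, hh1, e1⟩ := hSy.exists_conj_mem hx (k := k) (by rw [← hk, pow_orderOf_eq_one])
  obtain ⟨h2, hh2, e2⟩ := hSy.exists_conj_mem hg (k := k) (by
    rw [← hk, ← Inv.orderOf_conj g x, pow_orderOf_eq_one])
  set x' := h1 * x * h1⁻¹ with hx'
  set m := h2 * g * h1⁻¹ with hm
  have e3 : h2 * (g * x * g⁻¹) * h2⁻¹ = m * x' * m⁻¹ := by rw [hm, hx']; group
  have hzp : IsPGroup 2 (Subgroup.zpowers z) := IsPGroup.of_card (n := 1) (by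
    rw [Nat.card_zpowers, hz2]; rfl)
  obtain ⟨T, hTs, hzT⟩ := LocalEven.exists_isSylowIn_le (H := Subgroup.centralizer {x'}) hzp
    (Subgroup.zpowers_le.2 (Inv.mem_centralizer_single.2 (hS _ e1).symm))
  obtain ⟨c, hc, e4⟩ := hTs.exists_conj_mem (x := m⁻¹ * z * m) (k := 1)
    (Inv.mem_centralizer_single.2 (by
      have := hS _ (e3 ▸ e2)
      show m⁻¹ * z * m * x' = x' * (m⁻¹ * z * m)
      calc m⁻¹ * z * m * x' = m⁻¹ * (z * (m * x' * m⁻¹)) * m := by group
        _ = _ := by rw [← this]; group))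
    (by rw [pow_one, ← hz2, ← Inv.orderOf_conj' m z, pow_orderOf_eq_one])
  have hmc := hfix (m * c⁻¹) (by
    simpa [mul_assoc] using hT T hTs.2 (hzT (Subgroup.mem_zpowers z)) e4)
  refine ⟨h2⁻¹ * (m * c⁻¹) * h1, mul_mem (mul_mem (inv_mem hh2) hmc) hh1, ?_⟩
  have e5 := Inv.commute_iff_conj.1 (Inv.mem_centralizer_single.1 (inv_mem hc))
  calc h2⁻¹ * (m * c⁻¹) * h1 * x * (h2⁻¹ * (m * c⁻¹) * h1)⁻¹
      = h2⁻¹ * (m * (c⁻¹ * x' * c⁻¹⁻¹) * m⁻¹) * h2 := by rw [hx']; group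
    _ = _ := by rw [e5, ← e3]; group

end Cfsg.Agent.S5438
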