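import Cfsg.Statements.S5439
import Mathlib
import Cfsg.Agent.Fischer.ES2
import Cfsg.Agent.Inv.Pairs

set_option autoImplicit false
open Cfsg

namespace Cfsg.Agent.S5439

open Fischer

/-- Let I and J be two different conjugacy classes of involutions of the finite group G and H a subgroup such that every member of I ∪ J fixes exactly one coset in the action on the cosets of H, and such that for every a in I ∩ H and every b in (I ∪ J) ∩ H different from a and commuting with it, the centralizer of a b lies in H. Then H = G. -/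
theorem result {G : Type*} [Group G] [Finite G] (I J : Set G) (a₀ b₀ : G) (ha₀ : orderOf a₀ = 2) (hb₀ : orderOf b₀ = 2) (hI : I = {x | IsConj a₀ x}) (hJ : J = {x | IsConj b₀ x}) (hIJ : I ≠ J) (H : Subgroup G) (hfix : ∀ x ∈ I ∪ J, ∃! c : G ⧸ H, x • c = c) (hcent : ∀ a ∈ I, a ∈ H → ∀ b ∈ I ∪ J, b ∈ H → a ≠ b → a * b = b * a → Subgroup.centralizer ({a * b} : Set G) ≤ H) : H = ⊤ := by
  subst hI hJ
  have key : ∀ x g : G, x • (g : G ⧸ H) = g ↔ g⁻¹ * x * g ∈ H := fun x g => by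
    rw [MulAction.Quotient.smul_mk, eq_comm, QuotientGroup.eq, smul_eq_mul, mul_assoc]
  have huniq : ∀ x ∈ {x | IsConj a₀ x} ∪ {x | IsConj b₀ x}, x ∈ H → ∀ g, g⁻¹ * x * g ∈ H → g ∈ H :=
    fun x hx hxH g hg => by
      have := (hfix x hx).unique ((key x 1).2 (by simpa using hxH)) ((key x g).2 hg)
      simpa using QuotientGroup.eq.1 this
  have hex : ∀ x ∈ {x | IsConj a₀ x} ∪ {x | IsConj b₀ x}, ∃ y ∈ H, IsConj x y := fun x hx => by
    obtain ⟨c, hc, -⟩ := hfix x hx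
    obtain ⟨g, rfl⟩ := QuotientGroup.mk_surjective c
    exact ⟨_, (key x g).1 hc, isConj_iff.2 ⟨g⁻¹, by simp⟩⟩
  obtain ⟨a, haH, ha⟩ := hex a₀ (Or.inl (IsConj.refl _))
  obtain ⟨b1, hb1H, hb1⟩ := hex b₀ (Or.inr (IsConj.refl _))
  rw [eq_top_iff]
  intro g _
  refine huniq b1 (Or.inr hb1) hb1H g ?_
  set b := g⁻¹ * b1 * g with hbdef
  have hb : IsConj b₀ b := hb1.trans (isConj_iff.2 ⟨g⁻¹, by simp [hbdef]⟩)
  have ha2 : a * a = 1 := Inv.mul_self_of_two (Inv.orderOf_of_isConj ha ▸ ha₀)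
  have hb2 : b * b = 1 := Inv.mul_self_of_two (Inv.orderOf_of_isConj hb ▸ hb₀)
  rcases Inv.isConj_or_exists_central ha2 hb2 with ⟨d, -, hd⟩ | ⟨c, ⟨k, hk⟩, hc2, hca, hcb⟩
  · have h1 : IsConj a₀ b₀ := (ha.trans (isConj_iff.2 ⟨d, hd⟩)).trans hb.symm
    exact (hIJ (Set.ext fun x => ⟨h1.symm.trans, h1.trans⟩)).elim
  have hcH : c ∈ H := huniq a (Or.inl ha) haH c (by
    rwa [mul_assoc, ← hca.eq, inv_mul_cancel_left])
  have hca' : c * a ∈ {x | IsConj a₀ x} ∪ {x | IsConj b₀ x} := by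
    simp only at hk
    rcases Inv.zpow_mul_conj ha2 hb2 k with ⟨-, d, -, hd⟩ | ⟨-, d, -, hd⟩ <;> rw [hk] at hd
    exacts [Or.inl (ha.trans (isConj_iff.2 ⟨d, hd⟩)), Or.inr (hb.trans (isConj_iff.2 ⟨d, hd⟩))]
  refine hcent a ha haH _ hca' (mul_mem hcH haH) (fun e => Inv.ne_one_of_two hc2 (by simpa using e))
    (hca.symm.mul_right (Commute.refl a)) ?_
  rw [hca.eq, ← mul_assoc, ha2, one_mul]
  exact Inv.mem_centralizer_single.2 hcb.symm

end Cfsg.Agent.S5439
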