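import Cfsg.Statements.S5440
import Mathlib
import Cfsg.Agent.Fischer.LE

set_option autoImplicit false
open Cfsg

namespace Cfsg.Agent.S5440

open Fischer
open Subgroup Cfsg.Agent.LF

/-- Let G be a finite group of large Fischer type at the involution z: the generalized Fitting subgroup Q of H = C_G(z) is extraspecial of order 2^13, H has normal subgroups Q ≤ H₁ ≤ H₂ with H₁/Q of order 3, H₂/H₁ the projective special unitary group of dimension 4 over the field with nine elements and H₂ of index 2 in H, and some conjugate of z other than z lies in Q. Then H has exactly two orbits, under conjugation, on the involutions of Q other than z. -/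
theorem result {G : Type*} [Group G] [Finite G] (z : G) (Q : Subgroup (Subgroup.centralizer ({z} : Set G))) [Q.Normal] (hF : Cfsg.IsOfLargeFischerTypeAt z Q) : ∃ s t : Subgroup.centralizer ({z} : Set G), s ∈ Q ∧ t ∈ Q ∧ orderOf s = 2 ∧ orderOf t = 2 ∧ (s : G) ≠ z ∧ (t : G) ≠ z ∧ (¬ ∃ h : Subgroup.centralizer ({z} : Set G), h * s * h⁻¹ = t) ∧ ∀ x : Subgroup.centralizer ({z} : Set G), x ∈ Q → orderOf x = 2 → (x : G) ≠ z → (∃ h : Subgroup.centralizer ({z} : Set G), h * s * h⁻¹ = x) ∨ ∃ h : Subgroup.centralizer ({z} : Set G), h * t * h⁻¹ = x := by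
  obtain ⟨N, M, h⟩ := st_of hF
  obtain ⟨V, _, _, B, χ, L, φ, h⟩ := h.exists_ft
  have := h.S.fd
  obtain ⟨s, t, hs, ht, h1, h2⟩ := h.two_orbits
  exact ⟨s, t, hs.1, ht.1, Inv.two_of_mul_self hs.2.2.1 hs.2.1, Inv.two_of_mul_self ht.2.2.1 ht.2.1,
    fun e => hs.2.2.2 (Subtype.ext e), fun e => ht.2.2.2 (Subtype.ext e), h1,
    fun x a b c => h2 x (iv_of a b c)⟩

end Cfsg.Agent.S5440
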