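import Cfsg.Statements.S5441
import Mathlib
import Cfsg.Agent.Fischer.LE

set_option autoImplicit false
open Cfsg

namespace Cfsg.Agent.S5441

open Fischer
open Subgroup Cfsg.Agent.LF

/-- Let G be a finite group of large Fischer type at the involution z: the generalized Fitting subgroup Q of H = C_G(z) is extraspecial of order 2^13, H has normal subgroups Q ≤ H₁ ≤ H₂ with H₁/Q of order 3, H₂/H₁ the projective special unitary group of dimension 4 over the field with nine elements and H₂ of index 2 in H, and some conjugate of z other than z lies in Q. Then the conjugates of z lying in Q and different from z form a single orbit under conjugation by H. -/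
theorem result {G : Type*} [Group G] [Finite G] (z : G) (Q : Subgroup (Subgroup.centralizer ({z} : Set G))) [Q.Normal] (hF : Cfsg.IsOfLargeFischerTypeAt z Q) (s t : G) (hsQ : ∃ hsc : s ∈ Subgroup.centralizer ({z} : Set G), (⟨s, hsc⟩ : Subgroup.centralizer ({z} : Set G)) ∈ Q) (htQ : ∃ htc : t ∈ Subgroup.centralizer ({z} : Set G), (⟨t, htc⟩ : Subgroup.centralizer ({z} : Set G)) ∈ Q) (hs : IsConj z s) (ht : IsConj z t) (hs1 : s ≠ z) (ht1 : t ≠ z) : ∃ h ∈ Subgroup.centralizer ({z} : Set G), h * s * h⁻¹ = t := by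
  obtain ⟨N, M, h⟩ := st_of hF
  obtain ⟨V, _, _, B, χ, L, φ, h⟩ := h.exists_ft
  have := h.S.fd
  obtain ⟨a, ha⟩ := hsQ
  obtain ⟨b, hb⟩ := htQ
  obtain ⟨g, hg⟩ := isConj_iff.1 hs
  obtain ⟨k, hk⟩ := isConj_iff.1 ht
  obtain ⟨h1, -, h2⟩ := rr_of hF ha hs1 hg
  obtain ⟨h3, -, h4⟩ := rr_of hF hb ht1 hk
  obtain ⟨m, -, e⟩ := h.mconj h1 h3 (iff_of_true (h.pv_of h1 h2) (h.pv_of h3 h4))
  exact ⟨m, m.2, congrArg Subtype.val e⟩

end Cfsg.Agent.S5441
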