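import Cfsg.Statements.S5442
import Mathlib
import Cfsg.Agent.Fischer.LE

set_option autoImplicit false
open Cfsg

namespace Cfsg.Agent.S5442

open Fischer
open Subgroup Cfsg.Agent.LF

/-- Let G be a finite group of large Fischer type at the involution z: the generalized Fitting subgroup Q of H = C_G(z) is extraspecial of order 2^13, H has normal subgroups Q ≤ H₁ ≤ H₂ with H₁/Q of order 3, H₂/H₁ the projective special unitary group of dimension 4 over the field with nine elements and H₂ of index 2 in H, and some conjugate of z other than z lies in Q. Let s = g z g⁻¹ be a conjugate of z lying in Q and different from z. Then the intersection of Q and g Q g⁻¹ (as subgroups of G) is elementary abelian of order 2^7; and in H/Q, writing X for the image of the centralizer of s in H and E for the image of the intersection of g Q g⁻¹ with H, E is a normal subgroup of X, elementary abelian of order 32, with X/E isomorphic to the alternating group of degree 6. -/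
theorem result {G : Type*} [Group G] [Finite G] (z : G) (Q : Subgroup (Subgroup.centralizer ({z} : Set G))) [Q.Normal] (hF : Cfsg.IsOfLargeFischerTypeAt z Q) (s : G) (hsQ : ∃ hsc : s ∈ Subgroup.centralizer ({z} : Set G), (⟨s, hsc⟩ : Subgroup.centralizer ({z} : Set G)) ∈ Q) (hs : IsConj z s) (hs1 : s ≠ z) (g : G) (hg : g * z * g⁻¹ = s) (X E : Subgroup ((Subgroup.centralizer ({z} : Set G)) ⧸ Q)) (hX : X = ((Subgroup.centralizer ({z} : Set G) ⊓ Subgroup.centralizer ({s} : Set G)).subgroupOf (Subgroup.centralizer ({z} : Set G))).map (QuotientGroup.mk' Q)) (hE : E = ((((Q.map (Subgroup.centralizer ({z} : Set G)).subtype)).map (MulAut.conj g).toMonoidHom ⊓ Subgroup.centralizer ({z} : Set G)).subgroupOf (Subgroup.centralizer ({z} : Set G))).map (QuotientGroup.mk' Q)) : Cfsg.IsElementaryAbelian 2 ((Q.map (Subgroup.centralizer ({z} : Set G)).subtype) ⊓ ((Q.map (Subgroup.centralizer ({z} : Set G)).subtype)).map (MulAut.conj g).toMonoidHom) ∧ Nat.card ↥((Q.map (Subgroup.centralizer ({z} : Set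 G)).subtype) ⊓ ((Q.map (Subgroup.centralizer ({z} : Set G)).subtype)).map (MulAut.conj g).toMonoidHom) = 2 ^ 7 ∧ E ≤ X ∧ (∀ x ∈ X, ∀ y ∈ E, x * y * x⁻¹ ∈ E) ∧ Cfsg.IsElementaryAbelian 2 E ∧ Nat.card E = 32 ∧ ∃ _ : (E.subgroupOf X).Normal, Nonempty (↥X ⧸ E.subgroupOf X ≃* alternatingGroup (Fin 6)) := by
  obtain ⟨N, M, h⟩ := st_of hF
  obtain ⟨V, _, _, B, χ, L, φ, h⟩ := h.exists_ft
  have := h.S.fd
  obtain ⟨a, ha⟩ := hsQ
  obtain ⟨h1, p, r⟩ := rr_of hF ha hs1 hg
  have hX' : X = (centralizer {(⟨s, a⟩ : centralizer ({z} : Set G))}).map (QuotientGroup.mk' Q) := by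
    rw [hX]
    congr 1
    ext x
    simp [mem_subgroupOf, mem_centralizer_singleton_iff, Subtype.ext_iff]
  have hn : X ≤ normalizer (E : Set (centralizer ({z} : Set G) ⧸ Q)) :=
    hX' ▸ hE ▸ Core.map_le_normalizer_map r.n _
  have := normal_subgroupOf_of_le_normalizer hn
  obtain ⟨h2, h3, h4⟩ := h.rr_main h1 r hX' hE
  refine ⟨elem_of_sq fun x hx => p.E_sq hx, ?_, hX' ▸ hE ▸ map_mono r.le,
    fun x hx y hy => Core.conj_mem_of_le_normalizer hn hx hy, elem_of_sq ?_, h3, this, h4⟩
  · rw [← h2, ← card_map_of_injective (subtype_injective (centralizer ({z} : Set G)))]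
    congr 2
    ext x
    constructor
    · rintro ⟨⟨y, h5, rfl⟩, h6⟩
      exact ⟨y, ⟨⟨h6, y.2⟩, h5⟩, rfl⟩
    · rintro ⟨y, h5, rfl⟩
      exact ⟨⟨y, h5.2, rfl⟩, h5.1.1⟩
  · rw [hE]
    rintro _ ⟨x, hx, rfl⟩
    rw [← map_mul]
    refine (QuotientGroup.eq_one_iff _).2 ?_
    rcases p.r.sq x hx.1 with e | e
    · rw [show x * x = 1 from Subtype.ext e]; exact one_mem _
    · rwa [show x * x = ⟨s, a⟩ from Subtype.ext e]

end Cfsg.Agent.S5442
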