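import Cfsg.Statements.S5443
import Mathlib
import Cfsg.Agent.Fischer.LE

set_option autoImplicit false
open Cfsg

namespace Cfsg.Agent.S5443

open Fischer
open Subgroup Cfsg.Agent.LF

/-- Let G be a finite group of large Fischer type at the involution z: the generalized Fitting subgroup Q of H = C_G(z) is extraspecial of order 2^13, H has normal subgroups Q ≤ H₁ ≤ H₂ with H₁/Q of order 3, H₂/H₁ the projective special unitary group of dimension 4 over the field with nine elements and H₂ of index 2 in H, and some conjugate of z other than z lies in Q. Let t be an involution of Q not conjugate to z in G, and S the set of elements of H conjugating t to t or to t z (the stabilizer of the image of t in Q modulo its centre). Then the image of S in H/Q is isomorphic to the full isometry group of the elliptic quadratic form in dimension 6 over the field with two elements. -/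
theorem result {G : Type*} [Group G] [Finite G] (z : G) (Q : Subgroup (Subgroup.centralizer ({z} : Set G))) [Q.Normal] (hF : Cfsg.IsOfLargeFischerTypeAt z Q) (t : Subgroup.centralizer ({z} : Set G)) (htQ : t ∈ Q) (ht2 : orderOf t = 2) (ht : ¬ IsConj z (t : G)) (S : Subgroup (Subgroup.centralizer ({z} : Set G))) (hS : ∀ h : Subgroup.centralizer ({z} : Set G), h ∈ S ↔ (h * t * h⁻¹ = t ∨ ((h * t * h⁻¹ : Subgroup.centralizer ({z} : Set G)) : G) = t * z)) : Nonempty (↥(S.map (QuotientGroup.mk' Q)) ≃* Cfsg.isometryGroup (ZMod 2) (Cfsg.quadFormMinus 2 (ZMod 2) 1 1)) := by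
  obtain ⟨N, M, h⟩ := st_of hF
  obtain ⟨V, _, _, B, χ, L, φ, h⟩ := h.exists_ft
  have := h.S.fd
  obtain ⟨s, R, h1, r, h2⟩ := exists_rr hF
  have h3 := iv_of htQ ht2 fun e => ht (by rw [e])
  obtain ⟨e⟩ := h.o6_main h1 r h3 fun pv => by
    obtain ⟨m, -, e⟩ := h.mconj h1 h3 (iff_of_true (h.pv_of h1 r) pv)
    exact ht (h2.trans (isConj_iff.2 ⟨m, congrArg Subtype.val e⟩))
  have h4 : S.map (QuotientGroup.mk' Q) = (centralizer {t}).map (QuotientGroup.mk' Q) := by
    refine le_antisymm ?_ (map_mono fun x hx => (hS x).2 (.inl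
      (mul_inv_eq_iff_eq_mul.2 (mem_centralizer_singleton_iff.1 hx))))
    rintro _ ⟨x, hx, rfl⟩
    rcases (hS x).1 hx with e | e
    · exact ⟨x, mem_centralizer_singleton_iff.2 (mul_inv_eq_iff_eq_mul.1 e), rfl⟩
    · obtain ⟨q, hq, e'⟩ := h.l.exists_conj h3.1 h3.2.2.1 h3.2.2.2
      have e : x * t * x⁻¹ = q * t * q⁻¹ := (Subtype.ext e).trans e'.symm
      refine ⟨q⁻¹ * x, mem_centralizer_singleton_iff.2 (mul_inv_eq_iff_eq_mul.1 ?_), ?_⟩
      · calc _ = q⁻¹ * (x * t * x⁻¹) * q := by group
          _ = t := by rw [e]; group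
      · rw [map_mul, map_inv, show QuotientGroup.mk' Q q = 1 from (QuotientGroup.eq_one_iff q).2 hq]
        simp
  rw [h4]
  exact ⟨e.trans (Orth.toOG (Orth.minusQ 2 (ZMod 2) 1 1)).symm⟩

end Cfsg.Agent.S5443
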