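import Cfsg.Statements.S5444
import Mathlib
import Cfsg.Agent.Fischer.LH

set_option autoImplicit false
open Cfsg

namespace Cfsg.Agent.S5444

open Fischer
open Subgroup Cfsg.Agent.LF

/-- Let G be a finite group of large Fischer type at the involution z: the generalized Fitting subgroup Q of H = C_G(z) is extraspecial of order 2^13, H has normal subgroups Q ≤ H₁ ≤ H₂ with H₁/Q of order 3, H₂/H₁ the projective special unitary group of dimension 4 over the field with nine elements and H₂ of index 2 in H, and some conjugate of z other than z lies in Q. Let T be a Sylow 2-subgroup of H. Then T has exactly one elementary abelian subgroup A of largest order; A has order 2^11, it meets Q in a subgroup of order 2^7, and its image in H/Q has order 16. -/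
theorem result {G : Type*} [Group G] [Finite G] (z : G) (Q : Subgroup (Subgroup.centralizer ({z} : Set G))) [Q.Normal] (hF : Cfsg.IsOfLargeFischerTypeAt z Q) (T : Sylow 2 ↥(Subgroup.centralizer ({z} : Set G))) : ∃ A : Subgroup ↥(T : Subgroup (Subgroup.centralizer ({z} : Set G))), Cfsg.maxElementaryAbelianSubgroups 2 ↥(T : Subgroup (Subgroup.centralizer ({z} : Set G))) = {A} ∧ Nat.card A = 2 ^ 11 ∧ Nat.card ↥(A.map (T : Subgroup (Subgroup.centralizer ({z} : Set G))).subtype ⊓ Q) = 2 ^ 7 ∧ Nat.card ↥((A.map (T : Subgroup (Subgroup.centralizer ({z} : Set G))).subtype).map (QuotientGroup.mk' Q)) = 16 := by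
  obtain ⟨N, M, h⟩ := st_of hF
  obtain ⟨V, _, _, B, χ, L, φ, h⟩ := h.exists_ft
  have := h.S.fd
  obtain ⟨s, R, h1, h2, -⟩ := exists_rr hF
  obtain ⟨A, h3, h4, h5, h6, h7⟩ := h.max_elem (h.L_le h1 h2) T
  have h8 := (Core.card_subgroupOf_of_le h3).trans h5
  have h9 : ∀ X : Subgroup (T : Subgroup (centralizer ({z} : Set G))), IsElementaryAbelian 2 X →
      2 ^ 11 ≤ Nat.card X → X = A.subgroupOf T := fun X e1 e2 => by
    rw [← h7 (X.map (Subgroup.subtype _)) (map_subtype_le _) (by
      rintro _ ⟨x, hx, rfl⟩
      exact congrArg Subtype.val ((sq x).symm.trans (e1.2 x hx)))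
      (e2.trans_eq (card_map_of_injective (subtype_injective _)).symm), subgroupOf,
      comap_map_eq_self_of_injective (subtype_injective _)]
  have h10 := elem_of_sq (A := A.subgroupOf T) fun a ha => Subtype.ext (h4 a ha)
  refine ⟨A.subgroupOf T, Set.ext fun X => ⟨fun e => h9 X e.1 (h8.ge.trans (e.2 _ h10)), ?_⟩, h8, ?_, ?_⟩
  · rintro rfl
    exact ⟨h10, fun X e => (le_total _ _).elim id fun e' => (h9 X e (h8.ge.trans e')).symm ▸ le_rfl⟩
  · rwa [map_subgroupOf_eq_of_le h3]
  · have := card_mul_index ((QuotientGroup.mk' Q).comp A.subtype).ker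
    rw [index_ker, MonoidHom.range_comp, range_subtype, ← MonoidHom.comap_ker, QuotientGroup.ker_mk',
      ← subgroupOf, ← inf_subgroupOf_left, Core.card_subgroupOf_of_le inf_le_left, h6, h5] at this
    rw [map_subgroupOf_eq_of_le h3]
    omega

end Cfsg.Agent.S5444
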