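import Cfsg.Statements.S5447
import Mathlib
import Cfsg.Agent.Fischer.LS

set_option autoImplicit false
open Cfsg

namespace Cfsg.Agent.S5447

open Fischer
open Subgroup Cfsg.Agent.LF

/-- Let G be a finite group of large Fischer type at the involution z: the generalized Fitting subgroup Q of H = C_G(z) is extraspecial of order 2^13, H has normal subgroups Q ≤ H₁ ≤ H₂ with H₁/Q of order 3, H₂/H₁ the projective special unitary group of dimension 4 over the field with nine elements and H₂ of index 2 in H, and some conjugate of z other than z lies in Q. Let T be a Sylow 2-subgroup of G, A its Thompson subgroup and M = N_G(A) its normalizer. Then M controls fusion in A (elements of A conjugate in G are conjugate in M), and M has exactly two orbits on the non-identity elements of A: those conjugate to z in G and those not. -/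
theorem result {G : Type*} [Group G] [Finite G] (z : G) (Q : Subgroup (Subgroup.centralizer ({z} : Set G))) [Q.Normal] (hF : Cfsg.IsOfLargeFischerTypeAt z Q) (T : Sylow 2 G) (A M : Subgroup G) (hA : A = Cfsg.thompsonSubgroupOf 2 (T : Subgroup G)) (hM : M = Subgroup.normalizer (A : Set G)) : (∀ a ∈ A, ∀ g : G, g * a * g⁻¹ ∈ A → ∃ m ∈ M, m * a * m⁻¹ = g * a * g⁻¹) ∧ (∃ a ∈ A, a ≠ 1 ∧ IsConj z a) ∧ (∃ a ∈ A, a ≠ 1 ∧ ¬ IsConj z a) ∧ ∀ a ∈ A, ∀ b ∈ A, a ≠ 1 → b ≠ 1 → (IsConj z a ↔ IsConj z b) → ∃ m ∈ M, m * a * m⁻¹ = b := by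
  obtain ⟨N, M', L, V, _, _, _, B, χ, φ, h, A', w, x, R, ι, r, F, hJ, h1, -⟩ := exists_setup hF T
  have h2 : ∀ a ∈ A, ∀ g : G, g * a * g⁻¹ ∈ A → ∃ m ∈ M, m * a * m⁻¹ = g * a * g⁻¹ := fun a ha g =>
    hM ▸ j_fus T hA.symm (by
      rw [hA, hJ]
      rintro _ ⟨a, ha, rfl⟩ _ ⟨b, hb, rfl⟩
      exact (r.com ha hb).map ι) ha g
  have h3 : ∀ a, Dl ι (zz z) a ↔ ι a ≠ 1 ∧ ¬ IsConj z (ι a) := fun a => and_congr
    (not_congr (map_eq_one_iff ι F.inj).symm) (not_congr ⟨h1.trans, h1.symm.trans⟩)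
  rw [hJ] at hA
  refine ⟨h2, ⟨_, hA ▸ ⟨_, r.zA, rfl⟩, mt (map_eq_one_iff ι F.inj).1 h.l.ne, h1⟩,
    ⟨_, hA ▸ ⟨_, r.mA _, rfl⟩, (h3 _).1 ((r.dr F ((Comp.w4, 0, 0), 0)).2 (by decide +kernel))⟩,
    fun a ha b hb a1 b1 e => ?_⟩
  suffices IsConj a b by
    obtain ⟨g, rfl⟩ := isConj_iff.1 this
    exact h2 a ha g hb
  by_cases c : IsConj z a
  · exact c.symm.trans (e.1 c)
  · subst hA
    obtain ⟨a, ha, rfl⟩ := ha
    obtain ⟨b, hb, rfl⟩ := hb
    exact (r.all_conj F ha ((h3 a).2 ⟨a1, c⟩)).symm.trans (r.all_conj F hb ((h3 b).2 ⟨b1, mt e.2 c⟩))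

end Cfsg.Agent.S5447
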