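import Cfsg.Statements.S5448
import Mathlib
import Cfsg.Agent.Fischer.LT
import Cfsg.Agent.Golay.Simple

set_option autoImplicit false
open scoped Pointwise
open Cfsg

namespace Cfsg.Agent.S5448

open Fischer
open Cfsg.Agent.LF Cfsg.Agent.Golay Subgroup

/-- Let G be a finite group of large Fischer type at the involution z: the generalized Fitting subgroup Q of H = C_G(z) is extraspecial of order 2^13, H has normal subgroups Q ≤ H₁ ≤ H₂ with H₁/Q of order 3, H₂/H₁ the projective special unitary group of dimension 4 over the field with nine elements and H₂ of index 2 in H, and some conjugate of z other than z lies in Q. Let T be a Sylow 2-subgroup of G, A its Thompson subgroup, M = N_G(A) its normalizer, and t an involution of A not conjugate to z in G. Then the centralizer of t in M, modulo A, is isomorphic to the setwise stabilizer of a two-element subset of the 24 points in the Mathieu group of degree 24 (the automorphism group of the smaller Mathieu group on 22 points). -/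
theorem result {G : Type*} [Group G] [Finite G] (z : G) (Q : Subgroup (Subgroup.centralizer ({z} : Set G))) [Q.Normal] (hF : Cfsg.IsOfLargeFischerTypeAt z Q) (T : Sylow 2 G) (A M : Subgroup G) (hA : A = Cfsg.thompsonSubgroupOf 2 (T : Subgroup G)) (hM : M = Subgroup.normalizer (A : Set G)) (t : G) (htA : t ∈ A) (ht2 : orderOf t = 2) (ht : ¬ IsConj z t) : ∃ _ : (A.subgroupOf (M ⊓ Subgroup.centralizer ({t} : Set G))).Normal, Nonempty (↥(M ⊓ Subgroup.centralizer ({t} : Set G)) ⧸ A.subgroupOf (M ⊓ Subgroup.centralizer ({t} : Set G)) ≃* ↥(Cfsg.M24 ⊓ MulAction.stabilizer (Equiv.Perm Cfsg.GolayPt) ({none, some 0} : Set Cfsg.GolayPt))) := by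
  subst hM
  obtain ⟨-, -, E, k, Θ, h3, h5, h4⟩ := exists_m24 hF T hA
  obtain ⟨p, q, hpq, rfl⟩ := (k.du t htA).1 ⟨fun e => by simp [e] at ht2, ht⟩
  obtain ⟨σ, hσ, e1, e2⟩ : ∃ σ ∈ M24, σ none = p ∧ σ (some 0) = q := by
    have := M24_five
    obtain ⟨σ, e⟩ := MulAction.is_two_pretransitive_iff.1 (MulAction.isMultiplyPretransitive_of_le
      (n := 5) (m := 2) (G := M24) (α := GolayPt) (by norm_num) (by simp))
      (show (none : GolayPt) ≠ some 0 from nofun) hpq
    exact ⟨σ, σ.2, e⟩
  subst e1 e2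
  have h6 : ∀ g : normalizer (A : Set G), g.1 ∈ centralizer {E (dw (σ none) (σ (some 0)))} ↔
      σ⁻¹ * Θ g * σ ∈ MulAction.stabilizer (Equiv.Perm GolayPt) ({none, some 0} : Set GolayPt) := fun g => by
    rw [mem_centralizer_singleton_iff, ← mul_inv_eq_iff_eq_mul, h5, MulAction.mem_stabilizer_iff, mul_smul,
      mul_smul, inv_smul_eq_iff, Set.smul_set_insert, Set.smul_set_singleton, Set.smul_set_insert,
      Set.smul_set_singleton]
    exact (⟨k.eq2, congrArg E⟩ : _ ↔ _).trans (dw_pair hpq)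
  refine quot_of (((MulAut.conj σ⁻¹).toMonoidHom.comp Θ).comp (inclusion inf_le_left))
    (Subgroup.ext fun g => conj_eq_one_iff.trans (h4 _)) (le_antisymm ?_ fun τ hτ => ?_)
  · rintro _ ⟨g, rfl⟩
    exact ⟨M24.mul_mem (M24.mul_mem (M24.inv_mem hσ) (h3.le ⟨_, rfl⟩)) (M24.inv_mem (M24.inv_mem hσ)),
      (h6 ⟨g, g.2.1⟩).1 g.2.2⟩
  · obtain ⟨g, e⟩ := h3.ge (mul_mem (mul_mem hσ hτ.1) (inv_mem hσ))
    have : σ⁻¹ * Θ g * σ = τ := by rw [e]; group
    exact ⟨⟨g, g.2, (h6 g).2 (this ▸ hτ.2)⟩, this⟩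

end Cfsg.Agent.S5448
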