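import Mathlib
import Cfsg.Statements.S5456
import Cfsg.Agent.FiC.F22.C2
import Cfsg.Agent.FiC.Glu2

set_option autoImplicit false
open scoped Pointwise commutatorElement
open Cfsg

namespace Cfsg.Agent.S5456

open Cfsg.Agent.Comp Cfsg.Agent.FiC Cfsg.Agent.FiC.F22
set_option maxRecDepth 100000
set_option Elab.async false
set_option linter.unusedSectionVars false
set_option linter.unusedVariables false

section
variable {G : Type*} [Group G] [Finite G] {D : Set G} {τ s : ℕ → G}


end

/-- Let G be a finite group with trivial centre generated by a conjugation-invariant set D of 3-transpositions on which it acts primitively, of type M(22), and suppose G also has an involution whose centralizer is quasisimple with quotient by it the projective special unitary group of dimension 6 over the field with four elements and which is not weakly closed in that centralizer. Then D is the only conjugacy class of 3-transpositions generating G. -/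
theorem result {G : Type*} [Group G] [Finite G] {D : Set G} (hD : Cfsg.IsThreeTranspositionGroup D) (hprim : Cfsg.IsPrimitiveUnderConj D) (h22 : Cfsg.IsOfTypeM22 G D) (hM : ∃ d : G, orderOf d = 2 ∧ Cfsg.IsQuasisimple ↥(Subgroup.centralizer ({d} : Set G)) ∧ (∃ (_ : ((Subgroup.zpowers d).subgroupOf (Subgroup.centralizer ({d} : Set G))).Normal) (K : Type) (_ : Field K) (_ : Fintype K), Fintype.card K = 4 ∧ Nonempty (↥(Subgroup.centralizer ({d} : Set G)) ⧸ (Subgroup.zpowers d).subgroupOf (Subgroup.centralizer ({d} : Set G)) ≃* Cfsg.PSU 6 K 2)) ∧ ∃ g : G, g * d * g⁻¹ ∈ Subgroup.centralizer ({d} : Set G) ∧ g * d * g⁻¹ ≠ d) (D' : Set G) (hD' : Cfsg.IsThreeTranspositionClass D') : D' = D := by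
  obtain ⟨τ, s, b⟩ := exists_base hD h22
  exact b.class_unique (tr1 b) (fun _ => cls2 b) [nat_lit 20] (nat_lit 3) (by decide +kernel) hD'

end Cfsg.Agent.S5456
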