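import Cfsg.Statements.S5459
import Mathlib
import Cfsg.Agent.Fischer.Structure
import Cfsg.Agent.Inv.Pairs
import Cfsg.Agent.Inv.Four
import Cfsg.Agent.Inv.Isolated

set_option autoImplicit false
open Cfsg

namespace Cfsg.Agent.S5459

open Fischer

/-- Let G be a finite group with a quasisimple normal subgroup L and an involution d such that G is generated by L and d, the centre of L has odd order, and d inverts every element of the centre of L. If the commuting graph on the conjugacy class of the image of d in G modulo the centre of L is connected, then the commuting graph on the conjugacy class of d is connected. -/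
theorem result {G : Type*} [Group G] [Finite G] (L : Subgroup G) [L.Normal] (hL : Cfsg.IsQuasisimple ↥L) (d : G) (hd : orderOf d = 2) (hgen : L ⊔ Subgroup.zpowers d = ⊤) (hodd : Odd (Nat.card ↥(Subgroup.center ↥L))) (hinv : ∀ c ∈ (Subgroup.center ↥L).map L.subtype, d * c * d⁻¹ = c⁻¹) [hn : ((Subgroup.center ↥L).map L.subtype).Normal] (hconn : (Cfsg.commutingGraph (conjugatesOf (QuotientGroup.mk d : G ⧸ (Subgroup.center ↥L).map L.subtype))).Connected) : (Cfsg.commutingGraph (conjugatesOf d)).Connected := by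
  set Z := (Subgroup.center ↥L).map L.subtype with hZ
  have hZodd : ∀ c ∈ Z, Odd (orderOf c) := fun c hc => Inv.odd_orderOf_of_mem (by
    rwa [hZ, Subgroup.card_map_of_injective L.subtype_injective]) hc
  have hZL : ∀ c ∈ Z, ∀ l ∈ L, Commute l c := by
    rintro _ ⟨c, hc, rfl⟩ l hl
    exact congrArg Subtype.val (Subgroup.mem_center_iff.1 hc ⟨l, hl⟩)
  have hd2 := Inv.mul_self_of_two hd
  have hcj : ∀ g, g * d * g⁻¹ ∈ conjugatesOf d := fun g => isConj_iff.2 ⟨g, rfl⟩
  have hinv' : ∀ g, ∀ c ∈ Z, (g * d * g⁻¹) * c * (g * d * g⁻¹)⁻¹ = c⁻¹ := fun g c hc => by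
    have := hinv _ (hn.conj_mem c hc g⁻¹)
    calc (g * d * g⁻¹) * c * (g * d * g⁻¹)⁻¹ = g * (d * (g⁻¹ * c * g⁻¹⁻¹) * d⁻¹) * g⁻¹ := by group
      _ = _ := by rw [this]; group
  let K : Subgroup G :=
    { carrier := {g | (commutingGraph (conjugatesOf d)).Reachable ⟨d, IsConj.refl d⟩ ⟨_, hcj g⟩}
      one_mem' := by simp
      mul_mem' := fun {a b} ha hb => by
        let f : commutingGraph (conjugatesOf d) →g commutingGraph (conjugatesOf d) :=
          ⟨fun x => ⟨a * x * a⁻¹, x.2.trans (isConj_iff.2 ⟨a, rfl⟩)⟩, fun {x y} h => by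
            rw [commutingGraph_adj] at h ⊢
            exact ⟨fun e => h.1 (Subtype.ext (by simpa using congrArg Subtype.val e)),
              (commute_conj_iff _ _ _).2 h.2⟩⟩
        have := ha.trans (hb.map f)
        simpa [f, mul_assoc] using this
      inv_mem' := fun {a} ha => by
        let f : commutingGraph (conjugatesOf d) →g commutingGraph (conjugatesOf d) :=
          ⟨fun x => ⟨a⁻¹ * x * a⁻¹⁻¹, x.2.trans (isConj_iff.2 ⟨a⁻¹, rfl⟩)⟩, fun {x y} h => by
            rw [commutingGraph_adj] at h ⊢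
            exact ⟨fun e => h.1 (Subtype.ext (by simpa using congrArg Subtype.val e)),
              (commute_conj_iff _ _ _).2 h.2⟩⟩
        have := (ha.map f).symm
        simpa [f, mul_assoc] using this }
  have hfib : ∀ g k : G, ((g * d * g⁻¹ : G) : G ⧸ Z) = (k * d * k⁻¹ : G) →
      ∃ u ∈ Z, u * (g * d * g⁻¹) * u⁻¹ = k * d * k⁻¹ := fun g k e => by
    have h1 : (k * d * k⁻¹) * (g * d * g⁻¹)⁻¹ ∈ Z := by
      rw [← QuotientGroup.eq_one_iff, QuotientGroup.mk_mul, QuotientGroup.mk_inv, e, mul_inv_cancel]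
    obtain ⟨u, hu, h2⟩ := Inv.exists_conj_mul_of_odd (hinv' g _ h1) (hZodd _ h1)
    exact ⟨u, Subgroup.zpowers_le.2 h1 hu, by rw [h2, inv_mul_cancel_right]⟩
  have hlift := connected_induction hconn
    (P := fun x => ∃ g ∈ K, ((g * d * g⁻¹ : G) : G ⧸ Z) = x) (IsConj.refl _) ⟨1, one_mem _, by rw [one_mul, inv_one, mul_one]⟩ (by
    rintro _ - y hy hne hc ⟨g, hg, rfl⟩
    obtain ⟨k, rfl⟩ := isConj_iff.1 hy
    obtain ⟨k, rfl⟩ := QuotientGroup.mk_surjective k
    set a := g * d * g⁻¹ with ha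
    set b := k * d * k⁻¹ with hb
    have ha2 : a * a = 1 := by rw [ha, conj_mul, hd2]; simp
    have hb2 : b * b = 1 := by rw [hb, conj_mul, hd2]; simp
    have hc' : Commute (a : G ⧸ Z) (b : G ⧸ Z) := hc
    have h1 : (a * b) * (a * b) ∈ Z := by
      rw [← QuotientGroup.eq_one_iff]
      simp only [QuotientGroup.mk_mul]
      rw [mul_assoc, ← mul_assoc (b : G ⧸ Z), ← hc'.eq, mul_assoc]
      simp only [← QuotientGroup.mk_mul]
      rw [hb2, mul_one, ha2, QuotientGroup.mk_one]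
    obtain ⟨v, hv, hv2⟩ := Inv.exists_sq_of_odd (hZodd _ h1)
    have hvZ : v ∈ Z := Subgroup.zpowers_le.2 h1 hv
    obtain ⟨u, hu, h2⟩ := Inv.exists_conj_mul_of_odd (hinv' k _ hvZ) (hZodd _ hvZ)
    rw [← hb] at h2
    have hav := hinv' g _ hvZ
    have hbv := hinv' k _ hvZ
    rw [← ha] at hav
    rw [← hb] at hbv
    have hcm : Commute a (v * b) := by
      refine Inv.commute_of_mul_self ha2 (Inv.mul_self_of_inverts hb2 hbv) ?_
      calc a * (v * b) * (a * (v * b)) = (a * v * a⁻¹) * (a * (b * (a * v * a⁻¹) * b⁻¹) * a⁻¹) *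
          (a * b * (a * b)) := by group
        _ = 1 := by
          have hbv' : b * v⁻¹ * b⁻¹ = v := by
            rw [show b * v⁻¹ * b⁻¹ = (b * v * b⁻¹)⁻¹ by group, hbv, inv_inv]
          rw [hav, hbv', hav, ← hv2]; group
    have huZ : u ∈ Z := Subgroup.zpowers_le.2 hvZ hu
    have e : u * k * d * (u * k)⁻¹ = v * b := by rw [← h2, hb]; group
    have e2 : ((u * k * d * (u * k)⁻¹ : G) : G ⧸ Z) = k * d * (k : G ⧸ Z)⁻¹ := by
      rw [e, QuotientGroup.mk_mul, (QuotientGroup.eq_one_iff v).2 hvZ, one_mul]; rfl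
    refine ⟨u * k, hg.trans (commutingGraph_adj.2 ⟨fun e' => hne ?_, ?_⟩).reachable, e2⟩
    · rw [← e2]
      exact congrArg (fun t : conjugatesOf d => ((t : G) : G ⧸ Z)) e'
    · simpa only [e] using hcm)
  have hKZ : ∀ g : G, ∃ u ∈ Z, u * g ∈ K := fun g => by
    obtain ⟨k, hk, e⟩ := hlift ((g * d * g⁻¹ : G) : G ⧸ Z) (isConj_iff.2 ⟨g, rfl⟩)
    obtain ⟨u, hu, e'⟩ := hfib g k e.symm
    refine ⟨u, hu, ?_⟩
    have : (⟨u * g * d * (u * g)⁻¹, hcj _⟩ : conjugatesOf d) = ⟨_, hcj k⟩ :=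
      Subtype.ext (by simp only [← e']; group)
    show (commutingGraph (conjugatesOf d)).Reachable _ _
    rw [this]
    exact hk
  have hLK : L ≤ K := by
    have hp : ⁅L, L⁆ = L := Comp2.quasisimple_commutator_self hL
    rw [← hp, Subgroup.commutator_le]
    intro x hx y hy
    obtain ⟨u, hu, h1⟩ := hKZ x
    obtain ⟨v, hv, h2⟩ := hKZ y
    have huL : u ∈ L := Subgroup.map_subtype_le _ hu
    have hvL : v ∈ L := Subgroup.map_subtype_le _ hv
    have := mul_mem (mul_mem (mul_mem h1 h2) (inv_mem h1)) (inv_mem h2)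
    convert this using 1
    have c1 := hZL u hu _ (mul_mem (mul_mem hx (mul_mem hvL hy)) (inv_mem hx))
    have c2 := hZL v hv _ hx
    have c3 := hZL v hv _ (mul_mem (mul_mem (mul_mem hx hy) (inv_mem hx)) (inv_mem hy))
    calc x * y * x⁻¹ * y⁻¹ = v * (x * y * x⁻¹ * y⁻¹) * v⁻¹ := by rw [← c3.eq]; group
      _ = (x * (v * y) * x⁻¹) * (v * y)⁻¹ := by rw [← mul_assoc x, c2.eq]; group
      _ = u * (x * (v * y) * x⁻¹) * u⁻¹ * (v * y)⁻¹ := by rw [← c1.eq]; group
      _ = _ := by group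
  have hK : K = ⊤ := by
    rw [eq_top_iff, ← hgen]
    refine sup_le hLK (Subgroup.zpowers_le.2 ?_)
    show (commutingGraph (conjugatesOf d)).Reachable _ _
    simp
  rw [SimpleGraph.connected_iff_exists_forall_reachable]
  refine ⟨⟨d, IsConj.refl d⟩, fun ⟨x, hx⟩ => ?_⟩
  obtain ⟨g, rfl⟩ := isConj_iff.1 hx
  exact (hK ▸ Subgroup.mem_top g : g ∈ K)

end Cfsg.Agent.S5459
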