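import Mathlib
import Cfsg.Statements.S5463
import Cfsg.Agent.FiC.F22.T

set_option autoImplicit false
open scoped Pointwise commutatorElement
open Cfsg

namespace Cfsg.Agent.S5463

open Cfsg.Agent.Comp Cfsg.Agent.FiC Cfsg.Agent.FiC.F22
set_option maxRecDepth 100000
set_option linter.unusedSectionVars false
set_option linter.unusedVariables false

section
variable {G : Type*} [Group G] [Finite G] {D : Set G} {τ s : ℕ → G}


end

/-- Let G be a finite group with trivial centre generated by a conjugation-invariant set D of 3-transpositions on which it acts primitively, such that for some d in D the subgroup generated by the members of D other than d commuting with d has central largest normal 2- and 3-subgroups, and suppose G with D is of type M(22). A product j of two distinct commuting members of D determines the pair: any two 2-element sets of commuting members of D with product j coincide.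 A product j of three distinct pairwise commuting members of D arises from exactly two such 3-element sets. -/
theorem result {G : Type*} [Group G] [Finite G] {D : Set G} (hD : Cfsg.IsThreeTranspositionGroup D) (hprim : Cfsg.IsPrimitiveUnderConj D) (d₀ : G) (hd₀ : d₀ ∈ D) (h3 : Cfsg.pCore 3 ↥(Subgroup.closure {y : G | y ∈ D ∧ y ≠ d₀ ∧ Commute d₀ y}) ≤ Subgroup.center ↥(Subgroup.closure {y : G | y ∈ D ∧ y ≠ d₀ ∧ Commute d₀ y})) (h2 : Cfsg.pCore 2 ↥(Subgroup.closure {y : G | y ∈ D ∧ y ≠ d₀ ∧ Commute d₀ y}) ≤ Subgroup.center ↥(Subgroup.closure {y : G | y ∈ D ∧ y ≠ d₀ ∧ Commute d₀ y})) (h22 : Cfsg.IsOfTypeM22 G D) : (∀ (j : G) (l l' : List G), (l.Nodup ∧ l.length = 2 ∧ (∀ a ∈ l, a ∈ D) ∧ (∀ a ∈ l, ∀ b ∈ l, Commute a b) ∧ l.prod = j) → (l'.Nodup ∧ l'.length = 2 ∧ (∀ a ∈ l', a ∈ D) ∧ (∀ a ∈ l', ∀ b ∈ l', Commute a b) ∧ l'.prod = j) → (∀ x : G, x ∈ l ↔ x ∈ l')) ∧ ∀ (j : G) (l₀ : List G), (l₀.Nodup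 ∧ l₀.length = 3 ∧ (∀ a ∈ l₀, a ∈ D) ∧ (∀ a ∈ l₀, ∀ b ∈ l₀, Commute a b) ∧ l₀.prod = j) → ∃ l₁ l₂ : List G, (l₁.Nodup ∧ l₁.length = 3 ∧ (∀ a ∈ l₁, a ∈ D) ∧ (∀ a ∈ l₁, ∀ b ∈ l₁, Commute a b) ∧ l₁.prod = j) ∧ (l₂.Nodup ∧ l₂.length = 3 ∧ (∀ a ∈ l₂, a ∈ D) ∧ (∀ a ∈ l₂, ∀ b ∈ l₂, Commute a b) ∧ l₂.prod = j) ∧ ¬ (∀ x : G, x ∈ l₁ ↔ x ∈ l₂) ∧ ∀ l : List G, (l.Nodup ∧ l.length = 3 ∧ (∀ a ∈ l, a ∈ D) ∧ (∀ a ∈ l, ∀ b ∈ l, Commute a b) ∧ l.prod = j) → ((∀ x : G, x ∈ l ↔ x ∈ l₁) ∨ (∀ x : G, x ∈ l ↔ x ∈ l₂)) := by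
  obtain ⟨τ, s, b⟩ := exists_base hD h22
  refine ⟨?_, ?_⟩
  · rintro _ l l' ⟨a1, a2, a3, a4, rfl⟩ ⟨c1, c2, c3, c4, c5⟩
    obtain ⟨τ', s', b', rfl⟩ := b.wlogU (tr2 b) l a1 a2 a3 a4
    obtain ⟨g, hg, rfl⟩ := b'.same_prod (tr2 b') (c2b b').1 l' c1 c2 c3 c4 c5
    refine fun x => (mem_iff_of_subset c1 (by simp) (fun a ha => ?_) x).symm
    obtain ⟨w, hw, rfl⟩ := List.mem_map.1 ha
    exact b'.x.inv_ps _ _ (by decide +kernel) hg _ (List.mem_map_of_mem hw)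
  · rintro _ l₀ ⟨a1, a2, a3, a4, rfl⟩
    obtain ⟨τ', s', b', rfl⟩ := b.wlogU (tr3 b) l₀ a1 a2 a3 a4
    have h1 := b'.clq_facts [[nat_lit 12], [nat_lit 34, nat_lit 12, nat_lit 35], [nat_lit 35, nat_lit 12, nat_lit 34]] (by decide +kernel) 1
    simp only [one_mul, inv_one, mul_one] at h1
    have h4 := b'.clq_facts ([nat_lit 8] :: [[nat_lit 12], [nat_lit 34, nat_lit 12, nat_lit 35], [nat_lit 35, nat_lit 12, nat_lit 34]]) (by decide +kernel) 1
    simp only [one_mul, inv_one, mul_one] at h4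
    have h5 := prod_map_conj s' 1 [[nat_lit 12], [nat_lit 34, nat_lit 12, nat_lit 35], [nat_lit 35, nat_lit 12, nat_lit 34]]
    have h6 := prod_map_conj s' 1 [[nat_lit 8], [nat_lit 4], [nat_lit 0]]
    simp only [one_mul, inv_one, mul_one] at h5 h6
    refine ⟨_, _, ⟨a1, a2, a3, a4, rfl⟩, ⟨h1.1, rfl, h1.2.1, h1.2.2, h5.trans
      ((b'.x.eq1 _ _ (by decide +kernel)).trans h6.symm)⟩,
      fun h => (List.nodup_cons.1 h4.1).1 ((h _).1 List.mem_cons_self), ?_⟩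
    rintro l ⟨c1, c2, c3, c4, c5⟩
    obtain ⟨g, hg, rfl⟩ := b'.same_prod (tr3 b') (c2c b').1 l c1 c2 c3 c4 c5
    obtain ⟨V, hV, h7⟩ := b'.x.fam _ [[[nat_lit 8], [nat_lit 4], [nat_lit 0]], [[nat_lit 12], [nat_lit 34, nat_lit 12, nat_lit 35], [nat_lit 35, nat_lit 12, nat_lit 34]]] (by decide +kernel) hg _ List.mem_cons_self
    have h8 : ∀ x, x ∈ ([[nat_lit 8], [nat_lit 4], [nat_lit 0]]).map (fun w => g * E s' w * g⁻¹) ↔ x ∈ V.map (E s') :=
      mem_iff_of_subset c1 (by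
        rcases List.mem_pair.1 hV with rfl | rfl <;> simp) fun a ha => by
        obtain ⟨w, hw, rfl⟩ := List.mem_map.1 ha
        exact h7 _ (List.mem_map_of_mem hw)
    rcases List.mem_pair.1 hV with rfl | rfl
    exacts [Or.inl h8, Or.inr h8]

end Cfsg.Agent.S5463
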