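import Cfsg.Statements.S5465
import Mathlib
import Cfsg.Agent.Fischer.QE
import Cfsg.Agent.S5464
import Cfsg.Agent.Comp.Fi22.Out

set_option autoImplicit false
open Cfsg

namespace Cfsg.Agent.S5465

open Fischer Comp FiC FiC.F24 Subgroup
set_option linter.unusedVariables false

/-- Let G be a finite group with trivial centre generated by a conjugation-invariant set D of 3-transpositions on which it acts primitively, such that for some d in D the subgroup generated by the members of D other than d commuting with d has central largest normal 2- and 3-subgroups, and suppose G with D is of type M(24), and let L be the commutator subgroup of G. Let d₁, d₂ be distinct commuting members of D and j = d₁ d₂. Then K, the joint centralizer of d₁ and d₂ in L, is quasisimple, is the generalized Fitting subgroup of the centralizer of j in L, has index 2 in it and contains j, and the centralizer of j in L modulo the subgroup generated by j is isomorphic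 to the full automorphism group of the Fischer group Fi₂₂ (as presented). -/
theorem result {G : Type*} [Group G] [Finite G] {D : Set G} (hD : Cfsg.IsThreeTranspositionGroup D) (hprim : Cfsg.IsPrimitiveUnderConj D) (d₀ : G) (hd₀ : d₀ ∈ D) (h3 : Cfsg.pCore 3 ↥(Subgroup.closure {y : G | y ∈ D ∧ y ≠ d₀ ∧ Commute d₀ y}) ≤ Subgroup.center ↥(Subgroup.closure {y : G | y ∈ D ∧ y ≠ d₀ ∧ Commute d₀ y})) (h2 : Cfsg.pCore 2 ↥(Subgroup.closure {y : G | y ∈ D ∧ y ≠ d₀ ∧ Commute d₀ y}) ≤ Subgroup.center ↥(Subgroup.closure {y : G | y ∈ D ∧ y ≠ d₀ ∧ Commute d₀ y})) (h24 : Cfsg.IsOfTypeM24 G D) (L : Subgroup G) (hL : L = commutator G) (d₁ d₂ : G) (h₁ : d₁ ∈ D) (h₂ : d₂ ∈ D) (hne : d₁ ≠ d₂) (hc : Commute d₁ d₂) (K CL : Subgroup G) (hK : K = L ⊓ Subgroup.centralizer ({d₁, d₂} : Set G)) (hCL : CL = L ⊓ Subgroup.centralizer ({d₁ * d₂} : Set G)) [hn : ((Subgroup.zpowers (d₁ * d₂)).subgroupOf CL).Normal] : Cfsg.IsQuasisimple ↥K ∧ K = (Cfsg.generalizedFittingSubgroup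 ↥CL).map CL.subtype ∧ K ≤ CL ∧ (K.subgroupOf CL).index = 2 ∧ d₁ * d₂ ∈ K ∧ Nonempty (↥CL ⧸ (Subgroup.zpowers (d₁ * d₂)).subgroupOf CL ≃* MulAut Cfsg.Spor.Fi22) := by
  subst hL
  have c := M22.cl_of_group hD
  have u : UF D := S5464.result hD hprim d₀ hd₀ h3 h2 (Or.inr h24)
  obtain ⟨τ₀, s₀, b₀⟩ := exists_base hD hprim h24
  obtain ⟨y, hy, y1, y2, y3, y4⟩ : ∃ y ∈ D, y ≠ d₁ ∧ y ≠ d₂ ∧ Commute y d₁ ∧ Commute y d₂ := by
    obtain ⟨τ₁, s₁, b₁, rfl, rfl⟩ := b₀.wlog2 (tr2 b₀) h₁ h₂ hne hc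
    have := b₁.clq_facts [[nat_lit 8], [nat_lit 4], [nat_lit 0]] (by decide +kernel) 1
    simp only [one_mul, inv_one, mul_one, List.map, List.nodup_cons, List.mem_cons, not_or,
      forall_eq_or_imp] at this
    exact ⟨_, this.2.1.1, this.1.1.1, this.1.1.2.1, this.2.2.1.2.1, this.2.2.1.2.2.1⟩
  have hj := mul_comm_mem hD hprim h24 h₁ h₂
  obtain ⟨τ', s', b', k22⟩ := sub23' hD hprim h24 h₁
  let a : ↥(commutator G ⊓ centralizer {d₁}) :=
    ⟨d₁ * d₂, hj, mem_cent1.2 ((Commute.refl _).mul_right hc)⟩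
  have e0 : d₁ * (d₁ * d₂) = d₂ := by rw [← mul_assoc, c.sq h₁, one_mul]
  have ha : (a : G) * d₁ ∈ loc D d₁ := by
    rw [show (a : G) * d₁ = d₂ from (Commute.mul_left rfl hc.symm).eq.trans e0]
    exact ⟨h₂, hne.symm, hc⟩
  obtain ⟨τ, s, b, ea⟩ := b'.wlog1 (F23.tr1 b') ha
  obtain ⟨μ, f⟩ := k22 a ha
  obtain ⟨q⟩ := iso22 f
  rw [ea, loc, F23.cla b] at q
  have mK : ∀ x, x ∈ K ↔ x ∈ commutator G ∧ Commute d₁ x ∧ Commute d₂ x := fun x => by
    simp [hK, mem_centralizer_iff, commute_iff_eq]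
  have mC : ∀ x, x ∈ CL ↔ x ∈ commutator G ∧ Commute (d₁ * d₂) x := fun x => by
    rw [hCL, mem_inf, mem_cent1]
  have hK' : K = (genW (sv s) F23.caW).map (Subgroup.subtype _) := by
    rw [← (F23.ca b).1, Cen_top1, ← ea]
    ext x
    rw [mK]
    constructor
    · exact fun h => ⟨⟨x, h.1, mem_cent1.2 h.2.1⟩, mem_cent1.2 (Subtype.ext (h.2.1.mul_left h.2.2)), rfl⟩
    · rintro ⟨k, hk, rfl⟩
      have := mem_cent1.1 k.2.2
      exact ⟨k.2.1, this, e0 ▸ this.mul_left (congrArg Subtype.val (mem_cent1.1 hk))⟩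
  let ι := ((genW (sv s) F23.caW).equivMapOfInjective _ (subtype_injective _)).trans
    (MulEquiv.subgroupCongr hK'.symm)
  have hjK : d₁ * d₂ ∈ K := (mK _).2 ⟨hj, (Commute.refl _).mul_right hc, hc.symm.mul_right rfl⟩
  have hZ : (center K).map K.subtype = zpowers (d₁ * d₂) := by
    rw [hK', cen_map (Z := zpowers a) (by rw [centralizer_genW, F23.zca b, genW1, ea])
      (by rw [← (F23.ca b).1, Cen_top1, ← ea, zpowers_le]; exact mem_cent1.2 rfl), MonoidHom.map_zpowers]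
    rfl
  have hp : Group.IsPerfect K := have := F23.perfa b; Group.IsPerfect.ofSurjective (f := ι.toMonoidHom) ι.surjective
  let q' := (Classical.Congr.centerQuotCongr ι).symm.trans q
  have hq : IsQuasisimple K := ⟨hp, have := Fi22.simple; q'.isSimpleGroup⟩
  have hKC : K ≤ CL := fun x hx => (mC x).2 ⟨((mK x).1 hx).1, ((mK x).1 hx).2.1.mul_left ((mK x).1 hx).2.2⟩
  have h12 : ∀ g ∈ CL, ∀ x ∈ [d₁, d₂], g * x * g⁻¹ ∈ [d₁, d₂] := fun g hg =>
    u.mem hD.2.1 _ (by simp) (by simpa using hne) (by simp [h₁, h₂]) (by simp [hc, hc.symm])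
      (by simpa using ((mC g).1 hg).2)
  have hi : Function.Injective ![d₁, d₂] := List.nodup_ofFn.1 (by simpa using hne)
  obtain ⟨hn1, hn2, ⟨p⟩⟩ := perm_quot' (H := CL) ![d₁, d₂] hi (fun g hg => by
      simpa [Fin.forall_fin_two, Fin.exists_fin_two] using h12 g hg) hKC (fun g hg => by
      simp [mK, ((mC g).1 hg).1, Fin.forall_fin_two, mul_inv_eq_iff_eq_mul, commute_iff_eq,
        eq_comm (a := g * _)])
    fun σ => by
      obtain ⟨g, hg, e⟩ := perm_mem hD hprim h24 (tr2 b₀) rfl ![d₁, d₂] hi (by simp [Fin.forall_fin_two, h₁, h₂])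
        (by simp [Fin.forall_fin_two, hc, hc.symm]) σ
      refine ⟨g, (mC g).2 ⟨hg, (mul_inv_eq_iff_eq_mul.1 ?_).symm⟩, e⟩
      rw [← conj_mul]
      have e1 := e 0
      have e2 := e 1
      have e3 := σ.injective.ne Fin.zero_ne_one
      generalize σ 0 = i, σ 1 = j at *
      fin_cases i <;> fin_cases j <;> simp_all [hc.eq]
  have hce : CL ⊓ centralizer (K : Set G) ≤ K := fun g hg => by
    have h5 := u.mem hD.2.1 [y, d₁] (by simp) (by simpa using y1) (by simp [hy, h₁])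
      (by simp [y3, y3.symm]) (g := g) (by simpa [commute_iff_eq] using hg.2 _ ((mK _).2 ⟨mul_comm_mem hD hprim h24 hy h₁,
        y3.symm.mul_right rfl, y4.symm.mul_right hc.symm⟩)) d₁ (by simp)
    have h6 := h12 g hg.1 d₁ (by simp)
    have h7 : Commute d₁ g := (mul_inv_eq_iff_eq_mul.1 (show g * d₁ * g⁻¹ = d₁ by
      simp only [List.mem_cons, List.not_mem_nil, or_false] at h5 h6
      rcases h5 with h5 | h5
      · exact h6.elim id fun h => absurd (h5.symm.trans h) y2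
      · exact h5)).symm
    exact (mK g).2 ⟨((mC g).1 hg.1).1, h7, e0 ▸ h7.mul_left ((mC g).1 hg.1).2⟩
  refine ⟨hq, (fstar_qs hKC hq hce).symm, hKC, ?_, hjK, quot_aut hKC hp hce hZ q' ?_⟩
  · rw [index_eq_card, Nat.card_congr p.toEquiv, Nat.card_perm, Nat.card_fin]; rfl
  · have := Fi22.card.1
    rw [hn1, ← Nat.card_congr ι.toEquiv, (F23.ca b).2, card_aut_eq Fischer.F22.pm.center, Fi22.out,
      Fi22.card.2.1, card_zpowers_prime Nat.prime_two (by rw [hc.mul_pow, pow_two, pow_two, c.sq h₁,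
        c.sq h₂, one_mul]) fun e => hne (by rw [← e0, e, mul_one])]
    norm_num

end Cfsg.Agent.S5465
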