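import Cfsg.Statements.S5466
import Mathlib
import Cfsg.Agent.Fischer.QE
import Cfsg.Agent.S5464
import Cfsg.Agent.S0815

set_option autoImplicit false
open Cfsg

namespace Cfsg.Agent.S5466

open Fischer Comp FiC FiC.F24 Subgroup
set_option linter.unusedVariables false

/-- Let G be a finite group with trivial centre generated by a conjugation-invariant set D of 3-transpositions on which it acts primitively, such that for some d in D the subgroup generated by the members of D other than d commuting with d has central largest normal 2- and 3-subgroups, and suppose G with D is of type M(24), and let L be the commutator subgroup of G. Let d₁, d₂, d₃ be distinct pairwise commuting members of D, j their product, E the subgroup generated by d₁ d₂ and d₁ d₃ (a four-group lying in L), CL the centralizer of j in L and K its generalized Fitting subgroup. Then K is quasisimple with centre E, K is the centralizer of E in L, K modulo E is isomorphic to the projective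 special unitary group of dimension 6 over the field with four elements, CL/K is isomorphic to the symmetric group of degree 3, and CL modulo E is isomorphic to the full automorphism group of that unitary group. -/
theorem result {G : Type*} [Group G] [Finite G] {D : Set G} (hD : Cfsg.IsThreeTranspositionGroup D) (hprim : Cfsg.IsPrimitiveUnderConj D) (d₀ : G) (hd₀ : d₀ ∈ D) (h3 : Cfsg.pCore 3 ↥(Subgroup.closure {y : G | y ∈ D ∧ y ≠ d₀ ∧ Commute d₀ y}) ≤ Subgroup.center ↥(Subgroup.closure {y : G | y ∈ D ∧ y ≠ d₀ ∧ Commute d₀ y})) (h2 : Cfsg.pCore 2 ↥(Subgroup.closure {y : G | y ∈ D ∧ y ≠ d₀ ∧ Commute d₀ y}) ≤ Subgroup.center ↥(Subgroup.closure {y : G | y ∈ D ∧ y ≠ d₀ ∧ Commute d₀ y})) (h24 : Cfsg.IsOfTypeM24 G D) (L : Subgroup G) (hL : L = commutator G) (d₁ d₂ d₃ : G) (h₁ : d₁ ∈ D) (h₂ : d₂ ∈ D) (h₃ : d₃ ∈ D) (h12 : d₁ ≠ d₂) (h13 : d₁ ≠ d₃) (h23 : d₂ ≠ d₃) (c12 : Commute d₁ d₂) (c13 : Commute d₁ d₃) (c23 : Commute d₂ d₃) (E CL K : Subgroup G) (hE : E = Subgroup.closure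 ({d₁ * d₂, d₁ * d₃} : Set G)) (hCL : CL = L ⊓ Subgroup.centralizer ({d₁ * d₂ * d₃} : Set G)) (hK : K = (Cfsg.generalizedFittingSubgroup ↥CL).map CL.subtype) : Cfsg.IsQuasisimple ↥K ∧ (Subgroup.center ↥K).map K.subtype = E ∧ K = L ⊓ Subgroup.centralizer (E : Set G) ∧ (∃ (_ : (E.subgroupOf K).Normal) (F : Type) (_ : Field F) (_ : Fintype F), Fintype.card F = 4 ∧ Nonempty (↥K ⧸ E.subgroupOf K ≃* Cfsg.PSU 6 F 2)) ∧ ∃ _ : (K.subgroupOf CL).Normal, Nonempty (↥CL ⧸ K.subgroupOf CL ≃* Equiv.Perm (Fin 3)) ∧ E ≤ CL ∧ ∃ (_ : (E.subgroupOf CL).Normal) (F : Type) (_ : Field F) (_ : Fintype F), Fintype.card F = 4 ∧ Nonempty (↥CL ⧸ E.subgroupOf CL ≃* MulAut (Cfsg.PSU 6 F 2)) := by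
  subst hL
  have c := M22.cl_of_group hD
  have u : UF D := S5464.result hD hprim d₀ hd₀ h3 h2 (Or.inr h24)
  obtain ⟨τ₀, s₀, b₀⟩ := exists_base hD hprim h24
  have hj := mul_comm_mem hD hprim h24 h₁ h₂
  have hj' := mul_comm_mem hD hprim h24 h₁ h₃
  obtain ⟨τ', s', b', k22⟩ := sub23' hD hprim h24 h₁
  let a : ↥(commutator G ⊓ centralizer {d₁}) :=
    ⟨d₁ * d₂, hj, mem_cent1.2 ((Commute.refl _).mul_right c12)⟩
  let a' : ↥(commutator G ⊓ centralizer {d₁}) :=
    ⟨d₁ * d₃, hj', mem_cent1.2 ((Commute.refl _).mul_right c13)⟩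
  have e0 : ∀ x, d₁ * (d₁ * x) = x := fun x => by rw [← mul_assoc, c.sq h₁, one_mul]
  have ha : (a : G) * d₁ ∈ loc D d₁ := by
    rw [show (a : G) * d₁ = d₂ from (Commute.mul_left rfl c12.symm).eq.trans (e0 _)]
    exact ⟨h₂, h12.symm, c12⟩
  have ha' : (a' : G) * d₁ ∈ loc D d₁ := by
    rw [show (a' : G) * d₁ = d₃ from (Commute.mul_left rfl c13.symm).eq.trans (e0 _)]
    exact ⟨h₃, h13.symm, c13⟩
  have n1 : a ≠ a' := fun e => h23 (mul_left_cancel (congrArg Subtype.val e))
  have n2 : Commute a a' := Subtype.ext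
    ((Commute.mul_right rfl c13).mul_left (c12.symm.mul_right c23))
  obtain ⟨τ, s, b, ea, ea'⟩ := b'.wlog2 (F23.tr2 b') ha ha' n1 n2
  obtain ⟨μ, f⟩ := k22 a' ha'
  have : Fact (Nat.Prime 2) := ⟨Nat.prime_two⟩
  let _ := Fintype.ofFinite (GaloisField 2 2)
  have hF : Fintype.card (GaloisField 2 2) = 4 := by
    rw [← Nat.card_eq_fintype_card, GaloisField.card 2 2 (by norm_num)]; rfl
  obtain ⟨q⟩ := isoU6 f (c := a) ⟨ha, n1, n2.symm⟩ _ hF
  rw [show Subgroup.closure (loc (loc _ a') a) = _ from Eq.trans (congrArg _ (Set.ext fun y => by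
    simp only [loc, Set.mem_ofPred_eq, ← ea, ← ea']; tauto)) (F23.clca b)] at q
  obtain ⟨K', mK⟩ : ∃ K' : Subgroup G, ∀ x, x ∈ K' ↔
      x ∈ commutator G ∧ Commute d₁ x ∧ Commute d₂ x ∧ Commute d₃ x :=
    ⟨commutator G ⊓ centralizer {d₁, d₂, d₃}, fun x => by simp [mem_centralizer_iff, commute_iff_eq]⟩
  have mC : ∀ x, x ∈ CL ↔ x ∈ commutator G ∧ Commute (d₁ * d₂ * d₃) x := fun x => by
    rw [hCL, mem_inf, mem_cent1]
  have hK' : K' = (genW (sv s) F23.ccaW).map (Subgroup.subtype _) := by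
    rw [← (F23.cca b).1, Cen_top2, ← ea, ← ea']
    ext x
    rw [mK]
    constructor
    · refine fun h => ⟨⟨x, h.1, mem_cent1.2 h.2.1⟩, ?_, rfl⟩
      rintro _ (rfl | rfl)
      exacts [Subtype.ext (h.2.1.mul_left h.2.2.1), Subtype.ext (h.2.1.mul_left h.2.2.2)]
    · rintro ⟨k, hk, rfl⟩
      have := mem_cent1.1 k.2.2
      exact ⟨k.2.1, this, e0 d₂ ▸ this.mul_left (congrArg Subtype.val (hk a (by simp))),
        e0 d₃ ▸ this.mul_left (congrArg Subtype.val (hk a' (by simp)))⟩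
  let ι := ((genW (sv s) F23.ccaW).equivMapOfInjective _ (subtype_injective _)).trans
    (MulEquiv.subgroupCongr hK'.symm)
  have hZ : (center K').map K'.subtype = E := by
    rw [hK', cen_map (Z := Subgroup.closure {a, a'}) (by rw [centralizer_genW, F23.zcca b, genW2, ea, ea'])
      (by
        rw [← (F23.cca b).1, Cen_top2, ← ea, ← ea', closure_le]
        rintro _ (rfl | rfl) _ (rfl | rfl)
        exacts [rfl, n2.symm, n2, rfl]), MonoidHom.map_closure, Set.image_pair, hE]
    rfl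
  have hp : Group.IsPerfect K' :=
    have := F23.perfca b; Group.IsPerfect.ofSurjective (f := ι.toMonoidHom) ι.surjective
  let q' := (Classical.Congr.centerQuotCongr ι).symm.trans q
  have hq : IsQuasisimple K' := ⟨hp, have := simple_U6 _ hF; q'.isSimpleGroup⟩
  have hKC : K' ≤ CL := fun x hx => have := (mK x).1 hx
    (mC x).2 ⟨this.1, (this.2.1.mul_left this.2.2.1).mul_left this.2.2.2⟩
  have hi : Function.Injective ![d₁, d₂, d₃] := List.nodup_ofFn.1 (by simp [h12, h13, h23])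
  have hm : ∀ i j, Commute (![d₁, d₂, d₃] i) (![d₁, d₂, d₃] j) := by
    simp [Fin.forall_fin_succ, c12, c13, c23, c12.symm, c13.symm, c23.symm]
  obtain ⟨hn1, hn2, ⟨p⟩⟩ := perm_quot' (H := CL) ![d₁, d₂, d₃] hi (fun g hg => by
      simpa [Fin.forall_fin_succ, Fin.exists_fin_succ] using u.mem hD.2.1 [d₁, d₂, d₃] (by simp)
        (by simp [h12, h13, h23]) (by simp [h₁, h₂, h₃]) (by simpa [Fin.forall_fin_succ] using hm)
        (g := g) (by simpa [mul_assoc] using ((mC g).1 hg).2)) hKC (fun g hg => by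
      simp [mK, ((mC g).1 hg).1, Fin.forall_fin_succ, mul_inv_eq_iff_eq_mul, commute_iff_eq,
        eq_comm (a := g * _)])
    fun σ => by
      obtain ⟨g, hg, e⟩ := perm_mem hD hprim h24 (tr3 b₀) rfl ![d₁, d₂, d₃] hi
        (by simp [Fin.forall_fin_succ, h₁, h₂, h₃]) hm σ
      refine ⟨g, (mC g).2 ⟨hg, (mul_inv_eq_iff_eq_mul.1 ?_).symm⟩, e⟩
      have := (σ.ofFn_comp_perm ![d₁, d₂, d₃]).prod_eq' (List.pairwise_ofFn.2 fun _ _ _ => hm _ _)
      simp only [List.ofFn_succ, List.ofFn_zero, Function.comp, ← e] at this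
      simpa [mul_assoc] using this
  have hce : commutator G ⊓ centralizer (E : Set G) ≤ K' := fun g hg => by
    have k2 : Commute (d₁ * d₂) g := hg.2 _ (hE ▸ subset_closure (by simp))
    have k3 : Commute (d₁ * d₃) g := hg.2 _ (hE ▸ subset_closure (by simp))
    have h5 := u.mem hD.2.1 [d₁, d₂] (by simp) (by simpa using h12) (by simp [h₁, h₂])
      (by simp [c12, c12.symm]) (g := g) (by simpa using k2) d₁ (by simp)
    have h6 := u.mem hD.2.1 [d₁, d₃] (by simp) (by simpa using h13) (by simp [h₁, h₃])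
      (by simp [c13, c13.symm]) (g := g) (by simpa using k3) d₁ (by simp)
    have h7 : Commute d₁ g := (mul_inv_eq_iff_eq_mul.1 (show g * d₁ * g⁻¹ = d₁ by
      simp only [List.mem_cons, List.not_mem_nil, or_false] at h5 h6
      rcases h5 with h5 | h5
      · exact h5
      · exact h6.elim id fun h => absurd (h5.symm.trans h) h23)).symm
    exact (mK g).2 ⟨hg.1, h7, e0 d₂ ▸ h7.mul_left k2, e0 d₃ ▸ h7.mul_left k3⟩
  have hZ' := hZ.symm.trans (Comp2.map_center_subtype K')
  have hEK : E ≤ K' := hZ' ▸ inf_le_left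
  have hc' : CL ⊓ centralizer (K' : Set G) ≤ K' :=
    (inf_le_inf (hCL ▸ inf_le_left) (centralizer_le hEK)).trans hce
  obtain rfl : K = K' := hK.trans (fstar_qs hKC hq hc')
  have hz : E.subgroupOf K = center K := by
    rw [← hZ, subgroupOf, comap_map_eq_self_of_injective K.subtype_injective]
  have hn3 : (E.subgroupOf K).Normal := hz ▸ inferInstance
  have := center_normal hKC hZ
  refine ⟨hq, hZ, le_antisymm (le_inf (fun x hx => ((mK x).1 hx).1) (le_centralizer_iff.1
    (hZ' ▸ inf_le_right))) hce, ⟨hn3, _, _, _, hF,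
      ⟨(QuotientGroup.quotientMulEquivOfEq hz).trans q'⟩⟩, hn2, ⟨p⟩, hEK.trans hKC, this, _, _, _, hF,
    quot_aut hKC hp hc' hZ q' ?_⟩
  rw [hn1, S0815.result 2 1 le_rfl (q := 2) rfl hF 6 (by norm_num) (by norm_num), ← Nat.card_congr q'.toEquiv,
    card_eq_card_quotient_mul_card_subgroup (center K), ← hz, Core.card_subgroupOf_of_le hEK, mul_assoc]
  rfl

end Cfsg.Agent.S5466
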