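import Cfsg.Statements.S5467
import Mathlib
import Cfsg.Agent.Fischer.ZB
import Cfsg.Agent.Fischer.ZC
import Cfsg.Agent.S5464

set_option autoImplicit false
open Cfsg

namespace Cfsg.Agent.S5467

open Fischer _root_.Cfsg.Agent.Comp FiC FiC.F24 Subgroup

theorem blk {G : Type*} [Group G] {D : Set G} (u : UF D) (hD : ∀ g : G, ∀ d ∈ D, g * d * g⁻¹ ∈ D)
    {a b g : G} (ha : a ∈ D) (hb : b ∈ D) (hn : a ≠ b) (hc : Commute a b) (hg : Commute g (a * b)) :
    g * a * g⁻¹ = a ∨ g * a * g⁻¹ = b := by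
  simpa using u.mem hD [a, b] (by simp) (by simp [hn]) (by simp [ha, hb]) (by simp [hc, hc.symm])
    (by simpa using hg.symm) a (by simp)

theorem core_u43 : pCore 2 SchurG.U43.G = ⊥ := by
  have := SchurG.U43.simple
  have := SchurG.U43.card.1
  refine (IsSimpleGroup.eq_bot_or_eq_top_of_normal _ inferInstance).resolve_right fun h => ?_
  obtain ⟨n, hn⟩ := (Core.pCore_isPGroup (G := SchurG.U43.G) 2).exists_card_eq
  rw [h, card_top, SchurG.U43.card.2.1] at hn
  have h3 : 3 ∣ 2 ^ n := hn ▸ by norm_num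
  exact absurd (Nat.prime_three.dvd_of_dvd_pow h3) (by norm_num)

/-- Let G be a finite group with trivial centre generated by a conjugation-invariant set D of 3-transpositions on which it acts primitively, such that for some d in D the subgroup generated by the members of D other than d commuting with d has central largest normal 2- and 3-subgroups, and suppose G with D is of type M(24), and let L be the commutator subgroup of G. Let z be the product of four distinct pairwise commuting members of D (an involution of L) and C its centralizer in L. Then the generalized Fitting subgroup Q of C is extraspecial of order 2^13, and C has normal subgroups Q ≤ N ≤ M with N/Q of order 3, M/N isomorphic to the projective special unitary group of dimension 4 over the field with nine elements, and M of index 2 in C. -/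
theorem result {G : Type*} [Group G] [Finite G] {D : Set G} (hD : Cfsg.IsThreeTranspositionGroup D) (hprim : Cfsg.IsPrimitiveUnderConj D) (d₀ : G) (hd₀ : d₀ ∈ D) (h3 : Cfsg.pCore 3 ↥(Subgroup.closure {y : G | y ∈ D ∧ y ≠ d₀ ∧ Commute d₀ y}) ≤ Subgroup.center ↥(Subgroup.closure {y : G | y ∈ D ∧ y ≠ d₀ ∧ Commute d₀ y})) (h2 : Cfsg.pCore 2 ↥(Subgroup.closure {y : G | y ∈ D ∧ y ≠ d₀ ∧ Commute d₀ y}) ≤ Subgroup.center ↥(Subgroup.closure {y : G | y ∈ D ∧ y ≠ d₀ ∧ Commute d₀ y})) (h24 : Cfsg.IsOfTypeM24 G D) (L : Subgroup G) (hL : L = commutator G) (z : G) (l : List G) (hl : (l.Nodup ∧ l.length = 4 ∧ (∀ a ∈ l, a ∈ D) ∧ (∀ a ∈ l, ∀ b ∈ l, Commute a b) ∧ l.prod = z)) (C : Subgroup G) (hC : C = L ⊓ Subgroup.centralizer ({z} : Set G)) : ∃ (Q : Subgroup ↥C) (_ : Q.Normal), Cfsg.generalizedFittingSubgroup ↥C = Q ∧ Cfsg.IsExtraspecial 2 ↥Q ∧ Nat.card Q = 2 ^ 13 ∧ ∃ (N M : Subgroup ↥C) (_ : N.Normal) (_ : M.Normal), Q ≤ N ∧ N ≤ M ∧ Nat.card N = 3 * Nat.card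 Q ∧ (∃ (K : Type) (_ : Field K) (_ : Fintype K), Fintype.card K = 9 ∧ Nonempty (↥M ⧸ N.subgroupOf M ≃* Cfsg.PSU 4 K 3)) ∧ M.index = 2 := by
  obtain ⟨τ₀, s₀, b₀⟩ := exists_base hD hprim h24
  obtain ⟨l1, l2, l3, l4, rfl⟩ := hl
  obtain ⟨τ, s, b, rfl⟩ := b₀.wlogU (tr4 b₀) l l1 l2 l3 l4
  have u : UF D := S5464.result hD hprim d₀ hd₀ h3 h2 (Or.inr h24)
  have k := cl b
  have ez := prod_map_conj s 1 [[nat_lit 12], [nat_lit 8], [nat_lit 4], [nat_lit 0]]
  simp only [one_mul, inv_one, mul_one] at ez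
  have zL : E s [nat_lit 12, nat_lit 8, nat_lit 4, nat_lit 0] ∈ commutator G := by
    simp only [List.map, List.forall_mem_cons, List.prod_cons, List.prod_nil, mul_one] at ez l3
    rw [← mul_assoc] at ez
    exact ez ▸ mul_mem (mul_comm_mem hD hprim h24 l3.1 l3.2.1)
      (mul_comm_mem hD hprim h24 l3.2.2.1 l3.2.2.2.1)
  replace hC : C = commutator G ⊓ centralizer {E s [nat_lit 12, nat_lit 8, nat_lit 4, nat_lit 0]} :=
    hC.trans (by rw [hL]; exact congrArg (fun x => commutator G ⊓ centralizer {x}) ez)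
  have c0 := zac0 b u
  have q := @zaq _ _ _ _ _ _ b
  have o := (pt4 b).1
  have e0 := (zaM b) (ev_mem_genW List.mem_cons_self)
  rw [CU, Cen_top1] at c0
  generalize E s [nat_lit 12, nat_lit 8, nat_lit 4, nat_lit 0] = z at zL hC c0 q o e0
  subst hC
  have cz : Nat.card (zpowers z) = 2 := (Nat.card_zpowers z).trans o
  have : ((zpowers z).subgroupOf (centralizer {z})).Normal :=
    normal_subgroupOf_of_le_normalizer (cent_zpowers z ▸ centralizer_le_normalizer _)
  let φ := QuotientGroup.mk' ((zpowers z).subgroupOf (centralizer {z}))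
  have hφ : Function.Surjective φ := QuotientGroup.mk'_surjective _
  have hk : ∀ g, φ g = 1 ↔ (g : G) ∈ zpowers z := fun g => QuotientGroup.eq_one_iff g
  obtain ⟨τ', s', b'⟩ := q φ hφ hk
  let ψ := φ.comp (inclusion (inf_le_right : commutator G ⊓ centralizer {z} ≤ _))
  have zA : z ∈ centralizer {z} := mem_cent1.2 (Commute.refl z)
  have m : ∀ a, φ a ∈ ψ.range ↔ (a : G) ∈ commutator G := fun a => ⟨fun ⟨c, e⟩ => by
    simpa using mul_mem c.2.1 (zpowers_le.2 zL ((hk ((inclusion inf_le_right c)⁻¹ * a)).1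
      (by rw [map_mul, map_inv, ← e]; exact inv_mul_cancel _))), fun h => ⟨⟨a, h, a.2⟩, rfl⟩⟩
  have t := sub23 hD hprim h24 (b.tp_mem [nat_lit 0] (by decide +kernel))
  obtain ⟨Q, N, M, _, _, q1, q2, q3, q4, q5, q6, q7, ⟨x, q8, q9⟩, ⟨e⟩, _, ⟨a, ha, rfl⟩, _, ⟨c, hc, rfl⟩, _,
      ⟨d, hd, rfl⟩, n1, n2, n3, r1, r2, r3⟩ := zH b' (by
    have := card_eq_card_quotient_mul_card_subgroup ((zpowers z).subgroupOf (centralizer {z}))
    rw [Core.card_subgroupOf_of_le (zpowers_le.2 zA), cz] at this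
    omega) (L := ψ.range) (index_eq_two_iff.2 ⟨φ ⟨_, e0⟩, fun y => by
      obtain ⟨y, rfl⟩ := hφ y
      rw [← map_mul, m, m]
      exact (t.2.2 y).elim (fun h => Or.inr ⟨h, fun h' => t.2.1 ((mul_mem_cancel_left h).1 h')⟩)
        fun h => Or.inl ⟨h, fun h' => t.2.1 ((mul_mem_cancel_left h').1 h)⟩⟩) (by
      rintro _ ⟨a, ha, rfl⟩ h
      exact (sub23 hD hprim h24 ha.1).2.1 ((m a).1 h))
  have kk : ψ.ker = (zpowers z).subgroupOf _ := Subgroup.ext fun g => hk _
  have cm : ∀ y : centralizer {z}, (y : G) ∈ D → φ a ≠ φ y → φ a * φ y ∈ Q → Commute (a : G) y :=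
    fun y hy n r => by
    rcases k.tt.2 _ ha.1 _ hy with h | h
    · rwa [sq, mul_eq_one_iff_eq_inv, mul_inv_rev, k.inv ha.1, k.inv hy] at h
    · have h1 : (φ a * φ y) ^ 3 = 1 := by
        rw [← map_mul, ← map_pow, show (a * y) ^ 3 = 1 from Subtype.ext h, map_one]
      rw [pow_succ, q4.2 _ r, one_mul, mul_eq_one_iff_eq_inv, ← map_inv,
        show y⁻¹ = y from Subtype.ext (k.inv hy)] at h1
      exact absurd h1 n
  obtain ⟨Q', i1, i2, i3, i4, N', M', i5, i6, i7, i8, i9, ⟨e'⟩, i10⟩ := z_asm ψ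
    (by rw [kk, Core.card_subgroupOf_of_le (zpowers_le.2 (mem_inf.2 ⟨zL, zA⟩)), cz])
    (fun g hg => mem_center_iff.2 fun y => Subtype.ext
      ((cent_zpowers z).ge y.2.2 _ (kk.le hg)).symm) q1 q2 q3 q4 q5 q6 q7 q8 q9 e core_u43
    fun g hg => cen_one φ hφ (Q := Q) (a := a) (fun g hg => by
      have h1 := blk u b.conj_mem ha.1 hc.1 (fun h => n1 (congrArg φ (Subtype.ext h))) (cm c hc.1 n1 r1)
        ((hg (a * c) (by rwa [map_mul])).map (Subgroup.subtype _))
      have h2 := blk u b.conj_mem ha.1 hd.1 (fun h => n2 (congrArg φ (Subtype.ext h))) (cm d hd.1 n2 r2)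
        ((hg (a * d) (by rwa [map_mul])).map (Subgroup.subtype _))
      exact Subtype.ext (mul_inv_eq_iff_eq_mul.1 (h1.elim id fun h1 => h2.elim id fun h2 =>
        absurd (congrArg φ (Subtype.ext (h1.symm.trans h2))) n3))) r3 fun y hy => Subtype.ext
      (congrArg Subtype.val (hg ⟨y, (m y).1 (q3 (q2 (q1 hy))), y.2⟩ hy)).symm
  obtain ⟨e''⟩ := SchurG.U43.exists_iso _ card_K9
  exact ⟨Q', i1, i2, i3, i4, N', M', i5, i6, i7, i8, i9, ⟨_, _, _, card_K9, ⟨e'.trans e''⟩⟩, i10⟩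

end Cfsg.Agent.S5467
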