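import Mathlib
import Cfsg.Statements.S5468
import Cfsg.Agent.FiC.F23.T
import Cfsg.Agent.FiC.Loc2
import Cfsg.Agent.S0283
import Cfsg.Agent.S5399

set_option autoImplicit false
open scoped Pointwise commutatorElement
open Cfsg

namespace Cfsg.Agent.S5468

open Cfsg.Agent.Comp Cfsg.Agent.FiC Cfsg.Agent.FiC.F23 Cfsg.Agent.Fischer Subgroup
set_option linter.unusedVariables false

/-- Let G be a finite group with trivial centre generated by a conjugation-invariant set D of 3-transpositions on which it acts primitively, such that for some d in D the subgroup generated by the members of D other than d commuting with d has central largest normal 2- and 3-subgroups, and suppose G with D is of type M(23). Let d₁, d₂ be distinct commuting members of D, j = d₁ d₂, K the joint centralizer of d₁ and d₂ and C the centralizer of j. Then K has index 2 in C, the centre of K is the subgroup generated by d₁ and d₂, K is quasisimple with K modulo its centre isomorphic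 to the projective special unitary group of dimension 6 over the field with four elements, and C modulo the subgroup generated by d₁ and d₂ has trivial centre (so it is that unitary group extended by an outer involution). -/
theorem result {G : Type*} [Group G] [Finite G] {D : Set G} (hD : Cfsg.IsThreeTranspositionGroup D) (hprim : Cfsg.IsPrimitiveUnderConj D) (d₀ : G) (hd₀ : d₀ ∈ D) (h3 : Cfsg.pCore 3 ↥(Subgroup.closure {y : G | y ∈ D ∧ y ≠ d₀ ∧ Commute d₀ y}) ≤ Subgroup.center ↥(Subgroup.closure {y : G | y ∈ D ∧ y ≠ d₀ ∧ Commute d₀ y})) (h2 : Cfsg.pCore 2 ↥(Subgroup.closure {y : G | y ∈ D ∧ y ≠ d₀ ∧ Commute d₀ y}) ≤ Subgroup.center ↥(Subgroup.closure {y : G | y ∈ D ∧ y ≠ d₀ ∧ Commute d₀ y})) (h23 : Cfsg.IsOfTypeM23 G D) (d₁ d₂ : G) (h₁ : d₁ ∈ D) (h₂ : d₂ ∈ D) (hne : d₁ ≠ d₂) (hc : Commute d₁ d₂) (K C V : Subgroup G) (hK : K = Subgroup.centralizer ({d₁, d₂} : Set G)) (hC : C = Subgroup.centralizer ({d₁ * d₂} : Set G)) (hV : V = Subgroup.closure ({d₁,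 d₂} : Set G)) [hn : (V.subgroupOf C).Normal] : K ≤ C ∧ (K.subgroupOf C).index = 2 ∧ (Subgroup.center ↥K).map K.subtype = V ∧ Cfsg.IsQuasisimple ↥K ∧ (∃ (F : Type) (_ : Field F) (_ : Fintype F), Fintype.card F = 4 ∧ Nonempty (↥K ⧸ Subgroup.center ↥K ≃* Cfsg.PSU 6 F 2)) ∧ Subgroup.center (↥C ⧸ V.subgroupOf C) = ⊥ := by
  obtain ⟨τ₀, s₀, b₀⟩ := exists_base hD h23
  obtain ⟨τ, s, b, rfl, rfl⟩ := b₀.wlog2 (tr2 b₀) h₁ h₂ hne hc
  have cl := M22.cl_of_group hD
  have e : E s [nat_lit 0] * E s [nat_lit 20] = E s [nat_lit 0, nat_lit 20] := by simp [E]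
  have hK' : K = genW (sv s) ccaW := by rw [hK, ← Cen_top2, (cca b).1]
  have hC' : C = genW (sv s) c2bW := by rw [hC, e, ← Cen_top1, (c2b b).1]
  have hKC : K ≤ C := fun g hg => by
    rw [hK] at hg
    rw [hC, mem_cent1]
    exact Commute.mul_left (hg _ (by simp)) (hg _ (by simp))
  have hZ : centralizer (K : Set G) = V := by rw [hK', centralizer_genW, zcca b, genW2, hV]
  have hVK : V ≤ K := by
    rw [hV, hK, closure_le]
    rintro x (rfl | rfl) y (rfl | rfl)
    exacts [rfl, hc.symm, hc, rfl]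
  have hz : center K = V.subgroupOf K := by
    rw [hK', hV, ← genW2]; exact center_eq (zcca b)
  have hU : ∃ (F : Type) (_ : Field F) (_ : Fintype F), Fintype.card F = 4 ∧
      Nonempty (K ⧸ center K ≃* PSU 6 F 2) := by
    obtain ⟨-, d, hd, -, -, -, ⟨-, x, hx, y, hy, hxy, ⟨F, _, _, hF, ⟨f⟩⟩, -⟩, -⟩ := h23
    have hn : nc (loc D d) = loc D d := nc_loc cl hd (by
      obtain ⟨τ', s', b', rfl⟩ := b.wlog1 (tr1 b) hd
      rw [loc, cla b', centralizer_genW, zca b', genW1])
    obtain ⟨x', hx', -, -, -, ⟨f'⟩, -⟩ := loc_qim (cl.loc d) hn hx hy hxy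
    obtain ⟨g, hg⟩ := tr2 b [x', d] (by simpa using hx'.2.1) rfl (by simp [hd, hx'.1])
      (by simp [hx'.2.2, hx'.2.2.symm])
    simp only [List.map, List.cons.injEq, and_true] at hg
    obtain ⟨rfl, rfl⟩ := hg
    obtain ⟨f''⟩ := closure_conj_iso g (T := loc (loc D (g * E s [nat_lit 20] * g⁻¹))
      (g * E s [nat_lit 0] * g⁻¹)) (S := {y : G | y ∈ D ∧ Commute (E s [nat_lit 0]) y ∧
        Commute (E s [nat_lit 20]) y ∧ y ≠ E s [nat_lit 0] ∧ y ≠ E s [nat_lit 20]}) fun y => by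
      have : g * y * g⁻¹ ∈ D ↔ y ∈ D :=
        ⟨fun h => by simpa [mul_assoc] using hD.2.1 g⁻¹ _ h, hD.2.1 g y⟩
      simp only [loc, Set.mem_ofPred_eq, commute_conj, this, ne_eq, mul_left_inj, mul_right_inj]
      tauto
    rw [clca b, ← hK'] at f''
    exact ⟨F, _, _, hF, ⟨((Classical.Congr.centerQuotCongr f'').trans f').trans f⟩⟩
  refine ⟨hKC, index_eq_of_card hKC (hK' ▸ (cca b).2) (hC' ▸ (c2b b).2), map_center_eq hz hVK,
    ⟨hK' ▸ perfca b, ?_⟩, hU, eq_bot_iff.2 fun x hx => ?_⟩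
  · obtain ⟨F, _, _, hF, ⟨f⟩⟩ := hU
    have := S0283.result (q := 2) hF 6 (by norm_num) (by norm_num)
    exact f.isSimpleGroup
  · obtain ⟨g, rfl⟩ := QuotientGroup.mk_surjective x
    have hu := (S5399.result hD hprim d₀ hd₀ h3 h2 h23).2.2
    rw [mem_bot, QuotientGroup.eq_one_iff, mem_subgroupOf, ← hZ, hK', ← clca b, centralizer_closure]
    rintro y ⟨y1, y2, y3, y4, y5⟩
    generalize E s [nat_lit 0] = a, E s [nat_lit 20] = z at *
    have hy : y ∈ C := hKC (by rw [hK]; rintro _ (rfl | rfl); exacts [y2, y3])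
    have h4 := mem_center_iff.1 hx (QuotientGroup.mk ⟨y, hy⟩)
    rw [← QuotientGroup.mk_mul, ← QuotientGroup.mk_mul, QuotientGroup.eq, mem_subgroupOf, hV] at h4
    have h5 : ∀ v : G, (y * g)⁻¹ * (g * y) = v → (g : G)⁻¹ * y * g⁻¹⁻¹ = v * y := fun v h => by
      rw [← h, mul_inv_rev, inv_eq_of_mul_eq_one_left (cl.sq y1)]
      simp [mul_assoc, cl.sq y1]
    have h6 : ∀ (m : ℕ) (l : List G), 1 ≤ m → m ≤ 3 → l.Nodup → l.length = m → (∀ a ∈ l, a ∈ D) →
        (∀ a ∈ l, ∀ b ∈ l, Commute a b) → l.prod = (g : G)⁻¹ * y * g⁻¹⁻¹ → 1 = m :=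
      fun m l a1 a2 a3 a4 a5 a6 a7 => hu 1 m _ le_rfl (by norm_num) a1 a2
        ⟨[_], by simp, rfl, by simpa using hD.2.1 g⁻¹ y y1, by simp, List.prod_singleton⟩
        ⟨l, a3, a4, a5, a6, a7⟩
    rcases mem_klein (cl.sq h₁) (cl.sq h₂) hc h4 with h | h | h | h
    · exact inv_mul_eq_one.1 h
    · exact absurd (h6 2 [a, y] (by norm_num) (by norm_num) (by simpa using y4.symm) rfl
        (by simp [h₁, y1]) (by simp [y2, y2.symm]) (by simpa using (h5 _ h).symm)) (by norm_num)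
    · exact absurd (h6 2 [z, y] (by norm_num) (by norm_num) (by simpa using y5.symm) rfl
        (by simp [h₂, y1]) (by simp [y3, y3.symm]) (by simpa using (h5 _ h).symm)) (by norm_num)
    · exact absurd (h6 3 [a, z, y] (by norm_num) (by norm_num) (by simp [hne, y4.symm, y5.symm]) rfl
        (by simp [h₁, h₂, y1]) (by simp [y2, y2.symm, y3, y3.symm, hc, hc.symm])
        (by simpa [mul_assoc] using (h5 _ h).symm)) (by norm_num)

end Cfsg.Agent.S5468
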