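import Cfsg.Statements.S5469
import Mathlib
import Cfsg.Agent.Fischer.C22

set_option autoImplicit false
open Cfsg

namespace Cfsg.Agent.S5469

open Fischer Comp FiC FiC.F22 Subgroup

/-- Let G be a finite group with trivial centre generated by a conjugation-invariant set D of 3-transpositions on which it acts primitively, such that for some d in D the subgroup generated by the members of D other than d commuting with d has central largest normal 2- and 3-subgroups, and suppose G with D is of type M(22). Let d₁, d₂ be distinct commuting members of D, j = d₁ d₂, K the joint centralizer of d₁ and d₂, C the centralizer of j and V the subgroup generated by d₁ and d₂. Then K has index 2 in C, V is the centre of K, and C has a normal subgroup E containing V with E/V elementary abelian of order 2^8 and C/E isomorphic to the full automorphism group of the projective special unitary group of dimension 4 over the field with four elements. -/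
theorem result {G : Type*} [Group G] [Finite G] {D : Set G} (hD : Cfsg.IsThreeTranspositionGroup D) (hprim : Cfsg.IsPrimitiveUnderConj D) (d₀ : G) (hd₀ : d₀ ∈ D) (h3 : Cfsg.pCore 3 ↥(Subgroup.closure {y : G | y ∈ D ∧ y ≠ d₀ ∧ Commute d₀ y}) ≤ Subgroup.center ↥(Subgroup.closure {y : G | y ∈ D ∧ y ≠ d₀ ∧ Commute d₀ y})) (h2 : Cfsg.pCore 2 ↥(Subgroup.closure {y : G | y ∈ D ∧ y ≠ d₀ ∧ Commute d₀ y}) ≤ Subgroup.center ↥(Subgroup.closure {y : G | y ∈ D ∧ y ≠ d₀ ∧ Commute d₀ y})) (h22 : Cfsg.IsOfTypeM22 G D) (d₁ d₂ : G) (h₁ : d₁ ∈ D) (h₂ : d₂ ∈ D) (hne : d₁ ≠ d₂) (hc : Commute d₁ d₂) (K C V : Subgroup G) (hK : K = Subgroup.centralizer ({d₁, d₂} : Set G)) (hC : C = Subgroup.centralizer ({d₁ * d₂} : Set G)) (hV : V = Subgroup.closure ({d₁, d₂} : Set G)) : K ≤ C ∧ (K.subgroupOf C).index = 2 ∧ (Subgroup.center ↥K).map K.subtype = V ∧ ∃ E : Subgroup G, V ≤ E ∧ E ≤ C ∧ (∀ c ∈ C, ∀ x ∈ E, c * x * c⁻¹ ∈ E) ∧ Nat.card E = 2 ^ 10 ∧ (∀ x ∈ E, ∀ y ∈ E, x * y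 * x⁻¹ * y⁻¹ ∈ V ∧ x ^ 2 ∈ V) ∧ ∃ (_ : (E.subgroupOf C).Normal) (F : Type) (_ : Field F) (_ : Fintype F), Fintype.card F = 4 ∧ Nonempty (↥C ⧸ E.subgroupOf C ≃* MulAut (Cfsg.PSU 4 F 2)) := by
  obtain ⟨τ₀, s₀, b₀⟩ := exists_base hD h22
  obtain ⟨τ, s, b, rfl, rfl⟩ := b₀.wlog2 (tr2 b₀) h₁ h₂ hne hc
  have e : E s [nat_lit 4] * E s [nat_lit 0] = E s [nat_lit 4, nat_lit 0] := by simp [E]
  have hC' : C = genW (sv s) (qU ++ qV) := by rw [hC, e, ← Cen_top1, (qC b).1]
  have hK' : K = genW (sv s) ccaW := by rw [hK, ← Cen_top2, (cca b).1]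
  have hV' : V = genW (sv s) [[nat_lit 4], [nat_lit 0]] := by rw [hV, genW2]
  have hKC : K ≤ C := fun g hg => by
    rw [hK] at hg
    rw [hC, mem_cent1]
    exact Commute.mul_left (hg _ (by simp)) (hg _ (by simp))
  have hQ : genW (sv s) qV ≤ C := by rw [hC', genW_append]; exact le_sup_right
  have hQK : genW (sv s) qV ≤ K := fun x hx => by
    rw [hK]
    rintro y (rfl | rfl) <;> exact (qcom b x hx _ (ev_mem_genW (by simp))).symm
  have hVK : V ≤ K := hV' ▸ (qZV b).trans hQK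
  have hn := hC' ▸ qnz b
  have hN : ((genW (sv s) qV).subgroupOf C).Normal := normal_subgroupOf_of_le_normalizer hn
  obtain ⟨f⟩ := qquot b hC' rfl
  obtain ⟨_, h4⟩ := card_gf4
  obtain ⟨g⟩ := o6_aut h4
  refine ⟨hKC, index_eq_of_card hKC (hK' ▸ (cca b).2) (hC' ▸ (qC b).2), le_antisymm ?_ fun x hx => ?_,
    _, hV' ▸ qZV b, hQ, fun c hc x hx => (mem_normalizer_iff.1 (hn hc) x).1 hx, qVcard b,
    hV' ▸ qcls b, hN, _, _, _, h4, ⟨f.trans g⟩⟩
  · rintro _ ⟨x, hx, rfl⟩
    rw [hV', ← (qZ b).1, ← centralizer_genW]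
    exact fun y hy => congrArg Subtype.val (mem_center_iff.1 hx ⟨y, hQK hy⟩)
  · refine ⟨⟨x, hVK hx⟩, mem_center_iff.2 fun y => Subtype.ext ?_, rfl⟩
    have : V ≤ centralizer (K : Set G) := by
      rw [hV, closure_le, hK]
      exact fun a ha y hy => (hy a ha).symm
    exact this hx y y.2

end Cfsg.Agent.S5469
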