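import Mathlib
import Cfsg.Statements.S5471
import Cfsg.Agent.FiC.F23.T
import Cfsg.Agent.FiC.Loc

set_option autoImplicit false
open scoped Pointwise commutatorElement
open Cfsg

namespace Cfsg.Agent.S5471

open Cfsg.Agent.Comp Cfsg.Agent.FiC Cfsg.Agent.FiC.F23
set_option linter.unusedVariables false

/-- Let G be a finite group with trivial centre generated by a conjugation-invariant set D of 3-transpositions on which it acts primitively, such that for some d in D the subgroup generated by the members of D other than d commuting with d has central largest normal 2- and 3-subgroups, and suppose G with D is of type M(23). Let d₁, d₂, d₃ be distinct pairwise commuting members of D and j their product. Then the joint centralizer of d₁, d₂, d₃ is normal in the centralizer of j with quotient isomorphic to the symmetric group of degree 3. -/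
theorem result {G : Type*} [Group G] [Finite G] {D : Set G} (hD : Cfsg.IsThreeTranspositionGroup D) (hprim : Cfsg.IsPrimitiveUnderConj D) (d₀ : G) (hd₀ : d₀ ∈ D) (h3 : Cfsg.pCore 3 ↥(Subgroup.closure {y : G | y ∈ D ∧ y ≠ d₀ ∧ Commute d₀ y}) ≤ Subgroup.center ↥(Subgroup.closure {y : G | y ∈ D ∧ y ≠ d₀ ∧ Commute d₀ y})) (h2 : Cfsg.pCore 2 ↥(Subgroup.closure {y : G | y ∈ D ∧ y ≠ d₀ ∧ Commute d₀ y}) ≤ Subgroup.center ↥(Subgroup.closure {y : G | y ∈ D ∧ y ≠ d₀ ∧ Commute d₀ y})) (h23 : Cfsg.IsOfTypeM23 G D) (d₁ d₂ d₃ : G) (h₁ : d₁ ∈ D) (h₂ : d₂ ∈ D) (h₃ : d₃ ∈ D) (h12 : d₁ ≠ d₂) (h13 : d₁ ≠ d₃) (h23 : d₂ ≠ d₃) (c12 : Commute d₁ d₂) (c13 : Commute d₁ d₃) (c23 : Commute d₂ d₃) (K C : Subgroup G) (hK : K = Subgroup.centralizer ({d₁, d₂, d₃} : Set G)) (hC : C = Subgroup.centralizer ({d₁ * d₂ * d₃} : Set G)) : K ≤ C ∧ ∃ _ : (K.subgroupOf C).Normal, Nonempty (↥C ⧸ K.subgroupOf C ≃* Equiv.Perm (Fin 3)) := by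
  obtain ⟨τ, s, b⟩ := exists_base hD ‹IsOfTypeM23 G D›
  obtain ⟨τ', s', b', rfl, rfl, rfl⟩ := b.wlog3 (tr3 b) h₁ h₂ h₃ h12 h13 h23 c12 c13 c23
  have e : E s' [nat_lit 4] * E s' [nat_lit 0] * E s' [nat_lit 20] =
      E s' [nat_lit 4, nat_lit 0, nat_lit 20] := by simp [E, mul_assoc]
  have h1 := ceca b'
  have h2 := c2c b'
  rw [e, ← Cen_top1, h2.1] at hC
  have hm : ∀ g, g ∈ K ↔ ∀ i, g * ![E s' [nat_lit 4], E s' [nat_lit 0], E s' [nat_lit 20]] i * g⁻¹ =
      ![E s' [nat_lit 4], E s' [nat_lit 0], E s' [nat_lit 20]] i := fun g => by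
    simp only [mul_inv_eq_iff_eq_mul]
    simp [hK, Subgroup.mem_centralizer_iff, Fin.forall_fin_succ, eq_comm]
  have hKC : K ≤ C := fun g hg => by
    rw [hC, ← h2.1, Cen_top1, mem_cent1, ← e]
    rw [hK] at hg
    exact (Commute.mul_left (hg _ (by simp)) (hg _ (by simp))).mul_left (hg _ (by simp))
  refine ⟨hKC, perm_quot ![E s' [nat_lit 4], E s' [nat_lit 0], E s' [nat_lit 20]] ?_
    (fun g hg i => ?_) hKC (fun g _ => hm g) ?_⟩
  · intro i j h
    fin_cases i <;> fin_cases j <;> simp_all [eq_comm]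
  · have := b'.x.inv_ps _ [[nat_lit 4], [nat_lit 0], [nat_lit 20]] (by decide +kernel) (hC ▸ hg)
      (![E s' [nat_lit 4], E s' [nat_lit 0], E s' [nat_lit 20]] i) (by fin_cases i <;> simp)
    simp only [List.map, List.mem_cons, List.not_mem_nil, or_false] at this
    rcases this with h | h | h
    exacts [⟨0, h⟩, ⟨1, h⟩, ⟨2, h⟩]
  · rw [hK, hC, ← Cen_top3, h1.1, h1.2, h2.2]
    decide

end Cfsg.Agent.S5471
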