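import Cfsg.Statements.S5514
import Mathlib
import Cfsg.Agent.Fischer.K7
import Cfsg.Agent.FiC.Glu3
import Cfsg.Agent.Fischer.O22

set_option autoImplicit false
open Cfsg

namespace Cfsg.Agent.S5514

open Fischer Comp FiC FiC.F22 Subgroup

/-- The commutator subgroup of the isometry group of a non-degenerate 7-dimensional quadratic form over the field with three elements, modulo its (trivial) centre — the simple group Ω(7, 3) — has exactly seven conjugacy classes of subgroups of order 3. -/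
theorem result : ∃ Y : Fin 7 → Subgroup (Cfsg.POmega (ZMod 3) (Cfsg.quadFormOdd 3 (ZMod 3))), (∀ i, Nat.card (Y i) = 3) ∧ (∀ i j, (∃ g : Cfsg.POmega (ZMod 3) (Cfsg.quadFormOdd 3 (ZMod 3)), (Y i).map (MulAut.conj g).toMonoidHom = Y j) → i = j) ∧ (∀ X : Subgroup (Cfsg.POmega (ZMod 3) (Cfsg.quadFormOdd 3 (ZMod 3))), Nat.card X = 3 → ∃ i, ∃ g : Cfsg.POmega (ZMod 3) (Cfsg.quadFormOdd 3 (ZMod 3)), X.map (MulAut.conj g).toMonoidHom = Y i) := by
  have := Fi22.card.1
  obtain ⟨τ, s, b, hs⟩ := base0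
  obtain ⟨s', x, h⟩ := k7up (k7part b)
  have e1 : genW (sv s) k7W = F22.K7 :=
    genW_double hs [[1], [2], [3], [4], [5], [6], [7], [8]] (by decide)
  have e2 := (genW_ext' h [[nat_lit 0], [nat_lit 2], [nat_lit 4], [nat_lit 6], [nat_lit 8], [nat_lit 10],
    [nat_lit 12], [nat_lit 14]] (by decide +kernel)).trans ((genW_vals _ _ _).trans e1)
  replace x := (e1.trans e2.symm) ▸ x
  have h0 := CU.top (s := s') ((congrArg (fun H : Subgroup _ => Nat.card H) e2).trans Fi22.cardK).le
  obtain ⟨α⟩ := F22.K7_iso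
  have e3 : (F22.K7.subtype.comp α.symm.toMonoidHom).range = F22.K7 := by
    rw [MonoidHom.range_comp, MonoidHom.range_eq_top.2 α.symm.surjective, ← MonoidHom.range_eq_map,
      range_subtype]
  obtain ⟨Y, h1, h2, h3⟩ := cls_sub Nat.prime_three k7cR (fun i => x.c.memE _) (k7o x h0) (k7n x h0)
    (k7c x h0 (by rw [e2, Fi22.cardK]; norm_num)) (F22.K7.subtype.comp α.symm.toMonoidHom)
    (F22.K7.subtype_injective.comp α.symm.injective)
    (e3.trans e2.symm) ⊤ ((MonoidHom.range_eq_map _).symm.trans (e3.trans e2.symm))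
  exact ⟨Y, fun i => (h1 i).2, h2, fun X => h3 X le_top⟩

end Cfsg.Agent.S5514
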