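import Cfsg.Statements.S5515
import Mathlib
import Cfsg.Agent.Fischer.QA
import Cfsg.Agent.Fischer.O24
import Cfsg.Agent.S2608

set_option autoImplicit false
open Cfsg

namespace Cfsg.Agent.S5515

open Fischer FiC Subgroup Equiv

theorem stab {H : Subgroup (Perm (Fin 4))} (h : Nat.card H = 6) :
    ∃ i : Fin 4, H = MulAction.stabilizer _ i := by
  have : Fact (Nat.Prime 3) := ⟨Nat.prime_three⟩
  obtain ⟨x, hx⟩ := exists_prime_orderOf_dvd_card' (G := H) 3 (by rw [h]; norm_num)
  have h1 : (zpowers x).Normal := normal_of_index_eq_two (by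
    have := (zpowers x).index_mul_card
    rw [Nat.card_zpowers, hx, h] at this
    omega)
  have h2 : (x : Perm (Fin 4)) ^ 3 = 1 := by rw [← coe_pow, ← hx, pow_orderOf_eq_one, coe_one]
  have h3 : (x : Perm (Fin 4)) ≠ 1 := fun e => by simp [show x = 1 from Subtype.ext e] at hx
  obtain ⟨i, hi⟩ := (by decide +kernel : ∀ x : Perm (Fin 4), x ^ 3 = 1 → ∃ i, x i = i) _ h2
  refine ⟨i, eq_of_le_of_card_ge (fun g hg => ?_) ?_⟩
  · obtain ⟨n, hn⟩ := mem_zpowers_iff.1 (h1.conj_mem x (mem_zpowers x) ⟨g, hg⟩⁻¹)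
    have h4 := congrArg (fun σ : H => (σ : Perm (Fin 4)) i) hn
    simp only [coe_zpow, Perm.zpow_apply_eq_self_of_apply_eq_self hi, coe_mul, coe_inv, inv_inv,
      Perm.mul_apply, Perm.eq_inv_iff_eq] at h4
    exact (by decide +kernel : ∀ x : Perm (Fin 4), x ^ 3 = 1 → x ≠ 1 → ∀ i j, x i = i → x j = j → j = i)
      _ h2 h3 _ _ hi h4.symm
  · have := (MulAction.stabilizer (Perm (Fin 4)) i).index_mul_card
    rw [MulAction.index_stabilizer_of_transitive, Nat.card_perm, Nat.card_fin] at this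
    rw [show Nat.factorial 4 = 24 from rfl] at this
    omega

theorem emb {G P : Type*} [Group G] [Finite G] [Group P] (hz : center P = ⊥)
    (π : Out P ≃* Perm (Fin 4)) (e : generalizedFittingSubgroup G ≃* P)
    [(generalizedFittingSubgroup G).Normal] (q : G ⧸ generalizedFittingSubgroup G ≃* Perm (Fin 3)) :
    ∃ i : Fin 4, Nonempty (G ≃* (MulAction.stabilizer (Perm (Fin 4)) i).comap
      (π.toMonoidHom.comp (QuotientGroup.mk' _))) := by
  have h1 : centralizer (generalizedFittingSubgroup G : Set G) = ⊥ := eq_bot_iff.2 fun g hg => by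
    have := (center_quot_bot e.symm hz).le (mem_center_iff.2 fun k : generalizedFittingSubgroup G =>
      Subtype.ext (hg k k.2) : (⟨g, Comp2.centralizer_genFitting_le hg⟩ : _) ∈ _)
    exact congrArg Subtype.val this
  let φ : G →* MulAut P := (MulAut.congr e).toMonoidHom.comp MulAut.conjNormal
  have h2 : Function.Injective φ := (MulAut.congr e).injective.comp (conjN_inj h1)
  have h3 : ∀ k : generalizedFittingSubgroup G, φ k = MulAut.conj (e k) := fun k => by
    ext x
    simp [φ, MulAut.congr, MulAut.conjNormal_val]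
  let ρ := π.toMonoidHom.comp (QuotientGroup.mk' (Inn P))
  have h4 : ρ.ker = Inn P := by
    rw [MonoidHom.ker_comp_of_injective _ _ π.injective, QuotientGroup.ker_mk']
  have h5 : (ρ.comp φ).ker = generalizedFittingSubgroup G := by
    ext g
    rw [← MonoidHom.comap_ker, h4, mem_comap]
    refine ⟨fun ⟨x, hx⟩ => ?_, fun hg => ⟨_, (h3 ⟨g, hg⟩).symm⟩⟩
    obtain ⟨k, rfl⟩ := e.surjective x
    exact h2 ((h3 k).trans hx) ▸ k.2
  obtain ⟨i, hi⟩ := stab (H := (ρ.comp φ).range) (by
    rw [← index_ker, h5, index_eq_card, Nat.card_congr q.toEquiv, Nat.card_perm, Nat.card_fin]; rfl)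
  refine ⟨i, ⟨(MonoidHom.ofInjective h2).trans (MulEquiv.subgroupCongr ?_)⟩⟩
  rw [← hi, MonoidHom.range_comp ρ, comap_map_eq_self]
  rw [h4]
  rintro _ ⟨x, rfl⟩
  exact ⟨_, (h3 (e.symm x)).trans (by simp)⟩

/-- Let G and G′ be finite groups whose generalized Fitting subgroups are isomorphic to PΩ⁺(8, 3) (the commutator subgroup of the isometry group of the hyperbolic quadratic form in dimension 8 over the field with three elements, modulo its centre) with quotients isomorphic to the symmetric group of degree 3. Then G and G′ are isomorphic. -/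
theorem result {G G' : Type*} [Group G] [Finite G] [Group G'] [Finite G'] (hF : Nonempty (↥(Cfsg.generalizedFittingSubgroup G) ≃* Cfsg.POmega (ZMod 3) (Cfsg.quadFormPlus 4 (ZMod 3)))) (hF' : Nonempty (↥(Cfsg.generalizedFittingSubgroup G') ≃* Cfsg.POmega (ZMod 3) (Cfsg.quadFormPlus 4 (ZMod 3)))) [hn : (Cfsg.generalizedFittingSubgroup G).Normal] [hn' : (Cfsg.generalizedFittingSubgroup G').Normal] (hq : Nonempty (G ⧸ Cfsg.generalizedFittingSubgroup G ≃* Equiv.Perm (Fin 3))) (hq' : Nonempty (G' ⧸ Cfsg.generalizedFittingSubgroup G' ≃* Equiv.Perm (Fin 3))) : Nonempty (G ≃* G') := by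
  have : Fact (Nat.Prime 3) := ⟨Nat.prime_three⟩
  have h := S2608.result (F := ZMod 3) (p := 3) (f := 1) (m := 4) le_rfl (by simp) (by norm_num) le_rfl
  rw [if_pos rfl] at h
  have : Unique (Multiplicative (ZMod 1)) := inferInstanceAs (Unique (Fin 1))
  let π := h.some.trans MulEquiv.prodUnique
  have := simple_O8
  have : Finite (POmega (ZMod 3) (quadFormPlus 4 (ZMod 3))) :=
    Nat.finite_of_card_ne_zero (by rw [card_O8]; norm_num)
  have hz := center_bot_of_simple (Q := POmega (ZMod 3) (quadFormPlus 4 (ZMod 3)))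
    (by rw [card_O8]; norm_num)
  obtain ⟨i, ⟨e⟩⟩ := emb hz π hF.some hq.some
  obtain ⟨j, ⟨e'⟩⟩ := emb hz π hF'.some hq'.some
  obtain ⟨a, ha⟩ := (π.surjective.comp (QuotientGroup.mk'_surjective _)) (swap i j)
  refine ⟨(e.trans (((MulAut.conj a).subgroupMap _).trans (MulEquiv.subgroupCongr ?_))).trans e'.symm⟩
  ext x
  refine mem_map_equiv.trans ?_
  simp only [Function.comp_apply, QuotientGroup.mk'_apply] at ha
  simp [ha, swap_apply_eq_iff]

end Cfsg.Agent.S5515
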