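import Cfsg.Statements.S5516
import Mathlib
import Cfsg.Agent.Fischer.O8D
import Cfsg.Agent.FiC.Glu3
import Cfsg.Agent.Fischer.O24
import Cfsg.Agent.S5515

set_option autoImplicit false
open Cfsg

namespace Cfsg.Agent.S5516

open Fischer Comp FiC FiC.F23 Subgroup

/-- PΩ⁺(8, 3) (the commutator subgroup of the isometry group of the hyperbolic quadratic form in dimension 8 over the field with three elements, modulo its centre) has exactly 13 conjugacy classes of subgroups of order 3; and a finite group G whose generalized Fitting subgroup L is isomorphic to PΩ⁺(8, 3) with G/L the symmetric group of degree 3 has exactly 7 orbits, under conjugation, on the subgroups of L of order 3. -/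
theorem result {G : Type*} [Group G] [Finite G] (L : Subgroup G) (hL : L = Cfsg.generalizedFittingSubgroup G) (hF : Nonempty (↥L ≃* Cfsg.POmega (ZMod 3) (Cfsg.quadFormPlus 4 (ZMod 3)))) [hn : L.Normal] (hq : Nonempty (G ⧸ L ≃* Equiv.Perm (Fin 3))) : (∃ Y : Fin 13 → Subgroup (Cfsg.POmega (ZMod 3) (Cfsg.quadFormPlus 4 (ZMod 3))), (∀ i, Nat.card (Y i) = 3) ∧ (∀ i j, (∃ g : Cfsg.POmega (ZMod 3) (Cfsg.quadFormPlus 4 (ZMod 3)), (Y i).map (MulAut.conj g).toMonoidHom = Y j) → i = j) ∧ (∀ X : Subgroup (Cfsg.POmega (ZMod 3) (Cfsg.quadFormPlus 4 (ZMod 3))), Nat.card X = 3 → ∃ i, ∃ g : Cfsg.POmega (ZMod 3) (Cfsg.quadFormPlus 4 (ZMod 3)), X.map (MulAut.conj g).toMonoidHom = Y i)) ∧ ∃ Y : Fin 7 → Subgroup G, (∀ i, Y i ≤ L ∧ Nat.card (Y i) = 3) ∧ (∀ i j, (∃ g : G, (Y i).map (MulAut.conj g).toMonoidHom = Y j) → i = j) ∧ ∀ X : Subgroup G, X ≤ L → Nat.card X = 3 → ∃ i, ∃ g : G, X.map (MulAut.conj g).toMonoidHom = Y i := by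
  have := Fi23.card.1
  obtain ⟨τ, s, b, hs⟩ := base0
  obtain ⟨s', x, h⟩ := o8up (o8part b)
  have e1 : genW (sv s) o8W = F23.LL := (o8gen b).trans (genW_double hs F23.WN (by decide +kernel))
  have e2 := (genW_ext' h [[nat_lit 0], [nat_lit 2], [nat_lit 4], [nat_lit 6], [nat_lit 8], [nat_lit 10],
    [nat_lit 12], [nat_lit 14], [nat_lit 16], [nat_lit 18]] (by decide +kernel)).trans
      ((genW_vals _ _ _).trans e1)
  replace x := (e1.trans e2.symm) ▸ x
  obtain ⟨σ, s1, ⟨β⟩, s2, s3, s4, -⟩ := F23.exists_LL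
  have h0 := CU.top (s := s') ((congrArg (fun H : Subgroup _ => Nat.card H) e2).trans s3).le
  have y := o8drop x
  have c1 : Nat.card (σ.ker.map F23.LL.subtype) = 4952179814400 := by
    rw [card_map_of_injective F23.LL.subtype_injective, Nat.card_congr β.toEquiv, card_O8]
  have e3 := eq_of_le_of_card_ge (K := σ.ker.map F23.LL.subtype) ((o8le x).trans (genW_le_iff.2 fun w hw => by
    obtain ⟨j, hj, j1, j2, rfl⟩ := (by decide +kernel : ∀ w ∈ [[nat_lit 2, nat_lit 4], [nat_lit 2, nat_lit 6],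
      [nat_lit 2, nat_lit 8], [nat_lit 2, nat_lit 10], [nat_lit 2, nat_lit 12], [nat_lit 2, nat_lit 14],
      [nat_lit 2, nat_lit 16], [nat_lit 2, nat_lit 18]], ∃ j ∈ [1, 2, 3, 4, 5, 6, 7, 8, 9], j < 10 ∧
        (ltB 10 [[2 * 1, 2 * j]] = true ∧ flat o8W [2 * 1, 2 * j] = [2 * 1, 2 * j]) ∧ w = [2 * 1, 2 * j]) w hw
    refine ⟨⟨_, F23.s_LL (j := 1) (by simp)⟩ * ⟨_, F23.s_LL hj⟩, ?_, ?_⟩
    · rw [SetLike.mem_coe, MonoidHom.mem_ker, map_mul, s4 _ (F23.s_O 1 (by simp)), s4 _ (F23.s_O j hj),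
        Equiv.swap_mul_self]
    · rw [h _ j2.1, E_vals, j2.2, E, ev_cons, ev_single, sv_two_mul, sv_two_mul, hs 1 (by norm_num), hs j j1]
      rfl)) (c1.trans_le (o8ge y))
  have hR := o8c y (by rw [e3, c1]; norm_num)
  have := simple_O8
  have := β.isSimpleGroup
  have hK : IsComponent σ.ker := ⟨Subgroup.Normal.isSubnormal inferInstance,
    Comp2.quasisimple_of_isSimpleGroup fun h => by
      have := center_bot_of_simple (Q := σ.ker) (by rw [Nat.card_congr β.toEquiv, card_O8]; norm_num)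
      refine top_ne_bot (α := Subgroup σ.ker) ((eq_top_iff.2 ?_).symm.trans this)
      exact fun x _ => mem_center_iff.2 fun y => h.is_comm.comm y x⟩
  have F0 : generalizedFittingSubgroup F23.LL = σ.ker := le_antisymm
    ((Comp2.genFitting_le_sup_centralizer hK).trans (by rw [s2]; simp))
    (Comp2.component_le_genFitting hK)
  subst hL
  obtain ⟨e⟩ := S5515.result hF ⟨(MulEquiv.subgroupCongr F0).trans β⟩ (hn' := F0 ▸ inferInstance) hq
    ⟨(QuotientGroup.quotientMulEquivOfEq F0).trans (QuotientGroup.quotientKerEquivOfSurjective σ s1)⟩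
  have e4 : ((F23.LL.subtype.comp σ.ker.subtype).comp β.symm.toMonoidHom).range =
      σ.ker.map F23.LL.subtype := by
    rw [MonoidHom.range_comp, MonoidHom.range_eq_top.2 β.symm.surjective, ← MonoidHom.range_eq_map,
      MonoidHom.range_comp, range_subtype]
  obtain ⟨Y, h1, h2, h3⟩ := cls_sub Nat.prime_three o8cR (fun i => y.c.memE _) (o8o y) (o8n y) hR
    ((F23.LL.subtype.comp σ.ker.subtype).comp β.symm.toMonoidHom)
    ((F23.LL.subtype_injective.comp σ.ker.subtype_injective).comp β.symm.injective)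
    (e4.trans e3.symm) ⊤ ((MonoidHom.range_eq_map _).symm.trans (e4.trans e3.symm))
  refine ⟨⟨Y, fun i => (h1 i).2, h2, fun X => h3 X le_top⟩,
    cls_sub Nat.prime_three o8R (fun i => ?_) (o8o' x h0) (o8n' x h0) (fun z hz h3 =>
      (hR z hz h3).trans ((genW_drop _ _ _).trans_le (x.c.genW_le _)) fun r hr =>
        E_drop s' 10 r ▸ o8f x h0 _ (List.mem_map_of_mem hr)) (F23.LL.subtype.comp e.toMonoidHom)
      (F23.LL.subtype_injective.comp e.injective) ?_ _ ?_⟩
  · rw [vals, (by decide +kernel : ∀ i : Fin o8R.length, nth [] o8R i = (nth [] o8cR i).map (2 * 10 + ·)) i,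
      ← E_drop]
    exact y.c.memE _
  · rw [e2, MonoidHom.range_comp, MonoidHom.range_eq_top.2 e.surjective, ← MonoidHom.range_eq_map,
      range_subtype]
  · rw [e3, ← F0, ← Comp2.genFitting_map_equiv e, map_map]

end Cfsg.Agent.S5516
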