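import Mathlib
import Cfsg.Statements.S5517
import Cfsg.Agent.Fischer.O22
import Cfsg.Agent.FiC.Pc

set_option autoImplicit false
open scoped Pointwise commutatorElement
open Cfsg

namespace Cfsg.Agent.S5517

open Fischer

/-- Let G be a finite group with trivial centre generated by a conjugation-invariant set D of 3-transpositions on which it acts primitively, such that for some d in D the subgroup generated by the members of D other than d commuting with d has central largest normal 2- and 3-subgroups, and suppose G with D is of type M(22). Then G has a subgroup L generated by the members of D it contains and isomorphic to Ω(7, 3) (the commutator subgroup of the isometry group of a non-degenerate 7-dimensional quadratic form over the field with three elements, modulo its centre), and every Sylow 3-subgroup of L is a Sylow 3-subgroup of G. -/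
theorem result {G : Type*} [Group G] [Finite G] {D : Set G} (hD : Cfsg.IsThreeTranspositionGroup D) (hprim : Cfsg.IsPrimitiveUnderConj D) (d₀ : G) (hd₀ : d₀ ∈ D) (h3 : Cfsg.pCore 3 ↥(Subgroup.closure {y : G | y ∈ D ∧ y ≠ d₀ ∧ Commute d₀ y}) ≤ Subgroup.center ↥(Subgroup.closure {y : G | y ∈ D ∧ y ≠ d₀ ∧ Commute d₀ y})) (h2 : Cfsg.pCore 2 ↥(Subgroup.closure {y : G | y ∈ D ∧ y ≠ d₀ ∧ Commute d₀ y}) ≤ Subgroup.center ↥(Subgroup.closure {y : G | y ∈ D ∧ y ≠ d₀ ∧ Commute d₀ y})) (h22 : Cfsg.IsOfTypeM22 G D) : ∃ L : Subgroup G, Cfsg.IsDSubgroup D L ∧ Nonempty (↥L ≃* Cfsg.POmega (ZMod 3) (Cfsg.quadFormOdd 3 (ZMod 3))) ∧ ∀ P : Sylow 3 ↥L, ∃ P' : Sylow 3 G, (P : Subgroup ↥L).map L.subtype = (P' : Subgroup G) := by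
  obtain ⟨e, he⟩ := M22.iso hD h22
  obtain ⟨β⟩ := F22.K7_iso
  let L := F22.K7.comap e.toMonoidHom
  have mp : L.map e.toMonoidHom = F22.K7 := Subgroup.map_comap_eq_self_of_surjective e.surjective _
  let γ := ((e.subgroupMap L).trans (MulEquiv.subgroupCongr mp)).trans β
  have : Fact (Nat.Prime 3) := ⟨Nat.prime_three⟩
  refine ⟨L, le_antisymm ((Subgroup.closure_le _).2 fun _ h => h.2) ?_, ⟨γ⟩, fun P => ?_⟩
  · rw [← Subgroup.map_le_map_iff_of_injective (f := e.toMonoidHom) e.injective, mp,
      MonoidHom.map_closure, ← F22.closure_I7]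
    refine Subgroup.closure_mono fun y hy => ?_
    have h := F22.closure_I7.le (Subgroup.subset_closure hy)
    obtain ⟨i, hi, rfl⟩ := hy
    obtain ⟨x, hx, e1⟩ := he.ge (F22.pm.tp_mem ((by decide +kernel : ∀ i ∈ F22.I7, i < 3510) i hi))
    exact ⟨x, ⟨hx, show e x ∈ F22.K7 from e1.symm ▸ h⟩, e1⟩
  · obtain ⟨S, h⟩ := FiC.exists_sylow (n := 9) (P.2.map L.subtype) (by
      rw [Subgroup.card_map_of_injective L.subtype_injective]
      exact Nat.le_of_dvd Nat.card_pos (P.pow_dvd_card_of_pow_dvd_card
        (by rw [Nat.card_congr γ.toEquiv, card_O7]; norm_num)))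
      (by rw [Nat.card_congr e.toEquiv, Comp.Fi22.card.2.1]; norm_num)
    exact ⟨S, h.symm⟩

end Cfsg.Agent.S5517
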