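import Cfsg.Statements.S5518
import Mathlib
import Cfsg.Agent.Fischer.P8c
import Cfsg.Agent.FiC.F24.P

set_option autoImplicit false
open Cfsg

namespace Cfsg.Agent.S5518

open Fischer Comp FiC FiC.F24 Subgroup

/-- Let G be a finite group with trivial centre generated by a conjugation-invariant set D of 3-transpositions on which it acts primitively, such that for some d in D the subgroup generated by the members of D other than d commuting with d has central largest normal 2- and 3-subgroups, and suppose G with D is of type M(24). Then any two subgroups of order 13 are conjugate; and there are members a, b, c, d of D generating the direct product T of two symmetric groups of degree 3 (a, d non-commuting; b, c non-commuting; b and c commuting with a and d) whose centralizer K is isomorphic to the Chevalley group G₂(3), such that for every subgroup B of K of order 13: the normalizer of B lies in the normalizer of K, the normalizer F of B in K is a Frobenius group of order 78 with kernel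 B (order 78, centralizer of B in it equal to B), and the subgroup generated by F and T has index 2 in the normalizer of B. -/
theorem result {G : Type*} [Group G] [Finite G] {D : Set G} (hD : Cfsg.IsThreeTranspositionGroup D) (hprim : Cfsg.IsPrimitiveUnderConj D) (d₀ : G) (hd₀ : d₀ ∈ D) (h3 : Cfsg.pCore 3 ↥(Subgroup.closure {y : G | y ∈ D ∧ y ≠ d₀ ∧ Commute d₀ y}) ≤ Subgroup.center ↥(Subgroup.closure {y : G | y ∈ D ∧ y ≠ d₀ ∧ Commute d₀ y})) (h2 : Cfsg.pCore 2 ↥(Subgroup.closure {y : G | y ∈ D ∧ y ≠ d₀ ∧ Commute d₀ y}) ≤ Subgroup.center ↥(Subgroup.closure {y : G | y ∈ D ∧ y ≠ d₀ ∧ Commute d₀ y})) (h24 : Cfsg.IsOfTypeM24 G D) : (∀ X Y : Subgroup G, Nat.card X = 13 → Nat.card Y = 13 → ∃ g : G, X.map (MulAut.conj g).toMonoidHom = Y) ∧ ∃ (a b c d : G) (T K : Subgroup G), (∀ x ∈ [a, b, c, d], x ∈ D) ∧ ¬ Commute a d ∧ ¬ Commute b c ∧ Commute a b ∧ Commute a c ∧ Commute d b ∧ Commute d c ∧ T = Subgroup.closure ({a, b, c, d} : Set G) ∧ K = Subgroup.centralizer (T : Set G) ∧ Nonempty (↥K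 ≃* ↥(Cfsg.Lie.chevG2.group (ZMod 3))) ∧ ∀ B : Subgroup G, B ≤ K → Nat.card B = 13 → Subgroup.normalizer ((B : Subgroup G) : Set G) ≤ Subgroup.normalizer ((K : Subgroup G) : Set G) ∧ Nat.card ↥(K ⊓ Subgroup.normalizer ((B : Subgroup G) : Set G)) = 78 ∧ K ⊓ Subgroup.centralizer ((B : Subgroup G) : Set G) = B ∧ (((K ⊓ Subgroup.normalizer ((B : Subgroup G) : Set G)) ⊔ T).subgroupOf (Subgroup.normalizer ((B : Subgroup G) : Set G))).index = 2 := by
  obtain ⟨τ₀, s₀, b₀⟩ := exists_base hD hprim h24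
  have cj := conj_of_card (k := 1) (p := 13) (by norm_num) b₀.card (by norm_num)
  refine ⟨fun X Y hX hY => cj X Y hX hY, ?_⟩
  obtain ⟨a, ha, d, hd, hn⟩ : ∃ a ∈ D, ∃ d ∈ D, ¬ Commute a d := by
    have h := b₀.clq_facts [[nat_lit 0]] (by decide +kernel) 1
    have h' := b₀.clq_facts [[nat_lit 2]] (by decide +kernel) 1
    exact ⟨E s₀ [nat_lit 0], by simpa using h.2.1, E s₀ [nat_lit 2], by simpa using h'.2.1,
      b₀.x.ncom _ _ (nat_lit 0) (by decide +kernel)⟩
  obtain ⟨τ, s, b⟩ := p8' hD hprim h24 ha hd hn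
  obtain ⟨x, y, z, h1, -, n2, -, -, -, c2, i2, h5⟩ := P8.g2 (SB.of b)
  simp only [List.forall_mem_cons] at h1
  obtain ⟨⟨x1, x2, x3⟩, -, ⟨z1, z2, z3⟩, -⟩ := h1
  have e : centralizer (closure ({a, x, z, d} : Set G) : Set G) = centralizer {a, d, x, z} := by
    rw [centralizer_closure]
    congr 1
    ext; simp only [Set.mem_insert_iff, Set.mem_singleton_iff]; tauto
  rw [← e] at i2 h5
  refine ⟨a, x, z, d, _, _, by simp [*], hn, n2, x2, z2, x3, z3, rfl, rfl, i2, fun B hB h13 => ?_⟩
  obtain ⟨h6, h7⟩ := h5 B hB h13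
  obtain ⟨w, w1, w2, rfl⟩ := exists_zpowers (by norm_num) h13
  obtain ⟨k1, k2, k3, j, k4, k5⟩ := two_s3 (cl b₀) b₀.conj_mem ha x1 z1 hd hn n2 x2 z2 x3 z3
    (by simpa using fx13 b₀ w w1 w2) rfl rfl (zpowers_le.1 hB) rfl
  refine ⟨k1, h6, h7, ?_⟩
  have k6 := sylow_index (k := 1) (p := 13) (by norm_num) h13 b₀.card (by norm_num)
  have k7 := (congrArg (· * _) (Nat.card_congr (subgroupOfEquivOfLe k2).toEquiv)).symm.trans
    (card_mul_index _)
  rw [k3, k5, h6] at k7
  rw [k5, h6] at k6
  interval_cases j <;> omega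

end Cfsg.Agent.S5518
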