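import Cfsg.Statements.S5519
import Mathlib
import Cfsg.Agent.Fischer.C22

set_option autoImplicit false
open Cfsg

namespace Cfsg.Agent.S5519

open Fischer Comp FiC FiC.F22 Subgroup

/-- Let G be a finite group with trivial centre generated by a conjugation-invariant set D of 3-transpositions on which it acts primitively, such that for some d in D the subgroup generated by the members of D other than d commuting with d has central largest normal 2- and 3-subgroups, and suppose G with D is of type M(22). Let d₁, d₂ be distinct commuting members of D and C the centralizer of their product. Then the generalized Fitting subgroup of C is the direct product of a group of order 2 and an extraspecial 2-group of order 2^9, and C modulo it is isomorphic to the full isometry group of the elliptic quadratic form in dimension 6 over the field with two elements. -/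
theorem result {G : Type*} [Group G] [Finite G] {D : Set G} (hD : Cfsg.IsThreeTranspositionGroup D) (hprim : Cfsg.IsPrimitiveUnderConj D) (d₀ : G) (hd₀ : d₀ ∈ D) (h3 : Cfsg.pCore 3 ↥(Subgroup.closure {y : G | y ∈ D ∧ y ≠ d₀ ∧ Commute d₀ y}) ≤ Subgroup.center ↥(Subgroup.closure {y : G | y ∈ D ∧ y ≠ d₀ ∧ Commute d₀ y})) (h2 : Cfsg.pCore 2 ↥(Subgroup.closure {y : G | y ∈ D ∧ y ≠ d₀ ∧ Commute d₀ y}) ≤ Subgroup.center ↥(Subgroup.closure {y : G | y ∈ D ∧ y ≠ d₀ ∧ Commute d₀ y})) (h22 : Cfsg.IsOfTypeM22 G D) (d₁ d₂ : G) (h₁ : d₁ ∈ D) (h₂ : d₂ ∈ D) (hne : d₁ ≠ d₂) (hc : Commute d₁ d₂) (C : Subgroup G) (hC : C = Subgroup.centralizer ({d₁ * d₂} : Set G)) [hn : (Cfsg.generalizedFittingSubgroup ↥C).Normal] : (∃ (E : Type) (_ : Group E) (_ : Finite E), Cfsg.IsExtraspecial 2 E ∧ Nat.card E = 2 ^ 9 ∧ Nonempty (↥(Cfsg.generalizedFittingSubgroup ↥C) ≃* Multiplicative (ZMod 2) × E)) ∧ Nonempty (↥C ⧸ Cfsg.generalizedFittingSubgroup ↥C ≃* Cfsg.isometryGroup (ZMod 2) (Cfsg.quadFormMinus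 2 (ZMod 2) 1 1)) := by
  obtain ⟨τ₀, s₀, b₀⟩ := exists_base hD h22
  obtain ⟨τ, s, b, rfl, rfl⟩ := b₀.wlog2 (tr2 b₀) h₁ h₂ hne hc
  have e : E s [nat_lit 4] * E s [nat_lit 0] = E s [nat_lit 4, nat_lit 0] := by simp [E]
  have hC' : C = genW (sv s) (qU ++ qV) := by rw [hC, e, ← Cen_top1, (qC b).1]
  have hQ : genW (sv s) qV ≤ C := by rw [hC', genW_append]; exact le_sup_right
  have hN : ((genW (sv s) qV).subgroupOf C).Normal :=
    normal_subgroupOf_of_le_normalizer (hC' ▸ qnz b)
  obtain ⟨f⟩ := qquot b hC' rfl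
  have hF := fstar_eq hQ ((qVpc b).pgrp two_pos)
    (by rw [centralizer_genW, (qZ b).1]; exact inf_le_right.trans (qZV b)) f o6_core
  obtain ⟨g⟩ := sub_iso hQ hF
  obtain ⟨k⟩ := prod_two (Q := genW (sv s) qV) (tt_sq hD.1 h₁)
    (qZV b (ev_mem_genW (by simp))) (qEV b)
    (fun x hx => (qcom b x (qEV b hx) _ (ev_mem_genW (by simp))).symm) (qn1 b)
    (by rw [qVcard b, qEcard b]; norm_num)
  let l := (Shrink.mulEquiv.{0} (α := genW (sv s) qE)).symm
  refine ⟨⟨_, inferInstance, Finite.of_equiv _ l.toEquiv, extra_congr (qES b).isExtraspecial l,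
    by rw [← Nat.card_congr l.toEquiv, qEcard b], ⟨g.trans (k.trans ((MulEquiv.refl _).prodCongr l))⟩⟩,
    quot_congr hF ⟨f.trans (Orth.toOG _).symm⟩⟩

end Cfsg.Agent.S5519
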