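import Cfsg.Statements.S5520
import Mathlib
import Cfsg.Agent.Fischer.UG
import Cfsg.Agent.S0279
import Cfsg.Agent.SchurG.U43.Iso

set_option autoImplicit false
open Cfsg

namespace Cfsg.Agent.S5520

open Fischer
open Subgroup Cfsg.Agent.FiC Cfsg.Agent.FiC.U62

theorem quo {H : Type*} [Group H] [Finite H] {K : Subgroup H} (h : center H ≤ K)
    (e : (center H).subgroupOf K = center K) :
    Nonempty (K ⧸ center K ≃* K.map (QuotientGroup.mk' (center H))) := by
  refine ⟨(QuotientGroup.quotientMulEquivOfEq ?_).trans (QuotientGroup.quotientKerEquivOfSurjective _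
    ((QuotientGroup.mk' (center H)).subgroupMap_surjective K))⟩
  ext x
  rw [← e, MonoidHom.mem_ker, Subtype.ext_iff]
  exact (QuotientGroup.eq_one_iff (N := center H) x.1).symm

theorem conj_map {H : Type*} [Group H] (N : Subgroup H) [N.Normal] (K : Subgroup H) (g : H) :
    (K.map (MulAut.conj g).toMonoidHom).map (QuotientGroup.mk' N) =
      (K.map (QuotientGroup.mk' N)).map (MulAut.conj (g : H ⧸ N)).toMonoidHom := by
  rw [map_map, map_map]
  rfl

/-- In the special unitary group of dimension 6 over the field with four elements (determinant-one matrices preserving the standard Hermitian form), the subgroups K whose centre has order 3 with K modulo its centre isomorphic to the projective special unitary group of dimension 4 over the field with nine elements fall into exactly three conjugacy classes. -/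
theorem result (F : Type) [Field F] [Fintype F] (hF : Fintype.card F = 4) (F9 : Type) [Field F9] [Fintype F9] (hF9 : Fintype.card F9 = 9) : ∃ K₁ K₂ K₃ : Subgroup ↥(Cfsg.SU 6 F 2), (∀ K ∈ [K₁, K₂, K₃], Nat.card ↥(Subgroup.center ↥K) = 3 ∧ Nonempty (↥K ⧸ Subgroup.center ↥K ≃* Cfsg.PSU 4 F9 3)) ∧ (¬ ∃ g : ↥(Cfsg.SU 6 F 2), K₁.map (MulAut.conj g).toMonoidHom = K₂) ∧ (¬ ∃ g : ↥(Cfsg.SU 6 F 2), K₁.map (MulAut.conj g).toMonoidHom = K₃) ∧ (¬ ∃ g : ↥(Cfsg.SU 6 F 2), K₂.map (MulAut.conj g).toMonoidHom = K₃) ∧ ∀ K : Subgroup ↥(Cfsg.SU 6 F 2), Nat.card ↥(Subgroup.center ↥K) = 3 → Nonempty (↥K ⧸ Subgroup.center ↥K ≃* Cfsg.PSU 4 F9 3) → ∃ g : ↥(Cfsg.SU 6 F 2), K.map (MulAut.conj g).toMonoidHom = K₁ ∨ K.map (MulAut.conj g).toMonoidHom = K₂ ∨ K.map (MulAut.conj g).toMonoidHom = K₃ := by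
  obtain ⟨τ, s, b⟩ := baseE
  obtain ⟨e⟩ := SchurG.U62.exists_iso F hF
  obtain ⟨e9⟩ := SchurG.U43.exists_iso F9 hF9
  have b' : Base _ _ _ e2 9196830720 := b.map e
  have hZ : Nat.card (center (SU 6 F 2)) = 3 := S0279.result (q := 2) hF 6 (by norm_num)
  have hs := SchurG.U43.simple
  set π := QuotientGroup.mk' (center (SU 6 F 2))
  have hπ : Function.Surjective π := QuotientGroup.mk'_surjective _
  have hle : ∀ X, center (SU 6 F 2) ≤ comap π X := fun X x hx => by
    rw [mem_comap, show π x = 1 from (QuotientGroup.eq_one_iff x).2 hx]; exact one_mem _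
  have h1 : ∀ i, Nat.card (center (comap π (KS (e ∘ s) i))) = 3 ∧
      Nonempty (comap π (KS (e ∘ s) i) ⧸ center (comap π (KS (e ∘ s) i)) ≃* PSU 4 F9 3) := by
    intro i
    obtain ⟨f⟩ := (ks b' i).1.2.2
    have hc : center (KS (e ∘ s) i) = ⊥ := by
      have : IsSimpleGroup (KS (e ∘ s) i) := f.isSimpleGroup
      refine (inferInstance : (center _).Normal).eq_bot_or_eq_top.resolve_right fun h => ?_
      let _ : CommGroup (KS (e ∘ s) i) := { (inferInstance : Group _) with
        mul_comm := fun x y => ((mem_center_iff.1 (h.ge (mem_top x))) y).symm }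
      have := CommGroup.is_simple_iff_prime_card.1 this
      rw [Nat.card_congr f.toEquiv, SchurG.U43.card.2.1] at this
      norm_num at this
    have h : (center (SU 6 F 2)).subgroupOf (comap π (KS (e ∘ s) i)) = center _ := by
      refine le_antisymm (fun x hx => mem_center_iff.2 fun y => Subtype.ext
        (mem_center_iff.1 hx y.1)) fun x hx => (QuotientGroup.eq_one_iff (N := center _) x.1).1 ?_
      have : (⟨π x, x.2⟩ : KS (e ∘ s) i) ∈ center _ := mem_center_iff.2 fun y => by
        obtain ⟨y', hy⟩ := hπ y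
        have := congrArg (fun z : comap π (KS (e ∘ s) i) => π z.1)
          (mem_center_iff.1 hx ⟨y', by rw [mem_comap, hy]; exact y.2⟩)
        simp only [coe_mul, map_mul, hy] at this
        exact Subtype.ext this
      rw [hc] at this
      exact congrArg Subtype.val this
    obtain ⟨f'⟩ := quo (hle _) h
    rw [map_comap_eq_self_of_surjective hπ] at f'
    exact ⟨by rw [← h, Nat.card_congr (subgroupOfEquivOfLe (hle _)).toEquiv, hZ],
      ⟨f'.trans (f.trans e9)⟩⟩
  have h2 : ∀ i j g, (comap π (KS (e ∘ s) i)).map (MulAut.conj g).toMonoidHom =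
      comap π (KS (e ∘ s) j) → (KS (e ∘ s) i).map (MulAut.conj (π g)).toMonoidHom = KS (e ∘ s) j :=
    fun i j g h => by
      have := conj_map (center _) (comap π (KS (e ∘ s) i)) g
      rwa [h, map_comap_eq_self_of_surjective hπ, map_comap_eq_self_of_surjective hπ, eq_comm] at this
  refine ⟨comap π (KS (e ∘ s) 0), comap π (KS (e ∘ s) 1), comap π (KS (e ∘ s) 2), ?_,
    fun ⟨g, h⟩ => (ncj b' _).1 (h2 _ _ g h), fun ⟨g, h⟩ => (ncj b' _).2.1 (h2 _ _ g h),
    fun ⟨g, h⟩ => (ncj b' _).2.2 (h2 _ _ g h), fun K h3 ⟨f⟩ => ?_⟩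
  · intro K hK
    simp only [List.mem_cons, List.not_mem_nil, or_false] at hK
    rcases hK with rfl | rfl | rfl <;> exact h1 _
  have hK : center (SU 6 F 2) ≤ K := by
    have : Fact (Nat.card (center (SU 6 F 2))).Prime := ⟨by rw [hZ]; norm_num⟩
    rcases (K.subgroupOf (center (SU 6 F 2))).eq_bot_or_eq_top_of_prime_card with h | h
    · have h4 : Function.Injective (π.comp K.subtype) := (injective_iff_map_eq_one _).2 fun x hx =>
        Subtype.ext (congrArg (Subtype.val (p := (· ∈ center (SU 6 F 2)))) (mem_bot.1 (h.le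
          (show (⟨x.1, (QuotientGroup.eq_one_iff x.1).1 hx⟩ :
            center (SU 6 F 2)) ∈ K.subgroupOf _ from x.2))))
      have h5 := card_dvd_of_injective _ h4
      rw [card_eq_card_quotient_mul_card_subgroup (center K), h3,
        Nat.card_congr (f.trans e9.symm).toEquiv, SchurG.U43.card.2.1] at h5
      exact absurd (b'.card ▸ h5 : _ ∣ 9196830720) (by norm_num)
    · exact subgroupOf_eq_top.1 h
  have h : (center (SU 6 F 2)).subgroupOf K = center K :=
    eq_of_le_of_card_ge (fun x hx => mem_center_iff.2 fun y => Subtype.ext (mem_center_iff.1 hx y.1))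
      (by rw [Nat.card_congr (subgroupOfEquivOfLe hK).toEquiv, hZ, h3])
  obtain ⟨f'⟩ := quo hK h
  obtain ⟨g, i, hg⟩ := cls b' (f'.symm.trans (f.trans e9.symm))
  obtain ⟨g, rfl⟩ := hπ g
  have h6 : K.map (MulAut.conj g).toMonoidHom = comap π (KS (e ∘ s) i) := by
    rw [← hg]
    erw [← conj_map]
    refine (comap_map_eq_self fun x hx => ?_).symm
    have hx' := (QuotientGroup.eq_one_iff x).1 hx
    exact ⟨x, hK hx', by simp [mem_center_iff.1 hx' g]⟩
  fin_cases i
  exacts [⟨g, .inl h6⟩, ⟨g, .inr (.inl h6)⟩, ⟨g, .inr (.inr h6)⟩]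

end Cfsg.Agent.S5520
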