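import Mathlib
import Cfsg.Statements.S5541
import Cfsg.Agent.Maj.Basic

set_option autoImplicit false
open Cfsg

namespace Cfsg.Agent.S5541

/-- Let ρ be a representation of a group H on a finite-dimensional real vector space U whose only ρ-invariant subspaces are the zero subspace and U, and suppose U carries a non-zero ρ-invariant symmetric bilinear form. Then the following are equivalent: (1) there is a non-zero ρ-equivariant commutative bilinear product on U of which every ρ-equivariant bilinear product is a scalar multiple; (2) there is a non-zero ρ-invariant trilinear form on U that is symmetric under all permutations of its arguments and of which every ρ-invariant trilinear form is a scalar multiple. -/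
theorem result {H : Type*} [Group H] {U : Type*} [AddCommGroup U] [Module ℝ U] [FiniteDimensional ℝ U] (ρ : Representation ℝ H U) (hirr : ∀ W : Submodule ℝ U, (∀ g : H, W.map (ρ g) ≤ W) → W = ⊥ ∨ W = ⊤) (B : LinearMap.BilinForm ℝ U) (hB0 : B ≠ 0) (hBs : ∀ u v, B u v = B v u) (hBi : ∀ (g : H) (u v : U), B (ρ g u) (ρ g v) = B u v) : (∃ m : U →ₗ[ℝ] U →ₗ[ℝ] U, m ≠ 0 ∧ (∀ u v, m u v = m v u) ∧ (∀ (g : H) (u v : U), m (ρ g u) (ρ g v) = ρ g (m u v)) ∧ ∀ m' : U →ₗ[ℝ] U →ₗ[ℝ] U, (∀ (g : H) (u v : U), m' (ρ g u) (ρ g v) = ρ g (m' u v)) → ∃ c : ℝ, m' = c • m) ↔ (∃ t : U →ₗ[ℝ] U →ₗ[ℝ] U →ₗ[ℝ] ℝ, t ≠ 0 ∧ (∀ u v w, t u v w = t v u w ∧ t u v w = t u w v) ∧ (∀ (g : H) (u v w : U), t (ρ g u) (ρ g v) (ρ g w) = t u v w) ∧ ∀ t' : U →ₗ[ℝ] U →ₗ[ℝ] U →ₗ[ℝ] ℝ, (∀ (g : H) (u v w : U), t' (ρ g u) (ρ g v) (ρ g w) = t' u v w) → ∃ c : ℝ, t' = c • t) := by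
  have inv : ∀ (g : H) (u : U), ρ g (ρ g⁻¹ u) = u := fun g u => by
    rw [← Module.End.mul_apply, ← map_mul]; simp
  have nd : B.Nondegenerate := by
    have : LinearMap.ker B = ⊥ := by
      refine (hirr _ fun g => ?_).resolve_right fun h => hB0 (LinearMap.ker_eq_top.1 h)
      rintro _ ⟨u, hu, rfl⟩
      ext v
      rw [← inv g v, hBi, show B u = 0 from hu]; rfl
    exact ⟨fun u hu => this.le (LinearMap.ext hu),
      fun u hu => this.le (LinearMap.ext fun v => (hBs _ _).trans (hu v))⟩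
  let E : (U →ₗ[ℝ] U →ₗ[ℝ] U) ≃ₗ[ℝ] (U →ₗ[ℝ] U →ₗ[ℝ] U →ₗ[ℝ] ℝ) :=
    LinearEquiv.congrRight (M := U) (LinearEquiv.congrRight (M := U) (B.toDual nd))
  have hE : ∀ m u v w, E m u v w = B (m u v) w := fun _ _ _ _ => rfl
  have key : ∀ m : U →ₗ[ℝ] U →ₗ[ℝ] U, (∀ (g : H) (u v : U), m (ρ g u) (ρ g v) = ρ g (m u v)) ↔
      ∀ (g : H) (u v w : U), E m (ρ g u) (ρ g v) (ρ g w) = E m u v w := fun m =>
    ⟨fun h g u v w => by rw [hE, hE, h, hBi], fun h g u v => sub_eq_zero.1 (nd.1 _ fun w => by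
      rw [map_sub, LinearMap.sub_apply, ← inv g w, hBi, ← hE, h, hE, sub_self])⟩
  constructor
  · rintro ⟨m, h0, h1, h2, h3⟩
    have h4 : ∀ t' : U →ₗ[ℝ] U →ₗ[ℝ] U →ₗ[ℝ] ℝ,
        (∀ (g : H) (u v w : U), t' (ρ g u) (ρ g v) (ρ g w) = t' u v w) → ∃ c : ℝ, t' = c • E m :=
      fun t' ht => by
        obtain ⟨m', rfl⟩ := E.surjective t'
        obtain ⟨c, rfl⟩ := h3 m' ((key m').2 ht)
        exact ⟨c, map_smul _ _ _⟩
    have h5 : ∀ u v w, E m u v w = E m v u w := fun u v w => by rw [hE, hE, h1]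
    refine ⟨E m, by simpa using h0, fun u v w => ⟨h5 u v w, ?_⟩, (key m).1 h2, h4⟩
    obtain ⟨c, hc⟩ := h4 (LinearMap.lflip.toLinearMap ∘ₗ E m) fun g u v w => (key m).1 h2 g u w v
    have h6 : ∀ u v w, E m u w v = c * E m u v w := fun u v w =>
      congrArg (fun t => t u v w) hc
    obtain ⟨x, y, z, h7⟩ : ∃ x y z, E m x y z ≠ 0 := by
      by_contra! h
      exact h0 (E.map_eq_zero_iff.1 (by ext; exact h _ _ _))
    have h8 : c * c = 1 := mul_right_cancel₀ h7 (by rw [mul_assoc, ← h6, ← h6, one_mul])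
    by_cases h10 : c = 1
    · rw [h6 u v w, h10, one_mul]
    · have h11 : c = -1 := (mul_self_eq_one_iff.1 h8).resolve_left h10
      subst h11
      exfalso
      apply h7
      linarith [h6 x y z, h5 x z y, h6 z y x, h5 z y x, h6 y x z, h5 x y z]
  · rintro ⟨t, h0, h1, h2, h3⟩
    obtain ⟨m, rfl⟩ := E.surjective t
    refine ⟨m, by simpa using h0, fun u v => sub_eq_zero.1 (nd.1 _ fun w => ?_), (key m).2 h2,
      fun m' hm => ?_⟩
    · rw [map_sub, LinearMap.sub_apply, ← hE, ← hE, (h1 u v w).1, sub_self]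
    · obtain ⟨c, hc⟩ := h3 _ ((key m').1 hm)
      exact ⟨c, E.injective (hc.trans (map_smul _ _ _).symm)⟩

end Cfsg.Agent.S5541
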