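import Mathlib
import Cfsg.Statements.S5543
import Cfsg.Agent.Maj.Basic

set_option autoImplicit false
open Cfsg

namespace Cfsg.Agent.S5543

/-- Let V be a finite-dimensional real vector space with a commutative bilinear product and a positive-definite symmetric bilinear form that associates with the product and satisfies the Norton inequality (the Majorana setting of the definitions). Let X be a group of linear automorphisms of V in which every element squares to the identity, and suppose every non-identity element x of X is a Majorana involution with an axial vector a(x) of squared length 1, such that for any two distinct non-identity x, y the product a(x) ∘ a(y) equals (1/8)(a(x) + a(y) − a(xy)) (the dihedral subalgebra of type 2A whose third axis belongs to the involution xy). Then X has order at most 4. -/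
theorem result {V : Type*} [AddCommGroup V] [Module ℝ V] [FiniteDimensional ℝ V] (mul : V →ₗ[ℝ] V →ₗ[ℝ] V) (B : LinearMap.BilinForm ℝ V) (hV : Cfsg.Axial.IsMajoranaAmbient mul B) (X : Subgroup (V ≃ₗ[ℝ] V)) (hX : ∀ x ∈ X, x * x = 1) (ax : (V ≃ₗ[ℝ] V) → V) (hax : ∀ x ∈ X, x ≠ 1 → Cfsg.Axial.IsMajoranaPair mul B x (ax x)) (h1 : ∀ x ∈ X, x ≠ 1 → B (ax x) (ax x) = 1) (h2A : ∀ x ∈ X, ∀ y ∈ X, x ≠ 1 → y ≠ 1 → x ≠ y → mul (ax x) (ax y) = (1 / 8 : ℝ) • (ax x + ax y - ax (x * y))) : Nat.card ↥X ≤ 4 := by
  by_contra! hc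
  have : Finite X := Nat.finite_of_card_ne_zero (by omega)
  have := Fintype.ofFinite X
  classical
  have ex : ∀ a b c d : X, ∃ e : X, e ≠ a ∧ e ≠ b ∧ e ≠ c ∧ e ≠ d := fun a b c d => by
    obtain ⟨e, -, he⟩ := Finset.exists_mem_notMem_of_card_lt_card (s := {a, b, c, d})
      (t := Finset.univ) (Finset.card_le_four.trans_lt (by simpa using hc))
    exact ⟨e, by simpa using he⟩
  have sq : ∀ x : X, x * x = 1 := fun x => Subtype.ext (hX x x.2)
  have cm : ∀ x y : X, x * y = y * x := fun x y => by
    rw [← inv_eq_of_mul_eq_one_right (sq (x * y)), mul_inv_rev, inv_eq_of_mul_eq_one_right (sq x),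
      inv_eq_of_mul_eq_one_right (sq y)]
  have sq' : ∀ x y : X, x * (x * y) = y := fun x y => by rw [← mul_assoc, sq, one_mul]
  have ne : ∀ {x y : X}, x ≠ y → x * y ≠ 1 := fun {x y} h e => h (by rw [← sq' x y, e, mul_one])
  have P : ∀ {x y : X}, x ≠ 1 → y ≠ 1 → x ≠ y →
      mul (ax x) (ax y) = (1 / 8 : ℝ) • (ax x + ax y - ax (x * y : X)) := fun {x y} a b c =>
    h2A x x.2 y y.2 (by simpa using a) (by simpa using b) (by simpa using c)
  obtain ⟨x, hx, -⟩ := ex 1 1 1 1
  obtain ⟨y, hy, hyx, -⟩ := ex 1 x 1 1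
  obtain ⟨z, hz, hzx, hzy, hzxy⟩ := ex 1 x y (x * y)
  have hx' := hax x x.2 (by simpa using hx)
  have E : ∀ {y : X}, y ≠ 1 → y ≠ x →
      mul (ax x) (ax y - ax (x * y : X)) = (1 / 4 : ℝ) • (ax y - ax (x * y : X)) := fun {y} a b => by
    rw [map_sub, P hx a b.symm, P hx (ne b.symm) (by simpa using a), sq']
    module
  have a1 : y * z ≠ x := fun e => hzxy (by rw [← e, cm, sq'])
  have f := Maj.fqq hV hx' (h1 x x.2 (by simpa using hx)) (E hy hyx) (E hz hzx)
  have g : mul (ax y - ax (x * y : X)) (ax z - ax (x * z : X)) =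
      (-1 / 4 : ℝ) • (ax (y * z : X) - ax (x * (y * z) : X)) := by
    simp only [map_sub, LinearMap.sub_apply]
    rw [P hy hz hzy.symm, P hy (ne hzx.symm) fun e => hzxy (by rw [e, sq']),
      P (ne hyx.symm) hz hzxy.symm, P (ne hyx.symm) (ne hzx.symm) (by simpa using hzy.symm),
      mul_assoc x y z, mul_assoc x y, ← mul_assoc y x, cm y x, mul_assoc x y, sq']
    module
  rw [g, map_smul, E (ne hzy.symm) a1] at f
  have o := Maj.orth hV hx' (by norm_num) (E (ne hzy.symm) a1)
  have f' := congrArg (B (ax x)) f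
  simp only [map_smul, o, h1 x x.2 (by simpa using hx), smul_eq_mul, mul_zero, mul_one] at f'
  rw [← f', zero_smul, smul_smul, smul_eq_zero, sub_eq_zero] at f
  have k := Maj.uniq (hax _ (y * z).2 fun e => ne hzy.symm (Subtype.ext e))
    (f.resolve_left (by norm_num) ▸ hax _ (x * (y * z)).2 fun e => ne a1.symm (Subtype.ext e))
  exact hx (by simpa using Subtype.ext k)

end Cfsg.Agent.S5543
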