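import Mathlib
import Cfsg.Statements.S5545
import Cfsg.Agent.Maj.Six

set_option autoImplicit false
open Cfsg

namespace Cfsg.Agent.S5545

/-- Let V be a finite-dimensional real vector space with a commutative bilinear product and a positive-definite symmetric bilinear form that associates with the product and satisfies the Norton inequality (the Majorana setting of the definitions). Let μ₀, μ₁ be commuting Majorana involutions with distinct axial vectors a₀ ≠ a₁ of squared length 1, each involution having no other axial vector. Then either a₀ and a₁ are orthogonal with a₀ ∘ a₁ = 0 (type 2B), or their inner product is 1/8 and, with a₂ = a₀ + a₁ − 8 a₀ ∘ a₁, the vector a₂ is an idempotent and a₀ ∘ a₂ = (1/8)(a₀ + a₂ − a₁), a₁ ∘ a₂ = (1/8)(a₁ + a₂ − a₀) (type 2A: the three idempotents span a subalgebra with aᵢ ∘ aⱼ = (1/8)(aᵢ + aⱼ − aₖ)). -/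
theorem result {V : Type*} [AddCommGroup V] [Module ℝ V] [FiniteDimensional ℝ V] (mul : V →ₗ[ℝ] V →ₗ[ℝ] V) (B : LinearMap.BilinForm ℝ V) (hV : Cfsg.Axial.IsMajoranaAmbient mul B) (μ₀ μ₁ : V ≃ₗ[ℝ] V) (a₀ a₁ : V) (h₀ : Cfsg.Axial.IsMajoranaPair mul B μ₀ a₀) (h₁ : Cfsg.Axial.IsMajoranaPair mul B μ₁ a₁) (hu₀ : ∀ a : V, Cfsg.Axial.IsMajoranaPair mul B μ₀ a → a = a₀) (hu₁ : ∀ a : V, Cfsg.Axial.IsMajoranaPair mul B μ₁ a → a = a₁) (hn₀ : B a₀ a₀ = 1) (hn₁ : B a₁ a₁ = 1) (hc : μ₀ * μ₁ = μ₁ * μ₀) (hne : a₀ ≠ a₁) : (B a₀ a₁ = 0 ∧ mul a₀ a₁ = 0) ∨ (B a₀ a₁ = 1 / 8 ∧ mul (a₀ + a₁ - (8 : ℝ) • mul a₀ a₁) (a₀ + a₁ - (8 : ℝ) • mul a₀ a₁) = a₀ + a₁ - (8 : ℝ) • mul a₀ a₁ ∧ mul a₀ (a₀ + a₁ - (8 : ℝ) • mul a₀ a₁) = (1 / 8 : ℝ) • (a₀ + (a₀ + a₁ - (8 : ℝ) • mul a₀ a₁) - a₁) ∧ mul a₁ (a₀ + a₁ - (8 : ℝ) • mul a₀ a₁) = (1 / 8 : ℝ) • (a₁ + (a₀ + a₁ - (8 : ℝ) • mul a₀ a₁) - a₀)) :=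 by
  obtain ⟨a, h1, rfl, rfl, h2⟩ := Maj.exists_sq h₀ h₁ hn₀ hn₁
  have m0 : μ₀ * μ₀ = 1 := LinearEquiv.ext (Maj.invol h₀)
  have m1 : μ₁ * μ₁ = 1 := LinearEquiv.ext (Maj.invol h₁)
  have r2 : (μ₁ * μ₀) ^ (2 : ℤ) = 1 := by
    rw [zpow_two, mul_assoc, ← mul_assoc μ₀, hc, mul_assoc, m0, mul_one, m1]
  have e1 : a 2 = a 0 := hu₀ _ (by simpa [r2] using h2 2)
  have e2 : a (-2) = a 0 := hu₀ _ (by simpa [r2] using h2 (-2))
  have e3 : a (-1) = a 1 := hu₁ _ (by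
    have := h2 (-1)
    rwa [show (-1 : ℤ) = 1 - 2 from rfl, zpow_sub, r2, inv_one, mul_one, zpow_one, mul_assoc, m0,
      mul_one] at this)
  obtain ⟨s, t0, t1, l, m, n, h⟩ := h1.tab hV
  obtain rfl := h.mn hV
  have hl := h.b1 0 1 rfl
  obtain rfl : m = 1 := by rw [← h.b2' 0 2 rfl, e1, hn₀]
  obtain ⟨k1, k2⟩ := Maj.nonneg hV h₀ hn₀ (Maj.idem h₁)
  rw [hl] at k1 k2 ⊢
  have k3 : l * (l - 1) * (l - 1 / 8) * (l + 1 / 64) = 0 := by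
    linear_combination (1 / 2097152) * h.p1' hV
  simp only [mul_eq_zero, sub_eq_zero] at k3
  rcases k3 with ((rfl | rfl) | rfl) | k3
  · exact .inl ⟨rfl, k2 rfl⟩
  · exact absurd (Maj.eq_of_one hV hn₀ hn₁ hl) hne
  · have p0 := Maj.idem h₀
    have p1 := Maj.idem h₁
    have p2 := h.p1 0 1 rfl
    have p3 := h.ms hV 0 1 (-1) rfl rfl
    have p4 := h.ms hV 1 2 0 rfl rfl
    have p5 := (h.res hV).2
    have p6 := h.p2 0 2 rfl (by decide)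
    have p7 := h.p3 (-1) 1 rfl (by decide)
    rw [e1, p0] at p6
    rw [e3, p1] at p7
    rw [e1, e2, e3, eq_sub_of_add_eq p6.symm, eq_sub_of_add_eq p7.symm] at p5
    rw [e3] at p3
    rw [e1] at p4
    refine .inr ⟨rfl, ?_, ?_, ?_⟩ <;> rw [p2] <;>
      simp only [map_add, map_sub, map_smul, LinearMap.add_apply, LinearMap.sub_apply,
        LinearMap.smul_apply, hV.1 s (a _), hV.1 (a 1) (a 0), p0, p1, p2, p3, p4, p5] <;> module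
  · linarith

end Cfsg.Agent.S5545
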