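import Mathlib
import Cfsg.Statements.S5546
import Cfsg.Agent.Leech.Pairs

set_option autoImplicit false
open Cfsg

namespace Cfsg.Agent.S5546

open Leech Finset

/-- the underlying element of `Co0` -/
def toCo0 : Spor.Co2 →* Co0 where
  toFun g := ⟨g.1, g.2.1⟩
  map_one' := rfl
  map_mul' _ _ := rfl

theorem fix (g : Spor.Co2) : toCo0 g • Spor.leechU = Spor.leechU := g.2.2

/-- the matrix modulo 13 -/
def R (g : Co0) (i j : GolayPt) : ZMod 13 := 5 * (mat g i j : ZMod 13)

theorem R_mul (g h : Co0) (i j : GolayPt) : R (g * h) i j = ∑ k, R g i k * R h k j := by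
  have h1 := congrArg (Int.cast : ℤ → ZMod 13) (mat_mulVec g (h • e8 j) i)
  rw [← mul_smul] at h1
  push_cast at h1
  have h2 : ∑ k, R g i k * R h k j =
      25 * ∑ k, (mat g i k : ZMod 13) * (((h • e8 j : leechLattice) : V) k : ZMod 13) := by
    rw [Finset.mul_sum]
    exact Finset.sum_congr rfl fun k _ => by unfold R mat; ring
  rw [h2, ← h1, ← mul_assoc, show (25 * 8 : ZMod 13) = 5 by decide]
  rfl

theorem dot_U (x : V) : dotInt x (Spor.leechU : V) = 4 * x none + 4 * x (some 0) := by
  have : (Spor.leechU : V) = fourVec none (some 0) := by funext p; revert p; decide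
  rw [this, fourVec, dot_add_right, dot_single_right, dot_single_right]; ring

theorem R_inv (g : Spor.Co2) (j : GolayPt) : R (toCo0 g) none j + R (toCo0 g) (some 0) j =
    (if j = none then 1 else 0) + (if j = some 0 then 1 else 0) := by
  have h1 := dot_smul (toCo0 g) (e8 j) Spor.leechU
  rw [fix, dot_U, dot_U, e8_apply, e8_apply] at h1
  have h2 : mat (toCo0 g) none j + mat (toCo0 g) (some 0) j =
      (if none = j then 8 else 0) + (if some 0 = j then 8 else 0) := by
    unfold mat; omega
  have h3 := congrArg (Int.cast : ℤ → ZMod 13) h2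
  push_cast at h3
  unfold R
  rw [← mul_add, h3]
  simp only [eq_comm (a := j)]
  split_ifs <;> decide

/-- the matrix on the orthogonal complement -/
def A (g : Spor.Co2) : Matrix (ZMod 23) (ZMod 23) (ZMod 13) :=
  Matrix.of fun i j => R (toCo0 g) (some i) (some j) - if j = 0 then R (toCo0 g) (some i) none else 0

theorem A_mul (g h : Spor.Co2) : A (g * h) = A g * A h := by
  ext i j
  let T : GolayPt → ZMod 13 := fun k => R (toCo0 h) k (some j) - if j = 0 then R (toCo0 h) k none else 0
  have hT : T none = -T (some 0) := by
    have h1 := R_inv h (some j)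
    have h2 := R_inv h none
    simp only [T]
    split_ifs with hj
    · subst hj
      simp at h1 h2
      linear_combination h1 - h2
    · simp [hj] at h1
      linear_combination h1
  have e1 : A (g * h) i j = ∑ k, R (toCo0 g) (some i) k * T k := by
    simp only [A, Matrix.of_apply, map_mul, R_mul, T, mul_sub, Finset.sum_sub_distrib]
    split_ifs <;> simp
  have e2 : (A g * A h) i j = ∑ k : ZMod 23, (R (toCo0 g) (some i) (some k) -
      if k = 0 then R (toCo0 g) (some i) none else 0) * T (some k) := rfl
  rw [e1, e2, Fintype.sum_option, hT]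
  simp only [sub_mul, Finset.sum_sub_distrib, ite_mul, zero_mul, Finset.sum_ite_eq', Finset.mem_univ,
    if_true]
  ring

theorem R_one (i j : GolayPt) : R 1 i j = if i = j then 1 else 0 := by
  unfold R mat
  rw [one_smul, e8_apply]
  split_ifs <;> decide

theorem A_one : A 1 = 1 := by
  ext i j
  simp [A, R_one, Matrix.one_apply]

/-- the representation -/
def rho : Spor.Co2 →* Matrix (ZMod 23) (ZMod 23) (ZMod 13) where
  toFun := A
  map_one' := A_one
  map_mul' := A_mul

theorem eq_one_of (g : Spor.Co2) (h : A g = 1) : g = 1 := by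
  have key : ∀ t : ℤ, -8 ≤ t → t ≤ 8 → (5 * (t : ZMod 13) = 0 → t = 0) ∧
      (5 * (t : ZMod 13) = 1 → t = 8 ∨ t = -5) := by
    intro t h1 h2
    interval_cases t <;> decide
  have bd : ∀ i j, -8 ≤ mat (toCo0 g) i j ∧ mat (toCo0 g) i j ≤ 8 := fun i j => by
    have := sq_le_sqNorm ((toCo0 g • e8 j : leechLattice) : V) i
    rw [norm_smul, e8_norm] at this
    unfold mat
    constructor <;> nlinarith
  have h1 : ∀ j : ZMod 23, j ≠ 0 → toCo0 g • e8 (some j) = e8 (some j) := by
    intro j hj
    have h2 : ∀ i : ZMod 23, i ≠ j → mat (toCo0 g) (some i) (some j) = 0 := fun i hi => by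
      have := congrFun (congrFun h i) j
      simp only [A, Matrix.of_apply, hj, if_false, sub_zero, Matrix.one_apply, hi] at this
      exact (key _ (bd _ _).1 (bd _ _).2).1 this
    have h3 : mat (toCo0 g) (some j) (some j) = 8 ∨ mat (toCo0 g) (some j) (some j) = -5 := by
      have := congrFun (congrFun h j) j
      simp only [A, Matrix.of_apply, hj, if_false, sub_zero, Matrix.one_apply, if_true] at this
      exact (key _ (bd _ _).1 (bd _ _).2).2 this
    have h4 : mat (toCo0 g) none (some j) = 0 := by
      have h5 := dot_smul (toCo0 g) (e8 (some j)) Spor.leechU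
      rw [fix, dot_U, dot_U, e8_apply, e8_apply, if_neg (by simp), if_neg (by simpa using hj.symm)] at h5
      have := h2 0 hj.symm
      unfold mat at this ⊢
      omega
    have h5 := leech_parity (toCo0 g • e8 (some j)).2 none (some j)
    apply Subtype.ext
    funext i
    rw [e8_apply]
    unfold mat at h2 h3 h4
    rcases i with _ | i
    · simpa using h4
    · split_ifs with hi
      · rw [hi]; omega
      · exact h2 i (by simpa using hi)
  obtain ⟨k, hk⟩ := Nm_e8 (mem_Nm_of_eq (Or.inl (h1 1 (by decide)))) (some 0)
  have hU : Spor.leechU + Spor.leechU = e8 none + e8 (some 0) := by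
    apply Subtype.ext; funext p; revert p; decide
  have h2 : toCo0 g • e8 none + toCo0 g • e8 (some 0) = e8 none + e8 (some 0) := by
    rw [← smul_add, ← hU, smul_add, fix]
  have h3 : 5 * ((mat (toCo0 g) (some 0) (some 0) : ZMod 13) - mat (toCo0 g) (some 0) none) = 1 := by
    have := congrFun (congrFun h 0) 0
    simp only [A, Matrix.of_apply, if_true, Matrix.one_apply, R] at this
    rw [mul_sub, this]
  have h4 : mat (toCo0 g) (some 0) none + mat (toCo0 g) (some 0) (some 0) = 8 := by
    have := congrFun (congrArg Subtype.val h2) (some 0)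
    unfold mat
    simpa [e8_apply] using this
  have h5 : toCo0 g • e8 (some 0) = e8 (some 0) := by
    have h6 : mat (toCo0 g) (some 0) none = 8 - mat (toCo0 g) (some 0) (some 0) := by omega
    rw [h6] at h3
    unfold mat at h3
    rcases hk with hk | hk <;> rw [hk] at h3 ⊢
    · by_contra hne
      have : some 0 ≠ k := by rintro rfl; exact hne rfl
      rw [e8_apply, if_neg this] at h3
      revert h3; decide
    · exfalso
      rw [AddSubgroup.coe_neg, Pi.neg_apply, e8_apply] at h3
      split_ifs at h3 <;> revert h3 <;> decide
  rw [h5, add_left_inj] at h2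
  have h6 : toCo0 g = 1 := co0_ext_e8 fun j => by
    rw [one_smul]
    rcases j with _ | j
    · exact h2
    · by_cases hj : j = 0
      · rw [hj]; exact h5
      · exact h1 j hj
  exact Subtype.ext (congrArg (fun x : Co0 => x.1) h6)

/-- The second Conway group (the stabilizer in the Leech lattice automorphism group of the short vector fixed in the definitions) is isomorphic to a subgroup of the general linear group of degree 23 over the field with 13 elements: there is an injective homomorphism into it. -/
theorem result : ∃ f : ↥Cfsg.Spor.Co2 →* GL (Fin 23) (ZMod 13), Function.Injective f := by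
  have : Function.Injective rho.toHomUnits := by
    rw [injective_iff_map_eq_one]
    intro g hg
    exact eq_one_of g (congrArg Units.val hg)
  exact ⟨rho.toHomUnits, this⟩

end Cfsg.Agent.S5546
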