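import Mathlib
import Cfsg.Statements.S5548
import Cfsg.Agent.Golay.Codes2

set_option autoImplicit false
open Cfsg

namespace Cfsg.Agent.S5548

open Cfsg.Agent.Golay

/-- For the automorphism group of the length-24 binary Golay code of the definitions (the Mathieu group of degree 24) acting on binary words of length 24 by permuting coordinates, the only invariant subspaces of the space of all words are: zero, the span of the all-ones word, the code itself, the even-weight words, and the whole space. (So the permutation module has a unique composition series.) -/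
theorem result (W : Submodule (ZMod 2) (Cfsg.GolayPt → ZMod 2)) (hW : ∀ σ ∈ Cfsg.M24, ∀ w ∈ W, (fun p => w (σ.symm p)) ∈ W) : W = ⊥ ∨ W = Submodule.span (ZMod 2) {fun _ => (1 : ZMod 2)} ∨ W = Cfsg.golayCode ∨ (W : Set (Cfsg.GolayPt → ZMod 2)) = {w | ∑ p, w p = 0} ∨ W = ⊤ := by
  by_cases h : W ≤ golayCode
  · rcases inv_le_cases hW h with h | h | h <;> simp [h]
  obtain ⟨w, hw, h⟩ := SetLike.not_le_iff_exists.1 h
  refine Or.inr (Or.inr (Or.inr ?_))
  by_cases h1 : ∀ v ∈ W, ∑ p, v p = 0
  · exact Or.inl (Set.ext fun v => ⟨h1 v, even_le_of_not_mem hW hw h⟩)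
  push Not at h1
  obtain ⟨v, hv, h1⟩ := h1
  refine Or.inr (Submodule.eq_top_iff'.2 fun x => ?_)
  by_cases h2 : ∑ p, x p = 0
  · exact even_le_of_not_mem hW hw h h2
  · have := W.add_mem (even_le_of_not_mem hW hw h (v := x - v) (by
      simp only [Pi.sub_apply, Finset.sum_sub_distrib]
      rw [(zmod2_cases _).resolve_left h1, (zmod2_cases _).resolve_left h2, sub_self])) hv
    rwa [sub_add_cancel] at this

end Cfsg.Agent.S5548
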