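import Mathlib
import Cfsg.Statements.S5549
import Cfsg.Agent.Golay.Codes2

set_option autoImplicit false
open Cfsg

namespace Cfsg.Agent.S5549

open Cfsg.Agent.Golay
open Finset
open scoped Pointwise

theorem star {ι β : Type*} [DecidableEq β] (D : ι → Finset β) (h2 : ∀ i, (D i).card = 2)
    (h1 : ∀ i j, i ≠ j → (D i ∩ D j).card = 1) {a b c d : ι} (hab : a ≠ b) (hac : a ≠ c)
    (had : a ≠ d) (hbc : b ≠ c) (hbd : b ≠ d) (hcd : c ≠ d) : ∃ p, ∀ i, p ∈ D i := by
  have key : ∀ {a b c : ι} {p : β}, a ≠ b → a ≠ c → b ≠ c → p ∈ D a → p ∈ D b → p ∈ D c →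
      ∀ i, p ∈ D i := fun {a b c p} hab hac hbc ha hb hc i => by
    by_contra hi
    have h3 : ∀ j, p ∈ D j → (D i ∩ D j).card = 1 := fun j hj => h1 i j (by rintro rfl; exact hi hj)
    have h4 : ∀ j k, j ≠ k → p ∈ D j → p ∈ D k → Disjoint (D i ∩ D j) (D i ∩ D k) :=
      fun j k e hj hk => disjoint_left.2 fun x hx hx' => hi (by
        rw [card_le_one.1 (h1 j k e).le p (mem_inter.2 ⟨hj, hk⟩) x
          (mem_inter.2 ⟨(mem_inter.1 hx).2, (mem_inter.1 hx').2⟩)]
        exact (mem_inter.1 hx).1)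
    have h5 := card_le_card (s := D i ∩ D a ∪ D i ∩ D b ∪ D i ∩ D c) (t := D i)
      (union_subset (union_subset inter_subset_left inter_subset_left) inter_subset_left)
    rw [card_union_of_disjoint (disjoint_union_left.2 ⟨h4 _ _ hac ha hc, h4 _ _ hbc hb hc⟩),
      card_union_of_disjoint (h4 _ _ hab ha hb), h3 a ha, h3 b hb, h3 c hc, h2] at h5
    omega
  obtain ⟨p, q, -, e⟩ := card_eq_two.1 (h2 a)
  have h3 : ∀ j, a ≠ j → p ∈ D j ∨ q ∈ D j := fun j hj => by
    obtain ⟨x, hx⟩ := card_pos.1 ((h1 a j hj).symm ▸ one_pos)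
    rw [mem_inter, e, mem_insert, mem_singleton] at hx
    rcases hx.1 with h | h
    exacts [Or.inl (h ▸ hx.2), Or.inr (h ▸ hx.2)]
  have hp : p ∈ D a := by simp [e]
  have hq : q ∈ D a := by simp [e]
  rcases h3 b hab with hb | hb <;> rcases h3 c hac with hc | hc <;> rcases h3 d had with hd | hd
  exacts [⟨p, key hab hac hbc hp hb hc⟩, ⟨p, key hab hac hbc hp hb hc⟩,
    ⟨p, key hab had hbd hp hb hd⟩, ⟨q, key hac had hcd hq hc hd⟩, ⟨p, key hac had hcd hp hc hd⟩,
    ⟨q, key hab had hbd hq hb hd⟩, ⟨q, key hab hac hbc hq hb hc⟩, ⟨q, key hab hac hbc hq hb hc⟩]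

theorem odd_count {v : Finset GolayPt} (hv : v.card ≤ 4) :
    {o | o ∈ octads ∧ (v ∩ o).card % 2 = 1}.ncard = [0, 253, 352, 381, 384].getD v.card 0 := by
  have h1 := steiner_inter_card octads_steiner (by norm_num) card_golayPt (U := v)
    (Or.inl (by omega)) 1
  have h3 := steiner_inter_card octads_steiner (by norm_num) card_golayPt (U := v)
    (Or.inl (by omega)) 3
  rw [show {o | o ∈ octads ∧ (v ∩ o).card % 2 = 1} = {o | o ∈ octads ∧ (v ∩ o).card = 1} ∪
    {o | o ∈ octads ∧ (v ∩ o).card = 3} from Set.ext fun o => by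
      have := card_le_card (inter_subset_left (s₁ := v) (s₂ := o))
      simp only [Set.mem_union, Set.mem_ofPred_eq, ← and_or_left]
      exact and_congr_right' (by omega),
    Set.ncard_union_eq (Set.disjoint_left.2 fun o h h' => by have := h.2; have := h'.2; omega),
    ← Nat.cast_inj (R := ℤ), Nat.cast_add, h1, h3]
  generalize v.card = n at hv
  revert n
  decide +kernel

theorem dot_eq (v : Finset GolayPt) (c : GolayPt → ZMod 2) :
    ∑ p, ind v p * c p = ((v ∩ support₂ c).card : ZMod 2) := by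
  rw [← dot_ind, ind_support₂]

theorem exists_duad (x : golayCode ≃ₗ[ZMod 2] golayCode)
    (hx : ∀ o ∈ octads, ∃ o' ∈ octads, ∀ c : golayCode, c.1 = ind o →
      (x c).1 = ind o' ∨ (x c).1 = ind o' + 1)
    (h1 : ∀ c : golayCode, c.1 = 1 → x c = c) {a b : GolayPt} (hab : a ≠ b) :
    ∃ v : Finset GolayPt, v.card = 2 ∧ ∀ c : golayCode, ∑ p, ind v p * c.1 p = (x c).1 a + (x c).1 b := by
  obtain ⟨φ, hφ⟩ := LinearMap.exists_extend (((LinearMap.proj (R := ZMod 2) (φ := fun _ => ZMod 2) a +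
    LinearMap.proj (R := ZMod 2) (φ := fun _ => ZMod 2) b).comp golayCode.subtype).comp x.toLinearMap)
  obtain ⟨u, h2, h3⟩ := exists_leader card_golayPt natCard_golayCode golay_min
    (fun p => φ (Pi.single p 1)) none
  have h4 : ∀ c : golayCode, ∑ p, ind (support₂ u) p * c.1 p = (x c).1 a + (x c).1 b := fun c => by
    have h4 := even_inter_CW ⟨_, h2, rfl⟩ ⟨_, c.2, rfl⟩
    have h5 := dot_eq (support₂ (u - fun p => φ (Pi.single p 1))) c
    rw [← ZMod.natCast_mod _ 2, h4, ind_support₂] at h5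
    simp only [Pi.sub_apply, sub_mul, sum_sub_distrib, Nat.cast_zero, sub_eq_zero] at h5
    rw [ind_support₂, h5, show (x c).1 a + (x c).1 b = φ c from (LinearMap.congr_fun hφ c).symm,
      LinearMap.pi_apply_eq_sum_univ φ]
    refine sum_congr rfl fun p _ => ?_
    rw [mul_comm, smul_eq_mul]
    congr 2
    ext q
    simp [Pi.single_apply, eq_comm]
  refine ⟨_, ?_, h4⟩
  have hu : (support₂ u).card ≤ 4 := by rw [← hammingNorm_eq_card]; omega
  choose! τ hτ hτ' using hx
  have h5 : ∀ o ∈ octads, (support₂ u ∩ o).card % 2 = ({a, b} ∩ τ o).card % 2 := fun o ho => by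
    rw [← ZMod.natCast_eq_natCast_iff', ← dot_ind, ← dot_ind,
      h4 ⟨ind o, (mem_CW_iff o).1 ho.1⟩]
    have : ∑ p, ind {a, b} p * ind (τ o) p = ind (τ o) a + ind (τ o) b := by
      simp only [ind, ite_mul, one_mul, zero_mul, sum_ite_mem, univ_inter, sum_pair hab]
    rw [this]
    rcases hτ' o ho ⟨ind o, (mem_CW_iff o).1 ho.1⟩ rfl with e | e <;> rw [e]
    rw [Pi.add_apply, Pi.add_apply, add_add_add_comm]
    exact add_zero _
  have h6 : Set.InjOn τ octads := fun o ho o' ho' e => by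
    have h6 : ∀ c c' : golayCode, (x c).1 = (x c').1 + 1 → c.1 = c'.1 + 1 := fun c c' e => by
      have h6 : (1 : GolayPt → ZMod 2) ∈ golayCode := ind_univ (α := GolayPt) ▸ (mem_CW_iff _).1 CW_univ
      have : x c = x (c' + ⟨1, h6⟩) := by rw [map_add, h1 ⟨1, h6⟩ rfl]; exact Subtype.ext e
      exact congrArg Subtype.val (x.injective this)
    have h7 : ∀ o ∈ octads, ∀ o' ∈ octads, ind o ≠ ind o' + 1 := fun o ho o' ho' e => by
      have := congrArg hammingNorm e
      have h8 := card_symmDiff_add o' univ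
      rw [← ind_univ, ← ind_symmDiff, hammingNorm_ind, hammingNorm_ind, ho.2] at this
      rw [inter_univ, ho'.2, card_univ, card_golayPt] at h8
      omega
    have h8 : ∀ c c' : golayCode, (x c).1 = (x c').1 → support₂ c.1 = support₂ c'.1 := fun c c' e => by
      rw [x.injective (Subtype.ext e)]
    rcases hτ' o ho ⟨ind o, (mem_CW_iff o).1 ho.1⟩ rfl with e1 | e1 <;>
      rcases hτ' o' ho' ⟨ind o', (mem_CW_iff o').1 ho'.1⟩ rfl with e2 | e2 <;> rw [← e] at e2
    · simpa only [support₂_ind] using h8 _ _ (e1.trans e2.symm)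
    · exact absurd (h6 _ _ (e2.trans (by rw [e1]))) (h7 _ ho' _ ho)
    · exact absurd (h6 _ _ (e1.trans (by rw [e2]))) (h7 _ ho _ ho')
    · simpa only [support₂_ind] using h8 _ _ (e1.trans e2.symm)
  have h7 : {o | o ∈ octads ∧ (support₂ u ∩ o).card % 2 = 1}.ncard
      = {o | o ∈ octads ∧ ({a, b} ∩ o).card % 2 = 1}.ncard := by
    have hb := (Set.Finite.injOn_iff_bijOn_of_mapsTo (Set.toFinite _) hτ).1 h6
    exact Set.BijOn.ncard_eq (f := τ) ⟨fun o ho => ⟨hτ o ho.1, h5 o ho.1 ▸ ho.2⟩,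
      h6.mono fun o ho => ho.1, fun o' ho' => by
        obtain ⟨o, ho, rfl⟩ := hb.surjOn ho'.1
        exact ⟨o, ⟨ho, (h5 o ho).trans ho'.2⟩, rfl⟩⟩
  rw [odd_count hu, odd_count (card_le_two.trans (by norm_num)), card_pair hab] at h7
  generalize (support₂ u).card = n at hu h7
  revert n
  decide

/-- Let X be a group of linear automorphisms of the length-24 binary Golay code of the definitions that fix the all-ones word, containing the coordinate-permutation action of every element of the code's automorphism group (the Mathieu group of degree 24), and such that every element of X sends each codeword into its orbit under that Mathieu group up to adding the all-ones word (X has the same orbits as the Mathieu group on the code modulo the all-ones word). Then every element of X agrees, modulo the all-ones word, with the action of a single element of the Mathieu group: X induces exactly the Mathieu group on the code modulo the all-ones word. -/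
theorem result (X : Subgroup (↥Cfsg.golayCode ≃ₗ[ZMod 2] ↥Cfsg.golayCode)) (h1 : ∀ x ∈ X, ∀ e : ↥Cfsg.golayCode, (e : (Cfsg.GolayPt → ZMod 2)) = (fun _ => (1 : ZMod 2)) → x e = e) (hM : ∀ σ ∈ Cfsg.M24, ∃ x ∈ X, ∀ c : ↥Cfsg.golayCode, ((x c : ↥Cfsg.golayCode) : (Cfsg.GolayPt → ZMod 2)) = fun p => (c : (Cfsg.GolayPt → ZMod 2)) (σ.symm p)) (horb : ∀ x ∈ X, ∀ c : ↥Cfsg.golayCode, ∃ σ ∈ Cfsg.M24, ((x c : ↥Cfsg.golayCode) : (Cfsg.GolayPt → ZMod 2)) = (fun p => (c : (Cfsg.GolayPt → ZMod 2)) (σ.symm p)) ∨ ((x c : ↥Cfsg.golayCode) : (Cfsg.GolayPt → ZMod 2)) = (fun p => (c : (Cfsg.GolayPt → ZMod 2)) (σ.symm p)) + fun _ => (1 : ZMod 2)) (x : ↥Cfsg.golayCode ≃ₗ[ZMod 2] ↥Cfsg.golayCode) (hx : x ∈ X) : ∃ σ ∈ Cfsg.M24, ∀ c : ↥Cfsg.golayCode, ((x c : ↥Cfsg.golayCode) : (Cfsg.GolayPt → ZMod 2)) = (fun p => (c : (Cfsg.GolayPt → ZMod 2)) (σ.symm p)) ∨ ((x c : ↥Cfsg.golayCode) : (Cfsg.GolayPt → ZMod 2)) = (fun p => (c : (Cfsg.GolayPt → ZMod 2)) (σ.symm p)) + fun _ => (1 :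 ZMod 2) := by
  have hd := fun a b => exists_duad x (fun o ho => by
    obtain ⟨σ, hσ, h⟩ := horb x hx ⟨ind o, (mem_CW_iff o).1 ho.1⟩
    refine ⟨σ • o, smul_mem_octads hσ ho, fun c hc => ?_⟩
    obtain rfl : c = ⟨ind o, (mem_CW_iff o).1 ho.1⟩ := Subtype.ext hc
    rwa [ind_smul]) (h1 x hx) (a := a) (b := b)
  choose D hD hD' using fun a : ZMod 23 => hd (some a) none (by simp)
  have h2 : ∀ a b, a ≠ b → (D a ∩ D b).card = 1 := fun a b hab => by
    obtain ⟨v, hv, hv'⟩ := hd (some a) (some b) (by simpa)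
    have h2 : symmDiff (symmDiff (D a) (D b)) v ∈ CW := mem_CW_of_even fun o ho => by
      rw [← Nat.dvd_iff_mod_eq_zero, ← ZMod.natCast_eq_zero_iff, ← dot_ind, ind_symmDiff,
        ind_symmDiff]
      simp only [Pi.add_apply, add_mul, sum_add_distrib]
      rw [hD' a ⟨ind o, (mem_CW_iff o).1 ho.1⟩, hD' b ⟨ind o, (mem_CW_iff o).1 ho.1⟩,
        hv' ⟨ind o, (mem_CW_iff o).1 ho.1⟩]
      exact (by decide : ∀ p q r : ZMod 2, p + r + (q + r) + (p + q) = 0) _ _ _
    have h3 := card_of_mem_CW h2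
    have h4 := card_symmDiff_add (symmDiff (D a) (D b)) v
    have h5 := card_symmDiff_add (D a) (D b)
    rw [hD, hD] at h5
    rw [← symmDiff_eq_bot.1 (card_eq_zero.1 (show (symmDiff (symmDiff (D a) (D b)) v).card = 0 by
      omega))] at hv
    omega
  obtain ⟨z, hz⟩ := star D hD h2 (a := 0) (b := 1) (c := 2) (d := 3) (by decide) (by decide)
    (by decide) (by decide) (by decide) (by decide)
  have h3 : ∀ a, ∃ r, r ≠ z ∧ D a = {r, z} := fun a => by
    obtain ⟨r, hr⟩ := card_eq_one.1 (show ((D a).erase z).card = 1 by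
      rw [card_erase_of_mem (hz a), hD])
    exact ⟨r, (mem_erase.1 (hr.ge (mem_singleton_self r))).1, by
      rw [← insert_erase (hz a), hr, pair_comm]⟩
  choose r hr hr' using h3
  obtain ⟨ρ, hρ, hρ'⟩ : ∃ ρ : Equiv.Perm GolayPt, ρ none = z ∧ ∀ a, ρ (some a) = r a :=
    ⟨Equiv.ofBijective (fun p => p.elim z r) (Finite.injective_iff_bijective.1 (by
      rintro (_ | a) (_ | b) e
      · rfl
      · exact absurd e.symm (hr b)
      · exact absurd e (hr a)
      · by_contra h
        have := h2 a b (by simpa using h)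
        rw [hr' a, hr' b, show r a = r b from e, inter_self, card_pair (hr b)] at this
        omega)), rfl, fun _ => rfl⟩
  have h4 : ∀ c : golayCode, (x c).1 = (fun p => c.1 (ρ p)) ∨
      (x c).1 = (fun p => c.1 (ρ p)) + fun _ => 1 := fun c => by
    have h4 : ∀ p, (x c).1 p = c.1 (ρ p) + ((x c).1 none + c.1 z) := by
      rintro (_ | a)
      · rw [hρ, add_comm, add_assoc, CharTwo.add_self_eq_zero, add_zero]
      · have := hD' a c
        simp only [hr' a, ind, ite_mul, one_mul, zero_mul, sum_ite_mem, univ_inter,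
          sum_pair (hr a)] at this
        rw [hρ', add_left_comm, this, add_left_comm, CharTwo.add_self_eq_zero, add_zero]
    rcases zmod2_cases ((x c).1 none + c.1 z) with e | e <;> rw [e] at h4
    exacts [Or.inl (funext fun p => (h4 p).trans (add_zero _)), Or.inr (funext h4)]
  refine ⟨ρ⁻¹, (mem_M24_iff _).2 fun s hs => ?_, h4⟩
  rw [mem_CW_iff] at hs ⊢
  rw [ind_smul]
  rcases h4 ⟨_, hs⟩ with e | e
  · exact e ▸ (x ⟨_, hs⟩).2
  · have := golayCode.sub_mem (e ▸ (x ⟨_, hs⟩).2) (ind_univ (α := GolayPt) ▸ (mem_CW_iff _).1 CW_univ)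
    rwa [show ∀ f : GolayPt → ZMod 2, (f + fun _ => 1) - 1 = f from fun f => add_sub_cancel_right f 1]
      at this

end Cfsg.Agent.S5549
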