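import Mathlib
import Cfsg.Statements.S5550
import Cfsg.Agent.Golay.Codes2

set_option autoImplicit false
open Cfsg

namespace Cfsg.Agent.S5550

open Cfsg.Agent.Golay

/-- Let u be a word of the length-24 binary Golay code of the definitions (possibly zero or all-ones) and w any binary word of length 24 outside the code. Then some automorphism of the code (a coordinate permutation preserving it) fixes u but moves w to a word not congruent to w modulo the code: the stabilizer of a codeword fixes no non-zero element of the quotient of the space of all words by the code. -/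
theorem result (u : (Cfsg.GolayPt → ZMod 2)) (hu : u ∈ Cfsg.golayCode) (w : (Cfsg.GolayPt → ZMod 2)) (hw : w ∉ Cfsg.golayCode) : ∃ σ ∈ Cfsg.M24, (fun p => u (σ.symm p)) = u ∧ (fun p => w (σ.symm p)) - w ∉ Cfsg.golayCode := by
  obtain ⟨g, hg, h1, h2⟩ := exists_moved (u := support₂ u) (w := support₂ w) ⟨u, hu, rfl⟩
    (mt (support₂_mem_supports_iff _ w).1 hw)
  refine ⟨g, hg, ?_, ?_⟩
  · have := ind_smul g (support₂ u)
    rw [h1, ind_support₂] at this
    exact this.symm
  · rwa [mem_CW_iff, ind_symmDiff, ind_smul, ind_support₂, ← sub_eq_add₂] at h2

end Cfsg.Agent.S5550
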