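import Mathlib
import Cfsg.Statements.S5551
import Cfsg.Agent.Leech.Index

set_option autoImplicit false
open Cfsg

namespace Cfsg.Agent.S5551

/-- In the Leech lattice of the definitions (integer coordinates, minimal squared length 32), let v and w be non-zero lattice vectors of squared length at most 64 that are congruent modulo twice the lattice. Then they have the same squared length, and if that length is less than 64 then w = v or w = −v. (So a class that contains a non-zero vector of squared length at most 64 has a well-defined type 2, 3 or 4, and a class of type 2 or 3 contains no such vector other than v and −v.) -/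
theorem result (v w : Cfsg.GolayPt → ℤ) (hv : v ∈ Cfsg.leechLattice) (hw : w ∈ Cfsg.leechLattice) (hv0 : v ≠ 0) (hw0 : w ≠ 0) (hvn : Cfsg.sqNorm v ≤ 64) (hwn : Cfsg.sqNorm w ≤ 64) (hc : ∃ z ∈ Cfsg.leechLattice, v - w = 2 • z) : Cfsg.sqNorm v = Cfsg.sqNorm w ∧ (Cfsg.sqNorm v < 64 → w = v ∨ w = -v) := by
  obtain ⟨z, hz, e⟩ := hc
  by_cases h1 : v = w
  · subst h1; exact ⟨rfl, fun _ => Or.inl rfl⟩
  by_cases h2 : v = -w
  · subst h2; exact ⟨Leech.sqNorm_neg w, fun _ => Or.inr (neg_neg w).symm⟩
  have := Leech.short_pair hv hw hz e hvn hwn h1 h2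
  exact ⟨by omega, fun h => by omega⟩

end Cfsg.Agent.S5551
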