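import Mathlib
import Cfsg.Statements.S5552
import Cfsg.Agent.Leech.Pairs

set_option autoImplicit false
open Cfsg

namespace Cfsg.Agent.S5552

/-- On the Leech lattice of the definitions, let Q be a function to the field with two elements that is constant on cosets of twice the lattice, is a quadratic form there (Q(u+v+w) + Q(u) + Q(v) + Q(w) = Q(u+v) + Q(u+w) + Q(v+w) for all u, v, w), is invariant under every lattice automorphism, and is not identically zero. Then Q(v) is the squared length of v divided by 16, reduced modulo 2, for every lattice vector v (squared lengths of lattice vectors are multiples of 16). -/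
theorem result (Q : ↥Cfsg.leechLattice → ZMod 2) (hcoset : ∀ v w : ↥Cfsg.leechLattice, Q (v + (w + w)) = Q v) (hquad : ∀ u v w : ↥Cfsg.leechLattice, Q (u + v + w) + Q u + Q v + Q w = Q (u + v) + Q (u + w) + Q (v + w)) (hinv : ∀ (g : ↥Cfsg.Co0) (v : ↥Cfsg.leechLattice), Q (g • v) = Q v) (hne : ∃ v : ↥Cfsg.leechLattice, Q v ≠ 0) (v : ↥Cfsg.leechLattice) : Q v = ((Cfsg.sqNorm (v : Cfsg.GolayPt → ℤ) / 16 : ℤ) : ZMod 2) := by
  have q0 : Q 0 = 0 := by
    have := hquad 0 0 0
    simp only [add_zero] at this
    exact add_eq_left.1 this
  have same : ∀ x y : leechLattice, sqNorm (x : Leech.V) ≤ 64 → sqNorm (x : Leech.V) = sqNorm (y : Leech.V) →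
      Q x = Q y := by
    intro x y h e
    obtain ⟨g, rfl⟩ := Leech.trans_norm x y h e
    exact (hinv g x).symm
  let a := Leech.oddL none
  let b := Leech.oddL none + Leech.e8 none
  let c := Leech.e8 none
  have q2 : ∀ x : leechLattice, sqNorm (x : Leech.V) = 32 → Q x = Q a := fun x h =>
    same x a (by omega) (h.trans (by decide +kernel))
  have q3 : ∀ x : leechLattice, sqNorm (x : Leech.V) = 48 → Q x = Q b := fun x h =>
    same x b (by omega) (h.trans (by decide +kernel))
  have q4 : ∀ x : leechLattice, sqNorm (x : Leech.V) = 64 → Q x = Q c := fun x h =>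
    same x c (by omega) (h.trans (by decide +kernel))
  have hc : Q c = 0 := by
    let u := Leech.decL 0x49d2949ce94a5292952b4a5273a4e7 (by decide +kernel)
    let v := Leech.decL 0x321484290842908429084210a420ca (by decide +kernel)
    let w := Leech.decL 0x52108321064210842108320c651908 (by decide +kernel)
    have := hquad u v w
    rw [q4 (u + v + w) (by decide +kernel), q4 (u + v) (by decide +kernel),
      q4 (u + w) (by decide +kernel), q3 (v + w) (by decide +kernel),
      q3 u (by decide +kernel), q2 v (by decide +kernel),
      q2 w (by decide +kernel)] at this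
    revert this
    generalize Q a = x
    generalize Q b = y
    generalize Q c = z
    revert x y z
    decide
  have ha : Q a = 0 := by
    let u := Leech.decL 0x428c64210642108319065210842108 (by decide +kernel)
    let v := Leech.decL 0x4a4e94a5294a4e74a4e939d295a527 (by decide +kernel)
    let w := Leech.decL 0x420c642108321084290a42106320c8 (by decide +kernel)
    have := hquad u v w
    rw [q4 (u + v + w) (by decide +kernel), q3 (u + v) (by decide +kernel),
      q4 (u + w) (by decide +kernel), q3 (v + w) (by decide +kernel),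
      q2 u (by decide +kernel), q2 v (by decide +kernel),
      q2 w (by decide +kernel)] at this
    revert this
    generalize Q a = x
    generalize Q b = y
    generalize Q c = z
    revert x y z
    decide
  have key : ∀ x : leechLattice, Q x = ((sqNorm (x : Leech.V) / 16 : ℤ) : ZMod 2) * Q b := by
    intro x
    obtain ⟨y, hy, hn, z, hz, e⟩ := Leech.exists_short x.2
    have e1 : x = ⟨y, hy⟩ + (⟨z, hz⟩ + ⟨z, hz⟩) := by
      apply Subtype.ext
      simp only [AddSubgroup.coe_add]
      rw [← two_nsmul, ← e]; abel
    have e2 : (x : Leech.V) = y + 2 • z := by rw [← e]; abel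
    have e3 : ((sqNorm (x : Leech.V) / 16 : ℤ) : ZMod 2) = ((sqNorm y / 16 : ℤ) : ZMod 2) := by
      rw [ZMod.intCast_eq_intCast_iff_dvd_sub, e2, Leech.sqNorm_add, Leech.sqNorm_two_nsmul, two_nsmul,
        Leech.dot_add_right]
      have := Leech.eight_dvd_dot hy hz
      have := Leech.sixteen_dvd hy
      have := Leech.sixteen_dvd hz
      push_cast
      omega
    rw [e3, e1, hcoset]
    rcases Leech.norm_cases hy hn with h | h | h | h
    · subst h
      rw [Leech.sqNorm_zero]
      exact q0.trans (by simp)
    · rw [q2 _ h, ha, h, show (((32 : ℤ) / 16 : ℤ) : ZMod 2) = 0 by decide, zero_mul]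
    · rw [q3 _ h, h, show (((48 : ℤ) / 16 : ℤ) : ZMod 2) = 1 by decide, one_mul]
    · rw [q4 _ h, hc, h, show (((64 : ℤ) / 16 : ℤ) : ZMod 2) = 0 by decide, zero_mul]
  obtain ⟨u, hu⟩ := hne
  have hb : Q b = 1 := by
    rcases Leech.zmod2_cases (Q b) with h | h
    · rw [key u, h, mul_zero] at hu; exact absurd rfl hu
    · exact h
  rw [key v, hb, mul_one]

end Cfsg.Agent.S5552
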