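import Mathlib
import Cfsg.Statements.S5553
import Cfsg.Agent.Leech.Index

set_option autoImplicit false
open Cfsg

namespace Cfsg.Agent.S5553

/-- The Leech lattice of the definitions has an additive subgroup A containing twice the lattice, of index 2^12 in the lattice, all of whose vectors have squared length divisible by 32: the invariant quadratic form 'squared length over 16 modulo 2' on the lattice modulo twice the lattice (a 24-dimensional space over the field with two elements) vanishes on a 12-dimensional subspace, so it is of plus type. -/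
theorem result : ∃ A : AddSubgroup (Cfsg.GolayPt → ℤ), A ≤ Cfsg.leechLattice ∧ (∀ v ∈ Cfsg.leechLattice, (2 : ℤ) • v ∈ A) ∧ (A.addSubgroupOf Cfsg.leechLattice).index = 2 ^ 12 ∧ ∀ v ∈ A, (32 : ℤ) ∣ Cfsg.sqNorm v := by
  set W : AddSubgroup (GolayPt → ZMod 2) := AddSubgroup.zmultiples 1 with hW
  have hle : W ≤ golayCode.toAddSubgroup := by
    rw [hW, AddSubgroup.zmultiples_le]; exact Leech.one_mem_code
  have hA : Leech.twoSub W ≤ leechLattice := by
    intro x hx
    obtain ⟨y, h1, h2, h3⟩ := (Leech.mem_twoSub _ x).1 hx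
    exact Leech.mem_leech_of_even h1 ((Leech.cw_oddSet y).2 (hle h2)) h3
  refine ⟨Leech.twoSub W, hA, ?_, ?_, ?_⟩
  · intro v hv
    obtain ⟨m, y, h1, h2, h3⟩ := (Leech.mem_leech v).1 hv
    refine (Leech.mem_twoSub _ _).2 ⟨v, fun i => by simp, ?_, ?_⟩
    · refine ⟨m, ?_⟩
      funext i
      simp only [Leech.red_apply, h1]
      push_cast
      have : (2 : ZMod 2) = 0 := rfl
      simp [this]
    · rw [Leech.sum_eq_of v y m h1]; omega
  · have h1 := Leech.index_twoSub W hle
    rw [← AddSubgroup.relIndex_mul_index hA, Leech.leech_index] at h1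
    have h2 : W.index = 2 ^ 23 := by
      have h := W.card_mul_index
      have h3 : Nat.card (GolayPt → ZMod 2) = 2 ^ 24 := by rw [Nat.card_fun]; simp
      have h4 : Nat.card W = 2 := by
        rw [hW, Nat.card_zmultiples]
        apply addOrderOf_eq_prime
        · funext i; rfl
        · exact one_ne_zero
      rw [h3, h4] at h
      omega
    rw [h2] at h1
    change (Leech.twoSub W).relIndex leechLattice = _
    omega
  · intro v hv
    obtain ⟨y, h1, ⟨k, h2⟩, h3⟩ := (Leech.mem_twoSub _ v).1 hv
    have h4 : ∀ i, ∃ z, y i = k + 2 * z := fun i => by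
      have := congrFun h2 i
      simp only [Leech.red_apply, Pi.smul_apply, Pi.one_apply, zsmul_eq_mul, mul_one] at this
      obtain ⟨z, hz⟩ := (ZMod.intCast_eq_intCast_iff_dvd_sub _ _ _).1 this
      exact ⟨z, by push_cast at hz; omega⟩
    choose z hz using h4
    rw [Leech.sum_eq_of y z k hz] at h3
    have h5 := Leech.sum_sq_parity z
    have h6 : sqNorm v = 96 * k ^ 2 + 16 * k * ∑ i, z i + 16 * ∑ i, z i ^ 2 := by
      rw [Leech.sqNorm_def]
      simp only [h1, hz, Finset.mul_sum]
      have : 96 * k ^ 2 = ∑ _i : GolayPt, 4 * k ^ 2 := by simp; ring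
      rw [this, ← Finset.sum_add_distrib, ← Finset.sum_add_distrib]
      exact Finset.sum_congr rfl fun i _ => by ring
    obtain ⟨a, ha⟩ : (2 : ℤ) ∣ ∑ i, z i := by omega
    obtain ⟨b, hb⟩ : (2 : ℤ) ∣ ∑ i, z i ^ 2 := by omega
    rw [h6, ha, hb]
    exact ⟨3 * k ^ 2 + k * a + b, by ring⟩

end Cfsg.Agent.S5553
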