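import Mathlib
import Cfsg.Statements.S5599
import Cfsg.Agent.Golay.Out

set_option autoImplicit false
open scoped Pointwise
open Cfsg

namespace Cfsg.Agent.S5599

open Cfsg.Agent.Golay

/-- In the automorphism group of the length-24 code, the two-point Mathieu group (permutations of the code's group fixing the extra point and the residue 0) has index 2 in the setwise stabiliser of that pair of points, and an element of the code's group interchanging the two points normalises the two-point group and induces on it, by conjugation, an automorphism that is not inner. -/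
theorem result (g : Equiv.Perm Cfsg.GolayPt) (hg : g ∈ Cfsg.M24) (h₁ : g none = some 0) (h₂ : g (some 0) = none) : Cfsg.Spor.M22.relIndex (Cfsg.M24 ⊓ MulAction.stabilizer (Equiv.Perm Cfsg.GolayPt) ({none, some 0} : Finset Cfsg.GolayPt)) = 2 ∧ (∀ x ∈ Cfsg.Spor.M22, g * x * g⁻¹ ∈ Cfsg.Spor.M22) ∧ ¬ ∃ h ∈ Cfsg.Spor.M22, ∀ x ∈ Cfsg.Spor.M22, g * x * g⁻¹ = h * x * h⁻¹ := by
  have hg' : g ∈ M22ext := mem_M22ext.2 ⟨hg, Or.inr ⟨h₁, h₂⟩⟩
  refine ⟨?_, norm_M22ext g hg', ?_⟩
  · have h1 := Subgroup.card_mul_index (Spor.M22.subgroupOf M22ext)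
    rw [Nat.card_congr (Subgroup.subgroupOfEquivOfLe M22_le_ext).toEquiv, card_M22,
      card_M22ext] at h1
    show (Spor.M22.subgroupOf M22ext).index = 2
    omega
  · rintro ⟨h, hh, e⟩
    have h1 := centralizer_M22ext (h⁻¹ * g) (M22ext.mul_mem (M22ext.inv_mem (M22_le_ext hh)) hg')
      fun x hx => by
        rw [show h⁻¹ * g * x = h⁻¹ * (g * x * g⁻¹) * g by group, e x hx]; group
    rw [inv_mul_eq_one] at h1
    rw [← h1, show h none = none from hh.1.2] at h₁
    cases h₁

end Cfsg.Agent.S5599
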