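import Mathlib
import Cfsg.Statements.S5601
import Cfsg.Agent.Golay.Six

set_option autoImplicit false
open scoped Pointwise
open Cfsg

namespace Cfsg.Agent.S5601

open Cfsg.Agent.Golay
theorem fix_eq (x : M24) : {p : GolayPt | ∀ y ∈ Subgroup.zpowers x, (y : P24) p = p}.ncard
    = (Fx x.1).card := by
  rw [← Set.ncard_coe_finset]
  congr 1
  ext p
  rw [Finset.mem_coe, mem_Fx]
  exact ⟨fun h => h x (Subgroup.mem_zpowers x), by
    rintro h _ ⟨n, rfl⟩; exact Equiv.Perm.zpow_apply_eq_self_of_apply_eq_self h n⟩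

/-- The group of the length-24 code has exactly two conjugacy classes of subgroups of order 3: a subgroup of order 3 fixes either exactly 6 of the 24 points or none of them, both cases occur, and two subgroups of order 3 with the same number of fixed points are conjugate. -/
theorem result : (∀ X : Subgroup ↥Cfsg.M24, Nat.card X = 3 → {p : Cfsg.GolayPt | ∀ x ∈ X, ((x : ↥Cfsg.M24) : Equiv.Perm Cfsg.GolayPt) p = p}.ncard = 6 ∨ {p : Cfsg.GolayPt | ∀ x ∈ X, ((x : ↥Cfsg.M24) : Equiv.Perm Cfsg.GolayPt) p = p}.ncard = 0) ∧ (∃ X : Subgroup ↥Cfsg.M24, Nat.card X = 3 ∧ {p : Cfsg.GolayPt | ∀ x ∈ X, ((x : ↥Cfsg.M24) : Equiv.Perm Cfsg.GolayPt) p = p}.ncard = 6) ∧ (∃ X : Subgroup ↥Cfsg.M24, Nat.card X = 3 ∧ {p : Cfsg.GolayPt | ∀ x ∈ X, ((x : ↥Cfsg.M24) : Equiv.Perm Cfsg.GolayPt) p = p}.ncard = 0) ∧ ∀ X Y : Subgroup ↥Cfsg.M24, Nat.card X = 3 → Nat.card Y = 3 → {p : Cfsg.GolayPt | ∀ x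 ∈ X, ((x : ↥Cfsg.M24) : Equiv.Perm Cfsg.GolayPt) p = p}.ncard = {p : Cfsg.GolayPt | ∀ x ∈ Y, ((x : ↥Cfsg.M24) : Equiv.Perm Cfsg.GolayPt) p = p}.ncard → ∃ k : ↥Cfsg.M24, MulAut.conj k • X = Y := by
  refine ⟨fun X hX => ?_, ⟨Subgroup.zpowers ⟨_, mem_3A⟩, ?_, ?_⟩,
    ⟨Subgroup.zpowers ⟨_, mem_3B⟩, ?_, ?_⟩, fun X Y hX hY e => ?_⟩
  · obtain ⟨x, hx, rfl⟩ := exists_zpowers_of_card Nat.prime_three hX
    rw [fix_eq]
    exact (Fx x.1).eq_empty_or_nonempty.symm.imp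
      (card_Fx_three x.2 ((Subgroup.orderOf_coe x).trans hx)) (congrArg Finset.card)
  · rw [Nat.card_zpowers, ← Subgroup.orderOf_coe, ord_3A]
  · rw [fix_eq, Fx_3A]; decide +kernel
  · rw [Nat.card_zpowers, ← Subgroup.orderOf_coe, ord_3B]
  · rw [fix_eq, Fx_3B]; rfl
  · obtain ⟨x, hx, rfl⟩ := exists_zpowers_of_card Nat.prime_three hX
    obtain ⟨y, hy, rfl⟩ := exists_zpowers_of_card Nat.prime_three hY
    rw [fix_eq, fix_eq] at e
    rw [← Subgroup.orderOf_coe] at hx hy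
    have : ∃ z, (∃ k ∈ M24, k * z * k⁻¹ = x) ∧ ∃ k ∈ M24, k * z * k⁻¹ = y := by
      rcases (Fx x.1).eq_empty_or_nonempty with h | h
      · exact ⟨_, conj_3B x.2 hx h, conj_3B y.2 hy (by rwa [← Finset.card_eq_zero, ← e,
          Finset.card_eq_zero])⟩
      · exact ⟨_, conj_3A x.2 hx h, conj_3A y.2 hy (by rwa [← Finset.card_pos, ← e,
          Finset.card_pos])⟩
    obtain ⟨z, ⟨k, hk, e1⟩, k', hk', e2⟩ := this
    refine ⟨⟨k', hk'⟩ * ⟨k, hk⟩⁻¹, ?_⟩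
    refine (MonoidHom.map_zpowers _ x).trans (congrArg _ (Subtype.ext ?_))
    show k' * k⁻¹ * x * (k' * k⁻¹)⁻¹ = y
    rw [← e1, ← e2]; group

end Cfsg.Agent.S5601
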