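import Mathlib
import Cfsg.Statements.S5607
import Cfsg.Agent.Golay.Six

set_option autoImplicit false
open scoped Pointwise
open Cfsg

namespace Cfsg.Agent.S5607

open Cfsg.Agent.Golay

/-- For a fixed-point-free involution t of the group of the length-24 code: its centraliser in that group has order 7680, is transitive on the 24 points, and is contained, together with t, in the stabiliser of some sextet. -/
theorem result (t : Equiv.Perm Cfsg.GolayPt) (ht : t ∈ Cfsg.M24) (h₂ : orderOf t = 2) (h₀ : ∀ p, t p ≠ p) : Nat.card {c : Equiv.Perm Cfsg.GolayPt // c ∈ Cfsg.M24 ∧ c * t = t * c} = 7680 ∧ (∀ p q : Cfsg.GolayPt, ∃ c ∈ Cfsg.M24, c * t = t * c ∧ c p = q) ∧ ∃ S ∈ Cfsg.sextets, t • S = S ∧ ∀ c ∈ Cfsg.M24, c * t = t * c → c • S = S := by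
  obtain ⟨k, hk, rfl⟩ := conj_2B ht h₂ (Fx_eq_empty.2 h₀)
  have h1 : ∀ c, c ∈ St M24 (k • cj (tp c2B)) ↔
      c ∈ M24 ∧ c * (k * tp c2B * k⁻¹) = k * tp c2B * k⁻¹ * c := fun c => mem_St_cj
  have h2 : ∀ c ∈ M24, c * (k * tp c2B * k⁻¹) = k * tp c2B * k⁻¹ * c → c • k • sex0 = k • sex0 :=
    fun c hc e => ((conj_mem_St hk).2 (cent2B_le ((conj_mem_St hk).1 ((h1 c).2 ⟨hc, e⟩)))).2
  refine ⟨?_, fun p q => ?_, k • sex0, smul_mem_sextets hk sex0_mem, h2 _ ht rfl, h2⟩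
  · rw [← card_cent2B, ← card_St_eq ⟨k, hk, rfl⟩]
    exact Nat.card_congr (Equiv.subtypeEquivRight fun c => (h1 c).symm)
  · obtain ⟨g, hg, e⟩ := cent2B_trans (k⁻¹ • p) (k⁻¹ • q)
    have := (h1 (k * g * k⁻¹)).1 ((conj_mem_St hk).2 (by simpa [mul_assoc] using hg))
    refine ⟨_, this.1, this.2, ?_⟩
    show (k * g * k⁻¹) • p = q
    rw [mul_smul, mul_smul, e, smul_inv_smul]

end Cfsg.Agent.S5607
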