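import Mathlib
import Cfsg.Statements.S5608
import Cfsg.Agent.Golay.Six

set_option autoImplicit false
open scoped Pointwise
open Cfsg

namespace Cfsg.Agent.S5608

open Cfsg.Agent.Golay

/-- If an element of order 3 and an involution of the group of the length-24 code commute, then either the element of order 3 has exactly 6 fixed points and the involution exactly 8, or both are fixed-point-free. -/
theorem result (x s : Equiv.Perm Cfsg.GolayPt) (hx : x ∈ Cfsg.M24) (hs : s ∈ Cfsg.M24) (h₃ : orderOf x = 3) (h₂ : orderOf s = 2) (hc : Commute x s) : ((Finset.univ.filter fun p => x p = p).card = 6 ∧ (Finset.univ.filter fun p => s p = p).card = 8) ∨ ((Finset.univ.filter fun p => x p = p).card = 0 ∧ (Finset.univ.filter fun p => s p = p).card = 0) := by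
  rcases (Fx s).eq_empty_or_nonempty with h1 | h1
  · refine Or.inr ⟨?_, congrArg Finset.card h1⟩
    obtain ⟨k, hk, rfl⟩ := conj_2B hs h₂ h1
    have h3 := (conj_mem_St hk).1 (show x ∈ St M24 (k • cj (tp c2B)) from mem_St_cj.2 ⟨hx, hc⟩)
    obtain ⟨y, hy, e⟩ := (fixTest_cj (c := c2B) (by decide +kernel)).in_St
      (cs := [400381125109857954662549439837969548]) (by decide +kernel) _ List.mem_cons_self
    have h4 : orderOf y = 3 := (ordErr_pc Nat.prime_three y).1 (by rw [e]; decide +kernel)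
    have h5 : Fx y = ∅ := (Fx_eq_um e (by decide +kernel)).trans um_zero
    have h6 : orderOf (k⁻¹ * x * k) = 3 := by
      rw [← h₃, ← (MulAut.conj k⁻¹).orderOf_eq x, MulAut.conj_apply, inv_inv]
    obtain ⟨g, -, h7⟩ := exists_conj_mem (Subgroup.zpowers_le.2 hy) Nat.prime_three (m := 2560)
      (by rw [card_cent2B, Nat.card_zpowers, h4]) (by norm_num) h3 (k := 1)
      (by rw [pow_one, ← h6, pow_orderOf_eq_one])
    have h8 : orderOf (g * (k⁻¹ * x * k) * g⁻¹) = 3 := ((MulAut.conj g).orderOf_eq _).trans h6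
    have h9 : y ∈ Subgroup.zpowers (g * (k⁻¹ * x * k) * g⁻¹) :=
      (Subgroup.eq_of_le_of_card_ge (Subgroup.zpowers_le.2 h7)
        (by rw [Nat.card_zpowers, Nat.card_zpowers, h4, h8])).ge (Subgroup.mem_zpowers y)
    obtain ⟨n, rfl⟩ := h9
    show (Fx x).card = 0
    rw [← card_Fx_conj k⁻¹, inv_inv, ← card_Fx_conj g, Finset.card_eq_zero, Fx_eq_empty]
    exact fun p hp => Fx_eq_empty.1 h5 p (Equiv.Perm.zpow_apply_eq_self_of_apply_eq_self hp n)
  · have h3 := Fx_involution hs h₂ h1
    obtain ⟨a, -, e⟩ := exists_fix_of_not_dvd Nat.prime_three (h₃ ▸ pow_orderOf_eq_one x)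
      (D := Fx s) (by rw [← Fx_conj, hc.eq, mul_inv_cancel_right]) (by rw [h3.2]; norm_num)
    exact Or.inl ⟨card_Fx_three hx h₃ ⟨a, mem_Fx.2 e⟩, h3.2⟩

end Cfsg.Agent.S5608
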