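import Mathlib
import Cfsg.Statements.S5609
import Cfsg.Agent.Golay.Hom

set_option autoImplicit false
open scoped Pointwise
open Cfsg

namespace Cfsg.Agent.S5609

open Cfsg.Agent.Golay
theorem disj {g : P24} {a b : Finset GolayPt} (h : Disjoint a b) : Disjoint (g • a) (g • b) :=
  (Finset.disjoint_image (MulAction.injective g)).2 h

theorem ex4 {o o' : Finset GolayPt} (ho : o ∈ octads) (ho' : o' ∈ octads) (h : (o ∩ o').card = 4) :
    ∃ x ∈ octads, Disjoint o x ∧ Disjoint x o' := by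
  obtain ⟨g, hg, e⟩ := oct_pair_trans oct0_mem (octErr_spec (m := 5279) (by decide +kernel)).1 ho ho'
    (by rw [h]; decide +kernel)
  obtain ⟨rfl, rfl⟩ := Prod.mk.inj e
  exact ⟨_, smul_mem_octads hg (octErr_spec (m := 4038912) (by decide +kernel)).1,
    disj (by decide +kernel), disj (by decide +kernel)⟩

theorem ex2 {o o' : Finset GolayPt} (ho : o ∈ octads) (ho' : o' ∈ octads) (h : (o ∩ o').card = 2) :
    ∃ x ∈ octads, Disjoint o x ∧ (x ∩ o').card = 4 := by
  obtain ⟨g, hg, e⟩ := oct_pair_trans oct0_mem (octErr_spec (m := 15777) (by decide +kernel)).1 ho ho'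
    (by rw [h]; decide +kernel)
  obtain ⟨rfl, rfl⟩ := Prod.mk.inj e
  exact ⟨_, smul_mem_octads hg (octErr_spec (m := 337856) (by decide +kernel)).1,
    disj (by decide +kernel), by rw [card_smul_inter]; decide +kernel⟩

theorem adj_iff {a b : octads} : (blockGraph octads).Adj a b ↔ Disjoint a.1 b.1 := by
  rw [blockGraph, SimpleGraph.fromRel_adj, disjoint_comm (a := b.1), or_self, and_iff_right_iff_imp]
  rintro h rfl
  have := a.2.2
  rw [disjoint_self.1 h] at this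
  cases this

theorem walk (a b : octads) : ∃ p : (blockGraph octads).Walk a b,
    ((a.1 ∩ b.1).card = 4 → p.length = 2) ∧ p.length ≤ 3 := by
  rcases octad_inter_card a.2 b.2 with h | h | h | h
  · exact ⟨(adj_iff.2 (Finset.disjoint_iff_inter_eq_empty.2 (Finset.card_eq_zero.1 h))).toWalk,
      by omega, by simp⟩
  · obtain ⟨x, hx, h1, h2⟩ := ex2 a.2 b.2 h
    obtain ⟨y, hy, h3, h4⟩ := ex4 hx b.2 h2
    exact ⟨.cons ((adj_iff (b := ⟨x, hx⟩)).2 h1) (.cons ((adj_iff (b := ⟨y, hy⟩)).2 h3)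
      ((adj_iff (a := ⟨y, hy⟩)).2 h4).toWalk), by omega, by simp⟩
  · obtain ⟨y, hy, h3, h4⟩ := ex4 a.2 b.2 h
    exact ⟨.cons ((adj_iff (b := ⟨y, hy⟩)).2 h3) ((adj_iff (a := ⟨y, hy⟩)).2 h4).toWalk, by simp, by simp⟩
  · obtain rfl := Subtype.ext h
    exact ⟨.nil, by rw [Finset.inter_self, a.2.2]; omega, by simp⟩

/-- In the graph on the 759 octads of the length-24 code in which two octads are adjacent when they are disjoint, the graph is connected (of diameter 3) and two distinct octads are at distance 1, 2 or 3 exactly when they meet in 0, 4 or 2 points respectively. -/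
theorem result (o o' : Finset Cfsg.GolayPt) (ho : o ∈ Cfsg.octads) (ho' : o' ∈ Cfsg.octads) (hne : o ≠ o') : (Cfsg.blockGraph Cfsg.octads).Connected ∧ ((Cfsg.blockGraph Cfsg.octads).dist ⟨o, ho⟩ ⟨o', ho'⟩ = 1 ↔ (o ∩ o').card = 0) ∧ ((Cfsg.blockGraph Cfsg.octads).dist ⟨o, ho⟩ ⟨o', ho'⟩ = 2 ↔ (o ∩ o').card = 4) ∧ ((Cfsg.blockGraph Cfsg.octads).dist ⟨o, ho⟩ ⟨o', ho'⟩ = 3 ↔ (o ∩ o').card = 2) := by
  have hc : (blockGraph octads).Connected :=
    (SimpleGraph.connected_iff _).2 ⟨fun a b => ⟨(walk a b).choose⟩, ⟨⟨o, ho⟩⟩⟩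
  have h1 : (blockGraph octads).dist ⟨o, ho⟩ ⟨o', ho'⟩ = 1 ↔ (o ∩ o').card = 0 := by
    rw [SimpleGraph.dist_eq_one_iff_adj, adj_iff, Finset.disjoint_iff_inter_eq_empty,
      Finset.card_eq_zero]
  have h0 : (blockGraph octads).dist ⟨o, ho⟩ ⟨o', ho'⟩ ≠ 0 := fun h =>
    hne (congrArg Subtype.val (hc.dist_eq_zero_iff.1 h))
  obtain ⟨p, hp, hp'⟩ := walk ⟨o, ho⟩ ⟨o', ho'⟩
  have h2 := SimpleGraph.dist_le p
  have h3 : (o ∩ o').card = 2 → (blockGraph octads).dist ⟨o, ho⟩ ⟨o', ho'⟩ ≠ 2 := fun h h' => by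
    obtain ⟨q, hq⟩ := hc.exists_walk_length_eq_dist ⟨o, ho⟩ ⟨o', ho'⟩
    rw [h'] at hq
    have h4 := adj_iff.1 (q.adj_getVert_succ (i := 0) (by omega))
    have h5 := adj_iff.1 (q.adj_getVert_succ (i := 1) (by omega))
    rw [q.getVert_zero] at h4
    rw [show 1 + 1 = q.length from hq.symm, q.getVert_length] at h5
    rw [zero_add] at h4
    generalize q.getVert 1 = x at h4 h5
    have h6 := card_of_mem_CW (CW_symmDiff (CW_symmDiff ho.1 ho'.1) x.2.1)
    have h7 := card_symmDiff_add (symmDiff o o') x.1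
    have h8 := card_symmDiff_add o o'
    rw [Finset.disjoint_iff_inter_eq_empty.1 ((Finset.disjoint_union_left.2 ⟨h4, h5.symm⟩).mono_left
      symmDiff_le_sup), Finset.card_empty, x.2.2] at h7
    rw [ho.2, ho'.2] at h8
    omega
  have h4 := (octad_inter_card ho ho')
  simp only [hne, or_false] at h4 hp
  refine ⟨hc, h1, ?_, ?_⟩ <;> omega

end Cfsg.Agent.S5609
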