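import Mathlib
import Cfsg.Statements.S5610
import Cfsg.Agent.Golay.Sextet

set_option autoImplicit false
open scoped Pointwise
open Cfsg

namespace Cfsg.Agent.S5610

open Cfsg.Agent.Golay
open scoped Pointwise in
theorem h1 : OrbDec (St M24 oct0) trios [15, 420, 3360] :=
  orbDec_fc 3 (fun _ h => h.1) (fun _ hg _ => smul_mem_trios (mem_St.1 hg).1) gen_Oct
    [(2402701715425661395200, 15), (2362080938057826935040, 420), (2362080943076328149130, 3360)]
    3500 (fun r hr => by
      have : TrioOk r.1 := by revert r; decide +kernel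
      exact ⟨this.1, this.mem⟩) (by decide +kernel) (by decide) ncard_trios

open scoped Pointwise in
theorem h2 : OrbDec (St M24 oct0) sextets [35, 840, 896] :=
  orbDec_fc 6 (fun _ h => h.1) (fun _ hg _ => smul_mem_sextets (mem_St.1 hg).1) gen_Oct
    [(11150382242010895008167239022564679587348520, 35),
      (11150480600348833388627021870329969961339940, 840),
      (11150398192745892532567903276847130220724640, 896)]
    1000 (fun r hr => by
      have : SexOk r.1 := by revert r; decide +kernel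
      exact ⟨this.1, this.mem⟩) (by decide +kernel) (by decide) ncard_sextets

/-- The stabiliser of an octad in the group of the length-24 code has exactly three orbits on the 3795 trios, of sizes 15, 420 and 3360, and exactly three orbits on the 1771 sextets, of sizes 35, 840 and 896. -/
theorem result (o : Finset Cfsg.GolayPt) (ho : o ∈ Cfsg.octads) : (∃ X₁ ∈ Cfsg.trios, ∃ X₂ ∈ Cfsg.trios, ∃ X₃ ∈ Cfsg.trios, (MulAction.orbit ↥(MulAction.stabilizer Cfsg.M24 o) X₁).ncard = 15 ∧ (MulAction.orbit ↥(MulAction.stabilizer Cfsg.M24 o) X₂).ncard = 420 ∧ (MulAction.orbit ↥(MulAction.stabilizer Cfsg.M24 o) X₃).ncard = 3360 ∧ Cfsg.trios = MulAction.orbit ↥(MulAction.stabilizer Cfsg.M24 o) X₁ ∪ MulAction.orbit ↥(MulAction.stabilizer Cfsg.M24 o) X₂ ∪ MulAction.orbit ↥(MulAction.stabilizer Cfsg.M24 o) X₃) ∧ (∃ Y₁ ∈ Cfsg.sextets, ∃ Y₂ ∈ Cfsg.sextets, ∃ Y₃ ∈ Cfsg.sextets, (MulAction.orbit ↥(MulAction.stabilizer Cfsg.M24 o) Y₁).ncard = 35 ∧ (MulAction.orbit ↥(MulAction.stabilizer Cfsg.M24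 o) Y₂).ncard = 840 ∧ (MulAction.orbit ↥(MulAction.stabilizer Cfsg.M24 o) Y₃).ncard = 896 ∧ Cfsg.sextets = MulAction.orbit ↥(MulAction.stabilizer Cfsg.M24 o) Y₁ ∪ MulAction.orbit ↥(MulAction.stabilizer Cfsg.M24 o) Y₂ ∪ MulAction.orbit ↥(MulAction.stabilizer Cfsg.M24 o) Y₃) := by
  simp only [orbit_stabilizer_eq]
  exact ⟨(OrbDec.smul (S := fun _ => trios) (fun _ hg _ _ => smul_mem_trios hg) h1
      (octad_trans oct0_mem ho)).three,
    (OrbDec.smul (S := fun _ => sextets) (fun _ hg _ _ => smul_mem_sextets hg) h2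
      (octad_trans oct0_mem ho)).three⟩

end Cfsg.Agent.S5610
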