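import Mathlib
import Cfsg.Statements.S5613
import Cfsg.Agent.Golay.Octads

set_option autoImplicit false
open scoped Pointwise
open Cfsg

namespace Cfsg.Agent.S5613

open Cfsg.Agent.Golay

/-- In the group of the length-24 code, the joint stabiliser of two octads has order 10752, 1152 or 720 according as the octads meet in 0, 4 or 2 points. -/
theorem result (o o' : Finset Cfsg.GolayPt) (ho : o ∈ Cfsg.octads) (ho' : o' ∈ Cfsg.octads) : ((o ∩ o').card = 0 → Nat.card ↥(MulAction.stabilizer Cfsg.M24 o ⊓ MulAction.stabilizer Cfsg.M24 o') = 10752) ∧ ((o ∩ o').card = 4 → Nat.card ↥(MulAction.stabilizer Cfsg.M24 o ⊓ MulAction.stabilizer Cfsg.M24 o') = 1152) ∧ ((o ∩ o').card = 2 → Nat.card ↥(MulAction.stabilizer Cfsg.M24 o ⊓ MulAction.stabilizer Cfsg.M24 o') = 720) := by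
  rw [card_eq_of_mem_iff (y := (o, o')) (fun g => by simp [Subgroup.smul_def])]
  have h := fun v m N' hv e hm hN => (classif_oct_oct ho).card_St
    (fun g hg _ y hy => smul_mem_octads hg hy)
    (fun g _ e y _ => by rw [← card_smul_inter g o y, e]) ho' (v := v) (m := m) (N' := N') hv e
    (card_St_oct ho) hm hN
  exact ⟨fun e => h 0 30 _ (by simp) e (by norm_num) (by norm_num),
    fun e => h 4 280 _ (by simp) e (by norm_num) (by norm_num),
    fun e => h 2 448 _ (by simp) e (by norm_num) (by norm_num)⟩

end Cfsg.Agent.S5613
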