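import Mathlib
import Cfsg.Statements.S5614
import Cfsg.Agent.Golay.Sextet

set_option autoImplicit false
open scoped Pointwise
open Cfsg

namespace Cfsg.Agent.S5614

open Cfsg.Agent.Golay

/-- In the group of the length-24 code, the joint stabiliser of two octads meeting in exactly two points is isomorphic to the symmetric group of degree 6. -/
theorem result (o o' : Finset Cfsg.GolayPt) (ho : o ∈ Cfsg.octads) (ho' : o' ∈ Cfsg.octads) (h₂ : (o ∩ o').card = 2) : Nonempty (↥(MulAction.stabilizer Cfsg.M24 o ⊓ MulAction.stabilizer Cfsg.M24 o') ≃* Equiv.Perm (Fin 6)) := by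
  obtain ⟨e⟩ := equiv_St (oct_pair_trans (o := oct0) (o' := um 15777) oct0_mem (by decide +kernel)
    ho ho' (by rw [h₂]; decide +kernel))
    (K := MulAction.stabilizer M24 o ⊓ MulAction.stabilizer M24 o')
    (fun g => by simp [Subgroup.smul_def])
  have hc : Nat.card (St M24 (oct0, um 15777)) = 720 := (classif_oct_oct oct0_mem).card_St
    (fun g hg _ y hy => smul_mem_octads hg hy)
    (fun g _ e y _ => by rw [← card_smul_inter g oct0 y, e]) (by decide +kernel) (v := 2) (m := 448)
    (by simp) (by decide +kernel) card_oct0 (by norm_num) (by norm_num)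
  obtain ⟨e'⟩ := equiv_perm_of_card (H := St M24 (oct0, um 15777)) (D := oct0 \ um 15777)
    (fun g hg => by
      rw [Finset.smul_finset_sdiff, show g • oct0 = oct0 from congrArg Prod.fst hg.2,
        show g • um 15777 = um 15777 from congrArg Prod.snd hg.2])
    (fun g hg h => eq_one_of_chain
      (cs := [977029622887571601827047247563572672, 70768464710487672611314712855383781])
      (((fixTest_mk mk_oct0).prod (fixTest_um (by norm_num))).in_St (by decide +kernel)) hc
      [(1, 8536078, 2, [[0, 1, 1, 1, 0], [1, 0, 1]]), (2, 8536076, 3, [[0], [1, 0, 1, 0]]),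
        (3, 8536072, 3, [[1, 1, 0, 1, 0], [1, 1, 1, 0]]), (14, 8536064, 2, [[1, 0]]),
        (17, 8519680, 1, [])] (by decide +kernel) hg (fun l hl => h _ (by
          revert l; decide +kernel))) (n := 6) (by decide +kernel) hc
  exact ⟨e.trans e'⟩

end Cfsg.Agent.S5614
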