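import Mathlib
import Cfsg.Statements.S5615
import Cfsg.Agent.Golay.Six

set_option autoImplicit false
open scoped Pointwise
open Cfsg

namespace Cfsg.Agent.S5615

open Cfsg.Agent.Golay
theorem mem_smul {g : P24} (hg : g ∈ M24) {o : Finset GolayPt} {T : Finset (Finset GolayPt)}
    (h : T ∈ trios ∧ o ∈ T) : g • T ∈ trios ∧ g • o ∈ g • T :=
  ⟨smul_mem_trios hg h.1, smul_mem_smul_fam.2 h.2⟩

theorem oct0_trio0 : oct0 ∈ trio0 := mem_fd.2 ⟨2, by norm_num, by decide +kernel⟩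

theorem card0 : {T | T ∈ trios ∧ oct0 ∈ T}.ncard = 15 := by
  rw [← orbit_trio0]
  refine (isCAct_fc M24 3).ncard_orbit_filter le_rfl gen_M24 cTrio_ok.card cTrio_ok.fc_fd 3800 _
    (fun y => Nat.xor (sumTo (fun i => isZ (Nat.xor (get 24 y i) 8536111)) 3) 1) (fun y hy => ?_)
    (by decide +kernel)
  replace hy : y ∈ trios := orbit_trio0 ▸ hy
  rw [xor_eq_zero_iff', sumTo_eq]
  simp only [isZ_eq, xor_eq_zero_iff']
  rw [← Finset.card_filter, Finset.card_eq_one, ← hy.1]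
  refine ⟨fun h => ?_, fun ⟨i, h⟩ => ?_⟩
  · obtain ⟨i, hi, e⟩ := get_fc h
    refine ⟨i, Finset.eq_singleton_iff_unique_mem.2 ⟨by simp [hi, e, mk_oct0], fun j hj => ?_⟩⟩
    rw [Finset.mem_filter, Finset.mem_range] at hj
    obtain ⟨t, -, e1, e2⟩ := exists_get_fc hj.1
    obtain ⟨t', -, e1', e2'⟩ := exists_get_fc hi
    rw [← e2, ← e2', ← e1, ← e1', e, hj.2, mk_oct0]
  · have := h.ge (Finset.mem_singleton_self i)
    rw [Finset.mem_filter, Finset.mem_range] at this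
    obtain ⟨t, ht, e1, -⟩ := exists_get_fc this.1
    rwa [← mk_inj.1 (e1.symm.trans (this.2.trans mk_oct0.symm))]

theorem trans0 : ∀ T ∈ {T | T ∈ trios ∧ oct0 ∈ T} \ {trio0},
    ∃ g ∈ St M24 (oct0, trio0), g • fd 3 2402701715425661395200 = T := by
  have h0 : TrioOk 2402701715425661395200 := by decide +kernel
  refine (isCAct_fc M24 3).transitive inf_le_left (((fixTest_mk mk_oct0).prod
    (fixTest_fd cTrio_ok)).in_St (cs := [719437889580660945394372266206925891,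
      68976177062943215301375502911575042]) (by decide +kernel)) h0.1.card h0.1.fc_fd 20 (N := 14)
    (by norm_num) (by decide +kernel) (Set.toFinite _) (by
      rw [Set.ncard_sdiff_singleton_of_mem (show trio0 ∈ {T | T ∈ trios ∧ oct0 ∈ T} from
        ⟨trio0_mem, oct0_trio0⟩), card0]) fun g hg => ⟨?_, ?_⟩
  · have := mem_smul hg.1 (o := oct0) ⟨h0.mem, mem_fd.2 ⟨2, by norm_num, by decide +kernel⟩⟩
    rwa [show g • oct0 = oct0 from congrArg Prod.fst hg.2] at this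
  · intro e
    rw [Set.mem_singleton_iff, ← show g • trio0 = trio0 from congrArg Prod.snd hg.2,
      smul_left_cancel_iff] at e
    exact h0.1.ne cTrio_ok (by decide) e

theorem flag {o : Finset GolayPt} {T : Finset (Finset GolayPt)} (hT : T ∈ trios) (ho : o ∈ T) :
    ∃ g ∈ M24, g • (oct0, trio0) = (o, T) := by
  obtain ⟨p, hp, h⟩ := Finset.exists_mem_ne (by rw [trio0_mem.1]; norm_num) oct0
  obtain ⟨p', hp', h'⟩ := Finset.exists_mem_ne (by rw [hT.1]; norm_num) o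
  obtain ⟨g, hg, e1, e2, -⟩ := trio_flag_trans trio0_mem hT oct0_trio0 hp ho hp' h.symm h'.symm
  exact ⟨g, hg, Prod.ext e2 e1⟩

theorem fix0 {g : P24} (hg : g ∈ fixOct oct0) {T : Finset (Finset GolayPt)} (hT : T ∈ trios)
    (ho : oct0 ∈ T) : g • T = T := by
  obtain ⟨k, hk, e⟩ := flag hT ho
  obtain rfl : k • trio0 = T := congrArg Prod.snd e
  have h1 := (isCAct_fc M24 3).forall_orbit inf_le_left gen_Oct cTrio_ok.card cTrio_ok.fc_fd 20
    (fun y => sumL (fun c => Nat.xor (actF 3 (mat c) y) y) gensE) (by decide +kernel) k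
    ⟨hk, congrArg Prod.fst e⟩
  refine (gen_E.le (St M24 (k • trio0)) (fun x hx hc => ⟨hx.1, ?_⟩) hg).2
  have h2 := xor_eq_zero' (sumL_eq_zero h1 _ hc)
  exact (isCAct_fc M24 3).inj _ _ (smul_mem_trios hx.1 hT).1 hT.1
    (((isCAct_fc M24 3).act_eq x hx.1 _ hT.1).symm.trans h2)

theorem ker0 {g : P24} (hg : g ∈ M24) (h0 : g • oct0 = oct0)
    (h : ∀ T ∈ trios, oct0 ∈ T → g • T = T) : g ∈ fixOct oct0 := by
  obtain ⟨e, he, h1⟩ := fixOct0_trans ((mem_iff_of_smul_eq h0 _).not.2 pt4_not_mem)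
  have h2 : (e⁻¹ * g) (pt 4) = pt 4 := by rw [Equiv.Perm.mul_apply, ← h1]; simp
  have h3 : e⁻¹ * g ∈ M24 := M24.mul_mem (M24.inv_mem he.1) hg
  have h4 : (e⁻¹ * g) • oct0 = oct0 := by
    rw [mul_smul, h0, smul_eq_of_fix (mem_fixOct.1 (inv_mem he)).2]
  have h5 : ∀ m ∈ [7903248, 628112, 7079696, 2141072], (e⁻¹ * g) • um m = um m := fun m hm => by
    have h6 : octErr m = 0 ∧ Disjoint oct0 (um m) ∧ pt 4 ∈ um m := by revert m; decide +kernel
    have h7 := mk_trio_mem oct0_mem (octErr_spec h6.1).1 h6.2.1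
    have h8 : (e⁻¹ * g) • um m ∈ ({oct0, um m, (oct0 ∪ um m)ᶜ} : Finset (Finset GolayPt)) := by
      rw [← fix0 (inv_mem he) h7 (by simp), ← h _ h7 (by simp), ← mul_smul]
      exact smul_mem_smul_fam.2 (by simp)
    have h9 : pt 4 ∈ (e⁻¹ * g) • um m := h2 ▸ smul_mem_smul' h6.2.2
    simp only [Finset.mem_insert, Finset.mem_singleton] at h8
    rcases h8 with h8 | h8 | h8
    · exact absurd (h8 ▸ h9) pt4_not_mem
    · exact h8
    · rw [h8] at h9; simp [h6.2.2] at h9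
  have h6 : ∀ a ∉ oct0, ∀ b ∉ oct0, (∀ m ∈ [7903248, 628112, 7079696, 2141072],
    b ∈ um m ↔ a ∈ um m) → b = a := by decide +kernel
  have h7 : e⁻¹ * g = 1 := eq_one_of_nine h3 (le_trans (by decide +kernel) (Finset.card_le_card
    (s := oct0ᶜ) fun a ha => mem_Fx.2 (h6 a (by simpa using ha) _
      ((mem_iff_of_smul_eq h4 a).not.2 (by simpa using ha)) fun m hm =>
      mem_iff_of_smul_eq (h5 m hm) a)))
  exact inv_mul_eq_one.1 h7 ▸ he

/-- An octad of the length-24 code lies in exactly 15 trios; the stabiliser of the octad in the code's group acts doubly transitively on these 15 trios, and the kernel of this action is the pointwise stabiliser of the octad. -/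
theorem result (o : Finset Cfsg.GolayPt) (ho : o ∈ Cfsg.octads) : {T : Finset (Finset Cfsg.GolayPt) | T ∈ Cfsg.trios ∧ o ∈ T}.ncard = 15 ∧ (∀ T₁ T₂ T₁' T₂' : Finset (Finset Cfsg.GolayPt), T₁ ∈ Cfsg.trios → T₂ ∈ Cfsg.trios → T₁' ∈ Cfsg.trios → T₂' ∈ Cfsg.trios → o ∈ T₁ → o ∈ T₂ → o ∈ T₁' → o ∈ T₂' → T₁ ≠ T₂ → T₁' ≠ T₂' → ∃ g ∈ Cfsg.M24, g • o = o ∧ g • T₁ = T₁' ∧ g • T₂ = T₂') ∧ ∀ g ∈ Cfsg.M24, g • o = o → ((∀ T ∈ Cfsg.trios, o ∈ T → g • T = T) ↔ ∀ p ∈ o, g p = p) := by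
  obtain ⟨k, hk, rfl⟩ := octad_trans oct0_mem ho
  refine ⟨?_, fun T₁ T₂ T₁' T₂' h1 h2 h1' h2' e1 e2 e1' e2' n n' => ?_, fun g hg e => ?_⟩
  · rw [← card0, ← Set.ncard_smul_set k {T | T ∈ trios ∧ oct0 ∈ T}]
    congr 1
    ext T
    rw [Set.mem_smul_set_iff_inv_smul_mem]
    refine ⟨fun h => ?_, fun h => ?_⟩
    · have := mem_smul (M24.inv_mem hk) h
      rwa [inv_smul_smul] at this
    · have := mem_smul hk h
      rwa [smul_inv_smul] at this
  · have h3 : ∀ {T T' : Finset (Finset GolayPt)}, T ∈ trios → T' ∈ trios → k • oct0 ∈ T →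
        k • oct0 ∈ T' → T ≠ T' → ∃ g ∈ M24, g • ((oct0, trio0), fd 3 2402701715425661395200) =
          ((k • oct0, T), T') := fun hT hT' h h' hn =>
      trans_pair (R := fun x T => (T ∈ trios ∧ x.1 ∈ T) ∧ T ≠ x.2)
        (fun g hg x y h => ⟨mem_smul hg h.1, fun e => h.2 (MulAction.injective g e)⟩)
        (fun z hz => by obtain ⟨g, hg, e⟩ := trans0 z hz; exact ⟨g, hg.1, hg.2, e⟩)
        (flag hT h) ⟨⟨hT', h'⟩, hn.symm⟩
    obtain ⟨g, hg, e⟩ := trans_of_base (S := {x | ∃ g ∈ M24,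
      g • ((oct0, trio0), fd 3 2402701715425661395200) = x}) (fun _ h => h) (h3 h1 h2 e1 e2 n)
      (h3 h1' h2' e1' e2' n')
    simp only [Prod.smul_mk, Prod.mk.injEq] at e
    exact ⟨g, hg, e.1.1, e.1.2, e.2⟩
  · have h1 := (conj_mem_St hk).1 ⟨hg, e⟩
    refine ⟨fun h p hp => ?_, fun h T hT ho => ?_⟩
    · obtain ⟨q, hq, rfl⟩ := Finset.mem_smul_finset.1 hp
      have := (mem_fixOct.1 (ker0 h1.1 h1.2 fun T hT ho => by
        rw [mul_smul, mul_smul, h _ (mem_smul hk ⟨hT, ho⟩).1 (mem_smul hk ⟨hT, ho⟩).2,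
          inv_smul_smul])).2 q hq
      exact Equiv.Perm.inv_eq_iff_eq.1 this
    · have h2 := mem_smul (M24.inv_mem hk) ⟨hT, ho⟩
      rw [inv_smul_smul] at h2
      have := fix0 (mem_fixOct.2 ⟨h1.1, fun a ha => Equiv.Perm.inv_eq_iff_eq.2
        (h _ (smul_mem_smul' ha))⟩) h2.1 h2.2
      simpa [mul_smul] using this

end Cfsg.Agent.S5615
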