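import Mathlib
import Cfsg.Statements.S5616
import Cfsg.Agent.Golay.Sextet

set_option autoImplicit false
open scoped Pointwise
open Cfsg

namespace Cfsg.Agent.S5616

open Cfsg.Agent.Golay
open scoped Pointwise in
theorem hc {Y : Finset GolayPt} (hY : Y.card = 3) : Classif M24 Y sextets
    (fun S => (S.filter fun t => (t ∩ Y).Nonempty).card) [(1, 21), (2, 630), (3, 1120)] :=
  classif_fc 6 (fun _ => sextets) (fun Y S => (S.filter fun t => (t ∩ Y).Nonempty).card)
    (fun _ hg _ _ => smul_mem_sextets hg) (fun g _ Y S => by
      rw [← Finset.card_smul_finset g (S.filter _)]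
      congr 1
      ext t
      rw [Finset.mem_filter, ← Finset.inv_smul_mem_iff, ← Finset.inv_smul_mem_iff,
        Finset.mem_filter, ← Finset.smul_finset_nonempty (a := g⁻¹), Finset.smul_finset_inter,
        inv_smul_smul]) (x := um 7) (fun _ h => h.1)
    (cs := [295251642693322282736681272637818881, 391149605037952623679621948940747840])
    ((fixTest_um (by norm_num)).in_St (by decide +kernel))
    [(11150382242010895008167239022564679587348520, 1, 21),
      (11150387722154438044499046504969320890639680, 2, 630),
      (11150406163585501068896520124106678678553600, 3, 1120)] 1200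
    (fun r hr => by
      have : SexOk r.1 ∧ ((fd 6 r.1).filter fun t => (t ∩ um 7).Nonempty).card = r.2.1 := by
        revert r; decide +kernel
      exact ⟨this.1.1, this.1.mem, this.2⟩) (by decide +kernel) (by decide) ncard_sextets
    (trans_set (by rw [hY]; decide +kernel) (by decide +kernel))

/-- Let Y be a set of 3 of the 24 points. The sextets of the length-24 code whose tetrads meeting Y number 1, 2 or 3 are respectively 21, 630 and 1120 in number, and two sextets with the same number of tetrads meeting Y are conjugate under the setwise stabiliser of Y in the code's group. -/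
theorem result (Y : Finset Cfsg.GolayPt) (hY : Y.card = 3) : {S : Finset (Finset Cfsg.GolayPt) | S ∈ Cfsg.sextets ∧ (S.filter fun t => (t ∩ Y).Nonempty).card = 1}.ncard = 21 ∧ {S : Finset (Finset Cfsg.GolayPt) | S ∈ Cfsg.sextets ∧ (S.filter fun t => (t ∩ Y).Nonempty).card = 2}.ncard = 630 ∧ {S : Finset (Finset Cfsg.GolayPt) | S ∈ Cfsg.sextets ∧ (S.filter fun t => (t ∩ Y).Nonempty).card = 3}.ncard = 1120 ∧ ∀ S S' : Finset (Finset Cfsg.GolayPt), S ∈ Cfsg.sextets → S' ∈ Cfsg.sextets → (S.filter fun t => (t ∩ Y).Nonempty).card = (S'.filter fun t => (t ∩ Y).Nonempty).card → ∃ g ∈ Cfsg.M24, g • Y = Y ∧ g • S = S' := by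
  exact ⟨(hc hY).count (1, 21) (by simp), (hc hY).count (2, 630) (by simp),
    (hc hY).count (3, 1120) (by simp), fun S S' hS hS' h => (hc hY).trans S hS S' hS' h⟩

end Cfsg.Agent.S5616
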