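import Mathlib
import Cfsg.Statements.S5617
import Cfsg.Agent.Golay.Quartet

set_option autoImplicit false
open scoped Pointwise
open Cfsg

namespace Cfsg.Agent.S5617

open Cfsg.Agent.Golay
open scoped Pointwise in
theorem h1 : OrbDec (St M24 (fd 2 cPair)) sextets [396, 495, 880] :=
  orbDec_fc 6 (fun _ h => h.1) (fun _ hg _ => smul_mem_sextets (mem_St.1 hg).1) gen_Pair
    [(11150419558403180716445210652446611810058640, 396),
      (11150423486532947792874164732049264467837760, 495),
      (11150382242010895008167239022564679587348520, 880)]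
    1000 (fun r hr => by
      have : SexOk r.1 := by revert r; decide +kernel
      exact ⟨this.1, this.mem⟩) (by decide +kernel) (by decide) ncard_sextets

/-- The setwise stabiliser, in the group of the length-24 code, of a complementary pair of dodecads has exactly three orbits on the 1771 sextets, of sizes 396, 495 and 880. -/
theorem result (d : Finset Cfsg.GolayPt) (hd : d ∈ Cfsg.dodecads) : ∃ X₁ ∈ Cfsg.sextets, ∃ X₂ ∈ Cfsg.sextets, ∃ X₃ ∈ Cfsg.sextets, (MulAction.orbit ↥(MulAction.stabilizer Cfsg.M24 ({d, Finset.univ \ d} : Finset (Finset Cfsg.GolayPt))) X₁).ncard = 396 ∧ (MulAction.orbit ↥(MulAction.stabilizer Cfsg.M24 ({d, Finset.univ \ d} : Finset (Finset Cfsg.GolayPt))) X₂).ncard = 495 ∧ (MulAction.orbit ↥(MulAction.stabilizer Cfsg.M24 ({d, Finset.univ \ d} : Finset (Finset Cfsg.GolayPt))) X₃).ncard = 880 ∧ Cfsg.sextets = MulAction.orbit ↥(MulAction.stabilizer Cfsg.M24 ({d, Finset.univ \ d} : Finset (Finset Cfsg.GolayPt))) X₁ ∪ MulAction.orbit ↥(MulAction.stabilizer Cfsg.M24 ({d, Finset.univ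 \ d} : Finset (Finset Cfsg.GolayPt))) X₂ ∪ MulAction.orbit ↥(MulAction.stabilizer Cfsg.M24 ({d, Finset.univ \ d} : Finset (Finset Cfsg.GolayPt))) X₃ := by
  simp only [orbit_stabilizer_eq]
  exact (OrbDec.smul (S := fun _ => sextets) (fun _ hg _ _ => smul_mem_sextets hg) h1
      (dpair_trans cPair_ok.mem ⟨d, hd, rfl⟩)).three

end Cfsg.Agent.S5617
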