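import Mathlib
import Cfsg.Statements.S5618
import Cfsg.Agent.Golay.Quartet

set_option autoImplicit false
open scoped Pointwise
open Cfsg

namespace Cfsg.Agent.S5618

open Cfsg.Agent.Golay

/-- For a dodecad d of the length-24 code and a hexad C on it (a 6-point intersection of d with an octad): the joint stabiliser of d and C in the code's group is isomorphic to the symmetric group of degree 6, and it acts faithfully both on the six points of C and on the six points of d outside C. -/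
theorem result (d : Finset Cfsg.GolayPt) (hd : d ∈ Cfsg.dodecads) (C : Finset Cfsg.GolayPt) (hC : C ∈ Cfsg.hexadsOn d) : Nonempty (↥(MulAction.stabilizer Cfsg.M24 d ⊓ MulAction.stabilizer Cfsg.M24 C) ≃* Equiv.Perm (Fin 6)) ∧ (∀ g ∈ MulAction.stabilizer Cfsg.M24 d ⊓ MulAction.stabilizer Cfsg.M24 C, (∀ p ∈ C, ((g : ↥Cfsg.M24) : Equiv.Perm Cfsg.GolayPt) p = p) → g = 1) ∧ ∀ g ∈ MulAction.stabilizer Cfsg.M24 d ⊓ MulAction.stabilizer Cfsg.M24 C, (∀ p ∈ d \ C, ((g : ↥Cfsg.M24) : Equiv.Perm Cfsg.GolayPt) p = p) → g = 1 := by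
  have hC6 := hC.1
  have hCd := hexad_subset hC
  have hf : ∀ g ∈ St M24 (d, C), (∀ a ∈ C, g a = a) → g = 1 := fun g hg h =>
    eq_one_of_fix_dod hd hCd (by omega) hg.1 (congrArg Prod.fst hg.2) h
  refine ⟨?_, fun g hg h => Subtype.ext (eq_one_of_fix_dod hd hCd (by omega) g.2 hg.1 h),
    fun g hg h => Subtype.ext (eq_one_of_fix_dod hd Finset.sdiff_subset (by
      rw [Finset.card_sdiff_of_subset hCd, hd.2, hC6]; norm_num) g.2 hg.1 h)⟩
  obtain ⟨e⟩ := equiv_St (G := M24) (x := (d, C)) ⟨1, one_mem _, one_smul _ _⟩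
    (K := MulAction.stabilizer M24 d ⊓ MulAction.stabilizer M24 C)
    (fun g => by simp [Subgroup.smul_def])
  have hn : (hexadsOn d).ncard = 132 := by
    rw [← show _ = 132 from (classif_dod_oct hd).count (6, 132) (by simp),
      ← Set.InjOn.ncard_image (f := (· ∩ d)) (s := {y | y ∈ octads ∧ (y ∩ d).card = 6})]
    · congr 1
      ext h
      exact ⟨fun ⟨h1, o, ho, e⟩ => ⟨o, ⟨ho, by rw [e, h1]⟩, e⟩, fun ⟨o, ho, e⟩ =>
        ⟨e ▸ ho.2, o, ho.1, e⟩⟩
    · intro o ho o' ho' e
      refine octads_eq_of_five ho.1 ho'.1 (le_trans (by rw [ho.2]; norm_num)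
        (Finset.card_le_card (s := o ∩ d) (Finset.subset_inter Finset.inter_subset_left ?_)))
      rw [show o ∩ d = o' ∩ d from e]
      exact Finset.inter_subset_left
  have hc : Nat.card (St M24 (d, C)) = 720 := by
    rw [St_prod]
    exact card_St_of_trans (S := hexadsOn d) (fun g hg => by
        simpa only [(mem_St.1 hg).2] using smul_mem_hexadsOn hg.1 hC) (fun y hy => by
        obtain ⟨g, hg, e⟩ := hexad_trans hd hd hC hy
        exact ⟨g, ⟨hg, congrArg Prod.fst e⟩, congrArg Prod.snd e⟩) (card_St_dod hd) hn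
      (by norm_num) (by norm_num)
  obtain ⟨e'⟩ := equiv_perm_of_card (H := St M24 (d, C)) (fun g hg => congrArg Prod.snd hg.2) hf
    hC6 hc
  exact ⟨e.trans e'⟩

end Cfsg.Agent.S5618
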