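import Mathlib
import Cfsg.Statements.S5620
import Cfsg.Agent.Golay.Out

set_option autoImplicit false
open scoped Pointwise
open Cfsg

namespace Cfsg.Agent.S5620

open Cfsg.Agent.Golay

/-- Inside the stabiliser of the dodecad of squares (a Mathieu group of degree 12), the stabiliser of the residue 0 (a point of the dodecad) and the stabiliser of the extra point (a point outside the dodecad) are isomorphic but not conjugate; conjugation by a suitable element of the code's group that maps the dodecad of squares onto its complement carries the first onto the second. -/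
theorem result : Nonempty (↥(Cfsg.Spor.M12 ⊓ MulAction.stabilizer (Equiv.Perm Cfsg.GolayPt) (none : Cfsg.GolayPt)) ≃* ↥Cfsg.Spor.M11) ∧ (¬ ∃ k ∈ Cfsg.Spor.M12, MulAut.conj k • Cfsg.Spor.M11 = Cfsg.Spor.M12 ⊓ MulAction.stabilizer (Equiv.Perm Cfsg.GolayPt) (none : Cfsg.GolayPt)) ∧ ∃ g ∈ Cfsg.M24, g • Cfsg.Spor.squareDodecad = Finset.univ \ Cfsg.Spor.squareDodecad ∧ MulAut.conj g • Cfsg.Spor.M11 = Cfsg.Spor.M12 ⊓ MulAction.stabilizer (Equiv.Perm Cfsg.GolayPt) (none : Cfsg.GolayPt) := by
  have key : ∀ k ∈ M24, ∀ D, k • um 340831 = D → MulAut.conj k • Spor.M11 = St M24 (D, k (some 0)) := by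
    rintro k hk D rfl
    ext x
    rw [Subgroup.mem_pointwise_smul_iff_inv_smul_mem, M11_eq, squareDodecad_eq, mem_St, mem_St,
      MulAut.smul_def, MulAut.conj_inv_apply, mul_smul, mul_smul, inv_smul_eq_iff]
    exact and_congr_left' ⟨fun h => by
      simpa [mul_assoc] using M24.mul_mem (M24.mul_mem hk h) (M24.inv_mem hk),
      fun h => M24.mul_mem (M24.mul_mem (M24.inv_mem hk) h) hk⟩
  obtain ⟨g, hg, e⟩ := dod_pt_trans dod0_mem (um_compl_d0 ▸ compl_mem_dodecads dod0_mem) zero_mem_d0
    (p' := none) (by decide +kernel)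
  have e1 : g • um 340831 = um 16436384 := congrArg Prod.fst e
  have e2 : g (some 0) = none := congrArg Prod.snd e
  have h1 : MulAut.conj g • Spor.M11 = Spor.M12 ⊓ MulAction.stabilizer P24 (none : GolayPt) := by
    rw [key g hg _ e1, e2, St_prod]
    refine congrArg (· ⊓ MulAction.stabilizer P24 (none : GolayPt)) (Subgroup.ext fun x => ?_)
    rw [mem_St, mem_M12, squareDodecad_eq, um_compl_d0, smul_compl', compl_inj_iff]
  refine ⟨⟨h1 ▸ (Subgroup.equivSMul _ _).symm⟩, ?_, g, hg, ?_, h1⟩
  · rintro ⟨k, hk, e⟩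
    rw [key k hk.1 _ (smul_M12 k hk)] at e
    obtain ⟨x, hx, h2, h3⟩ := (M12_no_fix (mem_of_smul_eq (smul_M12 k hk) zero_mem_d0)
      (b := none) (by decide +kernel)).2
    have : x ∈ St M24 (um 340831, k (some 0)) := e ▸ ⟨hx, h2⟩
    exact h3 (congrArg Prod.snd this.2)
  · rw [squareDodecad_eq, e1, um_compl_d0, Finset.compl_eq_univ_sdiff]

end Cfsg.Agent.S5620
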