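import Mathlib
import Cfsg.Statements.S5627
import Cfsg.Agent.Golay.Plane

set_option autoImplicit false
open Cfsg

namespace Cfsg.Agent.S5627

open Cfsg.Agent.Golay

/-- In a projective plane of order 4 (a Steiner system S(2, 5, 21)), call a set of points independent when no line meets it in more than two points. There are exactly 2520 independent 4-sets and exactly 168 independent 6-sets (hyperovals), and every independent 4-set lies in exactly one hyperoval. -/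
theorem result {α : Type*} [Fintype α] [DecidableEq α] (hα : Fintype.card α = 21) (L : Set (Finset α)) (hL : Cfsg.IsSteinerSystem 2 5 L) : {S : Finset α | (S.card = 4 ∧ ∀ l ∈ L, (l ∩ S).card ≤ 2)}.ncard = 2520 ∧ {H : Finset α | (H.card = 6 ∧ ∀ l ∈ L, (l ∩ H).card ≤ 2)}.ncard = 168 ∧ ∀ S : Finset α, (S.card = 4 ∧ ∀ l ∈ L, (l ∩ S).card ≤ 2) → ∃! H : Finset α, (H.card = 6 ∧ ∀ l ∈ L, (l ∩ H).card ≤ 2) ∧ S ⊆ H := by
  classical
  obtain ⟨f, h⟩ := canon21 hα hL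
  have h1 : {S : Finset α | (S.card = 4 ∧ ∀ l ∈ L, (l ∩ S).card ≤ 2)}.ncard = 2520 := by
    rw [← ncard_frames, ← Set.ncard_image_of_injective _ (Finset.map_injective f)]
    congr 1
    ext S
    refine ⟨?_, fun ⟨h1, h2, h3⟩ => ?_⟩
    · rintro ⟨s, hs, rfl⟩
      exact ⟨(Finset.card_map f).trans hs.1, h.map_subset s, (h.ind_iff s).1 hs.2⟩
    · obtain ⟨s, rfl⟩ := h.exists_map h2
      exact ⟨s, ⟨(Finset.card_map f).symm.trans h1, (h.ind_iff s).2 h3⟩, rfl⟩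
  have h2 : ∀ S : Finset α, (S.card = 4 ∧ ∀ l ∈ L, (l ∩ S).card ≤ 2) →
      ∃! H : Finset α, (H.card = 6 ∧ ∀ l ∈ L, (l ∩ H).card ≤ 2) ∧ S ⊆ H := fun S hS => by
    obtain ⟨H, ⟨⟨h3, h4, h5⟩, h6⟩, h7⟩ := hyper_unique ((Finset.card_map f).trans hS.1)
      (h.map_subset S) ((h.ind_iff S).1 hS.2)
    obtain ⟨H, rfl⟩ := h.exists_map h4
    exact ⟨H, ⟨⟨(Finset.card_map f).symm.trans h3, (h.ind_iff H).2 h5⟩, Finset.map_subset_map.1 h6⟩,
      fun H' h8 => Finset.map_injective f (h7 _ ⟨⟨(Finset.card_map f).trans h8.1.1, h.map_subset H',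
        (h.ind_iff H').1 h8.1.2⟩, Finset.map_subset_map.2 h8.2⟩)⟩
  refine ⟨h1, ?_, h2⟩
  have h3 := Finset.card_mul_eq_card_mul
    (s := blk {S : Finset α | (S.card = 4 ∧ ∀ l ∈ L, (l ∩ S).card ≤ 2)})
    (t := blk {H : Finset α | (H.card = 6 ∧ ∀ l ∈ L, (l ∩ H).card ≤ 2)}) (· ⊆ ·) (m := 1) (n := 15)
    (fun S hS => ?_) fun H hH => ?_
  · rw [card_blk, card_blk, h1] at h3
    omega
  · obtain ⟨H, h4, h5⟩ := h2 S (mem_blk.1 hS)
    exact Finset.card_eq_one.2 ⟨H, Finset.eq_singleton_iff_unique_mem.2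
      ⟨(Finset.mem_bipartiteAbove _).2 ⟨mem_blk.2 h4.1, h4.2⟩, fun H' h6 => h5 H'
      ⟨mem_blk.1 ((Finset.mem_bipartiteAbove _).1 h6).1, ((Finset.mem_bipartiteAbove _).1 h6).2⟩⟩⟩
  · rw [mem_blk] at hH
    rw [show 15 = (H.powersetCard 4).card by rw [Finset.card_powersetCard, hH.1]; rfl]
    congr 1
    ext S
    rw [Finset.mem_bipartiteBelow, mem_blk, Finset.mem_powersetCard]
    exact ⟨fun h => ⟨h.2, h.1.1⟩, fun h => ⟨⟨h.2, fun l hl => (Finset.card_le_card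
      (Finset.inter_subset_inter subset_rfl h.1)).trans (hH.2 l hl)⟩, h.1⟩⟩

end Cfsg.Agent.S5627
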