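import Mathlib
import Cfsg.Statements.S5628
import Cfsg.Agent.Golay.Plane

set_option autoImplicit false
open Cfsg

namespace Cfsg.Agent.S5628

open Cfsg.Agent.Golay
open scoped Pointwise

/-- In a projective plane of order 4 (a Steiner system S(2, 5, 21)), every permutation of the six points of a hyperoval (a 6-set met by no line in more than two points) is the restriction of exactly one automorphism of the plane. In particular the stabiliser of a hyperoval in the automorphism group is isomorphic to the symmetric group of degree 6 acting faithfully on the hyperoval. -/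
theorem result {α : Type*} [Fintype α] [DecidableEq α] (hα : Fintype.card α = 21) (L : Set (Finset α)) (hL : Cfsg.IsSteinerSystem 2 5 L) (H : Finset α) (hH : (H.card = 6 ∧ ∀ l ∈ L, (l ∩ H).card ≤ 2)) (σ : Equiv.Perm ↥H) : ∃! g : Equiv.Perm α, g ∈ Cfsg.setSystemAut L ∧ ∀ p : ↥H, g p = σ p := by
  obtain ⟨f, h⟩ := canon21 hα hL
  have key : ∀ τ ∈ Cfsg.setSystemAut L, (∀ p ∈ H, τ p = p) → τ = 1 := fun τ hτ h1 => by
    have h2 : ∀ p ∉ H, ∀ x ∈ H, ∃ l ∈ L, p ∈ l ∧ x ∈ l ∧ τ p ∈ l := fun p hp x hx => by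
      obtain ⟨l, hl, h2⟩ := steiner_exists hL (s := {p, x}) Finset.card_le_two (by omega)
      have h3 := h.hyper_even hH.1 hH.2 hl
      have h4 := Finset.card_pos.2 ⟨x, Finset.mem_inter.2 ⟨h2 (by simp), hx⟩⟩
      have h5 : τ • l = l := steiner_unique hL ((mem_setSystemAut_iff _ _).1 hτ l hl) hl
        (le_trans (by omega) (Finset.card_le_card (s := l ∩ H) fun a ha => Finset.mem_inter.2
          ⟨h1 a (Finset.mem_inter.1 ha).2 ▸ Finset.smul_mem_smul_finset (Finset.mem_inter.1 ha).1,
          (Finset.mem_inter.1 ha).1⟩))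
      exact ⟨l, hl, h2 (by simp), h2 (by simp), mem_of_smul_eq h5 (h2 (by simp))⟩
    ext p
    by_cases hp : p ∈ H
    · exact h1 p hp
    obtain ⟨x, hx⟩ := Finset.card_pos.1 (show 0 < H.card by omega)
    obtain ⟨l, hl, h3, -, h4⟩ := h2 p hp x hx
    obtain ⟨y, hy, h5⟩ := Finset.not_subset.1 (show ¬ H ⊆ l from fun h5 => by
      have := hH.2 l hl
      rw [Finset.inter_eq_right.2 h5] at this
      omega)
    obtain ⟨l', hl', h6, h7, h8⟩ := h2 p hp y hy
    by_contra h9
    obtain rfl : l = l' := steiner_unique hL hl hl' (le_trans (Finset.card_pair h9).ge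
      (Finset.card_le_card (by simp [Finset.insert_subset_iff, h3, h4, h6, h8])))
    exact h5 h7
  obtain ⟨o, ho, c, hc, h1, h2, -⟩ := hyper_oct ((Finset.card_map f).trans hH.1) (h.map_subset H)
    ((h.ind_iff H).1 hH.2)
  have e := (H.equivFinOfCardEq hH.1).symm
  obtain ⟨g, hg, h3, h4, h5⟩ := oct_flag_trans le_rfl ho ho hc hc (x := fun i => f (e i))
    (y := fun i => f (σ (e i))) (f.injective.comp (Subtype.val_injective.comp e.injective))
    (f.injective.comp (Subtype.val_injective.comp (σ.injective.comp e.injective)))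
    (fun i => h2 (Finset.mem_map_of_mem f (e i).2)) fun i => h2 (Finset.mem_map_of_mem f (σ _).2)
  have h6 : ∀ p : H, g (f p) = f (σ p) := fun p => by simpa using h5 (e.symm p)
  have h7 : g • H.map f = H.map f := Finset.eq_of_subset_of_card_le (fun a ha => by
    obtain ⟨_, hb, rfl⟩ := Finset.mem_smul_finset.1 ha
    obtain ⟨p, hp, rfl⟩ := Finset.mem_map.1 hb
    rw [Equiv.Perm.smul_def, h6 ⟨p, hp⟩]
    exact Finset.mem_map_of_mem f (σ _).2) (Finset.card_smul_finset _ _).ge
  obtain ⟨τ, hτ, h8⟩ := h.restrict hg (by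
    rw [← Finset.union_sdiff_cancel_left (disjoint_map_of_range h.range H), ← h1,
      Finset.smul_finset_sdiff, Finset.smul_finset_insert, h3, h7, Equiv.Perm.smul_def, h4])
    (smul_all g)
  have h9 : ∀ p : H, τ p = σ p := fun p => f.injective ((h8 p).trans (h6 p))
  refine ⟨τ, ⟨hτ, h9⟩, fun τ' h10 => (inv_mul_eq_one.1 (key _ (mul_mem (inv_mem hτ) h10.1)
    fun p hp => Equiv.Perm.inv_eq_iff_eq.2 ((h10.2 ⟨p, hp⟩).trans (h9 ⟨p, hp⟩).symm))).symm⟩

end Cfsg.Agent.S5628
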