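import Mathlib
import Cfsg.Statements.S5635
import Cfsg.Agent.Max.TNon

set_option autoImplicit false
open Cfsg

namespace Cfsg.Agent.S5635

open Cfsg.Agent.Max Module

variable {F V : Type*} [Field F] [AddCommGroup V] [Module F V] {κ : Type*} [Fintype κ]
  {D : κ → Submodule F V} {π : κ → V →ₗ[F] V}

open scoped _root_.Classical in
/-- The number of non-zero components. -/
noncomputable def wt (π : κ → V →ₗ[F] V) (x : V) : F := ∑ i, if π i x = 0 then 0 else 1

open scoped _root_.Classical in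
theorem wt_eq (I : Finset κ) {x y : V} (h1 : ∀ i ∉ I, π i y = π i x)
    (h2 : ∑ i ∈ I, (if π i y = 0 then 0 else 1 : F) = ∑ i ∈ I, if π i x = 0 then 0 else 1) :
    wt π y = wt π x := by
  rw [wt, wt, ← Finset.sum_compl_add_sum I, ← Finset.sum_compl_add_sum I, h2]
  congr 1
  exact Finset.sum_congr rfl fun i hi => by rw [h1 i (Finset.mem_compl.1 hi)]

theorem wt_perm (h : IsDec D π) {g : V ≃ₗ[F] V} (hg : PermD D g) (x : V) :
    wt π (g x) = wt π x := by
  obtain ⟨s, hs⟩ := hg.proj h
  rw [wt, ← Equiv.sum_comp s]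
  exact Finset.sum_congr rfl fun i _ => by
    by_cases e : π i x = 0
    · rw [if_pos e, if_pos (by rw [hs, e, map_zero])]
    · rw [if_neg e, if_neg (by rwa [hs, g.map_eq_zero_iff])]

theorem wt_one (h : IsDec D π) {i : κ} {a : V} (ha : a ∈ D i) (h0 : a ≠ 0) : wt π a = 1 := by
  rw [wt, Finset.sum_eq_single i (fun j _ hj => by simp [h.of_ne hj ha]) (by simp)]
  simp [h.of_mem ha, h0]

theorem wt_two (h : IsDec D π) {i j : κ} (hij : i ≠ j) {a b : V} (ha : a ∈ D i) (h0 : a ≠ 0)
    (hb : b ∈ D j) (h1 : b ≠ 0) : wt π (a + b) = 1 + 1 := by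
  rw [wt, Finset.sum_eq_add i j hij (fun l _ hl => by simp [h.of_ne hl.1 ha, h.of_ne hl.2 hb])
    (by simp) (by simp)]
  simp [h.of_mem ha, h.of_mem hb, h0, h1, h.of_ne hij hb, h.of_ne hij.symm ha]

theorem not_perm (h : IsDec D π) {i j l : κ} (hjl : j ≠ l) {g : V ≃ₗ[F] V} {a : V} (ha : a ∈ D i)
    (h1 : π j (g a) ≠ 0) (h2 : π l (g a) ≠ 0) : ¬ PermD D g := fun ⟨s, hs⟩ => by
  have : g a ∈ D (s i) := hs i ▸ ⟨a, ha, rfl⟩
  by_cases e : j = s i
  exacts [h2 (h.of_ne (e ▸ hjl.symm) this), h1 (h.of_ne e this)]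

theorem main [FiniteDimensional F V] [Fintype F] (h : IsDec D π) {m : ℕ}
    (hm : ∀ i, finrank F (D i) = m) (ι : Fin 4 ↪ κ)
    (hc : (m = 1 ∧ Fintype.card F ≤ 4) ∨ (m = 2 ∧ Fintype.card F = 2)) :
    ∃ K : Subgroup (V ≃ₗ[F] V), (∀ g, LinearEquiv.det g = 1 → PermD D g → g ∈ K) ∧
      (∃ g, LinearEquiv.det g = 1 ∧ g ∈ K ∧ ¬ PermD D g) ∧ ∃ g, LinearEquiv.det g = 1 ∧ g ∉ K := by
  classical
  have : Finite V := Module.finite_of_finite F
  have ex : ∀ i, ∃ a ∈ D i, a ≠ 0 := fun i => exists_not_mem_of_finrank_lt (W := ⊥) (by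
    rw [hm, finrank_bot]; omega)
  choose a ha ha0 using ex
  choose φ hφ using fun i => exists_dual_one (F := F) (ha0 i)
  have hπ : ∀ i j, π i (a j) = if i = j then a j else 0 := fun i j => by
    split_ifs with e
    exacts [h.of_mem (e ▸ ha j), h.of_ne e (ha j)]
  have h4 : ∀ x : F, x ≠ 0 → x ^ (Fintype.card F - 1) = 1 := FiniteField.pow_card_sub_one_eq_one
  have h5 : Even (Fintype.card F) → (2 : F) = 0 := fun e => by_contra fun e' =>
    Nat.not_odd_iff_even.2 e (Orth.odd_card_of_two_ne_zero e')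
  suffices ∃ g : V ≃ₗ[F] V, LinearEquiv.det g = 1 ∧ (∀ x, wt π (g x) = wt π x) ∧ ¬ PermD D g by
    obtain ⟨g, g1, g2, g3⟩ := this
    refine ⟨sSt F {x | wt π x = 1}, fun g _ hg v => by simp [wt_perm h hg],
      ⟨g, g1, fun v => by simp [g2], g3⟩, tv (a (ι 1)) (φ (ι 0) ∘ₗ π (ι 0)) (by simp [hπ]),
      det_tv _ _ _, fun e => ?_⟩
    have := (e (a (ι 0))).1 (wt_one h (ha _) (ha0 _))
    simp [hπ, hφ, wt_two h (ι.injective.ne zero_ne_one) (ha _) (ha0 _) (ha _) (ha0 _)] at this
  rcases hc with ⟨rfl, hq⟩ | ⟨rfl, hq⟩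
  · have h1 : ∀ i x, π i x = φ i (π i x) • a i := fun i x => by
      obtain ⟨c, hc⟩ := Submodule.mem_span_singleton.1
        (mem_span_of_finrank_le (hm i).le (ha i) (ha0 i) (h.mem i x))
      simp [← hc, hφ]
    have h2 : ∀ k, k ≠ 0 → (∀ x : F, x ≠ 0 → x ^ k = 1) → ∀ i x,
        (if π i x = 0 then 0 else 1 : F) = φ i (π i x) ^ k := fun k hk e i x => by
      split_ifs with e'
      · simp [e', hk]
      · exact (e _ fun e'' => e' (by rw [h1, e'', zero_smul])).symm
    let u := ∑ i, a (ι i)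
    let ψ : Dual F V := ∑ i, φ (ι i) ∘ₗ π (ι i)
    have hu : ∀ i, π (ι i) u = a (ι i) := fun i => by simp [u, hπ]
    have h6 : ∀ k, k ≠ 0 → (∀ x : F, x ≠ 0 → x ^ k = 1) → (∀ c : Fin 4 → F,
        ∑ i, (c i + ∑ j, c j) ^ k = ∑ i, c i ^ k) → ∀ x, wt π (x + ψ x • u) = wt π x :=
      fun k hk e e' x => wt_eq (Finset.univ.map ι) (fun i hi => by
        have : ∀ j, i ≠ ι j := by simpa [eq_comm] using hi
        simp [u, hπ, this]) (by
        simp only [h2 k hk e]
        simpa [hu, hφ, ψ] using e' fun i => φ (ι i) (π (ι i) x))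
    have h7 : ψ u = 4 := by simp [ψ, hu, hφ]
    have h8 : ψ (a (ι 0)) = 1 := by simp [ψ, hπ, hφ, Fin.sum_univ_four]
    have := Fintype.one_lt_card (α := F)
    by_cases h3 : Fintype.card F = 3
    · have h9 : (3 : F) = 0 := by simpa [h3] using FiniteField.cast_card_eq_zero F
      let r := Module.reflection (f := -ψ) (x := u) (by simp [h7]; linear_combination -2 * h9)
      let s := Module.reflection (f := (2 : F) • φ (ι 0) ∘ₗ π (ι 0)) (x := a (ι 0))
        (by simp [hπ, hφ])
      have hr : ∀ x, wt π (r x) = wt π x := fun x => by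
        simpa [r, Module.reflection_apply] using h6 2 two_ne_zero (by simpa [h3] using h4)
          (fun c => by simp only [Fin.sum_univ_four]
                       linear_combination (2 * (c 0 + c 1 + c 2 + c 3) ^ 2) * h9) x
      have hs : ∀ x, wt π (s x) = wt π x := wt_perm h (h.permD_of_fix fun i x hx => by
        by_cases e : ι 0 = i
        · exact sub_mem hx (Submodule.smul_mem _ _ (e ▸ ha _))
        · simpa [s, Module.reflection_apply, h.of_ne e hx] using hx)
      have h10 : (r * s * (r * s)) (a (ι 0)) = u := by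
        simp only [r, s, LinearEquiv.mul_apply, Module.reflection_apply, map_sub, map_smul,
          LinearMap.neg_apply, LinearMap.smul_apply, LinearMap.comp_apply, hπ, hu, hφ, h7, h8,
          if_true, smul_eq_mul]
        linear_combination (norm := module) h9 • a (ι 0) - h9 • u
      refine ⟨r * s * (r * s), ?_, fun x => by simp [hr, hs], not_perm h
        (ι.injective.ne (zero_ne_one (α := Fin 4))) (ha (ι 0)) (by simp [h10, hu, ha0])
        (by simp [h10, hu, ha0])⟩
      rw [map_mul, ← sq]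
      have := h4 _ (LinearEquiv.det (r * s)).ne_zero
      rw [h3] at this
      exact Units.ext this
    · have h9 := h5 (by rcases (by omega : Fintype.card F = 2 ∨ Fintype.card F = 4) with e | e <;>
        simp [e] <;> decide)
      refine ⟨tv u ψ (by rw [h7]; linear_combination 2 * h9), det_tv _ _ _, h6 3 (by simp)
        (fun x hx => ?_) fun c => ?_, not_perm h (ι.injective.ne (show (1 : Fin 4) ≠ 2 by simp))
        (ha (ι 0)) (by simp [h8, hu, ha0, hπ]) (by simp [h8, hu, ha0, hπ])⟩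
      · have := h4 x hx
        rcases (by omega : Fintype.card F = 2 ∨ Fintype.card F = 4) with e | e <;> rw [e] at this
        · simp [show x = 1 by simpa using this]
        · exact this
      · simp only [Fin.sum_univ_four]
        linear_combination (5 * (c 0 + c 1 + c 2 + c 3) ^ 3 - 3 * (c 0 + c 1 + c 2 + c 3) *
          (c 0 * c 1 + c 0 * c 2 + c 0 * c 3 + c 1 * c 2 + c 1 * c 3 + c 2 * c 3)) * h9
  · have h9 := h5 (by simp [hq])
    have hF : ∀ x : F, x = 0 ∨ x = 1 := fun x => or_iff_not_imp_left.2 fun hx => by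
      simpa [hq] using h4 x hx
    have ex : ∀ i, ∃ b ∈ D i, b ∉ F ∙ a i := fun i => exists_not_mem_of_finrank_lt (by
      have := finrank_span_one_le (F := F) (a i)
      rw [hm]; omega)
    choose b hb hb0 using ex
    choose χ h1 h2 using fun i => exists_dual_two (F := F) (hb0 i)
    have h8 : ∀ x : V, x + x = 0 := fun x => by rw [← two_smul F, h9, zero_smul]
    have h3 : ∀ i x, (if π i x + a i = 0 then 0 else 1 : F) =
        (if π i x = 0 then 0 else 1) + 1 + χ i (π i x) := fun i x => by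
      rcases hF (χ i (π i x)) with e | e
      · obtain ⟨c, hc⟩ := Submodule.mem_span_singleton.1 (mem_span_of_finrank_le
          (W := D i ⊓ LinearMap.ker (χ i)) (by
            have := finrank_inf_ker_lt (φ := χ i) (hb i) (by simp [h2])
            rw [hm] at this
            omega) ⟨ha i, h1 i⟩ (ha0 i) ⟨h.mem i x, e⟩)
        rcases hF c with rfl | rfl <;> simp [← hc, ha0, h8, h1]
        linear_combination -h9
      · rw [if_neg fun e' => by simpa [h1, e] using congrArg (χ i) e',
          if_neg fun e' => by simp [e'] at e, e]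
        linear_combination -h9
    let I : Finset κ := {ι 0, ι 1, ι 2}
    let ψ : Dual F V := ∑ i ∈ I, χ i ∘ₗ π i
    have hψ : ∀ j, ψ (a j) = 0 := fun j => by
      rw [LinearMap.sum_apply]
      refine Finset.sum_eq_zero fun i _ => ?_
      by_cases e : i = j <;> simp [hπ, e, h1]
    have h7 : ψ (b (ι 0)) = 1 := by
      simp [ψ, I, h.of_mem (hb _), h2, h.of_ne (ι.injective.ne (show (1 : Fin 4) ≠ 0 by simp)) (hb _),
        h.of_ne (ι.injective.ne (show (2 : Fin 4) ≠ 0 by simp)) (hb _)]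
    refine ⟨tv (∑ i ∈ I, a i) ψ (by simp [hψ]), det_tv _ _ _, fun x => ?_,
      not_perm h (ι.injective.ne (show (1 : Fin 4) ≠ 2 by simp)) (hb (ι 0)) ?_ ?_⟩
    · rw [tv_apply]
      rcases hF (ψ x) with e | e
      · simp [e]
      refine wt_eq I (fun i hi => by simp [hπ, hi]) ?_
      rw [Finset.sum_congr rfl (g := fun i => (if π i x = 0 then 0 else 1) + 1 + χ i (π i x))
        fun i hi => by simpa [e, hπ, hi] using h3 i x, Finset.sum_add_distrib,
        Finset.sum_add_distrib, show ∑ i ∈ I, χ i (π i x) = 1 by simpa [ψ] using e]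
      simp [I, add_assoc, show (3 : F) + 1 = 0 by linear_combination 2 * h9]
    · simp [h7, hπ, I, ha0, h.of_ne (ι.injective.ne (show (1 : Fin 4) ≠ 0 by simp)) (hb _)]
    · simp [h7, hπ, I, ha0, h.of_ne (ι.injective.ne (show (2 : Fin 4) ≠ 0 by simp)) (hb _)]

/-- For a finite field F with q elements and n ≥ 13, let D be a decomposition of F^n into t ≥ 2 independent subspaces of equal dimension m spanning F^n, where m = 1 and q ≤ 4, or m = 2 and q = 2. Then the elements of SL_n(F) permuting the members of D form a subgroup that is not maximal: some subgroup lies strictly between it and SL_n(F). -/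
theorem result {F : Type*} [Field F] [Fintype F] (n : ℕ) (hn : 13 ≤ n) {t : ℕ} (m : ℕ) (D : Fin t → Submodule F (Fin n → F)) (hD : Cfsg.Geo.IsMDecomposition m D) (h : (m = 1 ∧ Fintype.card F ≤ 4) ∨ (m = 2 ∧ Fintype.card F = 2)) : ∃ K : Subgroup (Matrix.GeneralLinearGroup (Fin n) F), Cfsg.Geo.decompositionStabilizer D ⊓ Cfsg.Geo.specialLinear (Fin n) F < K ∧ K < Cfsg.Geo.specialLinear (Fin n) F := by
  obtain ⟨π, hπ⟩ := exists_isDec hD.indep hD.iSup_eq_top
  have h1 := card_eq_of_dec hD
  have ht : 4 ≤ t := by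
    by_contra e
    have : t * m ≤ 3 * 2 := Nat.mul_le_mul (by omega) (by omega)
    simp at h1
    omega
  exact between_of_equiv (Orth.glEquiv _ F) (fun g => LinearEquiv.det g = 1) (PermD D)
    (fun g => by simp [mem_SL]) mem_decStab (main hπ hD.finrank_eq (Fin.castLEEmb ht) h)

end Cfsg.Agent.S5635
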