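import Mathlib
import Cfsg.Statements.S5638
import Cfsg.Agent.Max2.TenSL
import Cfsg.Agent.Max2.ExtMax

set_option autoImplicit false
open Cfsg

namespace Cfsg.Agent.S5638

open Cfsg.Geo Cfsg.Agent.Asch Cfsg.Agent.Max Cfsg.Agent.Max2 Matrix Module TensorProduct
open scoped Kronecker

/-- Over the field with 2 elements, for n = 2 n₂ ≥ 13, the stabiliser in SL_n of a tensor decomposition with factors of dimensions 2 and n₂ (the conjugate by any P of the Kronecker-product subgroup transported along any bijection Fin n ≃ Fin 2 × Fin n₂, intersected with SL_n) is not a maximal subgroup: some subgroup lies strictly between it and SL_n. -/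
theorem result {F : Type*} [Field F] [Fintype F] (n : ℕ) (hn : 13 ≤ n) (hq : Fintype.card F = 2) (n₂ : ℕ) (e : Fin n ≃ Fin 2 × Fin n₂) (P : Matrix.GeneralLinearGroup (Fin n) F) : ∃ K : Subgroup (Matrix.GeneralLinearGroup (Fin n) F), Cfsg.Geo.tensorProductSubgroup 2 n₂ e P ⊓ Cfsg.Geo.specialLinear (Fin n) F < K ∧ K < Cfsg.Geo.specialLinear (Fin n) F := by
  have hc : n = 2 * n₂ := by simpa using Fintype.card_congr e
  have : Nonempty (Fin n) := ⟨⟨0, by omega⟩⟩
  let φ₀ := (fr e P : _ →ₐ[F] Matrix (Fin n) (Fin n) F).comp (kL (Fin 2) (Fin n₂) F)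
  have hK := IsFieldSubalgebra.map (isFieldSubalgebra_K4 hq) φ₀
  have hle : tensorProductSubgroup 2 n₂ e P ≤ subalgebraNormalizer ((K4 F).map φ₀) :=
    (inv_map_kL le_rfl fun a _ _ x hx => cj_mem_K4 hq a hx).le_normalizer
  refine ⟨subalgebraNormalizer ((K4 F).map φ₀) ⊓ specialLinear (Fin n) F,
    lt_of_le_of_ne (inf_le_inf_right _ hle) fun h => ?_,
    (max_ext_SL Nat.prime_two (by simp; omega) hK).1⟩
  obtain ⟨ω, hω, hω'⟩ : ∃ ω ∈ K4 F, ∀ c : F, toLin' ω ≠ c • LinearMap.id := by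
    by_contra hn'
    push Not at hn'
    have : K4 F = ⊥ := eq_bot_iff.2 fun x hx => by
      obtain ⟨c, hc⟩ := hn' x hx
      exact mem_bot_iff.2 ⟨c, toLin'.injective (by simp [hc])⟩
    have h2 := (isFieldSubalgebra_K4 hq).finrank_eq
    rw [this, Subalgebra.finrank_bot] at h2
    omega
  have : Nontrivial (Fin n₂ → F) := Module.nontrivial_of_finrank_pos (R := F) (by simp; omega)
  obtain ⟨w, hw⟩ := exists_ne (0 : Fin n₂ → F)
  obtain ⟨φ, h0, h2, -⟩ := exists_dual_pair (F := F) (W := Fin n₂ → F) (by simp; omega) w w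
  obtain ⟨x, hx⟩ := ((Orth.glEquiv (Fin n) F).trans (cong (tenE e P))).surjective
    (uni (Dm (toLin' ω) φ w) (Dm_Dm _ _ _ _ h2))
  have hx' : cong (tenE e P) (Orth.glEquiv (Fin n) F x) = _ := hx
  refine not_isT_Dm (by simp; omega) hω' h0 hw (fun _ => rfl)
    (hx' ▸ (mem_tensor_iff e P x).1 (h.ge ⟨(mem_normalizer_iff x).2 fun k => ⟨k, fun v => ?_⟩,
      Asch.mem_SL.2 ?_⟩).1)
  · obtain ⟨_, k, hk, rfl⟩ := k
    obtain ⟨y, rfl⟩ := (tenE e P).symm.surjective v
    have e1 : ∀ y, Orth.glEquiv (Fin n) F x ((tenE e P).symm y) =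
        (tenE e P).symm (y + Dm (toLin' ω) φ w y) := fun y => by
      rw [← uni_apply _ (Dm_Dm _ _ _ _ h2), ← hx', cong_apply]; simp
    have e2 : ∀ u v, φ₀ k *ᵥ (tenE e P).symm (u ⊗ₜ v) = (tenE e P).symm ((k *ᵥ u) ⊗ₜ v) :=
      fun u v => (fr_kron_tenE e P k 1 u v).trans (by rw [one_mulVec])
    simp only [sub_smul_eq]
    change Orth.glEquiv (Fin n) F x (φ₀ k *ᵥ _) = φ₀ k *ᵥ _
    induction y with
    | zero => simp
    | tmul u v =>
      rw [e2, e1, e1, map_add, map_add, mulVec_add, e2, Dm_apply, Dm_apply, e2]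
      simp only [cW_tmul, toLin'_apply, mulVec_smul, mulVec_mulVec,
        (isFieldSubalgebra_K4 hq).comm k hk ω hω]
    | add y z hy hz => simp only [map_add, mulVec_add, hy, hz]
  · exact congrArg Units.val (eq_one_of_card_two hq (Matrix.GeneralLinearGroup.det x))

end Cfsg.Agent.S5638
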