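import Cfsg.Statements.S5648
import Cfsg.Agent.Max.Sp3
import Cfsg.Agent.Asch.Alg

set_option autoImplicit false
open Cfsg

namespace Cfsg.Agent.S5648

/-- Over the field with 2 elements and for m ≥ 7, let D be a decomposition of F^(2m) into t pairwise orthogonal non-degenerate 2-dimensional subspaces for the standard alternating form (t = m ≥ 2). Then the elements of Sp_2m(2) permuting the members of D form a subgroup that is not maximal: some subgroup lies strictly between it and Sp_2m(2). -/
theorem result {F : Type*} [Field F] [Fintype F] (m : ℕ) (hm : 7 ≤ m) (hq : Fintype.card F = 2) {t : ℕ} (D : Fin t → Submodule F (Fin m ⊕ Fin m → F)) (hD : Cfsg.Geo.IsNondegenerateMDecomposition (Cfsg.sympForm m F) 2 D) : ∃ K : Subgroup (Matrix.GeneralLinearGroup (Fin m ⊕ Fin m) F), Cfsg.Geo.decompositionStabilizer D ⊓ Cfsg.spGL m F < K ∧ K < Cfsg.spGL m F := by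
  classical
  have h01 : ∀ c : F, c = 0 ∨ c = 1 := fun c => by
    by_contra hc
    push Not at hc
    have := Finset.card_le_univ ({c, 0, 1} : Finset F)
    rw [Finset.card_eq_three.mpr ⟨c, 0, 1, hc.1, hc.2, zero_ne_one, rfl⟩] at this
    omega
  have h2 : (2 : F) = 0 := (h01 2).resolve_right fun e => one_ne_zero (α := F) (by linear_combination e)
  rw [Max.sympForm_eq'] at hD
  set B := Classical.SpMat.sB (Fin m) F with hB
  have hA : B.IsAlt := Classical.SpMat.sB_alt
  obtain ⟨π, h⟩ := Max.exists_isDec hD.decomp.indep hD.decomp.iSup_eq_top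
  have ho : ∀ i j, i ≠ j → ∀ x ∈ D i, ∀ y ∈ D j, B x y = 0 := hD.orthogonal
  let q : (Fin m ⊕ Fin m → F) → F := fun v => if v = 0 then 0 else 1
  let Q : (Fin m ⊕ Fin m → F) → F := fun v => ∑ i, q (π i v)
  have hneg : ∀ x : Fin m ⊕ Fin m → F, -x = x := fun x => by
    rw [neg_eq_iff_add_eq_zero, ← two_smul F, h2, zero_smul]
  have hq1 : ∀ i, ∀ x ∈ D i, ∀ y ∈ D i, q (x + y) - q x - q y = B x y := by
    intro i x hx y hy
    by_cases hx0 : x = 0
    · simp [q, hx0]
    by_cases hy0 : y = 0
    · simp [q, hy0]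
    by_cases hxy : x + y = 0
    · obtain rfl : y = x := (eq_neg_of_add_eq_zero_right hxy).trans (hneg x)
      simp only [q, hxy, hx0, hA.self_eq_zero, if_true, if_false]
      linear_combination -h2
    simp only [q, hxy, hx0, hy0, if_false]
    rcases h01 (B x y) with e | e
    · exfalso
      obtain ⟨z, hz, hz'⟩ := (hD.nondegenerate i x hx hx0).2
      have h3 : D i ⊓ LinearMap.ker (B x) < D i :=
        lt_of_le_of_ne inf_le_left fun e => hz' (e.ge hz).2
      have h4 := Submodule.finrank_lt_finrank_of_lt h3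
      rw [hD.decomp.finrank_eq] at h4
      obtain ⟨⟨v, hv⟩, h5⟩ := finrank_le_one_iff.mp (Nat.lt_succ_iff.mp h4)
      obtain ⟨a, ha⟩ := h5 ⟨x, hx, hA.self_eq_zero x⟩
      obtain ⟨b, hb⟩ := h5 ⟨y, hy, e⟩
      obtain rfl : a • v = x := congrArg Subtype.val ha
      obtain rfl : b • v = y := congrArg Subtype.val hb
      rcases h01 a with rfl | rfl
      · simp at hx0
      rcases h01 b with rfl | rfl
      · simp at hy0
      exact hxy (by rw [← two_smul F, h2, zero_smul])
    · rw [e]
      linear_combination -h2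
  have hpol : ∀ u v, QuadraticMap.polar Q u v = B u v := fun u v => by
    simp only [QuadraticMap.polar, Q, map_add, ← Finset.sum_sub_distrib]
    conv_rhs => rw [← h.sum u, map_sum, LinearMap.sum_apply]
    exact Finset.sum_congr rfl fun i _ => (hq1 i _ (h.mem i u) _ (h.mem i v)).trans
      (h.b_proj ho (h.mem i u) v)
  have hpol' : QuadraticMap.polar Q = fun u v => B u v := funext fun u => funext (hpol u)
  have hQ : Geo.IsNondegenerateQuadraticForm Q := by
    refine ⟨fun c v => ?_, ?_, ?_⟩
    · rcases h01 c with rfl | rfl <;> simp [Q, q]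
    · rw [hpol']
      exact ⟨by simp, by simp, by simp, by simp⟩
    · rw [hpol']
      intro v hv
      constructor
      · by_contra hc
        push Not at hc
        exact hv (Classical.SpMat.sB_nondeg.2 v hc)
      · by_contra hc
        push Not at hc
        exact hv (Classical.SpMat.sB_nondeg.1 v hc)
  refine ⟨_, lt_of_le_not_ge (inf_le_inf_right _ ?_) fun hle => ?_, (Max.max_sp_orth h2 (by omega)
    hQ fun u v => (hpol u v).trans (Classical.SpMat.sympForm_eq m u v).symm).1⟩
  · intro g hg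
    obtain ⟨s, hs⟩ := (Max.mem_decStab g).mp hg
    refine ⟨1, fun v => ?_⟩
    set g' := Orth.glEquiv _ F g
    change Q (g' v) = _
    rw [Units.val_one, one_mul]
    refine (Finset.sum_equiv s (by simp) fun i _ => ?_).symm
    have : π (s i) (g' v) = g' (π i v) := by
      have h3 : ∀ j, g' (π j v) ∈ D (s j) := fun j => hs j ▸ ⟨_, h.mem j v, rfl⟩
      conv_lhs => rw [← h.sum v, map_sum, map_sum]
      rw [Finset.sum_eq_single i (fun j _ hj => h.of_ne (s.injective.ne hj.symm) (h3 j)) (by simp),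
        h.of_mem (h3 i)]
    simp [q, this]
  · have ht : 3 ≤ t := by
      have := Asch.card_eq_of_decomp hD.decomp
      simp at this
      omega
    have ne : ∀ i, ∃ x ∈ D i, x ≠ 0 := fun i => by
      obtain ⟨x, hx, hx0⟩ := Max.exists_not_mem_of_finrank_lt (W := ⊥) (U := D i)
        (by simp [hD.decomp.finrank_eq])
      exact ⟨x, hx, by simpa using hx0⟩
    choose a ha ha0 using ne
    let i0 : Fin t := ⟨0, by omega⟩
    let i1 : Fin t := ⟨1, by omega⟩
    let i2 : Fin t := ⟨2, by omega⟩
    have h01' : i0 ≠ i1 := by simp [i0, i1]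
    have h02 : i0 ≠ i2 := by simp [i0, i2]
    have h12 : i1 ≠ i2 := by simp [i1, i2]
    set b := a i0 + a i1 + a i2 with hb
    have hQb : Q b = 1 := by
      have h3 : ∀ i, Q (a i) = 1 := fun i => by
        simp only [Q]
        rw [Finset.sum_eq_single i (fun j _ hj => by simp [q, h.of_ne hj (ha i)]) (by simp)]
        simp [q, h.of_mem (ha i), ha0]
      have h4 := hpol (a i0) (a i1)
      have h5 := hpol (a i0 + a i1) (a i2)
      simp only [QuadraticMap.polar, h3, map_add, LinearMap.add_apply, ho _ _ h01' _ (ha _) _ (ha _),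
        ho _ _ h02 _ (ha _) _ (ha _), ho _ _ h12 _ (ha _) _ (ha _)] at h4 h5
      linear_combination h4 + h5 + h2
    obtain ⟨g, hg⟩ := (Orth.glEquiv _ F).surjective (Orth.refl (Max.toQuad hQ) b).1
    have hg1 : ∀ v, Q (Orth.glEquiv _ F g v) = Q v := fun v => hg ▸ Orth.OG.map_Q (Q := Max.toQuad hQ) _ v
    have hg2 : g ∈ spGL m F := (Max.mem_spGL g).mpr fun u v => by
      rw [← hB, ← hpol, ← hpol]
      simp only [QuadraticMap.polar, ← map_add, hg1]
    obtain ⟨s, hs⟩ := (Max.mem_decStab g).mp (hle ⟨⟨1, by simpa using hg1⟩, hg2⟩).1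
    obtain ⟨x, hx, hx'⟩ := (hD.nondegenerate i0 _ (ha i0) (ha0 i0)).2
    have h3 : x - b ∈ D (s i0) := by
      refine hs i0 ▸ ⟨x, hx, ?_⟩
      change Orth.glEquiv _ F g x = _
      rw [hg, Orth.refl_apply, Max.coe_toQuad, hQb, hpol, hb]
      simp only [map_add, LinearMap.add_apply, ho _ _ h01'.symm _ (ha _) _ hx,
        ho _ _ h02.symm _ (ha _) _ hx, (h01 _).resolve_left hx']
      simp
    have h4 : π i1 (x - b) ≠ 0 := by
      simp [hb, h.of_ne h01'.symm hx, h.of_ne h01'.symm (ha _), h.of_mem (ha _),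
        h.of_ne h12 (ha _), ha0]
    have h5 : π i2 (x - b) ≠ 0 := by
      simp [hb, h.of_ne h02.symm hx, h.of_ne h02.symm (ha _), h.of_mem (ha _),
        h.of_ne h12.symm (ha _), ha0]
    by_cases e : i1 = s i0
    · exact h5 (h.of_ne (e ▸ h12.symm) h3)
    · exact h4 (h.of_ne e h3)

end Cfsg.Agent.S5648
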