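import Mathlib
import Cfsg.Statements.S5658
import Cfsg.Agent.Max.SubUn

set_option autoImplicit false
open Cfsg

namespace Cfsg.Agent.S5658

/-- Let F be the field with q² elements, n ≥ 13, and F₀ a subfield with |F| = |F₀| ^ r for an odd prime r. Let P be an invertible matrix such that the standard unitary form takes values in F₀ on the F₀-span of the columns of P. Then the elements of SU_n(q) lying in the subfield group of P (the conjugate by P of the product of GL_n(F₀) with the scalars) form a maximal subgroup of SU_n(q). -/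
theorem result {F : Type*} [Field F] [Fintype F] (n q : ℕ) (hF : Fintype.card F = q ^ 2) (hn : 13 ≤ n) (F₀ : Subfield F) (r : ℕ) (hr : r.Prime) (hro : Odd r) (hcard : Fintype.card F = Nat.card F₀ ^ r) (P : Matrix.GeneralLinearGroup (Fin n) F) (hP : Cfsg.Geo.IsFormRationalStructure (Cfsg.hermForm n F q) F₀ 1 P) : Cfsg.Geo.IsMaximalIn (Cfsg.GU n F q ⊓ Cfsg.Geo.specialLinear (Fin n) F) (Cfsg.Geo.subfieldSubgroup F₀ P ⊓ (Cfsg.GU n F q ⊓ Cfsg.Geo.specialLinear (Fin n) F)) := by
  have hF' := Herm.natCard_of_card hF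
  have hq : Nat.card F = Nat.card F₀ ^ r := Nat.card_eq_fintype_card.trans hcard
  obtain ⟨t, ht, ht'⟩ := Max.exists_frob_ne hF' hro hq
  have hi := Herm.inv_frob hF'
  have h1 : t - Herm.frob hF' t ≠ 0 := sub_ne_zero.mpr ht'.symm
  have h2 : Herm.frob hF' t - t ≠ 0 := sub_ne_zero.mpr ht'
  have h3 := sub_mem ht (Max.map_mem_subfield hi ht)
  refine Max.max_un_subfield hF' (by omega) hr hq P one_ne_zero hP (fun w _ hb hb' =>
    ⟨by simpa using hb', hermForm n F q (P.1.mulVec w) (P.1.mulVec w) * (t / (t - Herm.frob hF' t)), ?_, ?_⟩)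
    (Or.inr ⟨hro, rfl, _, h3, h1, by simp [hi.invol]⟩)
  · simpa using mul_mem hb' (div_mem ht h3)
  · rw [map_mul, map_div₀, map_sub, hi.invol, hb]
    field_simp
    ring

end Cfsg.Agent.S5658
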