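import Mathlib
import Cfsg.Statements.S5659
import Cfsg.Agent.Max.SubUn

set_option autoImplicit false
open Cfsg

namespace Cfsg.Agent.S5659

/-- Let F be the field with q² elements, q odd, n ≥ 13, and F₀ the subfield with q elements. Let P be an invertible matrix such that the standard unitary form takes values in F₀ on the F₀-span of the columns of P (so it restricts to a non-degenerate symmetric bilinear form there). Then the elements of SU_n(q) lying in the subfield group of P form a maximal subgroup of SU_n(q). -/
theorem result {F : Type*} [Field F] [Fintype F] (n q : ℕ) (hF : Fintype.card F = q ^ 2) (hn : 13 ≤ n) (hodd : Odd q) (F₀ : Subfield F) (hcard : Fintype.card F = Nat.card F₀ ^ 2) (P : Matrix.GeneralLinearGroup (Fin n) F) (hP : Cfsg.Geo.IsFormRationalStructure (Cfsg.hermForm n F q) F₀ 1 P) : Cfsg.Geo.IsMaximalIn (Cfsg.GU n F q ⊓ Cfsg.Geo.specialLinear (Fin n) F) (Cfsg.Geo.subfieldSubgroup F₀ P ⊓ (Cfsg.GU n F q ⊓ Cfsg.Geo.specialLinear (Fin n) F)) := by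
  have hF' := Herm.natCard_of_card hF
  have h2 : (2 : F) ≠ 0 := fun e => by
    have : CharP F 2 := (CharP.charP_iff_prime_eq_zero Nat.prime_two).mpr e
    have h1 := FiniteField.even_card_of_char_two (ringChar.eq F 2)
    have h3 := Nat.odd_iff.mp (hodd.pow (n := 2))
    omega
  refine Max.max_un_subfield hF' (by omega) Nat.prime_two (Nat.card_eq_fintype_card.trans hcard) P
    one_ne_zero hP (fun w _ hb hb' => ⟨by simpa using hb', hermForm n F q (P.1.mulVec w) (P.1.mulVec w) / 2, ?_, ?_⟩) (Or.inl rfl)
  · simpa using div_mem hb' (natCast_mem F₀ 2)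
  · rw [map_div₀, hb, map_ofNat]
    field_simp
    ring

end Cfsg.Agent.S5659
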