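import Mathlib
import Cfsg.Statements.S5673
import Cfsg.Agent.Asch.OMax

set_option autoImplicit false
open Cfsg

namespace Cfsg.Agent.S5673

/-- Subgroup structure of the odd-dimensional orthogonal groups. Let F be a finite field of odd order and m ≥ 3, let Q be the standard quadratic form x₀² + Σ x_i y_i on F^(2m+1), and let Ω be the commutator subgroup of its isometry group, viewed inside GL_(2m+1)(F). Let H be a subgroup of Ω whose product with the scalar matrices in Ω is not all of Ω. Then either H is contained in a member of one of the geometric classes of subgroups of the isometry group (with the conditions built into InOrthogonalOddClass), or H is in the residual class: modulo scalars it is almost simple, and the perfect preimage of its socle acts absolutely irreducibly, is realisable over no proper subfield, and fixes no non-degenerate unitary form. -/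
theorem result {F : Type*} [Field F] [Fintype F] (hodd : Odd (Fintype.card F)) (m : ℕ) (hm : 3 ≤ m) (H : Subgroup (Matrix.GeneralLinearGroup (Unit ⊕ (Fin m ⊕ Fin m)) F)) (hH : H ≤ Cfsg.Geo.omegaGL (Cfsg.quadFormOdd m F)) (hproper : H ⊔ (Cfsg.Geo.scalars (Unit ⊕ (Fin m ⊕ Fin m)) F ⊓ Cfsg.Geo.omegaGL (Cfsg.quadFormOdd m F)) ≠ Cfsg.Geo.omegaGL (Cfsg.quadFormOdd m F)) : (∃ M : Subgroup (Matrix.GeneralLinearGroup (Unit ⊕ (Fin m ⊕ Fin m)) F), Cfsg.Geo.InOrthogonalOddClass m F M ∧ H ≤ M) ∨ Cfsg.Geo.InOrthogonalResidualClass H := by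
  obtain ⟨J, hJ, hd⟩ := Asch.exists_qj_odd m (Asch.odd_card_iff.1 hodd)
  have hn : Fintype.card (Unit ⊕ (Fin m ⊕ Fin m)) = 2 * m + 1 := by simp; omega
  have hI := hH.trans Asch.omegaGL_le_IQ
  refine (Asch.o_main ⟨hJ, hI, hH.trans Asch.omegaGL_le_SL, by omega⟩).imp_left ?_
  rintro (⟨M, h, hM⟩ | ⟨k, t, h1, h2, h3, -⟩)
  swap
  · exact absurd ((Nat.even_pow' (n := t) (by omega)).2 h1) (by rw [← h3, hn]; simp)
  refine ⟨_, ?_, le_inf hM hI⟩
  simp only [Geo.InOrthogonalOddClass, hJ.polar_eq]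
  simp only [Asch.OCls, hn] at h
  rcases h with ⟨W, h1, h2, rfl⟩ | ⟨W, h1, h2, h3, h4, rfl⟩ | ⟨v, h1, h2, rfl⟩ |
    ⟨t, D, h1, h2, h3, rfl⟩ | ⟨t, k, D, h1, h2, h3, h4, h5, h6, rfl⟩ | ⟨k, D, h1, h2, rfl⟩ |
    ⟨r, K, h1, h2, h3, h4, h5, h6, rfl⟩ | ⟨K, h1, h2, h3, h4, rfl⟩ |
    ⟨a, b, e, P, f₁, f₂, h1, h2, h3, h4, h5, h6, h7, h8, h9, rfl⟩ |
    ⟨a, b, e, P, f₁, f₂, h1, h2, h3, h4, h5, h6, h7, h8, h9, h10, rfl⟩ |
    ⟨F₀, r, P, ζ, h1, h2, h3, h4, rfl⟩ | ⟨k, t, e, P, f₁, h1, h2, h3, h4, h5, h6, rfl⟩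
  · exact .inl ⟨W, h1, h2, rfl⟩
  · exact .inr <| .inl ⟨W, h1, by rintro rfl; simp at h3; omega, h2, rfl⟩
  · exact absurd hodd h1
  · exact .inr <| .inr <| .inr <| .inl ⟨t, D, h1, h3, rfl⟩
  · exact .inr <| .inr <| .inl ⟨t, k, D, h1, h2, rfl⟩
  · have := Asch.IsMDecomposition.card_eq h1; omega
  · exact .inr <| .inr <| .inr <| .inr <| .inl ⟨r, K, h1, h4, h2, h3, rfl⟩
  · have := Asch.IsFieldSubalgebra.dvd_card h1; omega
  · have hc : 2 * m + 1 = a * b := by simpa [hn] using Fintype.card_congr e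
    exact .inr <| .inr <| .inr <| .inr <| .inr <| .inl ⟨a, b, e, P, f₁, f₂, h2, h3.lt_of_ne fun e =>
      absurd (hc ▸ (h4 e).mul_right b) (by simp), h7, h8, h9, rfl⟩
  · have hc : 2 * m + 1 = a * b := by simpa [hn] using Fintype.card_congr e
    exact absurd (hc ▸ h3.mul_right b) (by simp)
  · obtain ⟨P', h5, h6⟩ := hJ.rescale hn (hd F₀) h3 h4
    exact .inr <| .inr <| .inr <| .inr <| .inr <| .inr <| .inl ⟨F₀, r, P', h1, h2, h5, by rw [h6]⟩
  · exact .inr <| .inr <| .inr <| .inr <| .inr <| .inr <| .inr <| ⟨k, t, e, P, f₁, h2, h3, h4, h5, h6, rfl⟩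

end Cfsg.Agent.S5673
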