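import Mathlib
import Cfsg.Statements.S5680
import Cfsg.Agent.Max3.OX5

set_option autoImplicit false
open Cfsg

namespace Cfsg.Agent.S5680

/-- Let F be a finite field of odd order, m ≥ 6, Q the standard quadratic form on F^(2m+1) and Ω the commutator subgroup of its isometry group. Let K be a subfield of the algebra of (2m+1) × (2m+1) matrices over F containing the scalars, of prime degree r over F with r ≠ 2m + 1, whose elements are self-adjoint for the polar form of Q. Then the elements of Ω normalising K form a maximal subgroup of Ω. -/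
theorem result {F : Type*} [Field F] [Fintype F] (hodd : Odd (Fintype.card F)) (m : ℕ) (hm : 6 ≤ m) (r : ℕ) (hr : r.Prime) (hrn : 2 * m + 1 ≠ r) (K : Subalgebra F (Matrix (Unit ⊕ (Fin m ⊕ Fin m)) (Unit ⊕ (Fin m ⊕ Fin m)) F)) (hK : Cfsg.Geo.IsFieldSubalgebra r K) (hsa : Cfsg.Geo.IsSelfAdjointFor (QuadraticMap.polar (Cfsg.quadFormOdd m F)) K) : Cfsg.Geo.IsMaximalIn (Cfsg.Geo.omegaGL (Cfsg.quadFormOdd m F)) (Cfsg.Geo.subalgebraNormalizer K ⊓ Cfsg.Geo.omegaGL (Cfsg.quadFormOdd m F)) := by
  rw [← Orth.coe_oddQ m] at hsa ⊢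
  have h2 := Orth.two_ne_zero_of_odd hodd
  have hQ := Orth.nd_oddQ m h2
  have hc : Fintype.card (Unit ⊕ (Fin m ⊕ Fin m)) = 2 * m + 1 := by simp; omega
  let := (Asch.isField_of hK.comm hK.inv).toField
  have e := Module.finrank_mul_finrank F K (Unit ⊕ (Fin m ⊕ Fin m) → F)
  rw [Module.finrank_fintype_fun_eq_card, hK.finrank_eq, hc] at e
  generalize Module.finrank K (Unit ⊕ (Fin m ⊕ Fin m) → F) = d at e
  have h3 := hr.two_le
  by_cases hd : d = 3
  · subst hd
    exact Max3.max_om_ext3 hQ (by rwa [Nat.card_eq_fintype_card]) h2 hr (by omega) (by omega) hK hsa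
  refine Max2.max_om_ext hQ h2 hr ?_ hK hsa
  have : 4 ≤ d := by
    by_contra hn
    obtain rfl | rfl | rfl : d = 0 ∨ d = 1 ∨ d = 2 := by omega
    all_goals omega
  have := Nat.mul_le_mul_left r this
  omega

end Cfsg.Agent.S5680
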