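import Mathlib
import Cfsg.Statements.S5692
import Cfsg.Agent.Max.ODec3

set_option autoImplicit false
open Cfsg

namespace Cfsg.Agent.S5692

/-- Let F be a finite field with q elements, n ≥ 13 even, Q a non-degenerate quadratic form on F^n of plus type (some subspace of dimension n/2 is totally singular), and Ω the commutator subgroup of the isometry group of Q, viewed inside GL_n(F). Let D be a decomposition of F^n into t ≥ 2 pairwise orthogonal, pairwise Q-isometric subspaces of equal dimension k ≥ 2 on which the polar form is non-degenerate, such that: if k is even, either every member is of plus type or t is even; if k is odd, q is odd and the discriminant of Q is a square. Exclude the cases k = 2 with q = 3, k = 2 with plus-type members and q ∈ {2, 4, 5}, k = 3 with q = 3, and k = 4 with plus-type members and q = 2. Then the elements of Ω permuting the members of D form a maximal subgroup of Ω. -/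
theorem result {F : Type*} [Field F] [Fintype F] {n : ℕ} (hn : 13 ≤ n) (heven : Even n) (Q : (Fin n → F) → F) (hQ : Cfsg.Geo.IsNondegenerateQuadraticForm Q) (hplus : Cfsg.Geo.IsPlusTypeOn Q ⊤) {t : ℕ} (k : ℕ) (hk : 2 ≤ k) (D : Fin t → Submodule F (Fin n → F)) (hD : Cfsg.Geo.IsOrthogonalMDecomposition Q k D) (hke : Even k → ((∀ i, Cfsg.Geo.IsPlusTypeOn Q (D i)) ∨ Even t)) (hko : Odd k → (Odd (Fintype.card F) ∧ Cfsg.Geo.HasSquareDiscriminant Q)) (hex : ¬ ((k = 2 ∧ (Fintype.card F = 3 ∨ ((∀ i, Cfsg.Geo.IsPlusTypeOn Q (D i)) ∧ (Fintype.card F = 2 ∨ Fintype.card F = 4 ∨ Fintype.card F = 5)))) ∨ (k = 3 ∧ Fintype.card F = 3) ∨ (k = 4 ∧ Fintype.card F = 2 ∧ ∀ i, Cfsg.Geo.IsPlusTypeOn Q (D i)))) : Cfsg.Geo.IsMaximalIn (Cfsg.Geo.omegaGL Q) (Cfsg.Geo.decompositionStabilizer D ⊓ Cfsg.Geo.omegaGL Q) := by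
  have h1 := Fintype.one_lt_card (α := F)
  refine Max.max_om_blocks (Q := Max.toQuad hQ) (Max.toQuad_nd hQ) (by simp; omega) hD hk
    (fun e => ?_) (fun e => ?_) (fun e e' => ?_) (fun e e' => ?_) <;>
    rw [Nat.card_eq_fintype_card] at *
  · intro e'
    rcases hk.eq_or_lt with h | h
    · exact hex (Or.inl ⟨h.symm, Or.inl e'⟩)
    · exact hex (Or.inr (Or.inl ⟨by omega, e'⟩))
  · intro e'
    have := (hko (by rw [e]; decide)).1
    rw [e'] at this
    exact absurd this (by decide)
  · by_contra hc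
    push Not at hc
    by_cases h3 : Fintype.card F = 3
    · exact hex (Or.inl ⟨e, Or.inl h3⟩)
    · exact hex (Or.inl ⟨e, Or.inr ⟨hc, by omega⟩⟩)
  · by_contra hc
    push Not at hc
    exact hex (Or.inr (Or.inr ⟨e, e', hc⟩))

end Cfsg.Agent.S5692
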