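import Mathlib
import Cfsg.Statements.S5705
import Cfsg.Agent.Max.TNon
import Cfsg.Agent.Asch.OMax
import Cfsg.Agent.Max2.ExtMax

set_option autoImplicit false
open Cfsg

namespace Cfsg.Agent.S5705

open Cfsg.Geo Cfsg.Agent.Asch Cfsg.Agent.Max Cfsg.Agent.Max2 Matrix Module TensorProduct
open scoped Kronecker

/-- Let F be the field with 2 elements, n = 2 n₂ ≥ 13 even, Q a non-degenerate quadratic form on F^n of plus type and Ω the commutator subgroup of its isometry group. Suppose that, through P and e, the polar form of Q is similar to the tensor product of non-degenerate symplectic forms f₁ on F^2 and f₂ on F^(n₂), and Q vanishes on the images of all pure tensors. Then the elements of Ω in the stabiliser of this tensor decomposition form a subgroup that is not maximal: some subgroup lies strictly between it and Ω. -/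
theorem result {F : Type*} [Field F] [Fintype F] {n : ℕ} (hn : 13 ≤ n) (heven : Even n) (Q : (Fin n → F) → F) (hQ : Cfsg.Geo.IsNondegenerateQuadraticForm Q) (hplus : Cfsg.Geo.IsPlusTypeOn Q ⊤) (hq : Fintype.card F = 2) (n₂ : ℕ) (h2 : 2 < n₂) (e : (Fin n) ≃ Fin 2 × Fin n₂) (P : Matrix.GeneralLinearGroup (Fin n) F) (f₁ : (Fin 2 → F) → (Fin 2 → F) → F) (f₂ : (Fin n₂ → F) → (Fin n₂ → F) → F) (hf₁ : Cfsg.Geo.IsSymplecticForm f₁) (hf₂ : Cfsg.Geo.IsSymplecticForm f₂) (hT : Cfsg.Geo.IsTensorFormStructure id (QuadraticMap.polar Q) f₁ f₂ e P) (hpure : (∀ (x₁ : Fin 2 → F) (x₂ : Fin n₂ → F), Q (Matrix.mulVec (P : Matrix (Fin n) (Fin n) F) ((fun a : Fin 2 × Fin n₂ => x₁ a.1 * x₂ a.2) ∘ e)) = 0)) : ∃ K : Subgroup (Matrix.GeneralLinearGroup (Fin n) F), Cfsg.Geo.tensorProductSubgroup 2 n₂ e P ⊓ Cfsg.Geo.omegaGL Q < K ∧ K < Cfsg.Geo.omegaGL Q := by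
  have hc : n = 2 * n₂ := by simpa using Fintype.card_congr e
  have : Nonempty (Fin n) := ⟨⟨0, by omega⟩⟩
  let φ₀ := (fr e P : _ →ₐ[F] Matrix (Fin n) (Fin n) F).comp (kL (Fin 2) (Fin n₂) F)
  have hK := IsFieldSubalgebra.map (isFieldSubalgebra_K4 hq) φ₀
  have hle : tensorProductSubgroup 2 n₂ e P ≤ subalgebraNormalizer ((K4 F).map φ₀) :=
    (inv_map_kL le_rfl fun a _ _ x hx => cj_mem_K4 hq a hx).le_normalizer
  obtain ⟨J, hJ⟩ := exists_QJ hQ
  refine ⟨subalgebraNormalizer ((K4 F).map φ₀) ⊓ omegaGL Q,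
    lt_of_le_of_ne (inf_le_inf_right _ hle) fun h => ?_, lt_of_le_not_ge inf_le_right fun h =>
      (amb_O hJ (by simp; omega)).not_le_field le_rfl hK (h.trans inf_le_left)⟩
  have h2 : (2 : F) = 0 := two_eq_zero_of_even (by simp [hq])
  obtain ⟨c, hc0, hT⟩ := tensor_form (σ := RingHom.id F) hT (bilOf hf₁.bilinear) (fun _ _ => rfl)
    (bilOf hf₂.bilinear) fun _ _ => rfl
  have hS := SS.mk' (M := OM _) (Q := (toQuad hQ).comp (tenE e P).symm.toLinearMap)
    (p := c • bilOf hf₁.bilinear)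
    ⟨fun x hx => (bilOf_nd hf₁.bilinear hf₁.nondegenerate).1 x fun y => by simpa [hc0] using hx y,
      fun x hx => (bilOf_nd hf₁.bilinear hf₁.nondegenerate).2 x fun y => by simpa [hc0] using hx y⟩
    (bilOf_nd hf₂.bilinear hf₂.nondegenerate) (fun x => by simp [bilOf_apply, hf₁.alternating])
    hf₂.alternating (fun u w u' w' => by
      simpa [QuadraticMap.polar, bilOf_apply, mul_assoc] using hT u w u' w')
    (fun u w => by simpa [tenE_symm] using hpure u w) (by simp) (by simp; omega) (by simp; omega)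
    (fun g hg _ => hg) le_rfl
  have hO := mem_omegaGL' (Q := toQuad hQ) (tenE e P)
  generalize (toQuad hQ).comp (tenE e P).symm.toLinearMap = Q' at hS hO
  generalize c • bilOf hf₁.bilinear = p at hS
  generalize bilOf hf₂.bilinear = β at hS
  let ω : Matrix (Fin 2) (Fin 2) F := !![1, -1; 1, 0]
  let ω' : Matrix (Fin 2) (Fin 2) F := !![0, 1; -1, 1]
  have hω : ω ∈ K4 F := ⟨by simp [ω], by simp [ω]⟩
  have hω' : ω' ∈ K4 F := ⟨by simp [ω'], by simp [ω']⟩
  have adj : ∀ u v, p (ω *ᵥ u) v = p u (ω' *ᵥ v) := fun u v => by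
    have e1 : ∀ u : Fin 2 → F, u = u 0 • ![1, 0] + u 1 • ![0, 1] := fun u => by
      ext i; fin_cases i <;> simp
    rw [e1 (ω *ᵥ u), e1 (ω' *ᵥ v)]
    nth_rw 1 [e1 v]
    nth_rw 3 [e1 u]
    simp only [map_add, map_smul, LinearMap.add_apply, LinearMap.smul_apply, hS.aU.self_eq_zero,
      ← hS.aU.neg_eq ![1, 0] ![0, 1]]
    simp [ω, ω', mulVec, dotProduct]
    ring
  have := hS.ntW
  obtain ⟨w, hw⟩ := exists_ne (0 : Fin n₂ → F)
  obtain ⟨v, hv, hv'⟩ := exists_ker_not_mem hS.l3 (β w) w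
  obtain ⟨y, y1, y2⟩ := Classical.SpWitt.exists_orth_one hS.ndW hS.rW _ hv'
  replace y1 := y1 w (Submodule.mem_span_singleton_self w)
  have hv'' := hS.rW _ _ hv
  let N := Dm (toLin' ω) (β v) w + Dm (toLin' ω') (β w) v
  have hN : ∀ x, N x = (ω *ᵥ cW _ (β v) x) ⊗ₜ w + (ω' *ᵥ cW _ (β w) x) ⊗ₜ v := fun _ => rfl
  have NN : ∀ x, N (N x) = 0 := fun x => by simp [hN, hv, hv'', hS.aW.self_eq_zero]
  obtain ⟨x, hx⟩ := ((Orth.glEquiv (Fin n) F).trans (cong (tenE e P))).surjective (uni N NN)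
  have hx' : cong (tenE e P) (Orth.glEquiv (Fin n) F x) = _ := hx
  obtain ⟨a, b, hab⟩ := hx' ▸ (mem_tensor_iff e P x).1 (h.ge ⟨(mem_normalizer_iff x).2
    fun k => ⟨k, fun z => by
      obtain ⟨_, k, hk, rfl⟩ := k
      obtain ⟨z, rfl⟩ := (tenE e P).symm.surjective z
      have e1 : ∀ y, Orth.glEquiv (Fin n) F x ((tenE e P).symm y) = (tenE e P).symm (y + N y) :=
        fun y => by rw [← uni_apply _ NN, ← hx', cong_apply]; simp
      have e2 : ∀ u v, φ₀ k *ᵥ (tenE e P).symm (u ⊗ₜ v) = (tenE e P).symm ((k *ᵥ u) ⊗ₜ v) :=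
        fun u v => (fr_kron_tenE e P k 1 u v).trans (by rw [one_mulVec])
      simp only [sub_smul_eq]
      change Orth.glEquiv (Fin n) F x (φ₀ k *ᵥ _) = φ₀ k *ᵥ _
      induction z with
      | zero => simp
      | tmul u v =>
        rw [e2, e1, e1, hN, hN]
        simp only [map_add, mulVec_add, e2, cW_tmul, mulVec_smul, mulVec_mulVec,
          (isFieldSubalgebra_K4 hq).comm k hk ω hω, (isFieldSubalgebra_K4 hq).comm k hk ω' hω']
      | add y z hy hz => simp only [map_add, mulVec_add, hy, hz]⟩,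
    (hO x).2 (hx ▸ hS.unip (L := LW F _ w ⊔ LW F _ v) (fun z hz => by
      obtain ⟨_, ⟨u, rfl⟩, _, ⟨u', rfl⟩, rfl⟩ := Submodule.mem_sup.1 hz
      simp [Orth.q_add, hS.q0, hS.pure, hv]) (fun z => by
        rw [uni_apply, Orth.q_add, QuadraticMap.polar_comm, hN, Orth.q_add,
          QuadraticMap.polar_add_left, hS.left, hS.left, hS.left, adj _ (cW _ (β w) z),
          ← hS.aU.neg_eq (ω' *ᵥ _), neg_add_cancel]
        simp [hS.q0, hv]) (fun z hz => by
      obtain ⟨_, ⟨u, rfl⟩, _, ⟨u', rfl⟩, rfl⟩ := Submodule.mem_sup.1 hz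
      simp [hN, hv, hv'', hS.aW.self_eq_zero]) fun z _ => by
        simpa [hN] using Submodule.add_mem_sup (tmul_mem_LW _ w) (tmul_mem_LW _ v))⟩).1
  have e1 := hab ![1, 0] y
  rw [uni_apply, hN] at e1
  simp only [cW_tmul, y1, y2, zero_smul, one_smul, mulVec_zero, zero_tmul, add_zero] at e1
  obtain ⟨s, hs⟩ := Submodule.mem_span_singleton.1
    (not_pure (by simp) hw (φ := β v) hv'' (by simp [y2]) e1)
  simpa [ω, mulVec, dotProduct] using congrFun hs 1

end Cfsg.Agent.S5705
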