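import Mathlib
import Cfsg.Statements.S5775
import Cfsg.Agent.Asch.SLMax

set_option autoImplicit false
open Cfsg

namespace Cfsg.Agent.S5775

/-- Every maximal subgroup of SL_3(q) is of one of the listed geometric types or lies in the residual class. Let F be a finite field with q elements and H a maximal subgroup of SL_3(F) (viewed inside GL_3(F)). Then H is the intersection with SL_3(F) of one of: the stabiliser of a proper non-zero subspace; for q ≥ 5, the stabiliser of a decomposition of F^3 into three independent lines; for q ≠ 4, the normaliser of a degree-3 subfield of the matrix algebra; a subfield group for a subfield F₀ with |F| = |F₀|^r, r prime; for q = p ≡ 1 mod 3 prime, the normaliser of an absolutely irreducible 3-subgroup R of exponent 3 with centre of order 3, all of whose characteristic abelian subgroups are cyclic, of order 3^(1+2m) for some m ≥ 1, with F the smallest field of characteristic p containing the cube roots of unity (so R is extraspecial of order 27); for q odd, the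 similarity group of a non-degenerate quadratic form; the similarity group of a non-degenerate unitary form — or else H lies in the residual class of the linear case (modulo scalars H is almost simple, with absolutely irreducible perfect socle preimage realisable over no proper subfield and fixing no non-degenerate quadratic, symplectic or unitary form). -/
theorem result {F : Type*} [Field F] [Fintype F] (H : Subgroup (Matrix.GeneralLinearGroup (Fin 3) F)) (hH : Cfsg.Geo.IsMaximalIn (Cfsg.Geo.specialLinear (Fin 3) F) H) :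
    (∃ W : Submodule F (Fin 3 → F), W ≠ ⊥ ∧ W ≠ ⊤ ∧ H = Cfsg.Geo.subspaceStabilizer W ⊓ Cfsg.Geo.specialLinear (Fin 3) F) ∨
    (5 ≤ Fintype.card F ∧ ∃ D : Fin 3 → Submodule F (Fin 3 → F), Cfsg.Geo.IsMDecomposition 1 D ∧ H = Cfsg.Geo.decompositionStabilizer D ⊓ Cfsg.Geo.specialLinear (Fin 3) F) ∨
    (Fintype.card F ≠ 4 ∧ ∃ K : Subalgebra F (Matrix (Fin 3) (Fin 3) F), Cfsg.Geo.IsFieldSubalgebra 3 K ∧ H = Cfsg.Geo.subalgebraNormalizer K ⊓ Cfsg.Geo.specialLinear (Fin 3) F) ∨
    (∃ (F₀ : Subfield F) (r : ℕ) (P : Matrix.GeneralLinearGroup (Fin 3) F), r.Prime ∧ Fintype.card F = Nat.card F₀ ^ r ∧ H = Cfsg.Geo.subfieldSubgroup F₀ P ⊓ Cfsg.Geo.specialLinear (Fin 3) F) ∨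
    (∃ (p : ℕ) (R : Subgroup (Matrix.GeneralLinearGroup (Fin 3) F)), p.Prime ∧ Fintype.card F = p ∧ p % 3 = 1 ∧ Cfsg.Geo.IsLinearSymplecticTypeData 3 R ∧ H = Cfsg.Geo.subgroupNormalizer R ⊓ Cfsg.Geo.specialLinear (Fin 3) F) ∨
    (Odd (Fintype.card F) ∧ ∃ Q : (Fin 3 → F) → F, Cfsg.Geo.IsNondegenerateQuadraticForm Q ∧ H = Cfsg.Geo.quadSimilarityGroup Q ⊓ Cfsg.Geo.specialLinear (Fin 3) F) ∨
    (∃ (σ : F ≃+* F) (f : (Fin 3 → F) → (Fin 3 → F) → F), Cfsg.Geo.IsUnitaryForm σ f ∧ H = Cfsg.Geo.similarityGroup f ⊓ Cfsg.Geo.specialLinear (Fin 3) F) ∨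
    Cfsg.Geo.InLinearResidualClass H := by
  rcases Asch.sl_max (n := 3) (by norm_num) hH with h | h
  swap
  · exact .inr <| .inr <| .inr <| .inr <| .inr <| .inr <| .inr <| h
  simp only [Asch.SLOut, Fintype.card_fin] at h
  rcases h with h | ⟨t, m, D, h1, hc, ht, a1, a2, a3, a4, h⟩ | ⟨r, K, h1, hd, h2, a1, h⟩ |
    ⟨a, b, e, P, h1, h2, hc, a1, h⟩ | h | ⟨r, m, R, h1, hc, h2, h⟩ |
    ⟨m, t, e, P, h1, h2, hc, h⟩ | ⟨h1, h⟩ | h | h
  · exact .inl h
  · have := Nat.le_of_dvd (by norm_num) (Dvd.intro_left t hc.symm)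
    have := h1.pos
    have hm : (m = 1 ∧ t = 3) := by
      interval_cases m <;> omega
    rcases hm with ⟨rfl, rfl⟩
    · exact .inr <| .inl ⟨a1 rfl, D, h1, h⟩
  · have := Nat.le_of_dvd (by norm_num) hd
    have hr : r = 3 := by
      interval_cases r <;> first | omega | exact absurd h1 (by norm_num)
    rcases hr with rfl
    · exact .inr <| .inr <| .inl ⟨a1 trivial, K, h2, h⟩
  · have := Nat.le_of_dvd (by norm_num) (Dvd.intro b hc.symm)
    interval_cases a <;> omega
  · exact .inr <| .inr <| .inr <| .inl h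
  · obtain rfl := Asch.prime_pow_eq h1 (by norm_num : Nat.Prime 3) hc (by norm_num)
    obtain ⟨p, b1, b2, b3⟩ := Asch.linearData_one h2 (by simp)
    exact .inr <| .inr <| .inr <| .inr <| .inl ⟨p, R, b1, b2, b3, h2, h⟩
  · have := (Asch.pow_eq_le_twelve h1 h2 hc (by norm_num)).2.2
    omega
  · exact absurd h1 (by decide)
  · exact .inr <| .inr <| .inr <| .inr <| .inr <| .inr <| .inl h
  · exact .inr <| .inr <| .inr <| .inr <| .inr <| .inl h

end Cfsg.Agent.S5775
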