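import Mathlib
import Cfsg.Statements.S5778
import Cfsg.Agent.Asch.U35

set_option autoImplicit false
open Cfsg

namespace Cfsg.Agent.S5778

/-- Every maximal subgroup of SU_3(q), q ≥ 3, is of one of the listed geometric types or lies in the residual class. Let F be the field with q² elements, f the standard unitary form Σ u_i v_i^q on F^3, and H a maximal subgroup of SU_3(q) (the determinant-one isometries of f, inside GL_3(F)). Then H is the intersection with SU_3(q) of one of: the stabiliser of a non-zero subspace on which f vanishes; the stabiliser of a non-degenerate 1-space; for q ≠ 5, the stabiliser of a decomposition into three mutually orthogonal non-degenerate 1-spaces; for q ≠ 3, 5, the normaliser of an adjoint-closed degree-3 subfield of the matrix algebra; a subfield group of odd prime index whose F₀-structure carries f; for q odd, q ≥ 7, a subfield group of index 2 whose F₀-structure carries f; for q = p ≡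 2 mod 3 prime with p ≥ 11, the normaliser of an absolutely irreducible subgroup of order 27 with centre of order 3, exponent 3 and all characteristic abelian subgroups cyclic, contained in the similarity group of f — or else H lies in the residual class of the unitary case. -/
theorem result {F : Type*} [Field F] [Fintype F] (q : ℕ) (hF : Fintype.card F = q ^ 2) (hq : 3 ≤ q) (H : Subgroup (Matrix.GeneralLinearGroup (Fin 3) F)) (hH : Cfsg.Geo.IsMaximalIn (Cfsg.GU 3 F q ⊓ Cfsg.Geo.specialLinear (Fin 3) F) H) :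
    (∃ W : Submodule F (Fin 3 → F), W ≠ ⊥ ∧ Cfsg.Geo.IsTotallySingularFor (Cfsg.hermForm 3 F q) W ∧ H = Cfsg.Geo.subspaceStabilizer W ⊓ (Cfsg.GU 3 F q ⊓ Cfsg.Geo.specialLinear (Fin 3) F)) ∨
    (∃ W : Submodule F (Fin 3 → F), W ≠ ⊥ ∧ Cfsg.Geo.IsNondegenerateOn (Cfsg.hermForm 3 F q) W ∧ 2 * Module.finrank F W < 3 ∧ H = Cfsg.Geo.subspaceStabilizer W ⊓ (Cfsg.GU 3 F q ⊓ Cfsg.Geo.specialLinear (Fin 3) F)) ∨
    (q ≠ 5 ∧ ∃ D : Fin 3 → Submodule F (Fin 3 → F), Cfsg.Geo.IsNondegenerateMDecomposition (Cfsg.hermForm 3 F q) 1 D ∧ H = Cfsg.Geo.decompositionStabilizer D ⊓ (Cfsg.GU 3 F q ⊓ Cfsg.Geo.specialLinear (Fin 3) F)) ∨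
    (q ≠ 3 ∧ q ≠ 5 ∧ ∃ K : Subalgebra F (Matrix (Fin 3) (Fin 3) F), Cfsg.Geo.IsFieldSubalgebra 3 K ∧ Cfsg.Geo.IsAdjointClosedFor (Cfsg.hermForm 3 F q) K ∧ H = Cfsg.Geo.subalgebraNormalizer K ⊓ (Cfsg.GU 3 F q ⊓ Cfsg.Geo.specialLinear (Fin 3) F)) ∨
    (∃ (F₀ : Subfield F) (r : ℕ) (P : Matrix.GeneralLinearGroup (Fin 3) F), r.Prime ∧ Odd r ∧ Fintype.card F = Nat.card F₀ ^ r ∧ Cfsg.Geo.IsFormRationalStructure (Cfsg.hermForm 3 F q) F₀ 1 P ∧ H = Cfsg.Geo.subfieldSubgroup F₀ P ⊓ (Cfsg.GU 3 F q ⊓ Cfsg.Geo.specialLinear (Fin 3) F)) ∨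
    (Odd q ∧ 7 ≤ q ∧ ∃ (F₀ : Subfield F) (P : Matrix.GeneralLinearGroup (Fin 3) F), Fintype.card F = Nat.card F₀ ^ 2 ∧ Cfsg.Geo.IsFormRationalStructure (Cfsg.hermForm 3 F q) F₀ 1 P ∧ H = Cfsg.Geo.subfieldSubgroup F₀ P ⊓ (Cfsg.GU 3 F q ⊓ Cfsg.Geo.specialLinear (Fin 3) F)) ∨
    (∃ (p : ℕ) (R : Subgroup (Matrix.GeneralLinearGroup (Fin 3) F)), p.Prime ∧ q = p ∧ p % 3 = 2 ∧ 11 ≤ p ∧ Cfsg.Geo.IsSymplecticTypeGroup 3 R ∧ Cfsg.Geo.ActsAbsolutelyIrreducibly (Cfsg.Geo.matrixSet R) ∧ R ≤ Cfsg.Geo.similarityGroup (Cfsg.hermForm 3 F q) ∧ Nat.card R = 27 ∧ Nat.card (Subgroup.center R) = 3 ∧ H = Cfsg.Geo.subgroupNormalizer R ⊓ (Cfsg.GU 3 F q ⊓ Cfsg.Geo.specialLinear (Fin 3) F)) ∨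
    Cfsg.Geo.InUnitaryResidualClass H := by
  have U := Asch.uf_one hF (n := 3) (by norm_num)
  have hq2 := U.two_le
  rw [Asch.herm_eq (Herm.natCard_of_card hF)]
  rcases Asch.u_max hF (by norm_num) (by omega) hH with ⟨M, h, rfl⟩ | h
  swap
  · exact .inr <| .inr <| .inr <| .inr <| .inr <| .inr <| .inr <| h
  simp only [Asch.UCls, Fintype.card_fin] at h
  rcases h with ⟨W, h1, h2, rfl⟩ | ⟨W, h1, h2, h3, rfl⟩ | ⟨t, k, D, h1, h2, h3, rfl⟩ |
    ⟨k, D, h1, h2, h3, rfl⟩ | ⟨F₀, r, P, h1, h2, h3, h4, rfl⟩ | ⟨P, h1, h2, rfl⟩ |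
    ⟨F₀, P, ζ, h1, h2, h3, h4, h5, h6, rfl⟩ |
    ⟨r, R, p, e, k, h1, h2, h3, h4, h5, h8, h6, h7, rfl⟩ | ⟨r, K, h1, h2, h3, h4, rfl⟩ |
    ⟨a, b, e, P, h1, h2, h0, h3, rfl⟩ | ⟨k, t, e, P, h1, h2, h3, h4, rfl⟩
  · exact .inl ⟨W, h1, h2, rfl⟩
  · exact .inr <| .inl ⟨W, h1, h2, h3, rfl⟩
  · have hc := Asch.IsMDecomposition.card_eq h1.decomp
    have := h1.decomp.pos
    have := h1.decomp.two_le
    rw [Fintype.card_fin] at hc
    have := Nat.le_of_dvd (by norm_num) (Dvd.intro t hc.symm)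
    have hm : (k = 1 ∧ t = 3) := by
      interval_cases k <;> omega
    rcases hm with ⟨rfl, rfl⟩
    · exact .inr <| .inr <| .inl ⟨Asch.su3_frame hF h1 hH, D, h1, rfl⟩
  · have := Asch.IsMDecomposition.card_eq h1; simp at this; omega
  · exact .inr <| .inr <| .inr <| .inr <| .inl ⟨F₀, r, P, h1, h2, h3, h4, rfl⟩
  · exact .inr <| .inr <| .inr <| .inr <| .inr <| .inl ⟨h1, Asch.su3_orth hF hq h1 h2 hH, _, P, U.card_eq, Asch.rational_one h2, rfl⟩
  · exact absurd h1 (by decide)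
  · obtain rfl := Asch.prime_pow_eq h1.prime (by norm_num : Nat.Prime 3) h8 (by norm_num)
    obtain rfl : k = 1 := Nat.pow_right_injective (by norm_num : 2 ≤ 3) (h8.symm.trans (by norm_num))
    obtain ⟨-, h7', h9, h10⟩ := h7.resolve_right fun h => absurd h.1 (by decide)
    obtain ⟨f, rfl, h11, h12, h13, h14⟩ := Asch.minimal_sq hF h1.prime h4 (h9 ▸ h5)
    have h15 := Nat.le_of_dvd (by norm_num) h12
    have h16 : f ≤ 1 := by omega
    have h17 := Nat.mod_lt p (by norm_num : 0 < 3)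
    obtain rfl : f = 1 := by interval_cases f; simp at h12; rfl
    have h18 : p % 3 = 2 := by
      have := h14 1 (by norm_num) (by norm_num)
      rw [Nat.pow_mod] at h13 this
      revert h13 this; generalize p % 3 = s at h17 ⊢
      interval_cases s <;> decide
    exact .inr <| .inr <| .inr <| .inr <| .inr <| .inr <| .inl ⟨p, R, h5.1, h11.trans (pow_one p), h18, Asch.su3_es hF hq h5.1 (h11.trans (pow_one p)) h18 h1 h7' h10 hH, h2, Asch.absIrr_of_span h1.span, h3, h10, h9, rfl⟩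
  · have h5 := Asch.IsFieldSubalgebra.dvd_card h3
    rw [Fintype.card_fin] at h5
    have h6 := Nat.le_of_dvd (by norm_num) h5
    obtain rfl : r = 3 := by
      interval_cases r <;> first | rfl | omega | exact absurd h2 (by decide) | exact absurd h1 (by decide)
    exact .inr <| .inr <| .inr <| .inl ⟨(Asch.su3_field hF h3 h4 hH).1, (Asch.su3_field hF h3 h4 hH).2, K, h3, h4.isAdjointClosed U.inv.invol, rfl⟩
  · have hc : 3 = a * b := by simpa using Fintype.card_congr e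
    have := Nat.le_of_dvd (by norm_num) (Dvd.intro b hc.symm)
    interval_cases a <;> omega
  · have hc : 3 = k ^ t := by simpa using Fintype.card_congr e
    have := Asch.pow_eq_le_twelve h1 h2 hc (by norm_num)
    omega

end Cfsg.Agent.S5778
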