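import Mathlib
import Cfsg.Statements.S5784
import Cfsg.Agent.Asch.UMax

set_option autoImplicit false
open Cfsg

namespace Cfsg.Agent.S5784

/-- Every maximal subgroup of SU_4(q) is of one of the listed geometric types or lies in the residual class. Let F be the field with q² elements, f the standard unitary form Σ u_i v_i^q on F^4, and H a maximal subgroup of SU_4(q) (inside GL_4(F)). Then H is the intersection with SU_4(q) of one of: the stabiliser of a non-zero subspace on which f vanishes; the stabiliser of a non-degenerate 1-space; for q ≠ 3, the stabiliser of a decomposition into four mutually orthogonal non-degenerate 1-spaces; for q ≥ 3, of a decomposition into two orthogonal non-degenerate 2-spaces; for q ≥ 4, of a decomposition into two totally isotropic 2-spaces; a subfield group of odd prime index whose F₀-structure carries f; a subfield group of index 2 whose F₀-structure carries ζ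 f, vanishing on pairs (u, u), for some non-zero ζ with ζ + ζ^q = 0; for q odd, a subfield group of index 2 whose F₀-structure carries f; for q = p ≡ 3 mod 4 prime, the normaliser of an absolutely irreducible symplectic-type 2-group of exponent 4, order 64 and centre of order 4 inside the similarity group of f — or else H lies in the residual class of the unitary case. -/
theorem result {F : Type*} [Field F] [Fintype F] (q : ℕ) (hF : Fintype.card F = q ^ 2) (H : Subgroup (Matrix.GeneralLinearGroup (Fin 4) F)) (hH : Cfsg.Geo.IsMaximalIn (Cfsg.GU 4 F q ⊓ Cfsg.Geo.specialLinear (Fin 4) F) H) :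
    (∃ W : Submodule F (Fin 4 → F), W ≠ ⊥ ∧ Cfsg.Geo.IsTotallySingularFor (Cfsg.hermForm 4 F q) W ∧ H = Cfsg.Geo.subspaceStabilizer W ⊓ (Cfsg.GU 4 F q ⊓ Cfsg.Geo.specialLinear (Fin 4) F)) ∨
    (∃ W : Submodule F (Fin 4 → F), W ≠ ⊥ ∧ Cfsg.Geo.IsNondegenerateOn (Cfsg.hermForm 4 F q) W ∧ 2 * Module.finrank F W < 4 ∧ H = Cfsg.Geo.subspaceStabilizer W ⊓ (Cfsg.GU 4 F q ⊓ Cfsg.Geo.specialLinear (Fin 4) F)) ∨
    (q ≠ 3 ∧ ∃ D : Fin 4 → Submodule F (Fin 4 → F), Cfsg.Geo.IsNondegenerateMDecomposition (Cfsg.hermForm 4 F q) 1 D ∧ H = Cfsg.Geo.decompositionStabilizer D ⊓ (Cfsg.GU 4 F q ⊓ Cfsg.Geo.specialLinear (Fin 4) F)) ∨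
    (3 ≤ q ∧ ∃ D : Fin 2 → Submodule F (Fin 4 → F), Cfsg.Geo.IsNondegenerateMDecomposition (Cfsg.hermForm 4 F q) 2 D ∧ H = Cfsg.Geo.decompositionStabilizer D ⊓ (Cfsg.GU 4 F q ⊓ Cfsg.Geo.specialLinear (Fin 4) F)) ∨
    (4 ≤ q ∧ ∃ D : Fin 2 → Submodule F (Fin 4 → F), Cfsg.Geo.IsMDecomposition 2 D ∧ (∀ i, Cfsg.Geo.IsTotallySingularFor (Cfsg.hermForm 4 F q) (D i)) ∧ H = Cfsg.Geo.decompositionStabilizer D ⊓ (Cfsg.GU 4 F q ⊓ Cfsg.Geo.specialLinear (Fin 4) F)) ∨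
    (∃ (F₀ : Subfield F) (r : ℕ) (P : Matrix.GeneralLinearGroup (Fin 4) F), r.Prime ∧ Odd r ∧ Fintype.card F = Nat.card F₀ ^ r ∧ Cfsg.Geo.IsFormRationalStructure (Cfsg.hermForm 4 F q) F₀ 1 P ∧ H = Cfsg.Geo.subfieldSubgroup F₀ P ⊓ (Cfsg.GU 4 F q ⊓ Cfsg.Geo.specialLinear (Fin 4) F)) ∨
    (∃ (F₀ : Subfield F) (P : Matrix.GeneralLinearGroup (Fin 4) F) (ζ : F), Fintype.card F = Nat.card F₀ ^ 2 ∧ ζ ≠ 0 ∧ ζ + ζ ^ q = 0 ∧ Cfsg.Geo.IsFormRationalStructure (Cfsg.hermForm 4 F q) F₀ ζ P ∧ (∀ u : Fin 4 → F, (∀ i, u i ∈ F₀) → (Cfsg.hermForm 4 F q) (Matrix.mulVec (P : Matrix (Fin 4) (Fin 4) F) u) (Matrix.mulVec (P : Matrix (Fin 4) (Fin 4) F) u) = 0) ∧ H = Cfsg.Geo.subfieldSubgroup F₀ P ⊓ (Cfsg.GU 4 F q ⊓ Cfsg.Geo.specialLinear (Fin 4) F)) ∨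
    (Odd q ∧ ∃ (F₀ : Subfield F) (P : Matrix.GeneralLinearGroup (Fin 4) F), Fintype.card F = Nat.card F₀ ^ 2 ∧ Cfsg.Geo.IsFormRationalStructure (Cfsg.hermForm 4 F q) F₀ 1 P ∧ H = Cfsg.Geo.subfieldSubgroup F₀ P ⊓ (Cfsg.GU 4 F q ⊓ Cfsg.Geo.specialLinear (Fin 4) F)) ∨
    (∃ (p : ℕ) (R : Subgroup (Matrix.GeneralLinearGroup (Fin 4) F)), p.Prime ∧ q = p ∧ p % 4 = 3 ∧ Cfsg.Geo.IsSymplecticTypeGroup 2 R ∧ Cfsg.Geo.ActsAbsolutelyIrreducibly (Cfsg.Geo.matrixSet R) ∧ R ≤ Cfsg.Geo.similarityGroup (Cfsg.hermForm 4 F q) ∧ Nat.card R = 64 ∧ Nat.card (Subgroup.center R) = 4 ∧ H = Cfsg.Geo.subgroupNormalizer R ⊓ (Cfsg.GU 4 F q ⊓ Cfsg.Geo.specialLinear (Fin 4) F)) ∨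
    Cfsg.Geo.InUnitaryResidualClass H := by
  have U := Asch.uf_one hF (n := 4) (by norm_num)
  have hq2 := U.two_le
  rw [Asch.herm_eq (Herm.natCard_of_card hF)]
  rcases Asch.u_max hF (by norm_num) (by omega) hH with ⟨M, h, rfl⟩ | h
  swap
  · exact .inr <| .inr <| .inr <| .inr <| .inr <| .inr <| .inr <| .inr <| .inr <| h
  simp only [Asch.UCls, Fintype.card_fin] at h
  rcases h with ⟨W, h1, h2, rfl⟩ | ⟨W, h1, h2, h3, rfl⟩ | ⟨t, k, D, h1, h2, h3, rfl⟩ |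
    ⟨k, D, h1, h2, h3, rfl⟩ | ⟨F₀, r, P, h1, h2, h3, h4, rfl⟩ | ⟨P, h1, h2, rfl⟩ |
    ⟨F₀, P, ζ, h1, h2, h3, h4, h5, h6, rfl⟩ |
    ⟨r, R, p, e, k, h1, h2, h3, h4, h5, h8, h6, h7, rfl⟩ | ⟨r, K, h1, h2, h3, h4, rfl⟩ |
    ⟨a, b, e, P, h1, h2, h0, h3, rfl⟩ | ⟨k, t, e, P, h1, h2, h3, h4, rfl⟩
  · exact .inl ⟨W, h1, h2, rfl⟩
  · exact .inr <| .inl ⟨W, h1, h2, h3, rfl⟩
  · have hc := Asch.IsMDecomposition.card_eq h1.decomp
    have := h1.decomp.pos
    have := h1.decomp.two_le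
    rw [Fintype.card_fin] at hc
    have := Nat.le_of_dvd (by norm_num) (Dvd.intro t hc.symm)
    have hm : (k = 1 ∧ t = 4) ∨ (k = 2 ∧ t = 2) := by
      interval_cases k <;> omega
    rcases hm with ⟨rfl, rfl⟩ | ⟨rfl, rfl⟩
    · exact .inr <| .inr <| .inl ⟨by omega, D, h1, rfl⟩
    · exact .inr <| .inr <| .inr <| .inl ⟨by omega, D, h1, rfl⟩
  · obtain rfl : k = 2 := by have := Asch.IsMDecomposition.card_eq h1; simp at this; omega
    exact .inr <| .inr <| .inr <| .inr <| .inl ⟨by omega, D, h1, h2, rfl⟩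
  · exact .inr <| .inr <| .inr <| .inr <| .inr <| .inl ⟨F₀, r, P, h1, h2, h3, h4, rfl⟩
  · exact .inr <| .inr <| .inr <| .inr <| .inr <| .inr <| .inr <| .inl ⟨h1, _, P, U.card_eq, Asch.rational_one h2, rfl⟩
  · exact .inr <| .inr <| .inr <| .inr <| .inr <| .inr <| .inl ⟨F₀, P, ζ, h2, h3, h4, h5, h6, rfl⟩
  · obtain rfl := Asch.prime_pow_eq h1.prime (by norm_num : Nat.Prime 2) h8 (by norm_num)
    obtain rfl : k = 2 := Nat.pow_right_injective (by norm_num : 2 ≤ 2) (h8.symm.trans (by norm_num))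
    obtain ⟨-, rfl, h9, h10⟩ := h7.resolve_left fun h => absurd h.1 (by decide)
    obtain ⟨h11, h12⟩ := Asch.minimal_four_sq hF h4 (h9 ▸ h5)
    exact .inr <| .inr <| .inr <| .inr <| .inr <| .inr <| .inr <| .inr <| .inl ⟨p, R, h5.1, h11, h12, h2, Asch.absIrr_of_span h1.span, h3, h10, h9, rfl⟩
  · have h5 := Asch.IsFieldSubalgebra.dvd_card h3
    rw [Fintype.card_fin] at h5
    have h6 := Nat.le_of_dvd (by norm_num) h5
    interval_cases r <;> first | omega | exact absurd h2 (by decide) | exact absurd h1 (by decide)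
  · have hc : 4 = a * b := by simpa using Fintype.card_congr e
    have := Nat.le_of_dvd (by norm_num) (Dvd.intro b hc.symm)
    interval_cases a <;> omega
  · have hc : 4 = k ^ t := by simpa using Fintype.card_congr e
    have := Asch.pow_eq_le_twelve h1 h2 hc (by norm_num)
    omega

end Cfsg.Agent.S5784
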