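import Mathlib
import Cfsg.Statements.S5787
import Cfsg.Agent.Asch.SpMax

set_option autoImplicit false
open Cfsg

namespace Cfsg.Agent.S5787

/-- Every maximal subgroup of Sp_4(q), q odd, is of one of the listed geometric types or lies in the residual class. Let F be a finite field of odd order q, f the standard alternating form on F^4 (coordinates Fin 2 ⊕ Fin 2), and H a maximal subgroup of the isometry group Sp_4(F) (inside GL_4(F)). Then H is the intersection with Sp_4(F) of one of: the stabiliser of a non-zero totally isotropic subspace; the stabiliser of a decomposition into two orthogonal non-degenerate 2-spaces; for q ≥ 5, of a decomposition into two totally isotropic 2-spaces; the normaliser of a degree-2 subfield K of the matrix algebra, self-adjoint with f(k v, v) = 0; for q ≥ 5, the normaliser of a degree-2 subfield closed under adjoints but not self-adjoint; a subfield group whose F₀-structure carries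 a non-zero multiple of f, |F| = |F₀|^r with r prime; for q = p prime, the normaliser of an absolutely irreducible symplectic-type 2-group of exponent 4, order 32, centre of order 2 and minus type inside the similarity group of f — or else H lies in the residual class of the symplectic case. -/
theorem result {F : Type*} [Field F] [Fintype F] (hodd : Odd (Fintype.card F)) (H : Subgroup (Matrix.GeneralLinearGroup (Fin 2 ⊕ Fin 2) F)) (hH : Cfsg.Geo.IsMaximalIn (Cfsg.spGL 2 F) H) :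
    (∃ W : Submodule F (Fin 2 ⊕ Fin 2 → F), W ≠ ⊥ ∧ Cfsg.Geo.IsTotallySingularFor (Cfsg.sympForm 2 F) W ∧ H = Cfsg.Geo.subspaceStabilizer W ⊓ Cfsg.spGL 2 F) ∨
    (∃ D : Fin 2 → Submodule F (Fin 2 ⊕ Fin 2 → F), Cfsg.Geo.IsNondegenerateMDecomposition (Cfsg.sympForm 2 F) 2 D ∧ H = Cfsg.Geo.decompositionStabilizer D ⊓ Cfsg.spGL 2 F) ∨
    (5 ≤ Fintype.card F ∧ ∃ D : Fin 2 → Submodule F (Fin 2 ⊕ Fin 2 → F), Cfsg.Geo.IsMDecomposition 2 D ∧ (∀ i, Cfsg.Geo.IsTotallySingularFor (Cfsg.sympForm 2 F) (D i)) ∧ H = Cfsg.Geo.decompositionStabilizer D ⊓ Cfsg.spGL 2 F) ∨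
    (∃ K : Subalgebra F (Matrix (Fin 2 ⊕ Fin 2) (Fin 2 ⊕ Fin 2) F), Cfsg.Geo.IsFieldSubalgebra 2 K ∧ Cfsg.Geo.IsSelfAdjointFor (Cfsg.sympForm 2 F) K ∧ (∀ k ∈ K, ∀ v : (Fin 2 ⊕ Fin 2 → F), (Cfsg.sympForm 2 F) (Matrix.mulVec k v) v = 0) ∧ H = Cfsg.Geo.subalgebraNormalizer K ⊓ Cfsg.spGL 2 F) ∨
    (5 ≤ Fintype.card F ∧ ∃ K : Subalgebra F (Matrix (Fin 2 ⊕ Fin 2) (Fin 2 ⊕ Fin 2) F), Cfsg.Geo.IsFieldSubalgebra 2 K ∧ Cfsg.Geo.IsAdjointClosedFor (Cfsg.sympForm 2 F) K ∧ ¬ Cfsg.Geo.IsSelfAdjointFor (Cfsg.sympForm 2 F) K ∧ H = Cfsg.Geo.subalgebraNormalizer K ⊓ Cfsg.spGL 2 F) ∨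
    (∃ (F₀ : Subfield F) (r : ℕ) (P : Matrix.GeneralLinearGroup (Fin 2 ⊕ Fin 2) F) (ζ : F), r.Prime ∧ Fintype.card F = Nat.card F₀ ^ r ∧ ζ ≠ 0 ∧ Cfsg.Geo.IsFormRationalStructure (Cfsg.sympForm 2 F) F₀ ζ P ∧ H = Cfsg.Geo.subfieldSubgroup F₀ P ⊓ Cfsg.spGL 2 F) ∨
    (∃ (p : ℕ) (R : Subgroup (Matrix.GeneralLinearGroup (Fin 2 ⊕ Fin 2) F)), p.Prime ∧ Fintype.card F = p ∧ Cfsg.Geo.IsSymplecticTypeGroup 2 R ∧ Cfsg.Geo.ActsAbsolutelyIrreducibly (Cfsg.Geo.matrixSet R) ∧ R ≤ Cfsg.Geo.similarityGroup (Cfsg.sympForm 2 F) ∧ Nat.card R = 32 ∧ Nat.card (Subgroup.center R) = 2 ∧ Cfsg.Geo.IsOfMinusType 2 R ∧ H = Cfsg.Geo.subgroupNormalizer R ⊓ Cfsg.spGL 2 F) ∨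
    Cfsg.Geo.InSymplecticResidualClass H := by
  have hq := Asch.two_le_card (F := F)
  rcases Asch.sp_max (m := 2) (by norm_num) (fun h => by rw [h.2] at hodd; exact absurd hodd (by decide)) hH with ⟨M, h, rfl⟩ | h
  swap
  · exact .inr <| .inr <| .inr <| .inr <| .inr <| .inr <| .inr <| h
  simp only [Asch.SpCls, Fintype.card_sum, Fintype.card_fin] at h
  rcases h with ⟨W, h1, h2, rfl⟩ | ⟨W, h1, h2, h3, rfl⟩ | ⟨t, k, D, h1, h2, h3, rfl⟩ |
    ⟨k, D, h0, h1, h2, h3, rfl⟩ | ⟨F₀, r, P, ζ, h1, h2, h3, h4, rfl⟩ |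
    ⟨R, k, h1, h2, h3, h4, h5, h9, h6, h7, h8, rfl⟩ | ⟨Q, h1, h2, h3, rfl⟩ |
    ⟨r, K, h1, h2, h3, h4, h5, rfl⟩ | ⟨K, h1, h2, h3, h4, h5, rfl⟩ |
    ⟨a, b, e, P, f₁, f₂, h0, h1, h2, h3, h4, h5, h6, h7, h8, rfl⟩ |
    ⟨k, t, e, P, f₁, h1, h2, h3, h0, h4, h5, h6, rfl⟩
  · exact .inl ⟨W, h1, h2, rfl⟩
  · obtain ⟨k, hk⟩ := (Asch.alt_spJ 2).even_finrank h2
    have := (Submodule.finrank_eq_zero (R := F)).not.2 h1
    omega
  · have hc := Asch.IsMDecomposition.card_eq h1.decomp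
    have := h1.decomp.pos
    have := h1.decomp.two_le
    obtain ⟨j, hj⟩ := h2
    simp only [Fintype.card_sum, Fintype.card_fin] at hc
    have := Nat.le_of_dvd (by norm_num) (Dvd.intro t hc.symm)
    have hm : (k = 2 ∧ t = 2) := by
      interval_cases k <;> omega
    clear hj
    rcases hm with ⟨rfl, rfl⟩
    · exact .inr <| .inl ⟨D, h1, rfl⟩
  · obtain rfl : k = 2 := by have := Asch.IsMDecomposition.card_eq h1; simp at this; omega
    exact .inr <| .inr <| .inl ⟨by obtain ⟨j, hj⟩ := h0; omega, D, h1, h2, rfl⟩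
  · exact .inr <| .inr <| .inr <| .inr <| .inr <| .inl ⟨F₀, r, P, ζ, h1, h2, h3, h4, rfl⟩
  · obtain rfl : k = 2 := Nat.pow_right_injective le_rfl (h9.symm.trans (by norm_num))
    exact .inr <| .inr <| .inr <| .inr <| .inr <| .inr <| .inl ⟨_, R, h1, rfl, h4, Asch.absIrr_of_span h3.span, h5.trans (Asch.Iso_le_sim _ _), h6, h7, h8, rfl⟩
  · exact absurd hodd h1
  · have := Nat.le_of_dvd (by norm_num) h5
    have hr' : r ≤ 2 := by omega
    have hr : r = 2 := by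
      interval_cases r <;> first | omega | exact absurd h1 (by norm_num)
    rcases hr with rfl
    · exact .inr <| .inr <| .inr <| .inl ⟨K, h2, h3, h4, rfl⟩
  · exact .inr <| .inr <| .inr <| .inr <| .inl ⟨by obtain ⟨j, hj⟩ := h1; simp only [and_true] at h5; omega, K, h2, h3, h4, rfl⟩
  · have hc : 4 = a * b := by simpa using Fintype.card_congr e
    have := Nat.le_of_dvd (by norm_num) (Dvd.intro b hc.symm)
    obtain ⟨j, hj⟩ := h2
    interval_cases a <;> omega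
  · have hc : 4 = k ^ t := by simpa using Fintype.card_congr e
    have := Asch.pow_eq_le_twelve' h0 h3 hc (by norm_num)
    omega

end Cfsg.Agent.S5787
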