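import Mathlib
import Cfsg.Statements.S5808
import Cfsg.Agent.Asch.SLMax

set_option autoImplicit false
open Cfsg

namespace Cfsg.Agent.S5808

/-- Every maximal subgroup of SL_7(q) is of one of the listed geometric types or lies in the residual class. Let F be a finite field with q elements (p its characteristic) and H a maximal subgroup of SL_7(F) (inside GL_7(F)). Then H is the intersection with SL_7(F) of one of: the stabiliser of a proper non-zero subspace; for q ≥ 5, the stabiliser of a decomposition into 7 independent 1-spaces; the normaliser of a degree-7 subfield of the matrix algebra; a subfield group for a subfield F₀ with |F| = |F₀|^r, r prime; for q = p prime with p ≡ 1 mod 7, or q = p³ with p ≡ 2 or 4 mod 7, the normaliser of an absolutely irreducible 7-subgroup R of exponent 7 and order 7^(1+2m) with centre of order 7, all of whose characteristic abelian subgroups are cyclic, F being the smallest field of characteristic p containing the seventh roots of unity (here R is extraspecial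 of order 343); for q odd, the similarity group of a non-degenerate quadratic form; the similarity group of a non-degenerate unitary form — or else H lies in the residual class of the linear case (modulo scalars H is almost simple, with absolutely irreducible perfect socle preimage realisable over no proper subfield and fixing no non-degenerate quadratic, symplectic or unitary form). -/
theorem result {F : Type*} [Field F] [Fintype F] (H : Subgroup (Matrix.GeneralLinearGroup (Fin 7) F)) (hH : Cfsg.Geo.IsMaximalIn (Cfsg.Geo.specialLinear (Fin 7) F) H) :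
    (∃ W : Submodule F (Fin 7 → F), W ≠ ⊥ ∧ W ≠ ⊤ ∧ H = Cfsg.Geo.subspaceStabilizer W ⊓ Cfsg.Geo.specialLinear (Fin 7) F) ∨
    (5 ≤ Fintype.card F ∧ ∃ D : Fin 7 → Submodule F (Fin 7 → F), Cfsg.Geo.IsMDecomposition 1 D ∧ H = Cfsg.Geo.decompositionStabilizer D ⊓ Cfsg.Geo.specialLinear (Fin 7) F) ∨
    (∃ K : Subalgebra F (Matrix (Fin 7) (Fin 7) F), Cfsg.Geo.IsFieldSubalgebra 7 K ∧ H = Cfsg.Geo.subalgebraNormalizer K ⊓ Cfsg.Geo.specialLinear (Fin 7) F) ∨
    (∃ (F₀ : Subfield F) (r : ℕ) (P : Matrix.GeneralLinearGroup (Fin 7) F), r.Prime ∧ Fintype.card F = Nat.card F₀ ^ r ∧ H = Cfsg.Geo.subfieldSubgroup F₀ P ⊓ Cfsg.Geo.specialLinear (Fin 7) F) ∨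
    ((∃ p : ℕ, p.Prime ∧ CharP F p ∧ ((Fintype.card F = p ∧ p % 7 = 1) ∨ (Fintype.card F = p ^ 3 ∧ (p % 7 = 2 ∨ p % 7 = 4)))) ∧ ∃ R : Subgroup (Matrix.GeneralLinearGroup (Fin 7) F), Cfsg.Geo.IsLinearSymplecticTypeData 7 R ∧ H = Cfsg.Geo.subgroupNormalizer R ⊓ Cfsg.Geo.specialLinear (Fin 7) F) ∨
    (Odd (Fintype.card F) ∧ ∃ Q : (Fin 7 → F) → F, Cfsg.Geo.IsNondegenerateQuadraticForm Q ∧ H = Cfsg.Geo.quadSimilarityGroup Q ⊓ Cfsg.Geo.specialLinear (Fin 7) F) ∨
    (∃ (σ : F ≃+* F) (f : (Fin 7 → F) → (Fin 7 → F) → F), Cfsg.Geo.IsUnitaryForm σ f ∧ H = Cfsg.Geo.similarityGroup f ⊓ Cfsg.Geo.specialLinear (Fin 7) F) ∨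
    Cfsg.Geo.InLinearResidualClass H := by
  rcases Asch.sl_max (n := 7) (by norm_num) hH with h | h
  swap
  · exact .inr <| .inr <| .inr <| .inr <| .inr <| .inr <| .inr <| h
  simp only [Asch.SLOut, Fintype.card_fin] at h
  rcases h with h | ⟨t, m, D, h1, hc, ht, a1, a2, a3, a4, h⟩ | ⟨r, K, h1, hd, h2, a1, h⟩ |
    ⟨a, b, e, P, h1, h2, hc, a1, h⟩ | h | ⟨r, m, R, h1, hc, h2, h⟩ |
    ⟨m, t, e, P, h1, h2, hc, h⟩ | ⟨h1, h⟩ | h | h
  · exact .inl h
  · have := Nat.le_of_dvd (by norm_num) (Dvd.intro_left t hc.symm)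
    have := h1.pos
    have hm : (m = 1 ∧ t = 7) := by
      interval_cases m <;> omega
    rcases hm with ⟨rfl, rfl⟩
    · exact .inr <| .inl ⟨a1 rfl, D, h1, h⟩
  · have := Nat.le_of_dvd (by norm_num) hd
    have hr : r = 7 := by
      interval_cases r <;> first | omega | exact absurd h1 (by norm_num)
    rcases hr with rfl
    · exact .inr <| .inr <| .inl ⟨K, h2, h⟩
  · have := Nat.le_of_dvd (by norm_num) (Dvd.intro b hc.symm)
    interval_cases a <;> omega
  · exact .inr <| .inr <| .inr <| .inl h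
  · obtain rfl := Asch.prime_pow_eq h1 (by norm_num : Nat.Prime 7) hc (by norm_num)
    obtain ⟨p, e, b1, b2, b3, b4, b5, b6, b7⟩ := Asch.linearData_odd h2 (by decide)
    refine .inr <| .inr <| .inr <| .inr <| .inl ⟨⟨p, b1, b2, ?_⟩, R, h2, h⟩
    have := Nat.le_of_dvd (by norm_num) b5
    have he : e = 1 ∨ e = 3 := by
      obtain ⟨k, rfl⟩ := b4
      have : k ≤ 3 := by omega
      interval_cases k <;> simp at b5 ⊢
    rcases he with rfl | rfl
    · exact .inl ⟨by simpa using b3, by simpa using b6⟩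
    · refine .inr ⟨b3, ?_⟩
      have b8 := b7 1 (by norm_num) (by norm_num)
      rw [pow_one] at b8
      rw [Nat.pow_mod] at b6
      have : p % 7 < 7 := Nat.mod_lt _ (by norm_num)
      generalize p % 7 = x at *
      interval_cases x <;> simp at b6 b8 ⊢
  · have := (Asch.pow_eq_le_twelve h1 h2 hc (by norm_num)).2.2
    omega
  · exact absurd h1 (by decide)
  · exact .inr <| .inr <| .inr <| .inr <| .inr <| .inr <| .inl h
  · exact .inr <| .inr <| .inr <| .inr <| .inr <| .inl h

end Cfsg.Agent.S5808
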