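import Mathlib
import Cfsg.Statements.S5826
import Cfsg.Agent.Asch.OMax

set_option autoImplicit false
open Cfsg

namespace Cfsg.Agent.S5826

/-- Every maximal subgroup of Ω_8^-(q) is of one of the listed geometric types or lies in the residual class. Let F be a finite field with q elements, Q a non-degenerate quadratic form on F^8 of minus type (no totally singular 4-space), Ω the commutator subgroup of its isometry group, and H a maximal subgroup of Ω (inside GL_8(F)). Then H is the intersection with Ω of one of: the stabiliser of a non-zero totally singular subspace; for q odd, the stabiliser of a non-degenerate subspace of odd dimension; the stabiliser of a non-degenerate 2-space of minus type; for q ≥ 4, the stabiliser of a non-degenerate 2-space of plus type; the stabiliser of a non-degenerate 4-space; for q even, the stabiliser of the span of a non-singular vector; the normaliser of a degree-2 subfield of the matrix algebra; a subfield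 group of odd prime index whose F₀-structure carries a non-zero multiple of Q — or else H lies in the residual class of the orthogonal case (modulo scalars H is almost simple, with absolutely irreducible perfect socle preimage realisable over no proper subfield and fixing no non-degenerate unitary form). -/
theorem result {F : Type*} [Field F] [Fintype F] (Q : (Fin 8 → F) → F) (hQ : Cfsg.Geo.IsNondegenerateQuadraticForm Q) (hminus : ¬ Cfsg.Geo.IsPlusTypeOn Q ⊤) (H : Subgroup (Matrix.GeneralLinearGroup (Fin 8) F)) (hH : Cfsg.Geo.IsMaximalIn (Cfsg.Geo.omegaGL Q) H) :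
    (∃ W : Submodule F (Fin 8 → F), W ≠ ⊥ ∧ Cfsg.Geo.IsTotallySingularQuad Q W ∧ H = Cfsg.Geo.subspaceStabilizer W ⊓ Cfsg.Geo.omegaGL Q) ∨
    (Odd (Fintype.card F) ∧ ∃ W : Submodule F (Fin 8 → F), W ≠ ⊥ ∧ W ≠ ⊤ ∧ Odd (Module.finrank F W) ∧ Cfsg.Geo.IsNondegenerateOn (QuadraticMap.polar Q) W ∧ H = Cfsg.Geo.subspaceStabilizer W ⊓ Cfsg.Geo.omegaGL Q) ∨
    (∃ W : Submodule F (Fin 8 → F), Module.finrank F W = 2 ∧ Cfsg.Geo.IsNondegenerateOn (QuadraticMap.polar Q) W ∧ ¬ Cfsg.Geo.IsPlusTypeOn Q W ∧ H = Cfsg.Geo.subspaceStabilizer W ⊓ Cfsg.Geo.omegaGL Q) ∨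
    (4 ≤ Fintype.card F ∧ ∃ W : Submodule F (Fin 8 → F), Module.finrank F W = 2 ∧ Cfsg.Geo.IsNondegenerateOn (QuadraticMap.polar Q) W ∧ Cfsg.Geo.IsPlusTypeOn Q W ∧ H = Cfsg.Geo.subspaceStabilizer W ⊓ Cfsg.Geo.omegaGL Q) ∨
    (∃ W : Submodule F (Fin 8 → F), Module.finrank F W = 4 ∧ Cfsg.Geo.IsNondegenerateOn (QuadraticMap.polar Q) W ∧ H = Cfsg.Geo.subspaceStabilizer W ⊓ Cfsg.Geo.omegaGL Q) ∨
    (¬ Odd (Fintype.card F) ∧ ∃ v : (Fin 8 → F), Q v ≠ 0 ∧ H = Cfsg.Geo.subspaceStabilizer (Submodule.span F {v}) ⊓ Cfsg.Geo.omegaGL Q) ∨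
    (∃ K : Subalgebra F (Matrix (Fin 8) (Fin 8) F), Cfsg.Geo.IsFieldSubalgebra 2 K ∧ H = Cfsg.Geo.subalgebraNormalizer K ⊓ Cfsg.Geo.omegaGL Q) ∨
    (∃ (F₀ : Subfield F) (r : ℕ) (P : Matrix.GeneralLinearGroup (Fin 8) F) (ζ : F), r.Prime ∧ Odd r ∧ Fintype.card F = Nat.card F₀ ^ r ∧ ζ ≠ 0 ∧ Cfsg.Geo.IsQuadFormRationalStructure (fun v : Fin 8 → F => ζ * Q v) F₀ P ∧ H = Cfsg.Geo.subfieldSubgroup F₀ P ⊓ Cfsg.Geo.omegaGL Q) ∨
    Cfsg.Geo.InOrthogonalResidualClass H := by
  obtain ⟨J, hJ⟩ := Asch.exists_QJ hQ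
  have hn : Fintype.card (Fin 8) = 2 * 4 := by simp
  have hq := Asch.two_le_card (F := F)
  rcases Asch.o_max hJ (by omega) hH with ⟨M, h, rfl⟩ | ⟨k, t, h1, h2, h3, h4⟩ | h
  rotate_left
  · obtain ⟨j, rfl⟩ := h1
    rcases h2.eq_or_lt with rfl | h2
    · have := Nat.le_of_dvd (by omega) (h3 ▸ dvd_pow_self (j + j) two_ne_zero)
      have : j ≤ 4 := by omega
      interval_cases j <;> omega
    · have hj : j ≠ 0 := by rintro rfl; simp [show t ≠ 0 by omega] at h3
      have := Asch.pow_eq_le_twelve' (by omega) h2 h3 (by omega)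
      exact absurd (h4 this.1) hminus
  · exact .inr <| .inr <| .inr <| .inr <| .inr <| .inr <| .inr <| .inr <| h
  rw [hJ.polar_eq]
  simp only [Asch.OCls, hn] at h
  rcases h with ⟨W, h1, h2, rfl⟩ | ⟨W, h1, h2, h3, h4, rfl⟩ | ⟨v, h1, h2, rfl⟩ |
    ⟨t, D, h1, h2, h3, rfl⟩ | ⟨t, k, D, h1, h2, h3, h4, h5, h6, rfl⟩ | ⟨k, D, h1, h2, rfl⟩ |
    ⟨r, K, h1, h2, h3, h4, h5, h6, rfl⟩ | ⟨K, h1, h2, h3, h4, rfl⟩ |
    ⟨a, b, e, P, f₁, f₂, h1, h2, h3, h4, h5, h6, h7, h8, h9, rfl⟩ |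
    ⟨a, b, e, P, f₁, f₂, h1, h2, h3, h4, h5, h6, h7, h8, h9, h10, rfl⟩ |
    ⟨F₀, r, P, ζ, h1, h2, h3, h4, rfl⟩ | ⟨k, t, e, P, f₁, h1, h2, h3, h4, h5, h6, rfl⟩
  · exact .inl ⟨W, h1, h2, rfl⟩
  · have h5 := (Submodule.finrank_eq_zero (R := F)).not.2 h1
    have h6 : W ≠ ⊤ := by rintro rfl; simp at h3
    rcases Nat.even_or_odd (Module.finrank F W) with he | he
    · obtain h7 | h7 : Module.finrank F W = 2 ∨ Module.finrank F W = 4 := by
        obtain ⟨j, hj⟩ := he; omega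
      · by_cases h8 : Geo.IsPlusTypeOn Q W
        · exact .inr <| .inr <| .inr <| .inl ⟨hJ.four_le (by omega) hH h7 (hJ.polar_eq ▸ h2) h8, W, h7, h2, h8, rfl⟩
        · exact .inr <| .inr <| .inl ⟨W, h7, h2, h8, rfl⟩
      · exact .inr <| .inr <| .inr <| .inr <| .inl ⟨W, h7, h2, rfl⟩
    · exact .inr <| .inl ⟨hJ.odd_of_nd h2 he, W, h1, h6, he, h2, rfl⟩
  · exact .inr <| .inr <| .inr <| .inr <| .inr <| .inl ⟨h1, v, h2, rfl⟩
  · obtain rfl : t = 8 := by
      have := Asch.IsMDecomposition.card_eq h3.decomp.decomp; omega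
    have := hJ.plus_iff_mod h2 hn
    simp [hminus, hJ.isSquare_dec h3 (by decide), (by decide : Even 4)] at this
  · have hc := Asch.IsMDecomposition.card_eq h2.decomp.decomp
    have := h2.decomp.decomp.two_le
    have := Nat.le_of_dvd (by omega) (Dvd.intro t hc.symm)
    rw [hn] at hc this
    obtain ⟨rfl, rfl⟩ | ⟨rfl, rfl⟩ : (k = 2 ∧ t = 4) ∨ (k = 4 ∧ t = 2) := by
      interval_cases k <;> omega
    · have h7 := hJ.plus_dec h2 (by decide)
      exact absurd ((h7 0).2 (.inr (by decide))) hminus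
    · have h7 := hJ.plus_dec h2 (by decide)
      exact absurd ((h7 0).2 (.inr (by decide))) hminus
  · obtain rfl : k = 4 := by have := Asch.IsMDecomposition.card_eq h1; omega
    exact absurd (Asch.QJ.plus_of_ts (h2 0) (by rw [h1.finrank_eq, hn])) hminus
  · have h7 := Asch.IsFieldSubalgebra.dvd_card h2
    rw [hn] at h7
    have := Nat.le_of_dvd (by omega) h7
    obtain rfl : r = 2 := by
      interval_cases r <;> first | omega | exact absurd h1 (by norm_num)
    · exact .inr <| .inr <| .inr <| .inr <| .inr <| .inr <| .inl ⟨K, h2, rfl⟩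
  · exact .inr <| .inr <| .inr <| .inr <| .inr <| .inr <| .inl ⟨K, h1, rfl⟩
  · have hc : 8 = a * b := by simpa using Fintype.card_congr e
    have := Nat.le_of_dvd (by omega) (Dvd.intro b hc.symm)
    interval_cases a <;> omega
  · have hc : 8 = a * b := by simpa using Fintype.card_congr e
    have := Nat.le_of_dvd (by omega) (Dvd.intro b hc.symm)
    obtain ⟨rfl, rfl⟩ : a = 2 ∧ b = 4 := by
      obtain ⟨j, hj⟩ := h3
      interval_cases a <;> omega
    exact absurd (h6 rfl) hminus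
  · exact .inr <| .inr <| .inr <| .inr <| .inr <| .inr <| .inr <| .inl ⟨F₀, r, P, ζ, h1, hJ.odd_index (by rw [hn]; decide) hminus h1 h2 h3 h4, h2, h3, h4, rfl⟩
  · obtain ⟨rfl, rfl, h7⟩ := Asch.pow_eq_le_twelve h2 h3 (n := 8) (by
      simpa using Fintype.card_congr e) (by norm_num)
    omega

end Cfsg.Agent.S5826
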