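import Mathlib
import Cfsg.Statements.S5859
import Cfsg.Agent.Asch.OMax

set_option autoImplicit false
open Cfsg

namespace Cfsg.Agent.S5859

/-- Every maximal subgroup of Ω_11(q), q odd, is of one of the listed geometric types or lies in the residual class. Let F be a finite field of odd order q, Q the standard quadratic form x₀² + Σ x_i y_i on F^11 (coordinates Unit ⊕ (Fin 5 ⊕ Fin 5)), Ω the commutator subgroup of its isometry group, and H a maximal subgroup of Ω (inside GL_11(F)). Then H is the intersection with Ω of one of: the stabiliser of a non-zero totally singular subspace; the stabiliser of a non-zero non-degenerate subspace of even dimension (not a plus-type plane when q = 3); for q prime, the stabiliser of a decomposition into eleven pairwise orthogonal, pairwise isometric non-degenerate 1-spaces; a subfield group (|F| = |F₀|^r, r prime) whose F₀-structure carries Q — or else H lies in the residual class of the orthogonal case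 (modulo scalars H is almost simple, with absolutely irreducible perfect socle preimage realisable over no proper subfield and fixing no non-degenerate unitary form). -/
theorem result {F : Type*} [Field F] [Fintype F] (hodd : Odd (Fintype.card F)) (H : Subgroup (Matrix.GeneralLinearGroup (Unit ⊕ (Fin 5 ⊕ Fin 5)) F)) (hH : Cfsg.Geo.IsMaximalIn (Cfsg.Geo.omegaGL (Cfsg.quadFormOdd 5 F)) H) :
    (∃ W : Submodule F (Unit ⊕ (Fin 5 ⊕ Fin 5) → F), W ≠ ⊥ ∧ Cfsg.Geo.IsTotallySingularQuad (Cfsg.quadFormOdd 5 F) W ∧ H = Cfsg.Geo.subspaceStabilizer W ⊓ Cfsg.Geo.omegaGL (Cfsg.quadFormOdd 5 F)) ∨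
    (∃ W : Submodule F (Unit ⊕ (Fin 5 ⊕ Fin 5) → F), W ≠ ⊥ ∧ Even (Module.finrank F W) ∧ Cfsg.Geo.IsNondegenerateOn (QuadraticMap.polar (Cfsg.quadFormOdd 5 F)) W ∧ ¬ (Fintype.card F = 3 ∧ Module.finrank F W = 2 ∧ Cfsg.Geo.IsPlusTypeOn (Cfsg.quadFormOdd 5 F) W) ∧ H = Cfsg.Geo.subspaceStabilizer W ⊓ Cfsg.Geo.omegaGL (Cfsg.quadFormOdd 5 F)) ∨
    ((Fintype.card F).Prime ∧ ∃ D : Fin 11 → Submodule F (Unit ⊕ (Fin 5 ⊕ Fin 5) → F), Cfsg.Geo.IsOrthogonalMDecomposition (Cfsg.quadFormOdd 5 F) 1 D ∧ H = Cfsg.Geo.decompositionStabilizer D ⊓ Cfsg.Geo.omegaGL (Cfsg.quadFormOdd 5 F)) ∨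
    (∃ (F₀ : Subfield F) (r : ℕ) (P : Matrix.GeneralLinearGroup (Unit ⊕ (Fin 5 ⊕ Fin 5)) F), r.Prime ∧ Fintype.card F = Nat.card F₀ ^ r ∧ Cfsg.Geo.IsQuadFormRationalStructure (Cfsg.quadFormOdd 5 F) F₀ P ∧ H = Cfsg.Geo.subfieldSubgroup F₀ P ⊓ Cfsg.Geo.omegaGL (Cfsg.quadFormOdd 5 F)) ∨
    Cfsg.Geo.InOrthogonalResidualClass H := by
  obtain ⟨J, hJ, hd⟩ := Asch.exists_qj_odd 5 (Asch.odd_card_iff.1 hodd)
  have hn : Fintype.card (Unit ⊕ (Fin 5 ⊕ Fin 5)) = 11 := by simp
  have hq := Asch.two_le_card (F := F)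
  rcases Asch.o_max hJ (by omega) hH with ⟨M, h, rfl⟩ | ⟨k, t, h1, h2, h3, -⟩ | h
  rotate_left
  · exact absurd ((Nat.even_pow' (n := t) (by omega)).2 h1) (by rw [← h3, hn]; decide)
  · exact .inr <| .inr <| .inr <| .inr <| h
  rw [hJ.polar_eq]
  simp only [Asch.OCls, hn] at h
  rcases h with ⟨W, h1, h2, rfl⟩ | ⟨W, h1, h2, h3, h4, rfl⟩ | ⟨v, h1, h2, rfl⟩ |
    ⟨t, D, h1, h2, h3, rfl⟩ | ⟨t, k, D, h1, h2, h3, h4, h5, h6, rfl⟩ | ⟨k, D, h1, h2, rfl⟩ |
    ⟨r, K, h1, h2, h3, h4, h5, h6, rfl⟩ | ⟨K, h1, h2, h3, h4, rfl⟩ |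
    ⟨a, b, e, P, f₁, f₂, h1, h2, h3, h4, h5, h6, h7, h8, h9, rfl⟩ |
    ⟨a, b, e, P, f₁, f₂, h1, h2, h3, h4, h5, h6, h7, h8, h9, h10, rfl⟩ |
    ⟨F₀, r, P, ζ, h1, h2, h3, h4, rfl⟩ | ⟨k, t, e, P, f₁, h1, h2, h3, h4, h5, h6, rfl⟩
  · exact .inl ⟨W, h1, h2, rfl⟩
  · rcases Nat.even_or_odd (Module.finrank F W) with he | he
    · exact .inr <| .inl ⟨W, h1, he, h2, fun h => by
        have := hJ.four_le (by omega) hH h.2.1 (hJ.polar_eq ▸ h2) h.2.2; omega, rfl⟩
    · have h5 := Asch.finrank_perp (σ := RingHom.id F) (fun _ => rfl) J W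
      rw [hJ.stab_perp] at hH ⊢
      obtain ⟨j, hj⟩ := he
      exact .inr <| .inl ⟨_, fun e => by rw [e, finrank_bot] at h5; omega, ⟨5 - j, by omega⟩,
        hJ.gram.nd_perp h2, fun h => by omega, rfl⟩
  · exact absurd hodd h1
  · obtain rfl : t = 11 := by
      have := Asch.IsMDecomposition.card_eq h3.decomp.decomp; omega
    exact .inr <| .inr <| .inl ⟨h1, D, h3, rfl⟩
  · have hc := Asch.IsMDecomposition.card_eq h2.decomp.decomp
    have := h2.decomp.decomp.two_le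
    have := Nat.le_of_dvd (by omega) (Dvd.intro t hc.symm)
    rw [hn] at hc this
    interval_cases k <;> omega
  · have := Asch.IsMDecomposition.card_eq h1; omega
  · have h7 := Asch.IsFieldSubalgebra.dvd_card h2
    rw [hn] at h7
    have := Nat.le_of_dvd (by omega) h7
    interval_cases r <;> first | omega | exact absurd h1 (by norm_num)
  · have := Asch.IsFieldSubalgebra.dvd_card h1; omega
  · have hc : 11 = a * b := by simpa using Fintype.card_congr e
    have := Nat.le_of_dvd (by omega) (Dvd.intro b hc.symm)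
    interval_cases a <;> first | omega | exact absurd (h4 (by omega)) (by decide)
  · have hc : 11 = a * b := by simpa using Fintype.card_congr e
    exact absurd (hc ▸ h3.mul_right b) (by decide)
  · obtain ⟨P', h5, h6⟩ := hJ.rescale (m := 5) hn (hd F₀) h3 h4
    exact .inr <| .inr <| .inr <| .inl ⟨F₀, r, P', h1, h2, h5, by rw [h6]⟩
  · obtain ⟨rfl, rfl, h7⟩ := Asch.pow_eq_le_twelve h2 h3 (n := 11) (by
      simpa using Fintype.card_congr e) (by norm_num)
    omega

end Cfsg.Agent.S5859
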