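import Mathlib
import Cfsg.Statements.S5877
import Cfsg.Agent.Flav.D
import Cfsg.Agent.Asch.Extra

set_option autoImplicit false
open Cfsg

namespace Cfsg.Agent.S5877

open scoped commutatorElement

/-- Eigenspaces of elements normalising an absolutely irreducible extraspecial group. Let F be a finite field, r a prime, and R ≤ GL_n(F) an absolutely irreducible extraspecial r-group (an r-group whose centre equals its derived subgroup and has order r) of exponent r or 4. Let g ∈ GL_n(F) normalise the product of R with the scalar matrices, have prime order ϖ and not be scalar, and let W be the eigenspace of g for any c ∈ F (W may be the zero subspace). Then dim W ≤ 3n/4 if ϖ = 2, dim W ≤ 2n/3 if ϖ = 3, and dim W ≤ n/2 if ϖ > 3; moreover if ϖ = 3 and 3 does not divide n then dim W ≤ n/2. -/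
theorem result {F : Type*} [Field F] [Fintype F] {n r ϖ : ℕ} (R : Subgroup (Matrix.GeneralLinearGroup (Fin n) F)) (hr : r.Prime) (hR : IsPGroup r R) (hZ : Nat.card (Subgroup.center R) = r) (hext : commutator R = Subgroup.center R) (hexp : Monoid.exponent R = r ∨ Monoid.exponent R = 4) (hirr : Cfsg.Geo.ActsAbsolutelyIrreducibly (Cfsg.Geo.matrixSet R)) (g : Matrix.GeneralLinearGroup (Fin n) F) (hg : g ∈ Cfsg.Geo.subgroupNormalizer (R ⊔ Cfsg.Geo.scalars (Fin n) F)) (hϖ : ϖ.Prime) (hord : orderOf g = ϖ) (hns : g ∉ Cfsg.Geo.scalars (Fin n) F) (c : F) :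
    (ϖ = 2 → 4 * Module.finrank F (Module.End.eigenspace (Matrix.toLin' (g : Matrix (Fin n) (Fin n) F)) c) ≤ 3 * n) ∧
    (ϖ = 3 → 3 * Module.finrank F (Module.End.eigenspace (Matrix.toLin' (g : Matrix (Fin n) (Fin n) F)) c) ≤ 2 * n) ∧
    (3 < ϖ → 2 * Module.finrank F (Module.End.eigenspace (Matrix.toLin' (g : Matrix (Fin n) (Fin n) F)) c) ≤ n) ∧
    (ϖ = 3 → ¬ 3 ∣ n → 2 * Module.finrank F (Module.End.eigenspace (Matrix.toLin' (g : Matrix (Fin n) (Fin n) F)) c) ≤ n) := by
  haveI : Nonempty (Fin n) := by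
    by_contra h
    rw [not_nonempty_iff] at h
    exact hns (Subsingleton.elim 1 g ▸ one_mem _)
  let ρ : Representation F (Matrix.GeneralLinearGroup (Fin n) F) (Fin n → F) :=
    (Matrix.toLinAlgEquiv' : Matrix (Fin n) (Fin n) F ≃ₐ[F] _).toMonoidHom.comp (Units.coeHom _)
  have hc : ∀ x : Matrix.GeneralLinearGroup (Fin n) F, (∀ a ∈ R, Commute a x) →
      x ∈ Geo.scalars (Fin n) F := fun x hx => by
    obtain ⟨c, hc⟩ := hirr.2 x.1 (by
      rintro _ ⟨a, ha, rfl⟩
      exact congrArg Units.val (hx a ha).symm.eq)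
    exact Asch.mem_scalars_of_smul hc
  have h : Flav.St ρ (Asch.sc (Fin n)) (R ⊔ Geo.scalars (Fin n) F) r := by
    refine ⟨hr, Asch.sc_injective, fun c => ?_, Asch.sc_comm, fun a ha b hb => ?_,
      fun x hx => hc x fun a ha => hx a (Subgroup.mem_sup_left ha)⟩
    · change Matrix.toLinAlgEquiv' (Asch.sc (Fin n) c).1 = _
      rw [Asch.sc_coe, map_smul, map_one]
    · obtain ⟨x, hx, α, rfl⟩ := Asch.mem_sup_scalars.1 ha
      obtain ⟨y, hy, β, rfl⟩ := Asch.mem_sup_scalars.1 hb
      have h1 : ⁅(⟨x, hx⟩ : R), (⟨y, hy⟩ : R)⁆ ∈ Subgroup.center R :=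
        hext ▸ Subgroup.commutator_mem_commutator (Subgroup.mem_top _) (Subgroup.mem_top _)
      obtain ⟨γ, hγ⟩ := hc ⁅x, y⁆ fun a ha =>
        congrArg Subtype.val (Subgroup.mem_center_iff.1 h1 ⟨a, ha⟩)
      have h2 : ⁅x, y⁆ ^ r = 1 := congrArg (fun t : Subgroup.center R => (t.1.1 : Matrix.GeneralLinearGroup (Fin n) F))
        (hZ ▸ pow_card_eq_one' (x := (⟨_, h1⟩ : Subgroup.center R)))
      refine ⟨γ, Asch.sc_injective (ι := Fin n) (by rw [map_pow, map_one]; exact hγ ▸ h2), ?_⟩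
      rw [show Asch.sc (Fin n) γ = ⁅x, y⁆ from hγ, commutatorElement_def, commutatorElement_def,
        mul_inv_rev, mul_inv_rev, ← map_inv, ← map_inv, mul_assoc x, Asch.sc_comm α]
      simp only [mul_assoc]
      rw [← mul_assoc (Asch.sc _ α), ← map_mul, mul_inv_cancel, map_one, one_mul, Asch.sc_comm β,
        mul_assoc, mul_assoc, ← Asch.sc_comm β, ← mul_assoc (Asch.sc _ β⁻¹), ← map_mul,
        inv_mul_cancel, map_one, one_mul]
  obtain ⟨h1, h2⟩ := h.bound hg hϖ (hord ▸ pow_orderOf_eq_one g) hns c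
  rw [Module.finrank_fin_fun] at h1 h2
  change 4 * Module.finrank F (Module.End.eigenspace (Matrix.toLin' g.1) c) ≤ _ at h1
  change _ → 2 * Module.finrank F (Module.End.eigenspace (Matrix.toLin' g.1) c) ≤ _ ∨
    _ ∧ 3 * Module.finrank F (Module.End.eigenspace (Matrix.toLin' g.1) c) ≤ _ ∧ _ at h2
  refine ⟨fun _ => h1, fun e => ?_, fun e => ?_, fun e h3 => ?_⟩ <;>
    rcases h2 (by omega) with h4 | h4
  · omega
  · exact h4.2.1
  · exact h4
  · omega
  · exact h4
  · exact absurd h4.2.2 h3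

end Cfsg.Agent.S5877
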