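import Mathlib
import Cfsg.Statements.S5938
import Cfsg.Agent.Max.L2d

set_option autoImplicit false
open Cfsg

namespace Cfsg.Agent.S5938

open Cfsg.Agent.Max.L2 Cfsg.Agent.Classical.PSL2Basic Cfsg.Agent.Classical.P1Ident
  Cfsg.Agent.Classical.Congr Cfsg.Agent.Classical.P1

/-- Let p be a prime with p ≡ ±1 (mod 8) and F a field with p elements. Then PSL_2(F) has a maximal subgroup isomorphic to the symmetric group S_4. -/
theorem result {F : Type*} [Field F] [Fintype F] (p : ℕ) [Fact p.Prime] (hF : Fintype.card F = p) (hp : p % 8 = 1 ∨ p % 8 = 7) : ∃ H : Subgroup (Matrix.ProjectiveSpecialLinearGroup (Fin 2) F), IsCoatom H ∧ Nonempty (H ≃* Equiv.Perm (Fin 4)) := by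
  rw [← Nat.card_eq_fintype_card] at hF
  have hp' : p.Prime := Fact.out
  haveI : NeZero (2 : F) := ⟨odd_card_iff.1 (by rw [hF, Nat.odd_iff]; omega)⟩
  have := hp'.two_le
  exact exists_max_PSL (max_S4 (hF ▸ hp') (by omega) (isSquare_two_iff'.2 (by omega))) S0_equiv

end Cfsg.Agent.S5938
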