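import Mathlib
import Cfsg.Statements.S5941
import Cfsg.Agent.Max.L2d

set_option autoImplicit false
open Cfsg

namespace Cfsg.Agent.S5941

open Cfsg.Agent.Max.L2 Cfsg.Agent.Classical.PSL2Basic Cfsg.Agent.Classical.P1Ident
  Cfsg.Agent.Classical.Congr Cfsg.Agent.Classical.P1

/-- Let K and F be finite fields of odd characteristic with #F = (#K)². Then PSL_2(F) has a maximal subgroup isomorphic to PGL_2(K). -/
theorem result {F K : Type*} [Field F] [Fintype F] [Field K] [Fintype K] (q : ℕ) (hK : Fintype.card K = q) (hF : Fintype.card F = q ^ 2) (hq : Odd q) : ∃ H : Subgroup (Matrix.ProjectiveSpecialLinearGroup (Fin 2) F), IsCoatom H ∧ Nonempty (H ≃* Matrix.ProjGenLinGroup (Fin 2) K) := by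
  rw [← Nat.card_eq_fintype_card] at hF hK
  obtain ⟨K', ⟨e⟩⟩ := exists_subfield (K := K) (hK ▸ hF)
  have h1 := Nat.card_congr e.toEquiv
  have h2 := Cfsg.Agent.Classical.SLBasic.one_lt_card (F := K)
  rw [Nat.odd_iff] at hq
  exact exists_max_PSL (max_PGL (K := K') (by rw [← h1, hK, hF]) (by omega))
    ⟨(subPGLEquiv K').symm.trans (pglCongr e).symm⟩

end Cfsg.Agent.S5941
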