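import Mathlib
import Cfsg.Statements.S5951
import Cfsg.Agent.Elu.Uni

set_option autoImplicit false
set_option backward.isDefEq.respectTransparency false
open scoped MatrixGroups
open Cfsg

namespace Cfsg.Agent.S5951

open Cfsg.Agent.Elu Cfsg.Agent.Conj

/-- Elements of prime order of PSL_n(q) fixing no pair of subspaces `U < W` with `dim U = m`, `dim W = n − m`. Here `T = PSL_n(F)` for a field `F` with `q = p^f` elements (`n ≥ 2`, `(n, q) ≠ (2, 2), (2, 3)`); an element of `T` of prime order `r` is represented by a matrix `x` of determinant 1 with `x^r` scalar and `x` not scalar; `i` denotes the multiplicative order of `q` modulo `r` (when `r ≠ p`), and `(a)_r` the `r`-part of `a`. Let `1 ≤ m < n/2` and let `r` be a prime dividing the number of such pairs. Then every element of `T` of order `r` fixes such a pair (both `U` and `W`) if and only if `r ≠ p` and either (i) `i = 1` and (`r ∣ m`, or `(q−1)_r ≥ (n)_r` with `q ≡ 1 (mod 4)` required when `r = 2` and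 `n` is even), or (ii) `2 ≤ i ≤ m` and `n mod i ≥ 2 (m mod i)`. -/
theorem result {F : Type*} [Field F] [Fintype F] {p : ℕ} [Fact p.Prime] [CharP F p] {q : ℕ} (hq : Fintype.card F = q)
    (n m : ℕ) (hn : 2 ≤ n) (hT : (n, q) ≠ (2, 2) ∧ (n, q) ≠ (2, 3)) (hm : 1 ≤ m) (hmn : 2 * m < n)
    (r : ℕ) [Fact r.Prime]
    (hrΩ : r ∣ Nat.card {P : Submodule F (Fin n → F) × Submodule F (Fin n → F) //
        P.1 ≤ P.2 ∧ Module.finrank F ↥P.1 = m ∧ Module.finrank F ↥P.2 = n - m}) :
    (∀ x : Matrix.SpecialLinearGroup (Fin n) F,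
      (∃ c : F, ((x ^ r : Matrix.SpecialLinearGroup (Fin n) F) : Matrix (Fin n) (Fin n) F) = c • (1 : Matrix (Fin n) (Fin n) F)) →
      (∀ c : F, (x : Matrix (Fin n) (Fin n) F) ≠ c • (1 : Matrix (Fin n) (Fin n) F)) →
      ∃ U W : Submodule F (Fin n → F), U ≤ W ∧ Module.finrank F ↥U = m ∧ Module.finrank F ↥W = n - m ∧
        U.map (Matrix.toLin' (x : Matrix (Fin n) (Fin n) F)) ≤ U ∧ W.map (Matrix.toLin' (x : Matrix (Fin n) (Fin n) F)) ≤ W) ↔
    (r ≠ p ∧
      ((orderOf (q : ZMod r) = 1 ∧ (r ∣ m ∨ (padicValNat r n ≤ padicValNat r (q - 1) ∧ (r = 2 → Even n → q % 4 = 1)))) ∨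
       (2 ≤ orderOf (q : ZMod r) ∧ orderOf (q : ZMod r) ≤ m ∧ 2 * (m % orderOf (q : ZMod r)) ≤ n % orderOf (q : ZMod r)))) := by
  subst hq
  have hr : r.Prime := Fact.out
  have hd := hr.dvd_mul.1 (hrΩ.trans (card_flag_dvd (n := n) (by simp) (by omega) (by omega)))
  rw [show n - (n - m) = m by omega] at hd
  have hrp : r ≠ p := hd.elim (ne_char_of_dvd hr (by omega)) (ne_char_of_dvd hr (by omega))
  have h0 : (r : F) ≠ 0 := natCast_ne_zero_of_ne hr hrp
  have hp := pd_pos hr h0
  have h : ¬ (m < orderOf (Fintype.card F : ZMod r) ∧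
      2 * m ≤ n % orderOf (Fintype.card F : ZMod r)) := by
    rintro ⟨h1, h2⟩
    rcases hd with hd | hd
    · exact not_lt_of_dvd hr (by omega) hd ⟨h1, by omega⟩
    · refine not_lt_of_dvd hr (by omega) hd ⟨h1, ?_⟩
      generalize orderOf (Fintype.card F : ZMod r) = i at *
      have h3 := Nat.mod_add_div n i
      have h4 := Nat.mod_lt n (by omega : 0 < i)
      rw [show n - m = n % i - m + i * (n / i) by omega, Nat.add_mul_mod_self_left,
        Nat.mod_eq_of_lt (by omega)]
      omega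
  rw [forall_SL_iff (fun f => ∃ U W : Submodule F (Fin n → F), U ≤ W ∧ Module.finrank F U = m ∧
      Module.finrank F W = n - m ∧ U.map f ≤ U ∧ W.map f ≤ W),
    forall₃_congr fun f c hf => (flag_iff_ev (AlgebraicClosure F)
      (squarefree_X_pow_sub_C h0 hf.ne) (aeval_of_pow_eq hf.2.1) m (n - m)).trans
      ((ty_ev _ hr hf.ne hf.2.1).flag_iff (frob_inj _) hp m (n - m))]
  by_cases hi : orderOf (Fintype.card F : ZMod r) = 1
  · rw [pd_one hi, lin_one _ hr hi (by omega) (fun e k => ∃ a a' b b', a ≤ a' ∧ a' ≤ e ∧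
      r * b ≤ r * b' ∧ r * b' ≤ k ∧ m = a + r * b ∧ n - m = a' + r * b')
      ⟨m, n - m, 0, 0, by omega, by omega, by simp⟩]
    simp only [hi, hrp, ne_eq, not_false_eq_true, true_and, Nat.reduceLeDiff, false_and, or_false]
    by_cases hc : Cnd r n (Fintype.card F)
    · exact iff_of_true (Or.inr hc) (Or.inr hc)
    obtain ⟨f, c, hf, h1⟩ := exists_of_not_cnd (AlgebraicClosure F) hr hi (by omega) hc
    obtain ⟨k, hk⟩ := (ty_ev (AlgebraicClosure F) hr hf.ne hf.2.1).dvd (frob_inj _) hp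
    have h2 := fx_add_nf (q := Fintype.card F) (ev (AlgebraicClosure F) f)
    rw [card_ev, h1, hk, pd_one hi, zero_add, Module.finrank_fin_fun] at h2
    refine or_congr ⟨?_, ?_⟩ Iff.rfl
    · rintro ⟨a, a', b, b', h3, h4, -, -, rfl, -⟩
      simp [show a = 0 by omega]
    · rintro ⟨b, rfl⟩
      have h3 : r * (k - b) = n - r * b := by rw [Nat.mul_sub, h2]
      exact ⟨0, 0, b, k - b, le_rfl, le_rfl, by omega, by omega, by simp, by omega⟩
  · rw [pd_ne hi] at hp ⊢
    rw [lin_ne _ hr h0 hi (fun e k => ∃ a a' b b', a ≤ a' ∧ a' ≤ e ∧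
      _ * b ≤ _ * b' ∧ _ * b' ≤ k ∧ m = a + _ * b ∧ n - m = a' + _ * b'),
      arith_flag hp hmn.le h]
    simp only [hi, hrp, ne_eq, not_false_eq_true, true_and, false_and, false_or, iff_and_self]
    omega

end Cfsg.Agent.S5951
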