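import Mathlib
import Cfsg.Statements.S5952


set_option autoImplicit false
open Cfsg

namespace Cfsg.Agent.S5952

open Module in
theorem step {F V : Type*} [Field F] [AddCommGroup V] [Module F V] [FiniteDimensional F V]
    {f : V →ₗ[F] V} {U A W : Submodule F V} (hU : U.map f ≤ U) (hA : A.map f ≤ A) (hW : W.map f ≤ W)
    (h : ∀ W : Submodule F V, W ≤ U → W.map f ≤ W → W = ⊥ ∨ W = U) :
    finrank F ↥(W ⊓ (U ⊔ A)) = finrank F ↥(W ⊓ A) ∨
      finrank F ↥(W ⊓ (U ⊔ A)) = finrank F ↥(W ⊓ A) + finrank F U := by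
  have inf : ∀ {X Y : Submodule F V}, X.map f ≤ X → Y.map f ≤ Y → (X ⊓ Y).map f ≤ X ⊓ Y :=
    fun h1 h2 => (Submodule.map_inf_le f).trans (inf_le_inf h1 h2)
  have sup : ∀ {X Y : Submodule F V}, X.map f ≤ X → Y.map f ≤ Y → (X ⊔ Y).map f ≤ X ⊔ Y :=
    fun h1 h2 => (Submodule.map_sup _ _ f).le.trans (sup_le_sup h1 h2)
  have h1 := Submodule.finrank_sup_add_finrank_inf_eq (W ⊓ (U ⊔ A)) A
  rw [inf_assoc, inf_eq_right.mpr (le_sup_right : A ≤ U ⊔ A)] at h1
  have h2 : W ⊓ (U ⊔ A) ⊔ A = A ⊔ U ⊓ (W ⊓ (U ⊔ A) ⊔ A) := by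
    rw [← sup_inf_assoc_of_le _ le_sup_right, sup_comm A U, eq_comm, inf_eq_right]
    exact sup_le inf_le_right le_sup_right
  rcases h _ inf_le_left (inf hU (sup (inf hW (sup hU hA)) hA)) with h3 | h3
  · rw [h2, h3, sup_bot_eq] at h1
    omega
  rw [h2, h3] at h1
  have h4 := Submodule.finrank_sup_add_finrank_inf_eq A U
  rcases h _ inf_le_right (inf hA hU) with h5 | h5
  · rw [h5, finrank_bot] at h4
    omega
  · rw [h5] at h4
    omega

/-- Which dimensions of invariant subspaces a semisimple linear map has. Let `V` be a finite-dimensional vector space over a field `F` and `f` an invertible semisimple linear map of `V`. Suppose `V` is the internal direct sum of the fixed space `C_V(f)` (the eigenspace for 1) and subspaces `U_1, …, U_s`, each `f`-invariant of dimension `a ≥ 1` on which `f` acts irreducibly (no `f`-invariant subspaces other than 0 and `U_j`). Let `0 < m < dim V` and `ℓ = m mod a`. Then `f` leaves some `m`-dimensional subspace invariant if and only if `dim C_V(f) ≥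 m`, or `a ≤ m` and `dim C_V(f) ≥ ℓ`. -/
theorem result {F V : Type*} [Field F] [AddCommGroup V] [Module F V]
    [FiniteDimensional F V] (f : V →ₗ[F] V) (hf : Function.Bijective f) (hss : Module.End.IsSemisimple f)
    {s a : ℕ} (ha : 1 ≤ a) (U : Fin s → Submodule F V)
    (hUinv : ∀ j, (U j).map f ≤ U j) (hUdim : ∀ j, Module.finrank F ↥(U j) = a)
    (hUirr : ∀ j, ∀ W : Submodule F V, W ≤ U j → W.map f ≤ W → W = ⊥ ∨ W = U j)
    (hdec : DirectSum.IsInternal (fun o : Option (Fin s) => o.elim (Module.End.eigenspace f 1) U))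
    (m : ℕ) (hm : 0 < m) (hmV : m < Module.finrank F V) :
    (∃ W : Submodule F V, Module.finrank F ↥W = m ∧ W.map f ≤ W) ↔
    (m ≤ Module.finrank F ↥(Module.End.eigenspace f 1) ∨
      (a ≤ m ∧ m % a ≤ Module.finrank F ↥(Module.End.eigenspace f 1))) := by
  classical
  have hC : ∀ W ≤ Module.End.eigenspace f 1, W.map f ≤ W := fun W hW => by
    rintro _ ⟨x, hx, rfl⟩
    simpa [Module.End.mem_eigenspace_iff.mp (hW hx)] using hx
  generalize Module.End.eigenspace f 1 = C at *
  have hinv : ∀ W ≤ C, ∀ S : Finset (Fin s), (S.sup U ⊔ W).map f ≤ S.sup U ⊔ W := fun W hW S => by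
    rw [Submodule.map_sup, Finset.sup_eq_iSup, Submodule.map_iSup]
    refine sup_le_sup (iSup_mono fun j => ?_) (hC W hW)
    rw [Submodule.map_iSup]
    exact iSup_mono fun _ => hUinv j
  have htop : Finset.univ.sup U ⊔ C = ⊤ := by
    rw [eq_top_iff, ← hdec.submodule_iSup_eq_top, iSup_option]
    simp [Finset.sup_eq_iSup, sup_comm]
  have hdim : ∀ W ≤ C, ∀ S : Finset (Fin s),
      Module.finrank F ↥(S.sup U ⊔ W) = S.card * a + Module.finrank F W := fun W hW S => by
    induction S using Finset.induction_on with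
    | empty => rw [Finset.sup_empty, bot_sup_eq]; simp
    | insert j S hj ih =>
      have h1 := Submodule.finrank_sup_add_finrank_inf_eq (U j) (S.sup U ⊔ W)
      have h2 : U j ⊓ (S.sup U ⊔ W) = ⊥ := disjoint_iff.mp
        ((hdec.submodule_iSupIndep (some j)).mono_right (sup_le (Finset.sup_le fun i hi =>
          le_iSup₂_of_le (some i) (by rintro ⟨rfl⟩; exact hj hi) le_rfl)
          (le_iSup₂_of_le none (by simp) hW)))
      rw [h2, finrank_bot, hUdim, ih] at h1
      rw [Finset.sup_insert, sup_assoc, Finset.card_insert_of_notMem hj, add_mul]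
      omega
  constructor
  · rintro ⟨W, rfl, hW⟩
    have key : ∀ S : Finset (Fin s), ∃ k,
        Module.finrank F ↥(W ⊓ (S.sup U ⊔ C)) = Module.finrank F ↥(W ⊓ C) + a * k := fun S => by
      induction S using Finset.induction_on with
      | empty => exact ⟨0, by rw [Finset.sup_empty, bot_sup_eq]; simp⟩
      | insert j S hj ih =>
        obtain ⟨k, hk⟩ := ih
        rw [Finset.sup_insert, sup_assoc]
        rcases step (hUinv j) (hinv C le_rfl S) hW (hUirr j) with h | h
        exacts [⟨k, h.trans hk⟩, ⟨k + 1, by rw [h, hk, hUdim]; ring⟩]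
    obtain ⟨k, hk⟩ := key Finset.univ
    rw [htop, inf_top_eq] at hk
    have h1 := Submodule.finrank_mono (inf_le_right : W ⊓ C ≤ C)
    obtain _ | k := k
    · exact Or.inl (by omega)
    · refine Or.inr ⟨by rw [hk, mul_add]; omega, ?_⟩
      rw [hk, Nat.add_mul_mod_self_left]
      exact (Nat.mod_le _ _).trans h1
  · intro h
    obtain ⟨k, h1, h2, h3⟩ : ∃ k ≤ s, k * a ≤ m ∧ m - k * a ≤ Module.finrank F C := by
      rcases h with h | ⟨-, h⟩
      · exact ⟨0, by simp, by simp, by simpa⟩
      by_cases h1 : m / a ≤ s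
      · exact ⟨_, h1, Nat.div_mul_le_self _ _, by rwa [← Nat.mod_eq_sub_div_mul]⟩
      · have h2 := hdim C le_rfl Finset.univ
        rw [htop, finrank_top, Finset.card_fin] at h2
        exact ⟨s, le_rfl, (Nat.le_div_iff_mul_le ha).mp (by omega), by omega⟩
    obtain ⟨S, -, rfl⟩ := Finset.exists_subset_card_eq (s := (Finset.univ : Finset (Fin s))) (n := k)
      (by simpa using h1)
    obtain ⟨v, hv⟩ := exists_linearIndependent_of_le_finrank h3
    have h4 := Submodule.map_subtype_le C (Submodule.span F (Set.range v))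
    refine ⟨_, ?_, hinv _ h4 S⟩
    rw [hdim _ h4, Submodule.finrank_map_subtype_eq, finrank_span_eq_card hv, Fintype.card_fin]
    omega

end Cfsg.Agent.S5952
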