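import Mathlib
import Cfsg.Statements.S5953
import Cfsg.Agent.Elu.Un2

set_option autoImplicit false
set_option backward.isDefEq.respectTransparency false
open scoped MatrixGroups
open Cfsg

namespace Cfsg.Agent.S5953

open Cfsg.Agent.Elu Cfsg.Agent.Conj Cfsg.Agent.Spc

/-- Elements of prime order of PSU_n(q) with no fixed totally isotropic `m`-space. Here `T = PSU_n(q)` (`n ≥ 3`, `(n, q) ≠ (3, 2)`), realised through the matrices of determinant 1 over the field `F` with `q²` elements preserving the Hermitian form `h(u, v) = Σ u_i v_i^q`; an element of `T` of prime order `r` is such a matrix `x` with `x^r` scalar and `x` not scalar. For `r ≠ p` let `i` be the multiplicative order of `q` modulo `r`, `b = i/2` for `i` even and `b = i` for `i` odd, `c = i, i/2, 2i` according as `i ≡ 0, 2 (mod 4)` or `i` odd, and write `k = n mod c`, `ℓ = m mod b`, `ℓ' = m mod c`, `n' = ⌊n/b⌋`, `m' = ⌊m/b⌋`, `s = (r−1)/b`; `(a)_r` is the `r`-part of `a`. Let `1 ≤ m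 ≤ n/2` and let `r` be a prime dividing the number of totally isotropic `m`-spaces. Then every element of `T` of order `r` fixes a totally isotropic `m`-space if and only if either (i) `r = 2`, `p ≠ 2`, and (`m < n/2` or `(q+1)_2 ≤ (n)_2`); or (ii) `r ≠ p`, `r > 2`, `b ≤ m`, `k ≥ 2ℓ`, and either `i ≢ 2 (mod 4)`, or `i ≡ 2 (mod 4)`, `n' − 2m' ≥ s` and (`i > 2`, or `i = 2` and (`r ∣ m` or `(q+1)_r ≥ (n)_r`)). -/
theorem result {F : Type*} [Field F] [Fintype F] {p : ℕ} [Fact p.Prime] [CharP F p] {q : ℕ} (hq : Fintype.card F = q ^ 2)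
    (n m : ℕ) (hn : 3 ≤ n) (hT : (n, q) ≠ (3, 2)) (hm : 1 ≤ m) (hmn : 2 * m ≤ n)
    (r : ℕ) [Fact r.Prime]
    (hrΩ : r ∣ Nat.card {W : Submodule F (Fin n → F) // Module.finrank F ↥W = m ∧ (∀ u ∈ W, ∀ v ∈ W, Cfsg.hermForm n F q u v = 0)})
    (i b c : ℕ) (hi : i = orderOf (q : ZMod r)) (hb : b = if Even i then i / 2 else i)
    (hc : c = if i % 4 = 0 then i else if i % 4 = 2 then i / 2 else 2 * i) :
    (∀ x : Matrix.SpecialLinearGroup (Fin n) F, x ∈ Cfsg.SU n F q →
      (∃ z : F, ((x ^ r : Matrix.SpecialLinearGroup (Fin n) F) : Matrix (Fin n) (Fin n) F) = z • (1 : Matrix (Fin n) (Fin n) F)) →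
      (∀ z : F, (x : Matrix (Fin n) (Fin n) F) ≠ z • (1 : Matrix (Fin n) (Fin n) F)) →
      ∃ W : Submodule F (Fin n → F), Module.finrank F ↥W = m ∧ (∀ u ∈ W, ∀ v ∈ W, Cfsg.hermForm n F q u v = 0) ∧
        W.map (Matrix.toLin' (x : Matrix (Fin n) (Fin n) F)) ≤ W) ↔
    ((r = 2 ∧ p ≠ 2 ∧ (2 * m < n ∨ padicValNat 2 (q + 1) ≤ padicValNat 2 n)) ∨
     (r ≠ p ∧ 2 < r ∧ b ≤ m ∧ 2 * (m % b) ≤ n % c ∧
       (i % 4 ≠ 2 ∨ (i % 4 = 2 ∧ (r - 1) / b + 2 * (m / b) ≤ n / b ∧
         (2 < i ∨ (i = 2 ∧ (r ∣ m ∨ padicValNat r n ≤ padicValNat r (q + 1)))))))) := by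
  have hF := Herm.natCard_of_card hq
  have hr : r.Prime := Fact.out
  simp only [iso_iff_herm hF] at hrΩ ⊢
  have hB := ef_sB hF n
  have hn' : Module.finrank F (Fin n → F) = n := by simp
  haveI : Nontrivial (Fin n → F) := Module.nontrivial_of_finrank_pos (R := F) (by omega)
  obtain ⟨j, hj, h1⟩ := exists_of_dvd_uu hr (by have := Herm.two_le_of_card hF; omega) _
    (hrΩ.trans (card_ts_U hB (a := n - 2 * m) (by omega)))
  have hrp : r ≠ p := by
    rintro rfl
    rw [ordU_char hF, zero_dvd_iff] at h1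
    omega
  have h0 : (r : F) ≠ 0 := natCast_ne_zero_of_ne hr hrp
  refine (forall_SU_iff hF (fun f => TS (Herm.sB hF n) f m)).trans ?_
  by_cases h2 : r = 2
  · subst h2
    rw [forall_ts_two hB h0 (by omega) (by omega), hn']
    simp [hrp.symm]
  have h3 : 2 < r := by have := hr.two_le; omega
  have h4 := orderOf_neg h3 (fun x hx => sq_eq_one_iff.1 hx) hi
  rw [← hc] at h4
  have h5 := ordU_pos hF hr h0
  simp only [h2, hrp, h3, false_and, ne_eq, not_false_eq_true, true_and, false_or]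
  by_cases hd : r ∣ q + 1
  · have h6 : i = 2 := by
      rw [ord_eq_one_iff.2 hd, hc] at h4
      split_ifs at h4 <;> omega
    rw [forall_ts_one hB hr h2 h0 hd hm (by omega), hn']
    simp [hb, hc, h6, CndU, h2, hm, Nat.mod_one]
  have h6 := mt ord_eq_one_iff.1 hd
  rw [h4] at h1 h5 h6
  simp only [Nat.even_iff] at hb
  rw [forall_ts_ne hB hr h0 hd h4.symm (b := b) (by
    rw [Nat.odd_iff]; split_ifs at hb hc <;> omega) (by omega) h1 (by omega) (by omega), hn',
    Nat.odd_iff]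
  refine and_congr_right fun _ => and_congr_right fun _ => ?_
  split_ifs at hc with e1 e2
  · simp [e1, show c % 2 ≠ 1 by omega]
  · simp [e2, show c % 2 = 1 by omega, show 2 < i by omega]
  · simp [e2, show c % 2 ≠ 1 by omega]

end Cfsg.Agent.S5953
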