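import Mathlib
import Cfsg.Statements.S5954
import Cfsg.Agent.Elu.Un2

set_option autoImplicit false
set_option backward.isDefEq.respectTransparency false
open scoped MatrixGroups
open Cfsg

namespace Cfsg.Agent.S5954

open Cfsg.Agent.Elu Cfsg.Agent.Conj Cfsg.Agent.Spc

/-- Elements of prime order of PSU_n(q) with no fixed nondegenerate `m`-space. Here `T = PSU_n(q)` (`n ≥ 3`, `(n, q) ≠ (3, 2)`), realised through the matrices of determinant 1 over the field `F` with `q²` elements preserving the Hermitian form `h(u, v) = Σ u_i v_i^q`; an element of `T` of prime order `r` is such a matrix `x` with `x^r` scalar and `x` not scalar. For `r ≠ p` let `i` be the multiplicative order of `q` modulo `r`, `b = i/2` for `i` even and `b = i` for `i` odd, `c = i, i/2, 2i` according as `i ≡ 0, 2 (mod 4)` or `i` odd, and write `k = n mod c`, `ℓ = m mod b`, `ℓ' = m mod c`, `n' = ⌊n/b⌋`, `m' = ⌊m/b⌋`, `s = (r−1)/b`; `(a)_r` is the `r`-part of `a`. Let `1 ≤ m < n/2` and let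 `r` be a prime dividing the number of nondegenerate `m`-spaces. Then every element of `T` of order `r` fixes a nondegenerate `m`-space if and only if one of: (i) `r = p > 2` and every partition of `n` into parts of size at most `p` contains (as a sub-multiset) a partition of `m`; (ii) `r = p = 2` and (`n` is odd or `m` is even); (iii) `r = 2 ≠ p` and (`n` is odd, or `m` is even, or `(q+1)_2 ≥ (n)_2` and `q ≡ 3 (mod 4)`); (iv) `r ≠ p`, `r > 2`, and either `i ≠ 2`, `c ≤ m` and `k ≥ ℓ'`, or `i = 2` and (`r ∣ m` or `(q+1)_r ≥ (n)_r`). -/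
theorem result {F : Type*} [Field F] [Fintype F] {p : ℕ} [Fact p.Prime] [CharP F p] {q : ℕ} (hq : Fintype.card F = q ^ 2)
    (n m : ℕ) (hn : 3 ≤ n) (hT : (n, q) ≠ (3, 2)) (hm : 1 ≤ m) (hmn : 2 * m < n)
    (r : ℕ) [Fact r.Prime]
    (hrΩ : r ∣ Nat.card {W : Submodule F (Fin n → F) // Module.finrank F ↥W = m ∧ (∀ u ∈ W, u ≠ 0 → ∃ v ∈ W, Cfsg.hermForm n F q u v ≠ 0)})
    (i b c : ℕ) (hi : i = orderOf (q : ZMod r)) (hb : b = if Even i then i / 2 else i)
    (hc : c = if i % 4 = 0 then i else if i % 4 = 2 then i / 2 else 2 * i) :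
    (∀ x : Matrix.SpecialLinearGroup (Fin n) F, x ∈ Cfsg.SU n F q →
      (∃ z : F, ((x ^ r : Matrix.SpecialLinearGroup (Fin n) F) : Matrix (Fin n) (Fin n) F) = z • (1 : Matrix (Fin n) (Fin n) F)) →
      (∀ z : F, (x : Matrix (Fin n) (Fin n) F) ≠ z • (1 : Matrix (Fin n) (Fin n) F)) →
      ∃ W : Submodule F (Fin n → F), Module.finrank F ↥W = m ∧ (∀ u ∈ W, u ≠ 0 → ∃ v ∈ W, Cfsg.hermForm n F q u v ≠ 0) ∧
        W.map (Matrix.toLin' (x : Matrix (Fin n) (Fin n) F)) ≤ W) ↔
    ((r = p ∧ 2 < p ∧ (∀ μ : Multiset ℕ, (∀ a ∈ μ, 0 < a ∧ a ≤ p) → μ.sum = n → ∃ ν : Multiset ℕ, ν ≤ μ ∧ ν.sum = m)) ∨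
     (r = p ∧ p = 2 ∧ (Odd n ∨ Even m)) ∨
     (r = 2 ∧ p ≠ 2 ∧ (Odd n ∨ Even m ∨ (padicValNat 2 n ≤ padicValNat 2 (q + 1) ∧ q % 4 = 3))) ∨
     (r ≠ p ∧ 2 < r ∧ ((i ≠ 2 ∧ c ≤ m ∧ m % c ≤ n % c) ∨ (i = 2 ∧ (r ∣ m ∨ padicValNat r n ≤ padicValNat r (q + 1)))))) := by
  have hF := Herm.natCard_of_card hq
  have hr : r.Prime := Fact.out
  simp only [nds_iff_herm hF] at hrΩ ⊢
  have hB := ef_sB hF n
  have hn' : Module.finrank F (Fin n → F) = n := by simp
  haveI : Nontrivial (Fin n → F) := Module.nontrivial_of_finrank_pos (R := F) (by omega)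
  refine (forall_SU_iff hF (fun f => NDec (Herm.sB hF n) f m)).trans ?_
  by_cases hrp : r = p
  · subst hrp
    rw [forall_unip_U hB (by omega), hn']
    by_cases h2 : r = 2
    · subst h2
      rw [parts_two (by omega)]
      simp
    · simp only [h2, show 2 < r by have := hr.two_le; omega, true_and, false_and, ne_eq,
        not_true_eq_false, or_false]
  have h0 : (r : F) ≠ 0 := natCast_ne_zero_of_ne hr hrp
  by_cases h2 : r = 2
  · subst h2
    rw [forall_nd_one hB hr h0 (two_dvd_succ hF h0) (by omega), hn', CndU, ← even_iff_two_dvd]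
    simp only [hrp, Ne.symm hrp, false_and, true_and, ne_eq, not_false_eq_true, lt_irrefl,
      or_false, false_or, forall_const]
    rcases Nat.even_or_odd n with h | h
    · simp [h, Nat.not_odd_iff_even.2 h]
    · simp [h, Nat.not_even_iff_odd.2 h, padicValNat.eq_zero_of_not_dvd h.not_two_dvd_nat]
  have h3 : 2 < r := by have := hr.two_le; omega
  obtain ⟨j, hj, h1⟩ := exists_of_dvd_uu hr (by have := Herm.two_le_of_card hF; omega) _
    ((hr.dvd_mul.1 (hrΩ.trans (card_nd_U hB (a := n - m) (by omega)))).resolve_left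
      (not_dvd_pow_q hF hrp _))
  have h4 := orderOf_neg h3 (fun x hx => sq_eq_one_iff.1 hx) hi
  rw [← hc] at h4
  simp only [h2, hrp, h3, false_and, ne_eq, not_false_eq_true, true_and, false_or]
  by_cases hd : r ∣ q + 1
  · have h6 : i = 2 := by
      rw [ord_eq_one_iff.2 hd, hc] at h4
      split_ifs at h4 <;> omega
    rw [forall_nd_one hB hr h0 hd (by omega), hn']
    simp [h6, CndU, h2]
  have h6 := mt ord_eq_one_iff.1 hd
  rw [h4] at h1 h6
  rw [forall_nd_ne hB hr h0 hd h4.symm (by omega) h1 (by omega) (by omega), hn']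
  have : i ≠ 2 := by rintro rfl; simp at hc; omega
  simp [this]

end Cfsg.Agent.S5954
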