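import Mathlib
import Cfsg.Statements.S5955
import Cfsg.Agent.Elu.Sp2

set_option autoImplicit false
set_option backward.isDefEq.respectTransparency false
open scoped MatrixGroups
open Cfsg

namespace Cfsg.Agent.S5955

open Cfsg.Agent.Elu Cfsg.Agent.Conj Cfsg.Agent.Spc Cfsg.Agent.Classical.SpMat

/-- Elements of prime order of PSp_n(q) with no fixed totally isotropic `m`-space. Here `T = PSp_n(q)` with `n = 2d ≥ 4`, `(n, q) ≠ (4, 2)`, realised through the symplectic matrices over the field `F` with `q` elements (preserving the standard alternating form); an element of `T` of prime order `r` is such a matrix `x` with `x^r` scalar and `x` not scalar. For `r ≠ p` let `i` be the multiplicative order of `q` modulo `r`, `c = i` for `i` even and `c = 2i` for `i` odd, and write `k = n mod c`, `ℓ = m mod i`, `ℓ' = m mod c`, `n' = ⌊n/i⌋`, `m' = ⌊m/i⌋`, `t = (r−1)/i`. Let `1 ≤ m ≤ n/2` and let `r` be a prime dividing the number of totally isotropic `m`-spaces.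 Then every element of `T` of order `r` fixes a totally isotropic `m`-space if and only if either (i) `r = 2 ≠ p` and (`m` is even or `q ≡ 1 (mod 4)`); or (ii) `r ≠ p`, `r > 2`, `i ≤ m`, `k ≥ 2ℓ`, and (`i` is odd or `n' − 2m' ≥ t`). -/
theorem result {F : Type*} [Field F] [Fintype F] {p : ℕ} [Fact p.Prime] [CharP F p] {q : ℕ} (hq : Fintype.card F = q)
    (d m : ℕ) (hd : 2 ≤ d) (hT : (d, q) ≠ (2, 2)) (hm : 1 ≤ m) (hmd : m ≤ d)
    (r : ℕ) [Fact r.Prime]
    (hrΩ : r ∣ Nat.card {W : Submodule F (Fin d ⊕ Fin d → F) // Module.finrank F ↥W = m ∧ (∀ u ∈ W, ∀ v ∈ W, Cfsg.sympForm d F u v = 0)})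
    (i c : ℕ) (hi : i = orderOf (q : ZMod r)) (hc : c = if Even i then i else 2 * i) :
    (∀ x : ↥(Matrix.symplecticGroup (Fin d) F),
      (∃ z : F, ((x ^ r : ↥(Matrix.symplecticGroup (Fin d) F)) : Matrix (Fin d ⊕ Fin d) (Fin d ⊕ Fin d) F) = z • (1 : Matrix (Fin d ⊕ Fin d) (Fin d ⊕ Fin d) F)) →
      (∀ z : F, (x : Matrix (Fin d ⊕ Fin d) (Fin d ⊕ Fin d) F) ≠ z • (1 : Matrix (Fin d ⊕ Fin d) (Fin d ⊕ Fin d) F)) →
      ∃ W : Submodule F (Fin d ⊕ Fin d → F), Module.finrank F ↥W = m ∧ (∀ u ∈ W, ∀ v ∈ W, Cfsg.sympForm d F u v = 0) ∧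
        W.map (Matrix.toLin' (x : Matrix (Fin d ⊕ Fin d) (Fin d ⊕ Fin d) F)) ≤ W) ↔
    ((r = 2 ∧ p ≠ 2 ∧ (Even m ∨ q % 4 = 1)) ∨
     (r ≠ p ∧ 2 < r ∧ i ≤ m ∧ 2 * (m % i) ≤ (2 * d) % c ∧ (Odd i ∨ (r - 1) / i + 2 * (m / i) ≤ (2 * d) / i))) := by
  subst hq
  have hr : r.Prime := Fact.out
  simp only [sympForm_eq] at hrΩ ⊢
  have hB := af_sB (F := F) d
  have hn : Module.finrank F (Fin d ⊕ Fin d → F) = 2 * d := by simp [two_mul]
  haveI : Nontrivial (Fin d ⊕ Fin d → F) := Module.nontrivial_of_finrank_pos (R := F) (by omega)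
  obtain ⟨j, hj, h1⟩ := exists_of_dvd_prod hr Fintype.card_pos _
    (hrΩ.trans (card_ts_dvd hB hn hmd))
  have hrp : r ≠ p := by
    rintro rfl
    rw [orderOf_char, zero_dvd_iff] at h1
    omega
  have h0 : (r : F) ≠ 0 := natCast_ne_zero_of_ne hr hrp
  refine (forall_Sp_iff (fun f => TS (sB (Fin d) F) f m)).trans ?_
  by_cases h2 : r = 2
  · subst h2
    simp only [hrp.symm, ne_eq, not_false_eq_true, true_and, lt_irrefl, false_and, and_false,
      or_false]
    refine ⟨fun H => ?_, fun H f c a1 a2 _ => ?_⟩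
    · obtain ⟨f, a1, a2⟩ := hB.exists_sq_neg
      obtain ⟨_, -, -, a3⟩ := shp_four h0 hB.ef a1 a2
      refine ((a3 m).1 (H f _ a1 a2 ?_)).2
      rintro a rfl
      have a4 := Im.smul_one hB.ef a1
      rw [_root_.smul_pow, one_pow] at a2
      exact h0 (by
        have := smul_left_injective F (one_ne_zero (α := Module.End F _)) a2
        simp only [RingHom.id_apply] at a4
        push_cast; linear_combination this - a4)
    · rcases a1.pm hB.ef a2 with rfl | rfl
      · exact (sq_one_iff h0 hB a1 (by simpa using a2)).1 m (by omega)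
      · obtain ⟨d', a3, -, a4⟩ := shp_four h0 hB.ef a1 a2
        exact (a4 m).2 ⟨by omega, H⟩
  rw [forall_odd_iff hB.ef (hr.odd_of_ne_two h2) (fun f => TS (sB (Fin d) F) f m)
      fun f => (ts_smul (by simp)).2,
    forall_sps hr h2 h0 hB hi _ (fun e s w => ∃ a j, 2 * a ≤ e ∧ j ≤ w ∧ m = a + i * j)
      fun f e s w _ _ h => h.2.2.1 m, hn]
  have hp : 0 < i := hi ▸ ord_pos h0 hr
  have ht := one_le_t hr h0
  have h3 : 2 < r := by have := hr.two_le; omega
  rw [← hi] at h1 ht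
  simp only [h2, hrp, h3, false_and, ne_eq, not_false_eq_true, true_and, false_or]
  have h4 := Nat.le_of_dvd (by omega) h1
  rcases Nat.even_or_odd i with h | h
  · simp only [adm_even hp h]
    simp only [hc, cc, h, if_true, Nat.not_odd_iff_even.2 h, false_or]
    rw [← arith_ts hp ht (by omega) (by omega) ?_]
    · exact ⟨fun H e w o a1 a2 a3 => H e _ w a2 a3 ⟨o, a1, rfl⟩,
        fun H e s w a1 a2 ⟨o, a3, a4⟩ => H e w o a3 (a4 ▸ a1) (a4 ▸ a2)⟩
    · rintro ⟨a1, a2⟩
      have a3 := Nat.mod_add_div (2 * d) i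
      have a4 := Nat.mod_lt (2 * d) hp
      rw [show 2 * (d - j) = i * (2 * d / i) + (2 * d % i - 2 * j) by omega,
        Nat.dvd_add_right (Dvd.intro _ rfl)] at h1
      have := Nat.le_of_dvd (by omega) h1
      omega
  · simp only [adm_odd h]
    simp only [hc, cc, Nat.not_even_iff_odd.2 h, if_false, h, true_or, and_true,
      Nat.mul_mod_mul_left, Nat.mul_le_mul_left_iff two_pos]
    rw [← arith_dec hp hmd ?_]
    · refine ⟨fun H e s a1 a2 => ?_, fun H e s w a1 a2 a3 => ?_⟩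
      · obtain ⟨a, j, b1, b2, b3⟩ := H (2 * e) s s a1 (by linarith) rfl
        exact ⟨a, by omega, j, Nat.mul_le_mul_left _ b2, b3⟩
      · obtain ⟨a, b1, j, b2, b3⟩ := H (e / 2) s a1 (by rw [mul_assoc] at a2; omega)
        exact ⟨a, j, by omega, a3 ▸ Nat.le_of_mul_le_mul_left b2 hp, b3⟩
    · rintro ⟨a1, a2⟩
      have h5 := (Nat.coprime_two_right.2 h).dvd_of_dvd_mul_left h1
      have a3 := Nat.mod_add_div d i
      have a4 := Nat.mod_lt d hp
      rw [show d - j = i * (d / i) + (d % i - j) by omega,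
        Nat.dvd_add_right (Dvd.intro _ rfl)] at h5
      have := Nat.le_of_dvd (by omega) h5
      omega

end Cfsg.Agent.S5955
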