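import Mathlib
import Cfsg.Statements.S5956
import Cfsg.Agent.Elu.Sp2

set_option autoImplicit false
set_option backward.isDefEq.respectTransparency false
open scoped MatrixGroups
open Cfsg

namespace Cfsg.Agent.S5956

open Cfsg.Agent.Elu Cfsg.Agent.Conj Cfsg.Agent.Spc Cfsg.Agent.Classical.SpMat

/-- Elements of prime order of PSp_n(q) with no fixed nondegenerate `m`-space. Here `T = PSp_n(q)` with `n = 2d ≥ 4`, `(n, q) ≠ (4, 2)`, realised through the symplectic matrices over the field `F` with `q` elements (preserving the standard alternating form); an element of `T` of prime order `r` is such a matrix `x` with `x^r` scalar and `x` not scalar. For `r ≠ p` let `i` be the multiplicative order of `q` modulo `r`, `c = i` for `i` even and `c = 2i` for `i` odd, and write `k = n mod c`, `ℓ = m mod i`, `ℓ' = m mod c`, `n' = ⌊n/i⌋`, `m' = ⌊m/i⌋`, `t = (r−1)/i`. Let `m` be even with `2 ≤ m < n/2` and let `r` be a prime dividing the number of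 nondegenerate `m`-spaces. Then every element of `T` of order `r` fixes a nondegenerate `m`-space if and only if one of: (i) `r = p > 2` and every partition of `n` into parts of size at most `p` in which every odd part has even multiplicity contains (as a sub-multiset) a partition of `m` in which every odd part has even multiplicity; (ii) `r = p = 2` and (`n ≡ 2 (mod 4)` or `m ≡ 0 (mod 4)`); (iii) `r = 2 ≠ p`; (iv) `r ≠ p`, `r > 2`, `c ≤ m` and `k ≥ ℓ'`. -/
theorem result {F : Type*} [Field F] [Fintype F] {p : ℕ} [Fact p.Prime] [CharP F p] {q : ℕ} (hq : Fintype.card F = q)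
    (d m : ℕ) (hd : 2 ≤ d) (hT : (d, q) ≠ (2, 2)) (hm : 2 ≤ m) (hme : Even m) (hmd : m < d)
    (r : ℕ) [Fact r.Prime]
    (hrΩ : r ∣ Nat.card {W : Submodule F (Fin d ⊕ Fin d → F) // Module.finrank F ↥W = m ∧ (∀ u ∈ W, u ≠ 0 → ∃ v ∈ W, Cfsg.sympForm d F u v ≠ 0)})
    (i c : ℕ) (hi : i = orderOf (q : ZMod r)) (hc : c = if Even i then i else 2 * i) :
    (∀ x : ↥(Matrix.symplecticGroup (Fin d) F),
      (∃ z : F, ((x ^ r : ↥(Matrix.symplecticGroup (Fin d) F)) : Matrix (Fin d ⊕ Fin d) (Fin d ⊕ Fin d) F) = z • (1 : Matrix (Fin d ⊕ Fin d) (Fin d ⊕ Fin d) F)) →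
      (∀ z : F, (x : Matrix (Fin d ⊕ Fin d) (Fin d ⊕ Fin d) F) ≠ z • (1 : Matrix (Fin d ⊕ Fin d) (Fin d ⊕ Fin d) F)) →
      ∃ W : Submodule F (Fin d ⊕ Fin d → F), Module.finrank F ↥W = m ∧ (∀ u ∈ W, u ≠ 0 → ∃ v ∈ W, Cfsg.sympForm d F u v ≠ 0) ∧
        W.map (Matrix.toLin' (x : Matrix (Fin d ⊕ Fin d) (Fin d ⊕ Fin d) F)) ≤ W) ↔
    ((r = p ∧ 2 < p ∧ (∀ μ : Multiset ℕ, (∀ a ∈ μ, 0 < a ∧ a ≤ p) → (∀ a : ℕ, Odd a → Even (μ.count a)) → μ.sum = 2 * d →
        ∃ ν : Multiset ℕ, ν ≤ μ ∧ ν.sum = m ∧ ∀ a : ℕ, Odd a → Even (ν.count a))) ∨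
     (r = p ∧ p = 2 ∧ ((2 * d) % 4 = 2 ∨ m % 4 = 0)) ∨
     (r = 2 ∧ p ≠ 2) ∨
     (r ≠ p ∧ 2 < r ∧ c ≤ m ∧ m % c ≤ (2 * d) % c)) := by
  subst hq
  have hr : r.Prime := Fact.out
  simp only [sympForm_eq] at hrΩ ⊢
  have hB := af_sB (F := F) d
  have hn : Module.finrank F (Fin d ⊕ Fin d → F) = 2 * d := by simp [two_mul]
  haveI : Nontrivial (Fin d ⊕ Fin d → F) := Module.nontrivial_of_finrank_pos (R := F) (by omega)
  refine (forall_Sp_iff (fun f => NDec (sB (Fin d) F) f m)).trans ?_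
  obtain ⟨m, rfl⟩ := hme.two_dvd
  by_cases hrp : r = p
  · subst hrp
    by_cases h2 : r = 2
    · subst h2
      simp only [lt_irrefl, false_and, and_false, true_and, ne_eq, not_true_eq_false, false_or,
        or_false]
      refine ⟨fun H => ?_, fun H f c a1 a2 _ => (pd_two hB a1 a2 hn).ndec hB.ef hn two_pos
        (by rcases a1.pm hB.ef a2 with rfl | rfl <;> simp) a2 (by omega)
        (by rw [Nat.even_iff, Nat.odd_iff]; omega)⟩
      by_contra h
      obtain ⟨k, rfl⟩ : 2 ∣ d := by omega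
      have b1 := (af_sB (F := F) k).sum (af_sB (F := F) k)
      obtain ⟨e, he⟩ := b1.iso hB (by simp; omega)
      let s := (LinearEquiv.prodComm F (Fin k ⊕ Fin k → F) (Fin k ⊕ Fin k → F)).toLinearMap
      have b2 : Im (sumB (sB (Fin k) F) (sB (Fin k) F)) s := fun x y => add_comm _ _
      have b3 : s ^ 2 = (1 : F) • 1 := by rw [one_smul]; rfl
      obtain ⟨f, b4, b5⟩ := exists_tr e he b2
      obtain ⟨U, c1, c2, c3⟩ := (H f 1 b4 (Sim.pow_eq b5.sim b3) (Sim.ne_smul b5.sim fun a e => by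
        simpa [s] using congrFun (congrArg Prod.snd (LinearMap.congr_fun e (1, 0)))
          (Sum.inl ⟨0, by omega⟩))).tr b5.symm
      have c4 := b1.res c2
      have c5 := res_pow_eq c3 b3
      refine not_ndec_two b1 b2 (fun v => ?_) (fun v => ?_) (fun u v hu hv => ?_)
        (((pd_two c4 (b2.res c3) c5 c1).ndec c4.ef c1 two_pos one_ne_zero c5 (b := 1) (by omega)
          (Or.inr (by rw [Nat.odd_iff]; omega))).map U.subtype U.injective_subtype (fun _ => rfl)
          fun _ _ => rfl)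
      · ext <;> simp [s, CharTwo.sub_eq_add, add_comm]
      · simp [s, (af_sB (F := F) k).flip v.1 v.2]
      · have d1 : u.2 = u.1 := congrArg Prod.fst hu
        have d2 : v.2 = v.1 := congrArg Prod.fst hv
        rw [sumB_apply, d1, d2, CharTwo.add_self_eq_zero]
    have h3 : 2 < r := by have := hr.two_le; omega
    have h4 : (2 : F) ≠ 0 := natCast_ne_zero_of_ne Nat.prime_two (Ne.symm h2)
    simp only [h2, h3, true_and, false_and, ne_eq, not_true_eq_false, or_false]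
    rw [forall_odd_iff hB.ef (hr.odd_of_ne_two h2) (fun f => NDec (sB (Fin d) F) f (2 * m))
      fun f => (ndec_smul (by simp)).2]
    refine ⟨fun H μ a1 a2 a3 => ?_, fun H f a1 a2 _ => ?_⟩
    · obtain ⟨A, b1, rfl⟩ := exists_sp_unipotent (F := F) μ (fun a ha => (a1 a ha).1) a2 a3
      have b2 : Im (sB (Fin d) F) (Matrix.toLin' A.1) := mem_iff_sB.1 A.2
      rw [← hB.ndec_iff_jt h4 b2 b1]
      by_cases h : Matrix.toLin' A.1 = 1
      · rw [h]; exact (hB.ndec_one_iff _).2 ⟨hme, by omega⟩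
      · exact H _ b2 (by
          rw [← sub_eq_zero, ← sub_one_pow_char, pow_eq_zero_iff_jt b1]
          exact fun a ha => (a1 a ha).2) h
    · have b1 : (f - 1) ^ r = 0 := by rw [sub_one_pow_char, a2, sub_self]
      exact (hB.ndec_iff_jt h4 a1 ⟨r, b1⟩ _).2 (H _ (fun a ha => ⟨jt_pos ⟨r, b1⟩ a ha,
        (pow_eq_zero_iff_jt ⟨r, b1⟩ r).1 b1 a ha⟩) (fun a ha => even_count_of_alt hB.ef hB.alt
        (uIso_iff.2 a1) ⟨r, b1⟩ ha) ((sum_jt ⟨r, b1⟩).trans hn))
  have h0 : (r : F) ≠ 0 := natCast_ne_zero_of_ne hr hrp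
  by_cases h2 : r = 2
  · subst h2
    refine iff_of_true (fun f c a1 a2 _ => ?_) (Or.inr (Or.inr (Or.inl ⟨rfl, Ne.symm hrp⟩)))
    rcases a1.pm hB.ef a2 with rfl | rfl
    · exact (sq_one_iff h0 hB a1 (by simpa using a2)).2 _ hme (by omega)
    · obtain ⟨d', a3, a4, -⟩ := shp_four h0 hB.ef a1 a2
      exact (a4 _).2 ⟨hme, by omega⟩
  have h3 : 2 < r := by have := hr.two_le; omega
  obtain ⟨j, hj, h1⟩ := exists_of_dvd_prod hr Fintype.card_pos _ ((hr.dvd_mul.1
    (hrΩ.trans (card_nd_sp hB hn (by omega)))).resolve_left (not_dvd_pow_card hrp _))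
  change c = cc i at hc
  have h4 := hc ▸ cc_dvd (hi ▸ h1)
  rw [forall_odd_iff hB.ef (hr.odd_of_ne_two h2) (fun f => NDec (sB (Fin d) F) f (2 * m))
      fun f => (ndec_smul (by simp)).2, forall_sps hr h2 h0 hB hi _
      (fun e s w => ∃ a j, (Even a ∧ a ≤ e) ∧ j ≤ s ∧ 2 * m = a + cc i * j)
      fun f e s w _ _ h => h.2.2.2 _, hn]
  have ht := fun s => exists_adm (i := i) (hi ▸ one_le_t hr h0) s
  have hp := hc ▸ cc_pos (hi ▸ ord_pos h0 hr : 0 < i)
  generalize Adm ((r - 1) / i) i (cc i) = A at ht ⊢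
  rw [← hc]
  obtain ⟨c, rfl⟩ := (hc ▸ even_cc i : Even c).two_dvd
  simp only [h2, hrp, h3, false_and, ne_eq, not_false_eq_true, true_and, false_or,
    Nat.mul_mod_mul_left, Nat.mul_le_mul_left_iff two_pos]
  rw [← arith_dec (i := c) (m := m) (n := d) (by omega) (by omega) ?_]
  · refine ⟨fun H e s a1 a2 => ?_, fun H e s w a1 a2 a3 => ?_⟩
    · obtain ⟨w, hw⟩ := ht s
      obtain ⟨_, j, ⟨⟨a, rfl⟩, b1⟩, b2, b3⟩ := H (2 * e) s w a1 (by linarith) hw
      exact ⟨a, by omega, j, Nat.mul_le_mul_left _ b2, by linarith⟩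
    · obtain ⟨a, b1, j, b2, b3⟩ := H (e / 2) s a1 (by rw [mul_assoc] at a2; omega)
      exact ⟨2 * a, j, ⟨even_two_mul a, by omega⟩, Nat.le_of_mul_le_mul_left b2 (by omega),
        by linarith⟩
  · rintro ⟨a1, a2⟩
    have h5 := Nat.dvd_of_mul_dvd_mul_left two_pos h4
    have a3 := Nat.mod_add_div d c
    have a4 := Nat.mod_lt d (by omega : 0 < c)
    rw [show d - m + j + 1 = c * (d / c) + (d % c - m + j + 1) by omega,
      Nat.dvd_add_right (Dvd.intro _ rfl)] at h5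
    have := Nat.le_of_dvd (by omega) h5
    omega

end Cfsg.Agent.S5956
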