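import Mathlib
import Cfsg.Statements.S5959
import Cfsg.Agent.Elu.Imp3

set_option autoImplicit false
set_option backward.isDefEq.respectTransparency false
open scoped MatrixGroups
open Cfsg

namespace Cfsg.Agent.S5959

open Cfsg.Agent.Elu Cfsg.Agent.Conj Cfsg.Agent.Spc

/-- Elements of order `p` of PSL_n(q) and imprimitive subgroups: a necessary condition. Here `T = PSL_n(F)` for a field `F` with `q = p^f` elements (`n ≥ 2`, `(n, q) ≠ (2, 2), (2, 3)`), `n = a·t` with `t ≥ 2`, and Ω is the set of direct-sum decompositions of `F^n` into `t` subspaces of dimension `a` (unordered; their number is the number of ordered ones divided by `t!`), whose stabilizers are the imprimitive subgroups of type GL_a(q) ≀ S_t (maximal except in some small cases; maximality is not assumed); an element of `T` of prime order `r` (a matrix `x` of determinant 1 with `x^r` scalar, `x` not scalar) fixes a point of Ω when it permutes the summands of some such decomposition. Suppose `p > 2` divides the number of such decompositions. If every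 element of `T` of order `p` stabilizes such a decomposition, then every partition of `n` into parts of size at most `p` in which the part `p` occurs fewer than `a` times contains (as a sub-multiset) a partition of `a`. -/
theorem result {F : Type*} [Field F] [Fintype F] {p : ℕ} [Fact p.Prime] [CharP F p] {q : ℕ} (hq : Fintype.card F = q)
    (n a t : ℕ) (hn : 2 ≤ n) (hT : (n, q) ≠ (2, 2) ∧ (n, q) ≠ (2, 3)) (hat : n = a * t) (ha : 1 ≤ a) (ht : 2 ≤ t)
    (hp : 2 < p) (hΩ : p ∣ Nat.card {D : Fin t → Submodule F (Fin n → F) // Cfsg.Geo.IsMDecomposition a D} / Nat.factorial t)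
    (h : ∀ x : Matrix.SpecialLinearGroup (Fin n) F,
      (∃ z : F, ((x ^ p : Matrix.SpecialLinearGroup (Fin n) F) : Matrix (Fin n) (Fin n) F) = z • (1 : Matrix (Fin n) (Fin n) F)) →
      (∀ z : F, (x : Matrix (Fin n) (Fin n) F) ≠ z • (1 : Matrix (Fin n) (Fin n) F)) →
      ∃ D : Fin t → Submodule F (Fin n → F), Cfsg.Geo.IsMDecomposition a D ∧
        ∃ σ : Equiv.Perm (Fin t), ∀ j, (D j).map (Matrix.toLin' (x : Matrix (Fin n) (Fin n) F)) = D (σ j)) :
    (∀ μ : Multiset ℕ, (∀ b ∈ μ, 0 < b ∧ b ≤ p) → μ.sum = n → μ.count p < a → ∃ ν : Multiset ℕ, ν ≤ μ ∧ ν.sum = a) := by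
  have hr : p.Prime := Fact.out
  rw [forall_SL_iff (fun f => ∃ D : Fin t → Submodule F (Fin n → F),
    Cfsg.Geo.IsMDecomposition a D ∧ ∃ σ : Equiv.Perm (Fin t), ∀ j, (D j).map f = D (σ j)),
    forall₃_congr fun f c hf => pd_iff' (inj_of_pow hr.ne_zero hf.ne hf.2.1) ha ht hat] at h
  intro μ h1 h2 h3
  refine (forall_unip_iff (F := F) (n := n) (p := p) (fun f => ∀ w : F, w ≠ 0 → ∀ g, f = w • g →
    (g - 1) ^ p = 0 → (jt (g - 1)).count p < a → Dec g a)
    (fun μ => μ.count p < a → ∃ ν ≤ μ, ν.sum = a) ?_ ?_ ?_).1 ?_ μ h1 h2 h3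
  · rintro f c hc H w hw g e
    exact H (c⁻¹ * w) (by simp [hc, hw]) g (by rw [mul_smul, ← e, inv_smul_smul₀ hc])
  · intro g hg
    refine ⟨fun H h => (dec_iff_jt ⟨p, hg⟩ a).1 (H 1 one_ne_zero g (by simp) hg h),
      fun H w hw g' e hg' h => ?_⟩
    haveI : Nonempty (Fin n) := ⟨⟨0, by omega⟩⟩
    rw [sub_one_pow_char, sub_eq_zero] at hg hg'
    have h4 : w ^ p = 1 := by
      rw [e, _root_.smul_pow, hg'] at hg
      exact smul_left_injective F (one_ne_zero (α := Module.End F (Fin n → F))) (by simpa using hg)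
    obtain rfl := eq_one_of_pow_eq_one hr (by rw [orderOf_char]; exact zero_ne_one) h4
    rw [one_smul] at e
    subst e
    exact (dec_iff_jt ⟨p, by rw [sub_one_pow_char, hg, sub_self]⟩ a).2 (H h)
  · exact fun _ => ⟨Multiset.replicate a 1, (Multiset.replicate_le_replicate _).2 (by nlinarith),
      by simp⟩
  · rintro f c hf w hw g rfl hg h'
    exact (((PD.smul hw).1 (h _ c hf)).dec_or (by simp [hat]) ha (by omega) hg).resolve_right
      (by omega)

end Cfsg.Agent.S5959
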