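import Mathlib
import Cfsg.Statements.S5961
import Cfsg.Agent.Elu.Sp2

set_option autoImplicit false
set_option backward.isDefEq.respectTransparency false
open scoped MatrixGroups
open Cfsg

namespace Cfsg.Agent.S5961

open Cfsg.Agent.Elu Cfsg.Agent.Conj Cfsg.Agent.Spc Cfsg.Agent.Classical.SpMat

/-- Elements of odd prime order of PSp_n(q) and imprimitive subgroups. Here `T = PSp_n(q)`, `n = 2d ≥ 4`, `(n, q) ≠ (4, 2)`, realised through the symplectic matrices over the field `F` with `q` elements and the standard alternating form; `n = a·t` with `a` even and `t ≥ 2`, and Ω is the (nonempty) set of orthogonal decompositions of `F^n` into `t` nondegenerate subspaces of dimension `a` (unordered; counted as ordered ones divided by `t!`), whose stabilizers are the imprimitive subgroups of type Sp_a(q) ≀ S_t (maximality is not assumed); an element of `T` of prime order `r` (a symplectic matrix `x` with `x^r` scalar, `x` not scalar) fixes a point of Ω when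 it permutes the summands of some such decomposition. Let `r ≠ p` be an odd prime dividing the number of such decompositions, let `i` be the multiplicative order of `q` modulo `r`, `c = i` if `i` is even and `c = 2i` if `i` is odd, and write `k = n mod c`, `ℓ = a mod c`. Then every element of `T` of order `r` stabilizes such a decomposition if and only if `c ≤ a` and `k = t·ℓ`. -/
theorem result {F : Type*} [Field F] [Fintype F] {p : ℕ} [Fact p.Prime] [CharP F p] {q : ℕ} (hq : Fintype.card F = q)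
    (d : ℕ) (hd : 2 ≤ d) (hT : (d, q) ≠ (2, 2))
    (a t : ℕ) (hat : 2 * d = a * t) (ha : 2 ≤ a) (hae : Even a) (ht : 2 ≤ t)
    (r : ℕ) [Fact r.Prime] (hr2 : r ≠ 2) (hrp : r ≠ p) (hΩ : r ∣ Nat.card {D : Fin t → Submodule F (Fin d ⊕ Fin d → F) // (Cfsg.Geo.IsMDecomposition a D ∧ (∀ j, ∀ u ∈ D j, u ≠ 0 → ∃ v ∈ D j, Cfsg.sympForm d F u v ≠ 0) ∧
          (∀ j j', j ≠ j' → ∀ u ∈ D j, ∀ v ∈ D j', Cfsg.sympForm d F u v = 0))} / Nat.factorial t)
    (i c : ℕ) (hi : i = orderOf (q : ZMod r)) (hc : c = if Even i then i else 2 * i) :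
    (∀ x : ↥(Matrix.symplecticGroup (Fin d) F),
      (∃ z : F, ((x ^ r : ↥(Matrix.symplecticGroup (Fin d) F)) : Matrix (Fin d ⊕ Fin d) (Fin d ⊕ Fin d) F) = z • (1 : Matrix (Fin d ⊕ Fin d) (Fin d ⊕ Fin d) F)) →
      (∀ z : F, (x : Matrix (Fin d ⊕ Fin d) (Fin d ⊕ Fin d) F) ≠ z • (1 : Matrix (Fin d ⊕ Fin d) (Fin d ⊕ Fin d) F)) →
      ∃ D : Fin t → Submodule F (Fin d ⊕ Fin d → F), (Cfsg.Geo.IsMDecomposition a D ∧ (∀ j, ∀ u ∈ D j, u ≠ 0 → ∃ v ∈ D j, Cfsg.sympForm d F u v ≠ 0) ∧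
          (∀ j j', j ≠ j' → ∀ u ∈ D j, ∀ v ∈ D j', Cfsg.sympForm d F u v = 0)) ∧
        ∃ σ : Equiv.Perm (Fin t), ∀ j, (D j).map (Matrix.toLin' (x : Matrix (Fin d ⊕ Fin d) (Fin d ⊕ Fin d) F)) = D (σ j)) ↔
    (c ≤ a ∧ (2 * d) % c = t * (a % c)) := by
  subst hq
  have hr : r.Prime := Fact.out
  simp only [sympForm_eq] at hΩ ⊢
  have hB := af_sB (F := F) d
  have hn : Module.finrank F (Fin d ⊕ Fin d → F) = 2 * d := by simp [two_mul]
  have hn' : Fintype.card (Fin d ⊕ Fin d) = a * t := by simp [← hat, two_mul]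
  haveI : Nontrivial (Fin d ⊕ Fin d → F) := Module.nontrivial_of_finrank_pos (R := F) (by omega)
  have h0 : (r : F) ≠ 0 := natCast_ne_zero_of_ne hr hrp
  have hp : 0 < i := hi ▸ ord_pos h0 hr
  have hcp := cc_pos hp
  change c = cc i at hc
  subst hc
  let P := fun D : Fin t → Submodule F (Fin d ⊕ Fin d → F) => Geo.IsMDecomposition a D ∧
    (∀ j, NDs (sB (Fin d) F) (D j)) ∧ ∀ j k, j ≠ k → Ort (sB (Fin d) F) (D j) (D k)
  have h1 : cc i ≤ 2 * d := by
    obtain ⟨b, rfl⟩ := hae.two_dvd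
    have e : Module.finrank F (Fin d ⊕ Fin d → F) = 2 * (b * t) := by rw [hn, hat, mul_assoc]
    obtain ⟨D, hD, -⟩ := (pd_iff_nd hB.ef Function.injective_id (by omega) ht hn').2 (mul_comm b 2 ▸
      (pd_two hB (f := 1) (fun _ _ => rfl) (c := 1) (by simp) e).regroup e two_pos
      one_ne_zero (by simp))
    letI := famAct F (Fin d ⊕ Fin d → F) (Fin t)
    have := (dvd_of_dvd_div (factorial_dvd P (fun σ D h => ⟨dec_perm h.1 σ, fun j => h.2.1 _,
      fun j k e => h.2.2 _ _ (σ.injective.ne e)⟩) fun D h => dec_inj h.1) hΩ).trans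
      (card_dvd_of_trans (G := Herm.UG (sB (Fin d) F)) P (x := D) hD (fun E hE => ?_)
        fun g D h => ⟨dec_map h.1 g.1, fun j => (h.2.1 j).map _ g.2, ?_⟩)
    · rw [hB.card_UG hn, hr.dvd_mul] at this
      obtain ⟨j, hj, h1⟩ := exists_of_dvd_prod hr Fintype.card_pos _
        (this.resolve_left (not_dvd_pow_card hrp _))
      exact (Nat.le_of_dvd (by omega) (cc_dvd (hi ▸ h1))).trans (by omega)
    · choose e he using fun j => (hB.res (hD.2.1 j)).iso (hB.res (hE.2.1 j))
        (by rw [hD.1.finrank_eq, hE.1.finrank_eq])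
      obtain ⟨g, hg⟩ := exists_equiv_of_indep hD.1.indep hD.1.iSup_eq_top hE.1.indep
        hE.1.iSup_eq_top e
      have := bilin_ext hD.1.iSup_eq_top (B := (sB (Fin d) F).compl₁₂ g.toLinearMap g.toLinearMap)
        (B' := sB (Fin d) F) fun j k x hx y hy => by
          rw [LinearMap.compl₁₂_apply, LinearEquiv.coe_coe, hg j ⟨x, hx⟩, hg k ⟨y, hy⟩]
          by_cases h : j = k
          · subst h; exact he j _ _
          · rw [hE.2.2 _ _ h _ (e j _).2 _ (e k _).2, hD.2.2 _ _ h _ hx _ hy]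
      exact ⟨⟨g, fun x y => congr($this x y)⟩, funext fun j => map_eq_of_equiv g (e j) (hg j)⟩
    · rintro j k e _ ⟨x, hx, rfl⟩ _ ⟨y, hy, rfl⟩
      exact (g.2 x y).trans (h.2.2 j k e x hx y hy)
  refine (forall_Sp_iff (fun f => ∃ D, P D ∧ ∃ σ : Equiv.Perm (Fin t), ∀ j,
    (D j).map f = D (σ j))).trans ?_
  rw [forall₃_congr fun f c a1 => imp_congr_right fun _ => imp_congr_right fun _ =>
      pd_iff_nd hB.ef (Im.inj a1 hB.ef) (by omega) ht hn',
    forall_odd_iff hB.ef (hr.odd_of_ne_two hr2) (fun f => PD (sB (Fin d) F) f a t ⊤)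
      fun f => (PD.smul (by simp)).2]
  have h2 := Nat.mod_add_div (2 * d) (cc i)
  have h3 := Nat.mod_lt (2 * d) hcp
  constructor
  · intro H
    by_cases h4 : i = 1
    · subst h4
      simp [cc, ha, Nat.even_iff.1 hae]
    have key := (forall_sps hr hr2 h0 hB hi (fun f => ∃ h u, h * r + u = t ∧
        h * a + u * (a % cc i) ≤ Module.finrank F (Fx f) ∧
        (a < cc i → 2 * d = Module.finrank F (Fx f) + h * a * (r - 1)))
      (fun e s w => ∃ h u, h * r + u = t ∧ h * a + u * (a % cc i) ≤ e ∧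
        (a < cc i → 2 * d = e + h * a * (r - 1))) fun f e s w _ _ h => by rw [h.2.1]).1
      fun f a1 a2 a3 => by
        obtain ⟨h, u, b1, b2, -, b3⟩ := (H f a1 a2 a3).num (AlgebraicClosure F) (hn.trans hat)
          (by omega) hr h0 (hi ▸ h4) (by simpa using a2) (d := cc i) fun U hU hU' => by
            obtain ⟨U', c1, c2⟩ := hU'
            have c3 := hB.res (nds_of_ort hB.ef c1 fun x hx y hy => c2 y hy x hx)
            have c4 := res_pow_one hU a2
            obtain ⟨s, w, -, c5⟩ := shp_fpf hr hr2 h0 (ef_res c3.ef (nds_Mo c3.ef (a1.res hU) h0 c4))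
              ((a1.res hU).res (Mo_inv _)) (res_pow_one _ c4) (fpf_Mo h0 c4) hi
            exact (nf_eq_Mo (AlgebraicClosure F) hr h0 (hi ▸ h4) c4).2 ▸ ⟨s, c5.1⟩
        obtain ⟨b4, b5⟩ := nf_eq_Mo (AlgebraicClosure F) hr h0 (hi ▸ h4) a2
        exact ⟨h, u, b1, b4 ▸ b2, fun h => by rw [← b3 h, b5, finrank_Fx_add, hn]⟩
    rw [hn] at key
    have ht' := hi ▸ one_le_t hr h0
    obtain ⟨w, hw⟩ := exists_adm (i := i) ht' 1
    obtain ⟨w', hw'⟩ := exists_adm (i := i) ht' (2 * d / cc i)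
    obtain ⟨h, u, -, -, b1⟩ := key (2 * d - cc i) 1 w le_rfl (by omega) hw
    obtain ⟨h', u', c1, c2, -⟩ := key _ _ w' (Nat.div_pos h1 hcp) h2 hw'
    have h5 : cc i ≤ a := by
      by_contra h5
      have h6 : cc i = h * a * (r - 1) := by have := b1 (by omega); omega
      have h7 := hi ▸ cc_le hr hr2 h0
      rcases h with _ | h
      · simp at h6; omega
      · have := Nat.mul_le_mul_right (r - 1) (show 2 ≤ (h + 1) * a by nlinarith)
        omega
    have h6 : h' = 0 := by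
      by_contra h6
      have := Nat.mul_le_mul_right a (Nat.pos_of_ne_zero h6)
      omega
    subst h6
    obtain rfl : u' = t := by omega
    refine ⟨h5, ?_⟩
    have h6 : 2 * d % cc i = u' * (a % cc i) % cc i := by rw [hat, mul_comm, Nat.mul_mod_mod]
    rw [h6]
    exact Nat.mod_eq_of_lt (by omega)
  · rintro ⟨h4, h5⟩ f a1 a2 -
    have b1 := ef_res hB.ef (nds_Mo hB.ef a1 h0 a2)
    have b2 := finrank_Fx_add f
    obtain ⟨s, w, -, b3, -⟩ := shp_fpf hr hr2 h0 b1 (a1.res (Mo_inv f)) (res_pow_one _ a2)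
      (fpf_Mo h0 a2) hi
    refine (pd_prod hr hr2 h0 hi hae t (hB.res (nds_Fx hB.ef a1 h0 a2)) b1 (a1.res (Mo_inv f))
      (res_pow_one _ a2) (fpf_Mo h0 a2) (by omega) ?_).tri (tr_Fx hB.ef a1 h0 a2)
    have b4 : s ≤ 2 * d / cc i := (Nat.le_div_iff_mul_le hcp).2 (by rw [mul_comm]; omega)
    have b5 := Nat.mul_le_mul_left (cc i) b4
    have b6 : a * t = t * (a % cc i) + cc i * (t * (a / cc i)) := by
      conv_lhs => rw [← Nat.mod_add_div a (cc i)]
      ring
    omega

end Cfsg.Agent.S5961
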