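import Mathlib
import Cfsg.Statements.S5963
import Cfsg.Agent.Elu.Sp2

set_option autoImplicit false
set_option backward.isDefEq.respectTransparency false
open scoped MatrixGroups
open Cfsg

namespace Cfsg.Agent.S5963

open Cfsg.Agent.Elu Cfsg.Agent.Conj Cfsg.Agent.Spc Cfsg.Agent.Classical.SpMat

/-- Derangements of odd prime order of PSp_n(q), q odd, on pairs of complementary totally isotropic subspaces. Here `T = PSp_n(q)`, `n = 2d ≥ 4`, `q` odd, realised through the symplectic matrices over the field `F` with `q` elements; Ω is the set of unordered pairs `{U, W}` of complementary totally isotropic `d`-spaces (`F^n = U ⊕ W`), whose stabilizers are the subgroups of type GL_d(q).2 (maximal except in some small cases; maximality is not assumed); an element of `T` of prime order `r` (a symplectic matrix `x` with `x^r` scalar, `x` not scalar) fixes such a pair when it fixes or interchanges `U` and `W`. For every odd prime `r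 ≠ p` dividing the number of such pairs, some element of `T` of order `r` fixes no such pair (the action is never `r`-elusive for odd `r ≠ p`). -/
theorem result {F : Type*} [Field F] [Fintype F] {p : ℕ} [Fact p.Prime] [CharP F p] {q : ℕ} (hq : Fintype.card F = q)
    (d : ℕ) (hd : 2 ≤ d) (hT : (d, q) ≠ (2, 2)) (hodd : Odd q)
    (r : ℕ) [Fact r.Prime] (hr2 : r ≠ 2) (hrp : r ≠ p) (hΩ : r ∣ Nat.card {P : Submodule F (Fin d ⊕ Fin d → F) × Submodule F (Fin d ⊕ Fin d → F) // IsCompl P.1 P.2 ∧ (∀ u ∈ P.1, ∀ v ∈ P.1, Cfsg.sympForm d F u v = 0) ∧ (∀ u ∈ P.2, ∀ v ∈ P.2, Cfsg.sympForm d F u v = 0)} / 2) :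
    ∃ x : ↥(Matrix.symplecticGroup (Fin d) F),
      (∃ z : F, ((x ^ r : ↥(Matrix.symplecticGroup (Fin d) F)) : Matrix (Fin d ⊕ Fin d) (Fin d ⊕ Fin d) F) = z • (1 : Matrix (Fin d ⊕ Fin d) (Fin d ⊕ Fin d) F)) ∧
      (∀ z : F, (x : Matrix (Fin d ⊕ Fin d) (Fin d ⊕ Fin d) F) ≠ z • (1 : Matrix (Fin d ⊕ Fin d) (Fin d ⊕ Fin d) F)) ∧
      ¬ (∃ U W : Submodule F (Fin d ⊕ Fin d → F), IsCompl U W ∧ (∀ u ∈ U, ∀ v ∈ U, Cfsg.sympForm d F u v = 0) ∧ (∀ u ∈ W, ∀ v ∈ W, Cfsg.sympForm d F u v = 0) ∧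
        ((U.map (Matrix.toLin' (x : Matrix (Fin d ⊕ Fin d) (Fin d ⊕ Fin d) F)) = U ∧ W.map (Matrix.toLin' (x : Matrix (Fin d ⊕ Fin d) (Fin d ⊕ Fin d) F)) = W) ∨
         (U.map (Matrix.toLin' (x : Matrix (Fin d ⊕ Fin d) (Fin d ⊕ Fin d) F)) = W ∧ W.map (Matrix.toLin' (x : Matrix (Fin d ⊕ Fin d) (Fin d ⊕ Fin d) F)) = U))) := by
  subst hq
  have hr : r.Prime := Fact.out
  simp only [sympForm_eq] at hΩ ⊢
  have hB := af_sB (F := F) d
  have hn : Module.finrank F (Fin d ⊕ Fin d → F) = 2 * d := by simp [two_mul]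
  haveI : Nontrivial (Fin d ⊕ Fin d → F) := Module.nontrivial_of_finrank_pos (R := F) (by omega)
  have h0 : (r : F) ≠ 0 := natCast_ne_zero_of_ne hr hrp
  obtain ⟨j, hj, h1⟩ := (Prime.dvd_finset_prod_iff hr.prime _).1 ((hr.dvd_mul.1 ((dvd_of_dvd_div
    (two_dvd_card_pair (B := sB (Fin d) F)) hΩ).trans (card_hp_dvd hB hn))).resolve_left
    (not_dvd_pow_card hrp _))
  rw [← ZMod.natCast_eq_zero_iff, Nat.cast_add, Nat.cast_pow, Nat.cast_one, add_eq_zero_iff_eq_neg] at h1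
  have h3 : 2 < r := by have := hr.two_le; omega
  obtain ⟨i, hi⟩ : ∃ i, i = orderOf (Fintype.card F : ZMod r) := ⟨_, rfl⟩
  have h2 : i ∣ 2 * (j + 1) := by
    rw [hi, orderOf_dvd_iff_pow_eq_one, mul_comm, pow_mul, h1]; simp
  have h4 : Even i := by
    by_contra h
    have := (Nat.coprime_two_right.2 (Nat.not_even_iff_odd.1 h)).dvd_of_dvd_mul_left h2
    rw [hi, orderOf_dvd_iff_pow_eq_one, h1] at this
    exact neg_one_ne_one h3 this
  have h5 := Nat.le_of_dvd (by omega) h2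
  have h6 := Finset.mem_range.1 hj
  have hp : 0 < i := hi ▸ ord_pos h0 hr
  by_contra H
  push Not at H
  have h7 := (forall_odd_iff hB.ef (hr.odd_of_ne_two hr2) (fun f => HP (sB (Fin d) F) f ∨
    HP (sB (Fin d) F) ((-1 : F) • f)) (fun f h => by rw [smul_smul]; simpa using h.symm)).1
    fun f c a1 a2 a3 => Or.inl ((forall_Sp_iff (HP (sB (Fin d) F))).1 H f c a1 a2 a3)
  obtain ⟨a, k, b1, b2, b3⟩ := (forall_sps hr hr2 h0 hB hi (fun f => TS (sB (Fin d) F) f d)
    (fun e s w => ∃ a j, 2 * a ≤ e ∧ j ≤ w ∧ d = a + i * j) fun f e s w _ _ h => h.2.2.1 d).1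
    (fun f a1 a2 a3 => by
      obtain ⟨U, W, c1, c2, c3, c4⟩ := (h7 f a1 a2 a3).elim id fun h => by
        simpa only [HP, map_smul_eq (show (-1 : F) ≠ 0 by simp)] using h
      exact HP.ts hB.ef ⟨U, W, c1, c2, c3, c4⟩ (hr.odd_of_ne_two hr2) a2 hn)
    (2 * d - i) 1 0 le_rfl (by simp [cc, h4, hn]; omega)
    ((adm_even hp h4).2 ⟨1, hi ▸ one_le_t hr h0, rfl⟩)
  rw [Nat.le_zero.1 b2] at b3
  omega

end Cfsg.Agent.S5963
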