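import Mathlib
import Cfsg.Statements.S5972
import Cfsg.Agent.Elu.Or5

set_option autoImplicit false
set_option backward.isDefEq.respectTransparency false
open scoped MatrixGroups
open Cfsg

namespace Cfsg.Agent.S5972

open Cfsg.Agent.Elu Cfsg.Agent.Conj Cfsg.Agent.Spc Cfsg.Agent.Orth

/-- Elements of prime order of Ω_n(q), n = 2d+1 ≥ 7, q odd, with no fixed totally singular `m`-space. Here `T = Ω_n(q)` is realised as the commutator subgroup of the isometry group of the quadratic form `x₀² + Σ xᵢyᵢ` over the field `F` with `q` elements (it has trivial centre, so its elements of prime order `r` are used directly); let `1 ≤ m ≤ d` and let `r` be a prime dividing the number of totally singular `m`-spaces. For `r ≠ p` let `i` be the multiplicative order of `q` modulo `r`, `c = i` for `i` even and `c = 2i` for `i` odd, and write `k = n mod c`, `ℓ = m mod i`, `n' = ⌊n/i⌋`, `m' = ⌊m/i⌋`, `t = (r−1)/i`. Then every element of `T` of order `r` fixes some totally singular `m`-space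 if and only if either (i) `r = 2` and (`m < (n−1)/2` or `q ≡ 1 (mod 4)`); or (ii) `r ≠ p` is odd, `i ≤ m`, `k > 2ℓ`, and (`i` is odd or `n' − 2m' ≥ t`). -/
theorem result {F : Type*} [Field F] [Fintype F] {p : ℕ} [Fact p.Prime] [CharP F p] {q : ℕ} (hq : Fintype.card F = q) (hqodd : Odd q)
    (d m : ℕ) (hd : 3 ≤ d) (hm : 1 ≤ m) (hmd : m ≤ d)
    (r : ℕ) [Fact r.Prime]
    (hrΩ : r ∣ Nat.card {W : Submodule F (Unit ⊕ (Fin d ⊕ Fin d) → F) // Module.finrank F ↥W = m ∧ (∀ w ∈ W, Cfsg.quadFormOdd d F w = 0)})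
    (i c : ℕ) (hi : i = orderOf (q : ZMod r)) (hc : c = if Even i then i else 2 * i) :
    (∀ x : GL (Unit ⊕ (Fin d ⊕ Fin d)) F, x ∈ Cfsg.Geo.omegaGL (Cfsg.quadFormOdd d F) → orderOf x = r →
      ∃ W : Submodule F (Unit ⊕ (Fin d ⊕ Fin d) → F), Module.finrank F ↥W = m ∧ (∀ w ∈ W, Cfsg.quadFormOdd d F w = 0) ∧
        W.map (Matrix.toLin' (x : Matrix (Unit ⊕ (Fin d ⊕ Fin d)) (Unit ⊕ (Fin d ⊕ Fin d)) F)) ≤ W) ↔
    ((r = 2 ∧ (m < d ∨ q % 4 = 1)) ∨
     (r ≠ p ∧ 2 < r ∧ i ≤ m ∧ 2 * (m % i) < (2 * d + 1) % c ∧ (Odd i ∨ (r - 1) / i + 2 * (m / i) ≤ (2 * d + 1) / i))) := by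
  subst hq
  have hr : r.Prime := Fact.out
  have h2 := two_ne_zero_of_odd hqodd
  have hQ := nd_oddQ (F := F) d h2
  have hn : Module.finrank F (Unit ⊕ (Fin d ⊕ Fin d) → F) = 2 * d + 1 := by simp; omega
  haveI : Nontrivial (Unit ⊕ (Fin d ⊕ Fin d) → F) :=
    Module.nontrivial_of_finrank_pos (R := F) (by omega)
  have hrp := ne_char_of_sing (p := p) hr hQ hm (by omega) hrΩ
  have h0 : (r : F) ≠ 0 := natCast_ne_zero_of_ne hr hrp
  refine (forall_Om_ord hQ ⟨d, hn⟩ hr (fun f => SQ (oddQ d F) f m)).trans ?_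
  have hq := Nat.odd_iff.1 hqodd
  by_cases h : r = 2
  · subst h
    rw [forall_sq_two h2 hQ (by omega), hn]
    simp only [lt_irrefl, false_and, and_false, or_false, true_and, r2, Nat.even_iff]
    constructor
    · rintro ⟨H, -⟩
      obtain ⟨a, b, h1, h2, h3⟩ := H (2 * d - 1) 1 (by omega) le_rfl (by omega)
      have := h2.1
      omega
    · refine fun H => ⟨fun e k a1 a2 a3 => ⟨min m (e / 2), m - min m (e / 2), by omega,
        ⟨by omega, by omega⟩, by omega⟩, fun ⟨k, hk, _⟩ => by omega⟩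
  have h3 : 2 < r := by have := hr.two_le; omega
  rw [forall_sq_odd hr h0 h hQ hn (by omega) hm (by omega) hi hc hrΩ]
  have h4 : (2 * d + 1) % c % 2 = 1 := by
    rw [Nat.mod_mod_of_dvd _ (hc ▸ (even_cc i).two_dvd)]; omega
  simp only [h, hrp, h3, false_and, false_or, ne_eq, not_false_eq_true, true_and]
  refine and_congr_right fun _ => ?_
  rcases Nat.even_or_odd i with he | he
  · simp only [he, Nat.not_odd_iff_even.2 he, false_and, false_or, true_and]
    by_cases hP : IsPlus (oddQ d F) ↔ (2 * d + 1) / i % 2 = 0 <;>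
      simp only [hP, not_true, not_false_iff, and_true, and_false, false_or, or_false] <;> omega
  · simp only [he, Nat.not_even_iff_odd.2 he, false_and, or_false, true_and, true_or, and_true]
    by_cases hP : IsPlus (oddQ d F) <;>
      simp only [hP, not_true, not_false_iff, and_true, and_false, false_or, or_false] <;> omega

end Cfsg.Agent.S5972
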