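import Mathlib
import Cfsg.Statements.S5973
import Cfsg.Agent.Elu.Or5

set_option autoImplicit false
set_option backward.isDefEq.respectTransparency false
open scoped MatrixGroups
open Cfsg

namespace Cfsg.Agent.S5973

open Cfsg.Agent.Elu Cfsg.Agent.Conj Cfsg.Agent.Spc Cfsg.Agent.Orth

/-- Elements of prime order of PΩ⁺_n(q), n = 2d ≥ 8, with no fixed totally singular `m`-space, `m < n/2`. Here `T = PΩ⁺_n(q)` is realised through `Ω⁺_n(q)`, the commutator subgroup of the isometry group of the quadratic form `Σ xᵢyᵢ` over the field `F` with `q` elements; an element of `T` of prime order `r` is an element `x` of `Ω⁺_n(q)` with `x^r` scalar and `x` not scalar. Let `1 ≤ m < d` and let `r` be a prime dividing the number of totally singular `m`-spaces. For `r ≠ p` let `i` be the multiplicative order of `q` modulo `r`, `c = i` for `i` even and `c = 2i` for `i` odd, and write `k = n mod c`, `ℓ = m mod i`, `n' = ⌊n/i⌋`,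 `m' = ⌊m/i⌋`, `t = (r−1)/i`. Then every element of `T` of order `r` fixes some totally singular `m`-space if and only if one of: (i) `r = 2 ≠ p` and either `q ≡ 1 (mod 4)`, or `q ≡ 3 (mod 4)`, `m ≤ n/2 − 2` and (`m` even or `n ≡ 2 (mod 4)`); (ii) `r ≠ p` odd, `i` odd, `i ≤ m` and `k ≥ 2ℓ`; (iii) `r ≠ p` odd, `i` even, `i ≤ m`, `n' − 2m' ≥ t`, and one of: `i ≥ 2ℓ`, `k = 0`, `n/i` odd and `n' − 2m' > t`; or `k ≥ 2ℓ` and `n'` even; or `k > 2ℓ` and `n'` odd. -/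
theorem result {F : Type*} [Field F] [Fintype F] {p : ℕ} [Fact p.Prime] [CharP F p] {q : ℕ} (hq : Fintype.card F = q)
    (d m : ℕ) (hd : 4 ≤ d) (hm : 1 ≤ m) (hmd : m < d)
    (r : ℕ) [Fact r.Prime]
    (hrΩ : r ∣ Nat.card {W : Submodule F (Fin d ⊕ Fin d → F) // Module.finrank F ↥W = m ∧ (∀ w ∈ W, Cfsg.quadFormPlus d F w = 0)})
    (i c : ℕ) (hi : i = orderOf (q : ZMod r)) (hc : c = if Even i then i else 2 * i) :
    (∀ x : GL (Fin d ⊕ Fin d) F, x ∈ Cfsg.Geo.omegaGL (Cfsg.quadFormPlus d F) →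
      (∃ z : F, ((x ^ r : GL (Fin d ⊕ Fin d) F) : Matrix (Fin d ⊕ Fin d) (Fin d ⊕ Fin d) F) = z • (1 : Matrix (Fin d ⊕ Fin d) (Fin d ⊕ Fin d) F)) →
      (∀ z : F, (x : Matrix (Fin d ⊕ Fin d) (Fin d ⊕ Fin d) F) ≠ z • (1 : Matrix (Fin d ⊕ Fin d) (Fin d ⊕ Fin d) F)) →
      ∃ W : Submodule F (Fin d ⊕ Fin d → F), Module.finrank F ↥W = m ∧ (∀ w ∈ W, Cfsg.quadFormPlus d F w = 0) ∧
        W.map (Matrix.toLin' (x : Matrix (Fin d ⊕ Fin d) (Fin d ⊕ Fin d) F)) ≤ W) ↔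
    ((r = 2 ∧ p ≠ 2 ∧ (q % 4 = 1 ∨ (q % 4 = 3 ∧ m + 2 ≤ d ∧ (Even m ∨ (2 * d) % 4 = 2)))) ∨
     (r ≠ p ∧ 2 < r ∧ Odd i ∧ i ≤ m ∧ 2 * (m % i) ≤ (2 * d) % c) ∨
     (r ≠ p ∧ 2 < r ∧ Even i ∧ i ≤ m ∧ (r - 1) / i + 2 * (m / i) ≤ (2 * d) / i ∧
       ((2 * (m % i) ≤ i ∧ (2 * d) % c = 0 ∧ Odd ((2 * d) / i) ∧ (r - 1) / i + 2 * (m / i) < (2 * d) / i) ∨
        (2 * (m % i) ≤ (2 * d) % c ∧ Even ((2 * d) / i)) ∨
        (2 * (m % i) < (2 * d) % c ∧ Odd ((2 * d) / i))))) := by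
  subst hq
  have hr : r.Prime := Fact.out
  have hQ := nd_plusQ (F := F) d
  have hP := isPlus_plusQ (F := F) d
  have hn := finrank_plus (F := F) d
  haveI : Nontrivial (Fin d ⊕ Fin d → F) := Module.nontrivial_of_finrank_pos (R := F) (by omega)
  have hrp := ne_char_of_sing (p := p) hr hQ hm (by omega) hrΩ
  have h0 : (r : F) ≠ 0 := natCast_ne_zero_of_ne hr hrp
  refine (forall_Om_iff (plusQ d F) (fun f => SQ (plusQ d F) f m)).trans ?_
  by_cases h : r = 2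
  · subst h
    have hq := Nat.odd_iff.1 (odd_card_of_two_ne_zero h0)
    rw [forall_sq_two h0 hQ (by omega), E4, hn]
    simp only [lt_irrefl, false_and, and_false, or_false, true_and, r2, Nat.even_iff, hP, true_iff,
      hrp.symm, ne_eq, not_false_eq_true]
    constructor
    · rintro ⟨H, H'⟩
      obtain ⟨a, b, h1, h2, h3⟩ := H (2 * d - 2) 1 (by omega) le_rfl (by omega)
      have := fun x y => H' ⟨d, rfl, x, y⟩
      omega
    · refine fun H => ⟨fun e k a1 a2 a3 => ?_, fun ⟨k, hk, _⟩ => by omega⟩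
      by_cases x : k % 2 = 0 ∨ Fintype.card F % 4 = 1
      · exact ⟨min m (e / 2), m - min m (e / 2), by omega⟩
      · exact ⟨min m (e / 2 - 1), m - min m (e / 2 - 1), by omega⟩
  have h3 : 2 < r := by have := hr.two_le; omega
  rw [forall_sq_odd hr h0 h hQ hn (by omega) hm (by omega) hi hc hrΩ]
  simp only [h, hrp, h3, false_and, false_or, ne_eq, not_false_eq_true, true_and, hP, true_iff,
    not_true, and_false, and_true, Nat.even_iff, Nat.odd_iff]
  omega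

end Cfsg.Agent.S5973
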