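import Mathlib
import Cfsg.Statements.S5974
import Cfsg.Agent.Elu.Or8

set_option autoImplicit false
set_option backward.isDefEq.respectTransparency false
open scoped MatrixGroups
open Cfsg

namespace Cfsg.Agent.S5974

open Cfsg.Agent.Elu Cfsg.Agent.Conj Cfsg.Agent.Spc Cfsg.Agent.Orth

/-- Elements of prime order of PΩ⁺_n(q), n = 2d ≥ 8, with no fixed nondegenerate hyperbolic `m`-space. Here `T = PΩ⁺_n(q)` is realised through `Ω⁺_n(q)`, the commutator subgroup of the isometry group of `Q = Σ xᵢyᵢ` over the field `F` with `q` elements; an element of `T` of prime order `r` is an element `x` of `Ω⁺_n(q)` with `x^r` scalar and `x` not scalar. A hyperbolic `m`-space is a subspace `W` of even dimension `m` on which the polar form of `Q` is nondegenerate and which contains a totally singular subspace of dimension `m/2`. Let `m` be even with `2 ≤ m < n/2`, and let `r` be a prime dividing the number of hyperbolic `m`-spaces, with `r = 2` or `r ≠ p`.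 For `r ≠ p` let `i` be the multiplicative order of `q` modulo `r`, `c = i` for `i` even and `c = 2i` for `i` odd, and write `k = n mod c`, `ℓ' = m mod c`. Then every element of `T` of order `r` fixes some hyperbolic `m`-space if and only if one of: (i) `r = 2` and (`n ≡ 2 (mod 4)`, or `m ≡ 0 (mod 4)`, or `q ≡ 1 (mod 4)`); (ii) `r ≠ p` odd, `i` odd, `c ≤ m` and `k ≥ ℓ'`; (iii) `r ≠ p` odd, `i` even, and either `k = 0` and (`n/i` odd, or `ℓ' = 0` and `m/i` even), or `i ≤ m` and (`k > ℓ' > 0`, or `k = ℓ' > 0` and `(n + m − 2k)/i` even, or `k > ℓ' = 0` and `m/i` even). -/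
theorem result {F : Type*} [Field F] [Fintype F] {p : ℕ} [Fact p.Prime] [CharP F p] {q : ℕ} (hq : Fintype.card F = q)
    (d m : ℕ) (hd : 4 ≤ d) (hm : 2 ≤ m) (hme : Even m) (hmd : m < d)
    (r : ℕ) [Fact r.Prime] (hr : r = 2 ∨ r ≠ p)
    (hrΩ : r ∣ Nat.card {W : Submodule F (Fin d ⊕ Fin d → F) // (Module.finrank F ↥W = m ∧ (∀ u ∈ W, u ≠ 0 → ∃ v ∈ W, QuadraticMap.polar (Cfsg.quadFormPlus d F) u v ≠ 0) ∧
          ∃ U : Submodule F (Fin d ⊕ Fin d → F), U ≤ W ∧ 2 * Module.finrank F ↥U = m ∧ ∀ u ∈ U, Cfsg.quadFormPlus d F u = 0)})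
    (i c : ℕ) (hi : i = orderOf (q : ZMod r)) (hc : c = if Even i then i else 2 * i) :
    (∀ x : GL (Fin d ⊕ Fin d) F, x ∈ Cfsg.Geo.omegaGL (Cfsg.quadFormPlus d F) →
      (∃ z : F, ((x ^ r : GL (Fin d ⊕ Fin d) F) : Matrix (Fin d ⊕ Fin d) (Fin d ⊕ Fin d) F) = z • (1 : Matrix (Fin d ⊕ Fin d) (Fin d ⊕ Fin d) F)) →
      (∀ z : F, (x : Matrix (Fin d ⊕ Fin d) (Fin d ⊕ Fin d) F) ≠ z • (1 : Matrix (Fin d ⊕ Fin d) (Fin d ⊕ Fin d) F)) →
      ∃ W : Submodule F (Fin d ⊕ Fin d → F), (Module.finrank F ↥W = m ∧ (∀ u ∈ W, u ≠ 0 → ∃ v ∈ W, QuadraticMap.polar (Cfsg.quadFormPlus d F) u v ≠ 0) ∧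
          ∃ U : Submodule F (Fin d ⊕ Fin d → F), U ≤ W ∧ 2 * Module.finrank F ↥U = m ∧ ∀ u ∈ U, Cfsg.quadFormPlus d F u = 0) ∧
        W.map (Matrix.toLin' (x : Matrix (Fin d ⊕ Fin d) (Fin d ⊕ Fin d) F)) ≤ W) ↔
    ((r = 2 ∧ ((2 * d) % 4 = 2 ∨ m % 4 = 0 ∨ q % 4 = 1)) ∨
     (r ≠ p ∧ 2 < r ∧ Odd i ∧ c ≤ m ∧ m % c ≤ (2 * d) % c) ∨
     (r ≠ p ∧ 2 < r ∧ Even i ∧
       (((2 * d) % c = 0 ∧ (Odd ((2 * d) / i) ∨ (m % c = 0 ∧ Even (m / i)))) ∨
        (i ≤ m ∧ ((m % c < (2 * d) % c ∧ 0 < m % c) ∨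
                  ((2 * d) % c = m % c ∧ 0 < m % c ∧ Even ((2 * d + m - 2 * ((2 * d) % c)) / i)) ∨
                  (0 < (2 * d) % c ∧ m % c = 0 ∧ Even (m / i))))))) := by
  subst hq
  have hr' : r.Prime := Fact.out
  have hQ := nd_plusQ (F := F) d
  have hP := isPlus_plusQ (F := F) d
  have hn := finrank_plus (F := F) d
  obtain ⟨Q₀, h₀, hτ, hU'⟩ := exists_model hme (by omega) True (plusQ d F)
  replace hτ := hτ.2 trivial
  have hU : ∀ W : Submodule F (Fin d ⊕ Fin d → F), (Module.finrank F ↥W = m ∧ (∀ u ∈ W, u ≠ 0 →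
      ∃ v ∈ W, QuadraticMap.polar (Cfsg.quadFormPlus d F) u v ≠ 0) ∧
      ∃ U : Submodule F (Fin d ⊕ Fin d → F), U ≤ W ∧ 2 * Module.finrank F ↥U = m ∧
        ∀ u ∈ U, Cfsg.quadFormPlus d F u = 0) ↔
      Nonempty (((plusQ d F).restrict W).IsometryEquiv Q₀) := fun W => by
    rw [← hU', iff_true, isPlus_res, ← nds_iff_nd]
    exact and_congr_right fun x => and_congr Iff.rfl (exists_congr fun U => and_congr_right fun _ =>
      by rw [x]; exact and_comm)
  refine (emb_red hU).trans ?_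
  have hm' := Module.finrank_fin_fun F (n := m)
  rw [Nat.even_iff] at hme
  by_cases hrp : r = p
  · subst hrp
    obtain rfl : r = 2 := by simpa using hr
    have hq : Fintype.card F % 2 = 0 := FiniteField.even_card_of_char_two (ringChar.eq F 2)
    rw [forall_emb_char_two' (x := m / 2) two_eq_zero_of_charP hQ h₀ hn (by omega)
        (by omega) (by omega) (by omega)]
    simp only [hτ, hP, imp_true_iff, ne_eq, not_true, false_and, or_false,
      true_and, and_true, forall_const]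
    constructor
    · intro H
      by_contra x
      obtain ⟨a, b, H⟩ := H d (by omega) (by omega) (by omega)
      omega
    · intro H k a1 a2 a3
      exact ⟨min k (m / 2 / 2 * 2), k - min k (m / 2 / 2 * 2), by omega⟩
  by_cases h : r = 2
  · subst h
    have h0 : (2 : F) ≠ 0 := natCast_ne_zero_of_ne hr' hrp
    have hq := Nat.odd_iff.1 (odd_card_of_two_ne_zero h0)
    rw [forall_emb_two h0 hQ h₀ (by omega) (by omega), E4, hn, hm']
    simp only [lt_irrefl, false_and, and_false, or_false, true_and, r2, Nat.even_iff, hP, true_iff,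
      ne_eq, not_false_eq_true, hτ]
    constructor
    · intro H
      by_contra x
      obtain ⟨k, hk⟩ := H ⟨d, rfl, by omega⟩
      omega
    · rintro H ⟨k, hk⟩
      exact ⟨m / 2, by omega⟩
  have h3 : 2 < r := by have := hr'.two_le; omega
  obtain ⟨a1, a2⟩ := forall_emb_odd hrp h hQ h₀ hn hm' (by omega) (by omega) (by omega)
    (Or.inr (even_two_mul d)) hi hc (dvd_red hU hrΩ)
  rw [a2]
  have b0 := Nat.zero_le (m / c)
  obtain ⟨b, ⟨b1, rfl, b2⟩ | ⟨b1, b2⟩⟩ := cc_facts (m := m) (n := 2 * d) hrp hi hc (by omega) (by omega) <;>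
  · simp only [h, hrp, h3, false_and, false_or, ne_eq, not_false_eq_true, true_and, hP, hτ, b2,
      true_iff, false_iff, iff_true, not_true, and_false, and_true, Nat.even_iff, Nat.odd_iff,
      imp_false, imp_true_iff, forall_const, or_false, not_not] at a1 ⊢
    clear * - a1 b b0 b1 hme
    omega

end Cfsg.Agent.S5974
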