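import Mathlib
import Cfsg.Statements.S5980
import Cfsg.Agent.Elu.Ten

set_option autoImplicit false
set_option backward.isDefEq.respectTransparency false
open scoped MatrixGroups
open Cfsg

namespace Cfsg.Agent.S5980

open Cfsg.Agent.Elu Cfsg.Agent.Conj Cfsg.Agent.Spc Cfsg.Agent.Max2 Cfsg.Agent.Max Cfsg.Agent.Classical.SpMat QuadraticMap

/-- Elements of prime order of PSp_n(q), q odd, and the stabilizers of tensor decompositions Sp_a(q) ⊗ O_b(q). Here `T = PSp_{2d}(F)` for a field `F` with `q` elements, `q` odd, `d ≥ 2`, realised through the matrices preserving the standard alternating form `f`; `2d = a·b` with `a` even, `b ≥ 3`, and the bijection `e` and change of basis `P` exhibit `f` as a non-zero scalar multiple of the tensor product of a non-degenerate alternating form `f₁` on `F^a` and a non-degenerate symmetric bilinear form `f₂` on `F^b`; `H` is the subgroup of `T` stabilizing this tensor decomposition (the elements of `T` in the conjugate by `P` of the group of Kronecker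 products) — a subgroup of type Sp_a(q) ⊗ O^ε_b(q) (maximality is not assumed). Ω is the set of cosets of `H` in `T`, so an element of `T` of prime order `r` (`x ∈ T` with `x^r` scalar, `x` not scalar) fixes a point of Ω exactly when some `T`-conjugate of `x` lies in `H`. Let `r` be a prime dividing the index of `H`. Then every element of `T` of order `r` fixes a point of Ω if and only if `r = 2` and `a = 2`. -/
theorem result {F : Type*} [Field F] [Fintype F] {p : ℕ} [Fact p.Prime] [CharP F p] {q : ℕ} (hq : Fintype.card F = q)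
    (hodd : Odd q) (d : ℕ) (hd : 2 ≤ d) (a b : ℕ) (hab : 2 * d = a * b) (ha : Even a) (ha2 : 2 ≤ a) (hb : 3 ≤ b)
    (e : (Fin d ⊕ Fin d) ≃ Fin a × Fin b) (P : GL (Fin d ⊕ Fin d) F)
    (f₁ : (Fin a → F) → (Fin a → F) → F) (f₂ : (Fin b → F) → (Fin b → F) → F)
    (hf₁ : Cfsg.Geo.IsSymplecticForm f₁) (hf₂ : Cfsg.Geo.IsSymmetricForm f₂)
    (hS : Cfsg.Geo.IsTensorFormStructure id (Cfsg.sympForm d F) f₁ f₂ e P)
    (r : ℕ) [Fact r.Prime]
    (hΩ : r ∣ (Cfsg.Geo.tensorProductSubgroup a b e P).relIndex (Cfsg.spGL d F)) :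
    (∀ x ∈ Cfsg.spGL d F, (∃ z : F, ((x ^ r : GL (Fin d ⊕ Fin d) F) : Matrix (Fin d ⊕ Fin d) (Fin d ⊕ Fin d) F) = z • (1 : Matrix (Fin d ⊕ Fin d) (Fin d ⊕ Fin d) F)) →
      (∀ z : F, (x : Matrix (Fin d ⊕ Fin d) (Fin d ⊕ Fin d) F) ≠ z • (1 : Matrix (Fin d ⊕ Fin d) (Fin d ⊕ Fin d) F)) →
      ∃ g ∈ Cfsg.spGL d F, g⁻¹ * x * g ∈ Cfsg.Geo.tensorProductSubgroup a b e P) ↔ (r = 2 ∧ a = 2) := by
  subst hq
  have h2 := Orth.two_ne_zero_of_odd hodd
  obtain ⟨c, hc, hT⟩ := tensor_form (σ := RingHom.id F) hS (bilOf hf₁.bilinear) (fun _ _ => rfl)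
    (bilOf hf₂.bilinear) fun _ _ => rfl
  let Q : QuadraticForm F (Fin b → F) := ((2 : F)⁻¹ • bilOf hf₂.bilinear).toQuadraticMap
  have hQ : ∀ u v, polar Q u v = f₂ u v := fun u v => by
    simp only [Q, LinearMap.BilinMap.polar_toQuadraticMap, LinearMap.smul_apply, bilOf_apply,
      hf₂.symm v u, smul_eq_mul]
    field_simp; ring
  have hA : (c • bilOf hf₁.bilinear).IsAlt := fun x => by simp [bilOf_apply, hf₁.alternating]
  rw [forall_spGL_iff (P := TT (tenE e P)) (mem_tensor_iff e P)]
  simpa using forall_sp_ten (p := p) (r := r) (E := tenE e P) (β := c • bilOf hf₁.bilinear) (Q := Q)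
    (af_sB d) ⟨ef_of_alt
      ⟨fun x hx => (bilOf_nd hf₁.bilinear hf₁.nondegenerate).1 x fun y => by simpa [hc] using hx y,
        fun x hx => (bilOf_nd hf₁.bilinear hf₁.nondegenerate).2 x fun y => by simpa [hc] using hx y⟩
      hA, hA⟩
    (fun x hx => (bilOf_nd hf₂.bilinear hf₂.nondegenerate).1 x fun y => (hQ x y).symm.trans (hx y))
    (fun u w u' w' => by
      have := hT u w u' w'
      rw [sympForm_eq'] at this
      simp only [polarBilin_apply_apply, hQ, LinearMap.smul_apply, bilOf_apply, smul_eq_mul]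
      exact this.trans (by ring)) h2 (by simpa) (by simpa)
    (Nat.card_congr (spU d F).toEquiv ▸ hΩ.trans (Subgroup.relIndex_dvd_card _ _))

end Cfsg.Agent.S5980
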