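import Mathlib
import Cfsg.Statements.S5983
import Cfsg.Agent.Elu.Or9

set_option autoImplicit false
set_option backward.isDefEq.respectTransparency false
open scoped MatrixGroups
open Cfsg

namespace Cfsg.Agent.S5983

open Cfsg.Agent.Elu Cfsg.Agent.Conj Cfsg.Agent.Spc Cfsg.Agent.Orth Cfsg.Agent.Classical.SpWitt Matrix

/-- Elements of prime order of PSp_n(q), q even, and the subgroups of orthogonal type. Here `T = Sp_{2d}(F)` for a field `F` of characteristic 2 with `q` elements (`d ≥ 2`, `(d, q) ≠ (2, 2)`), realised as the invertible matrices preserving the standard alternating form; `Q` is a non-degenerate quadratic form on `F^{2d}` whose polar form is that alternating form, and `H` is the subgroup of `T` preserving `Q` up to a scalar (equivalently preserving `Q`) — a subgroup of type O^±_{2d}(q) (maximality is not assumed); `Q` is of plus type when `F^{2d}` contains a `d`-dimensional subspace on which `Q` vanishes, of minus type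 otherwise. Ω is the set of cosets of `H` in `T`, so an element of `T` of prime order `r` (`x ∈ T` with `x^r` scalar, `x` not scalar) fixes a point of Ω exactly when some `T`-conjugate of `x` preserves `Q`. Let `r` be a prime dividing the index of `H`. Then every element of `T` of order `r` fixes a point of Ω if and only if `r = 2` and either `Q` is of plus type or `d` is odd. -/
theorem result {F : Type*} [Field F] [Fintype F] {p : ℕ} [Fact p.Prime] [CharP F p] {q : ℕ} (hq : Fintype.card F = q)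
    (hp : p = 2) (d : ℕ) (hd : 2 ≤ d) (hT : (d, q) ≠ (2, 2)) (Q : (Fin d ⊕ Fin d → F) → F) (hQ : Cfsg.Geo.IsNondegenerateQuadraticForm Q)
    (hQf : ∀ u v, QuadraticMap.polar Q u v = Cfsg.sympForm d F u v)
    (r : ℕ) [Fact r.Prime]
    (hΩ : r ∣ (Cfsg.Geo.quadSimilarityGroup Q).relIndex (Cfsg.spGL d F)) :
    (∀ x ∈ Cfsg.spGL d F, (∃ z : F, ((x ^ r : GL (Fin d ⊕ Fin d) F) : Matrix (Fin d ⊕ Fin d) (Fin d ⊕ Fin d) F) = z • (1 : Matrix (Fin d ⊕ Fin d) (Fin d ⊕ Fin d) F)) →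
      (∀ z : F, (x : Matrix (Fin d ⊕ Fin d) (Fin d ⊕ Fin d) F) ≠ z • (1 : Matrix (Fin d ⊕ Fin d) (Fin d ⊕ Fin d) F)) →
      ∃ g ∈ Cfsg.spGL d F, g⁻¹ * x * g ∈ Cfsg.Geo.quadSimilarityGroup Q) ↔
    (r = 2 ∧ (Cfsg.Geo.IsPlusTypeOn Q ⊤ ∨ Odd d)) := by
  subst hp
  obtain ⟨Q, rfl, hN⟩ : ∃ Q' : QuadraticForm F (Fin d ⊕ Fin d → F), ⇑Q' = Q ∧ ND Q' :=
    ⟨⟨Q, fun c x => by rw [hQ.smul, smul_eq_mul, pow_two], Classical.SpMat.sB _ F, fun x y => by
      rw [← Classical.SpMat.sympForm_eq, ← hQf, QuadraticMap.polar]; ring⟩, rfl, fun x hx =>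
        Classical.SpMat.sB_nondeg.1 x fun y => by
          rw [← Classical.SpMat.sympForm_eq, ← hQf]; exact hx y⟩
  have h2 : (2 : F) = 0 := two_eq_zero_of_charP
  have hn := finrank_plus (F := F) d
  haveI : Nontrivial (Fin d ⊕ Fin d → F) := Module.nontrivial_of_finrank_pos (R := F) (by omega)
  have h0 : ∀ g : GL (Fin d ⊕ Fin d) F, g ∈ Cfsg.spGL d F ↔ glEquiv _ F g ∈ SG Q.polarBilin :=
    fun g => forall₂_congr fun u v => by rw [← hQf, ← hQf]; rfl
  obtain ⟨φ, h1⟩ : ∃ φ : Cfsg.spGL d F ≃* SG Q.polarBilin, ∀ g v, (φ g).1 v = g.1.1 *ᵥ v :=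
    ⟨((glEquiv _ F).subgroupMap _).trans (MulEquiv.subgroupCongr (Subgroup.ext fun g => by
      obtain ⟨g, rfl⟩ := (glEquiv _ F).surjective g
      rw [← h0]
      exact Subgroup.mem_map_iff_mem (f := (glEquiv _ F).toMonoidHom) (glEquiv _ F).injective)),
      fun g v => rfl⟩
  have h3 : ∀ g : Cfsg.spGL d F, g.1 ∈ Cfsg.Geo.quadSimilarityGroup Q ↔ φ g ∈ (ogToSG Q).range :=
    fun g => ⟨fun ⟨c, hc⟩ => by
      obtain ⟨u, hu⟩ := exists_ne (0 : Fin d ⊕ Fin d → F)
      obtain ⟨v, hv⟩ : ∃ v, QuadraticMap.polar Q u v ≠ 0 := by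
        by_contra h; exact hu (hN u (by simpa using h))
      have a1 : QuadraticMap.polar Q (g.1.1 *ᵥ u) (g.1.1 *ᵥ v) = QuadraticMap.polar Q u v := by
        rw [← h1, ← h1]; exact (φ g).2 u v
      have a2 : (c : F) = 1 := mul_right_cancel₀ hv (by
        rw [one_mul, ← a1]
        nth_rw 2 [QuadraticMap.polar]
        rw [← mulVec_add, hc, hc, hc, a1, QuadraticMap.polar]; ring)
      exact ⟨⟨(φ g).1, fun v => by rw [h1, hc, a2, one_mul]⟩, rfl⟩,
      fun ⟨s, hs⟩ => ⟨1, fun v => by rw [← h1, ← hs, Units.val_one, one_mul]; exact s.2 v⟩⟩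
  have h4 : ∀ (g : Cfsg.spGL d F) (z : F), g.1.1 = z • 1 → g = 1 := fun g z h => by
    have a1 : subRep _ (φ g) = z • 1 := LinearMap.ext fun v => by
      rw [subRep_apply, LinearEquiv.coe_coe, h1, h]; simp [smul_mulVec]
    have a2 : z = 1 := sq_inj_two h2 (by
      simpa [pow_two] using Im.smul_one (ef_of_alt hN.nondeg (polarBilin_isAlt h2 Q))
        (a1 ▸ show Im _ (subRep _ (φ g)) from (φ g).2))
    exact Subtype.ext (Units.ext (by simpa [a2] using h))
  rw [plusOn_iff, show IsPlus (Q.restrict ⊤) ↔ IsPlus Q from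
    ⟨fun h => h.of_iso (topIso Q), fun h => h.of_iso (topIso Q).symm⟩, ← forall_osp hN hn (by omega) (hΩ.trans (dvd_of_eq ?_))]
  · constructor
    · intro H t a1 a2
      obtain ⟨x, rfl⟩ := φ.surjective t
      obtain ⟨g, b1, b2⟩ := H x x.2 ⟨1, by
        rw [← map_pow, map_eq_one_iff _ φ.injective] at a1
        exact (congrArg (fun g : Cfsg.spGL d F => g.1.1) a1).trans (one_smul _ _).symm⟩ fun z e => a2 (by rw [h4 x z e, map_one])
      obtain ⟨g, rfl⟩ : ∃ g' : Cfsg.spGL d F, g'.1 = g := ⟨⟨g, b1⟩, rfl⟩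
      obtain ⟨s, hs⟩ := (h3 (g⁻¹ * x * g)).1 (by simpa using b2)
      exact ⟨s, isConj_iff.2 ⟨(φ g)⁻¹, by simp [hs]⟩⟩
    · rintro H x a1 ⟨z, a2⟩ a3
      obtain ⟨s, hs⟩ := H (φ ⟨x, a1⟩) (by rw [← map_pow, h4 (⟨x, a1⟩ ^ r) z a2, map_one]) fun e =>
        a3 1 ((congrArg (fun g : Cfsg.spGL d F => g.1.1) ((map_eq_one_iff _ φ.injective).1 e)).trans
          (one_smul _ _).symm)
      obtain ⟨c, hc⟩ := isConj_iff.1 hs
      obtain ⟨c, rfl⟩ := inv_surjective c
      obtain ⟨g, rfl⟩ := φ.surjective c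
      exact ⟨g, g.2, by simpa using (h3 (g⁻¹ * ⟨x, a1⟩ * g)).2 ⟨s, by simp [← hc]⟩⟩
  · rw [← Subgroup.index_comap_of_surjective _ (f := φ.toMonoidHom) φ.surjective]
    exact congrArg Subgroup.index (Subgroup.ext fun g => Subgroup.mem_subgroupOf.trans (h3 g))

end Cfsg.Agent.S5983
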