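import Mathlib
import Cfsg.Statements.S5984
import Cfsg.Agent.Elu.Un2

set_option autoImplicit false
set_option backward.isDefEq.respectTransparency false
open scoped MatrixGroups
open Cfsg

namespace Cfsg.Agent.S5984

open Cfsg.Agent.Elu Cfsg.Agent.Conj Cfsg.Agent.Spc

/-- Elements of prime order of PSU_n(q) and the stabilizers of pairs of complementary totally singular subspaces. Here `T = PSU_n(q)` is realised through `SU_n(q)`, the matrices of determinant 1 over the field `F` with `q²` elements preserving the hermitian form `Σ uᵢ vᵢ^q`, with `n ≥ 4` even; `D` is a pair of complementary subspaces of dimension `n/2` on each of which the form vanishes identically, and `H` is the subgroup of `SU_n(q)` fixing or interchanging the two members — a subgroup of type GL_{n/2}(q²).2 (maximality is not assumed). Ω is the set of cosets of `H`, so an element of `T` of prime order `r` (`x ∈ SU_n(q)` with `x^r` scalar, `x` not scalar)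 fixes a point of Ω exactly when some `SU_n(q)`-conjugate of `x` lies in `H`. Let `r` be a prime dividing the index of `H`. Then every element of `T` of order `r` fixes a point of Ω if and only if `r = 2`, `q` is odd and `(q + 1)_2 ≤ (n)_2` (2-parts). -/
theorem result {F : Type*} [Field F] [Fintype F] {p : ℕ} [Fact p.Prime] [CharP F p] {q : ℕ} (hq : Fintype.card F = q ^ 2)
    (n : ℕ) (hn : 4 ≤ n) (he : Even n) (D : Fin 2 → Submodule F (Fin n → F)) (hD : Cfsg.Geo.IsMDecomposition (n / 2) D)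
    (hDs : ∀ i, Cfsg.Geo.IsTotallySingularFor (Cfsg.hermForm n F q) (D i))
    (r : ℕ) [Fact r.Prime]
    (hΩ : r ∣ (Cfsg.Geo.decompositionStabilizer D).relIndex (Cfsg.GU n F q ⊓ Cfsg.Geo.specialLinear (Fin n) F)) :
    (∀ x ∈ Cfsg.GU n F q ⊓ Cfsg.Geo.specialLinear (Fin n) F, (∃ z : F, ((x ^ r : GL (Fin n) F) : Matrix (Fin n) (Fin n) F) = z • (1 : Matrix (Fin n) (Fin n) F)) →
      (∀ z : F, (x : Matrix (Fin n) (Fin n) F) ≠ z • (1 : Matrix (Fin n) (Fin n) F)) →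
      ∃ g ∈ Cfsg.GU n F q ⊓ Cfsg.Geo.specialLinear (Fin n) F, g⁻¹ * x * g ∈ Cfsg.Geo.decompositionStabilizer D) ↔
    (r = 2 ∧ Odd q ∧ padicValNat 2 (q + 1) ≤ padicValNat 2 n) := by
  have hF := Herm.natCard_of_card hq
  have hr : r.Prime := Fact.out
  have hB := ef_sB hF n
  obtain ⟨d, rfl⟩ := he.two_dvd
  have hn' : Module.finrank F (Fin (2 * d) → F) = 2 * d := by simp
  haveI : Nontrivial (Fin (2 * d) → F) := Module.nontrivial_of_finrank_pos (R := F) (by omega)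
  have hP : HPair (Herm.sB hF _) (D 0, D 1) := ⟨⟨hD.indep.pairwiseDisjoint zero_ne_one, by
    rw [codisjoint_iff, eq_top_iff, ← hD.iSup_eq_top]
    exact iSup_le (Fin.forall_fin_two.2 ⟨le_sup_left, le_sup_right⟩)⟩, (iso_iff_herm hF _).1 (hDs 0),
    (iso_iff_herm hF _).1 (hDs 1)⟩
  let φ := (Herm.toUG hF (2 * d)).toMonoidHom.comp (Subgroup.inclusion
    (inf_le_left : Cfsg.GU (2 * d) F q ⊓ Cfsg.Geo.specialLinear (Fin (2 * d)) F ≤ _))
  have hφ : ∀ g U, φ g • U = Submodule.map (Matrix.toLin' g.1.1) U := fun _ _ => rfl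
  have h1 : ∀ Q, HPair (Herm.sB hF _) Q → ∃ g, φ g • (D 0, D 1) = Q := fun Q hQ => by
    obtain ⟨g, a1, a2⟩ := hP.trans_SU (Herm.hf_sB hF _) hB hQ
    obtain ⟨g, rfl⟩ := (Herm.toUG hF _).surjective g
    exact ⟨⟨g, g.2, (Herm.detU_toUG hF g).symm.trans a1⟩, a2⟩
  have h2 : ∀ g, g.1 ∈ Cfsg.Geo.decompositionStabilizer D ↔
      (φ g • D 0 = D 0 ∧ φ g • D 1 = D 1) ∨ (φ g • D 0 = D 1 ∧ φ g • D 1 = D 0) := fun g => by
    refine ⟨fun ⟨s, hs⟩ => ?_, fun h => h.elim (fun h => ⟨1, Fin.forall_fin_two.2 h⟩)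
      fun h => ⟨Equiv.swap 0 1, Fin.forall_fin_two.2 h⟩⟩
    have : s = 1 ∨ s = Equiv.swap 0 1 := by clear hs; revert s; decide
    rcases this with rfl | rfl
    · exact Or.inl ⟨hs 0, hs 1⟩
    · exact Or.inr ⟨hs 0, hs 1⟩
  have h3 := hΩ.trans ((relIndex_dvd _ _ φ _ hP h1 (fun g Q hQ => hQ.smul g)
    fun g hg => (h2 g).2 (Or.inl (Prod.ext_iff.1 hg))).trans (card_hp_U hB hP hn'))
  have h4 : ∀ x (hx : x ∈ Cfsg.GU (2 * d) F q ⊓ Cfsg.Geo.specialLinear (Fin (2 * d)) F),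
      (∃ g ∈ Cfsg.GU (2 * d) F q ⊓ Cfsg.Geo.specialLinear (Fin (2 * d)) F,
        g⁻¹ * x * g ∈ Cfsg.Geo.decompositionStabilizer D) ↔
        HQ (Herm.sB hF _) (Matrix.toLin' x.1) := fun x hx => by
    have h5 := fun g => h2 (g⁻¹ * ⟨x, hx⟩ * g)
    simp only [map_mul, map_inv, mul_smul, inv_smul_eq_iff] at h5
    refine ⟨fun ⟨g, a1, a2⟩ => ?_, fun ⟨U, W, a1, a2, a3, a4⟩ => ?_⟩
    · have := hP.smul (φ ⟨g, a1⟩)
      exact ⟨_, _, this.1, this.2.1, this.2.2, (h5 ⟨g, a1⟩).1 a2⟩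
    · obtain ⟨g, hg⟩ := h1 (U, W) ⟨a1, a2, a3⟩
      obtain ⟨rfl, rfl⟩ := Prod.ext_iff.1 hg
      exact ⟨g, g.2, (h5 g).2 a4⟩
  rw [forall₂_congr fun x hx => by rw [h4 x hx]]
  refine Iff.trans (Iff.trans ⟨fun H x hx => H (Matrix.SpecialLinearGroup.toGL x) ⟨hx, by
      simp [Cfsg.Geo.specialLinear]⟩, fun H x hx => H ⟨x.1, congrArg Units.val hx.2⟩ hx.1⟩
    (forall_SU_iff hF (r := r) (HQ (Herm.sB hF _)))) ?_
  by_cases hrp : r = p
  · subst hrp
    obtain ⟨f, a1, a2, a3⟩ := exists_tv_U (p := r) hB (by omega)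
    refine iff_of_false (fun H => a3 (H f 1 a1 a2)) ?_
    rintro ⟨rfl, h, -⟩
    exact h.not_two_dvd_nat ((CharP.cast_eq_zero_iff F 2 q).1 (cast_q hF))
  have h0 : (r : F) ≠ 0 := natCast_ne_zero_of_ne hr hrp
  by_cases h6 : r = 2
  · subst h6
    have := two_dvd_succ hF h0
    simp only [true_and, show Odd q by rw [Nat.odd_iff]; omega]
    refine ⟨fun H => by_contra fun h => ?_, fun H f c a1 a2 => hq_of_ts hB a2 (cast_mul_ne hF h0)
      (a1.pow_U hB a2) hn' ((forall_ts_two hB h0 (by omega) (by omega)).2 (Or.inr (hn'.symm ▸ H))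
        f c a1 a2)⟩
    obtain ⟨f, c, a1, a2, a3, -⟩ := exists_refl_U hB h0 (by omega) (hn'.symm ▸ h)
    exact a3 (H f c a1 a2)
  refine iff_of_false (fun H => ?_) fun h => h6 h.1
  replace H := fun f c a1 a2 => (H f c a1 a2).ts hB (hr.odd_of_ne_two h6) a1.ne a1.2.1 hn'
  obtain ⟨j, hj, h7⟩ := exists_of_dvd_uu hr (by have := Herm.two_le_of_card hF; omega) _
    ((hr.dvd_mul.1 h3).resolve_left (not_dvd_pow_q hF hrp _))
  have h8 := hr.two_le
  by_cases hd : r ∣ q + 1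
  · have := ((forall_ts_one hB hr h6 h0 hd (by omega) (by omega)).1 H).1
    omega
  have h9 := (odd_two_mul_add_one j).of_dvd_nat h7
  obtain ⟨a1, a2⟩ := one_le_tU hF hr h0 rfl (Or.inl ⟨h9, rfl⟩)
  have a3 := ((forall_ts_ne hB hr h0 hd rfl (Or.inl ⟨h9, rfl⟩) (by omega) h7 (by omega)
    (by omega)).1 H).2.2 h9
  rw [hn'] at a3
  generalize orderOf (-q : ZMod r) = b at *
  obtain ⟨t, ht⟩ := a2
  have a4 := hr.even_sub_one h6
  rw [ht, Nat.even_mul, ← Nat.not_odd_iff_even, Nat.even_iff] at a4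
  rw [ht, Nat.mul_div_cancel_left _ a1] at a3
  have a5 : t ≠ 0 := by rintro rfl; omega
  have a6 := Nat.mod_add_div d b
  have a7 := Nat.mod_lt d a1
  have a8 := (Nat.le_div_iff_mul_le a1).1 (show 2 + 2 * (d / b) ≤ 2 * d / b by
    have := a4.resolve_left (not_not.2 h9); omega)
  nlinarith

end Cfsg.Agent.S5984
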