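import Mathlib
import Cfsg.Statements.S5988
import Cfsg.Agent.Elu.Or8

set_option autoImplicit false
set_option backward.isDefEq.respectTransparency false
open scoped MatrixGroups
open Cfsg

namespace Cfsg.Agent.S5988

open Cfsg.Agent.Elu Cfsg.Agent.Conj Cfsg.Agent.Spc Cfsg.Agent.Orth

/-- Elements of prime order of PΩ⁺_n(q) with no fixed elliptic `m`-space. Here `T = PΩ⁺_n(F)`, `n = 2d ≥ 8`, realised through `Ω⁺_n(q)`, the commutator subgroup of the isometry group of `Q = Σ xᵢyᵢ` over the field `F` with `q` elements; an element of `T` of prime order `r` is an element `x` of `Ω⁺_n(q)` with `x^r` scalar and `x` not scalar; a nondegenerate `m`-space (even `m`) is a subspace on which the polar form of `Q` is nondegenerate; it is hyperbolic if it contains an `m/2`-dimensional subspace on which `Q` vanishes, elliptic otherwise. Let `m` be even with `2 ≤ m < n/2` and let `r` be a prime dividing the number of elliptic `m`-spaces; for `r ≠ p` let `i`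 be the multiplicative order of `q` modulo `r`, `c = i` for `i` even and `c = 2i` for `i` odd, and write `k = n mod c`, `ℓ = m mod i`, `ℓ' = m mod c`, `n' = ⌊n/i⌋`, `m' = ⌊m/i⌋`, `t = (r−1)/i`. Then every element of `T` of order `r` fixes some elliptic `m`-space if and only if one of: (i) `r = 2 ≠ p` and either `n ≡ 0 (mod 4)`, `q ≡ 3 (mod 4)` and `m ≡ 2 (mod 4)`, or `n ≡ 2 (mod 4)` and `q ≢ 1 (mod 8)`; (ii) `r ≠ p` odd, `i` odd, `c ≤ m` and `k > ℓ' > 0`; (iii) `r ≠ p` odd, `i` even, and either `k = 0` and (`n/i` odd, or `ℓ' = 0` and `m/i` odd), or `i ≤ m` and (`k > ℓ' > 0`, or `k = ℓ' > 0` and `(n + m − 2k)/i` odd, or `k > ℓ' = 0` and `m/i` odd). (For `r = p` there is always an element of order `p` fixing no elliptic `m`-space.) -/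
theorem result {F : Type*} [Field F] [Fintype F] {p : ℕ} [Fact p.Prime] [CharP F p] {q : ℕ} (hq : Fintype.card F = q)
    (d m : ℕ) (hd : 4 ≤ d) (hm : 2 ≤ m) (hme : Even m) (hmd : m < d)
    (r : ℕ) [Fact r.Prime]
    (hrΩ : r ∣ Nat.card {W : Submodule F (Fin d ⊕ Fin d → F) // Module.finrank F ↥W = m ∧ Cfsg.Geo.IsNondegenerateOn (QuadraticMap.polar (Cfsg.quadFormPlus d F)) W ∧ ¬ Cfsg.Geo.IsPlusTypeOn (Cfsg.quadFormPlus d F) W})
    (i c : ℕ) (hi : i = orderOf (q : ZMod r)) (hc : c = if Even i then i else 2 * i) :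
    (∀ x : GL (Fin d ⊕ Fin d) F, x ∈ Cfsg.Geo.omegaGL (Cfsg.quadFormPlus d F) →
      (∃ z : F, ((x ^ r : GL (Fin d ⊕ Fin d) F) : Matrix (Fin d ⊕ Fin d) (Fin d ⊕ Fin d) F) = z • (1 : Matrix (Fin d ⊕ Fin d) (Fin d ⊕ Fin d) F)) →
      (∀ z : F, (x : Matrix (Fin d ⊕ Fin d) (Fin d ⊕ Fin d) F) ≠ z • (1 : Matrix (Fin d ⊕ Fin d) (Fin d ⊕ Fin d) F)) →
      ∃ W : Submodule F (Fin d ⊕ Fin d → F), (Module.finrank F ↥W = m ∧ Cfsg.Geo.IsNondegenerateOn (QuadraticMap.polar (Cfsg.quadFormPlus d F)) W ∧ ¬ Cfsg.Geo.IsPlusTypeOn (Cfsg.quadFormPlus d F) W) ∧ W.map (Matrix.toLin' (x : Matrix (Fin d ⊕ Fin d) (Fin d ⊕ Fin d) F)) ≤ W) ↔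
    ((r = 2 ∧ p ≠ 2 ∧ ((Even d ∧ q % 4 = 3 ∧ m % 4 = 2) ∨ (Odd d ∧ q % 8 ≠ 1))) ∨
     (r ≠ p ∧ 2 < r ∧ Odd i ∧ c ≤ m ∧ 0 < m % c ∧ m % c < (2 * d) % c) ∨
     (r ≠ p ∧ 2 < r ∧ Even i ∧
       (((2 * d) % c = 0 ∧ (Odd ((2 * d) / i) ∨ (m % c = 0 ∧ Odd (m / i)))) ∨
        (i ≤ m ∧ ((0 < m % c ∧ m % c < (2 * d) % c) ∨
                  (0 < m % c ∧ m % c = (2 * d) % c ∧ Odd ((2 * d + m - 2 * ((2 * d) % c)) / i)) ∨
                  (m % c = 0 ∧ 0 < (2 * d) % c ∧ Odd (m / i))))))) := by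
  subst hq
  have hr : r.Prime := Fact.out
  have hQ := nd_plusQ (F := F) d
  have hP := isPlus_plusQ (F := F) d
  have hn := finrank_plus (F := F) d
  obtain ⟨Q₀, h₀, hτ, hU⟩ := model_minus (plusQ d F) hme (by omega)
  refine (emb_red hU).trans ?_
  have hm' := Module.finrank_fin_fun F (n := m)
  rw [Nat.even_iff] at hme
  by_cases hrp : r = p
  · subst hrp
    refine iff_of_false (fun H => ?_) (by simp +contextual)
    by_cases h : r = 2
    · subst h
      obtain ⟨a, b, H⟩ := (forall_emb_char_two' (x := m / 2) two_eq_zero_of_charP hQ h₀ hn (by omega)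
        (by omega) (by omega) (by omega)).1 H (d / 2 * 2) (by omega) (by omega) (by omega) fun _ => hP
      simp only [hτ, hP, imp_false, iff_true] at H
      omega
    have h2 : (2 : F) ≠ 0 := natCast_ne_zero_of_ne Nat.prime_two (Ne.symm h)
    by_cases h : d % 2 = 0
    · obtain ⟨x, y, z, a⟩ := emb_test h2 hQ h₀ (by omega) H 1 (d - 2) 1 (by omega)
        (by omega) (by omega) (by omega)
      simp only [hτ, hP, imp_false, iff_true] at a
      omega
    · obtain ⟨x, y, z, a⟩ := emb_test h2 hQ h₀ (by omega) H 2 (d - 1) 0 (by omega)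
        (by omega) (by omega) (by omega)
      simp only [hτ, hP, imp_false, iff_true] at a
      omega
  by_cases h : r = 2
  · subst h
    have h0 : (2 : F) ≠ 0 := natCast_ne_zero_of_ne hr hrp
    have hq := Nat.odd_iff.1 (odd_card_of_two_ne_zero h0)
    rw [forall_emb_two h0 hQ h₀ (by omega) (by omega), E4, hn, hm']
    simp only [lt_irrefl, false_and, and_false, or_false, true_and, r2, Nat.even_iff, hP, true_iff,
      Ne.symm hrp, ne_eq, not_false_eq_true, hτ, false_iff, Nat.odd_iff]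
    constructor
    · intro H
      by_contra x
      obtain ⟨k, hk⟩ := H ⟨d, rfl, by omega⟩
      omega
    · rintro H ⟨k, hk⟩
      exact ⟨m / 2, by omega⟩
  have h3 : 2 < r := by have := hr.two_le; omega
  obtain ⟨a1, a2⟩ := forall_emb_odd hrp h hQ h₀ hn hm' (by omega) (by omega) (by omega)
    (Or.inr (even_two_mul d)) hi hc (dvd_red hU hrΩ)
  rw [a2]
  obtain ⟨b, ⟨b1, rfl, b2⟩ | ⟨b1, b2⟩⟩ := cc_facts (m := m) (n := 2 * d) hrp hi hc (by omega) (by omega) <;>
  · simp only [h, hrp, h3, false_and, false_or, ne_eq, not_false_eq_true, true_and, hP, hτ, b2,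
      true_iff, false_iff, iff_true, not_true, and_false, and_true, Nat.even_iff, Nat.odd_iff,
      imp_false, imp_true_iff, forall_const] at a1 ⊢
    clear * - a1 b b1 hme
    omega

end Cfsg.Agent.S5988
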