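import Mathlib
import Cfsg.Statements.S5989
import Cfsg.Agent.Elu.Or8

set_option autoImplicit false
set_option backward.isDefEq.respectTransparency false
open scoped MatrixGroups
open Cfsg

namespace Cfsg.Agent.S5989

open Cfsg.Agent.Elu Cfsg.Agent.Conj Cfsg.Agent.Spc Cfsg.Agent.Orth

/-- Elements of prime order of PΩ⁺_n(q), q odd, with no fixed nondegenerate `m`-space of odd dimension. Here `T = PΩ⁺_n(F)`, `n = 2d ≥ 8`, realised through `Ω⁺_n(q)`, the commutator subgroup of the isometry group of `Q = Σ xᵢyᵢ` over the field `F` with `q` elements; an element of `T` of prime order `r` is an element `x` of `Ω⁺_n(q)` with `x^r` scalar and `x` not scalar; `q` and `m` are odd, `1 ≤ m < n/2`. The nondegenerate `m`-spaces (subspaces on which the polar form is nondegenerate) fall into two isometry classes, each an orbit of `T`, and the two actions are equivalent; fix one such space `W₀` and let Ω be the set of nondegenerate `m`-spaces isometric to `W₀` (some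 linear isomorphism preserves `Q`). Let `r` be a prime dividing the size of Ω; for `r ≠ p` let `i` be the multiplicative order of `q` modulo `r`, `c = i` for `i` even and `c = 2i` for `i` odd, and write `k = n mod c`, `ℓ = m mod i`, `ℓ' = m mod c`, `n' = ⌊n/i⌋`, `m' = ⌊m/i⌋`, `t = (r−1)/i`. Then every element of `T` of order `r` fixes a member of Ω if and only if one of: (i) `r = 2`, `n ≡ 2 (mod 4)` and `q ≢ 1 (mod 8)`; (ii) `r ≠ p` odd, `i` odd, `c ≤ m` and `k > ℓ' > 0`; (iii) `r ≠ p` odd, `i` even, and either `k = 0` and `n/i` odd, or `i ≤ m` and `k > ℓ' > 0`. (For `r = p` there is always an element of order `p` fixing no member of Ω.) -/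
theorem result {F : Type*} [Field F] [Fintype F] {p : ℕ} [Fact p.Prime] [CharP F p] {q : ℕ} (hq : Fintype.card F = q)
    (hodd : Odd q) (d m : ℕ) (hd : 4 ≤ d) (hm : Odd m) (hmd : m < d)
    (W₀ : Submodule F (Fin d ⊕ Fin d → F)) (hW₀ : Module.finrank F ↥W₀ = m ∧ Cfsg.Geo.IsNondegenerateOn (QuadraticMap.polar (Cfsg.quadFormPlus d F)) W₀)
    (r : ℕ) [Fact r.Prime]
    (hrΩ : r ∣ Nat.card {W : Submodule F (Fin d ⊕ Fin d → F) // Module.finrank F ↥W = m ∧ Cfsg.Geo.IsNondegenerateOn (QuadraticMap.polar (Cfsg.quadFormPlus d F)) W ∧ Cfsg.Geo.AreIsometricFor (Cfsg.quadFormPlus d F) W W₀})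
    (i c : ℕ) (hi : i = orderOf (q : ZMod r)) (hc : c = if Even i then i else 2 * i) :
    (∀ x : GL (Fin d ⊕ Fin d) F, x ∈ Cfsg.Geo.omegaGL (Cfsg.quadFormPlus d F) →
      (∃ z : F, ((x ^ r : GL (Fin d ⊕ Fin d) F) : Matrix (Fin d ⊕ Fin d) (Fin d ⊕ Fin d) F) = z • (1 : Matrix (Fin d ⊕ Fin d) (Fin d ⊕ Fin d) F)) →
      (∀ z : F, (x : Matrix (Fin d ⊕ Fin d) (Fin d ⊕ Fin d) F) ≠ z • (1 : Matrix (Fin d ⊕ Fin d) (Fin d ⊕ Fin d) F)) →
      ∃ W : Submodule F (Fin d ⊕ Fin d → F), (Module.finrank F ↥W = m ∧ Cfsg.Geo.IsNondegenerateOn (QuadraticMap.polar (Cfsg.quadFormPlus d F)) W ∧ Cfsg.Geo.AreIsometricFor (Cfsg.quadFormPlus d F) W W₀) ∧ W.map (Matrix.toLin' (x : Matrix (Fin d ⊕ Fin d) (Fin d ⊕ Fin d) F)) ≤ W) ↔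
    ((r = 2 ∧ Odd d ∧ q % 8 ≠ 1) ∨
     (r ≠ p ∧ 2 < r ∧ Odd i ∧ c ≤ m ∧ 0 < m % c ∧ m % c < (2 * d) % c) ∨
     (r ≠ p ∧ 2 < r ∧ Even i ∧ (((2 * d) % c = 0 ∧ Odd ((2 * d) / i)) ∨ (i ≤ m ∧ 0 < m % c ∧ m % c < (2 * d) % c)))) := by
  subst hq
  have hr : r.Prime := Fact.out
  have h2 := two_ne_zero_of_odd hodd
  have hQ := nd_plusQ (F := F) d
  have hP := isPlus_plusQ (F := F) d
  have hn := finrank_plus (F := F) d
  obtain ⟨h₀, hU⟩ := model_isom (plusQ d F) hW₀
  refine (emb_red hU).trans ?_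
  have hm' := hW₀.1
  have hτ : ¬ IsPlus ((plusQ d F).restrict W₀) := fun h =>
    Nat.not_even_iff_odd.2 hm (hm' ▸ IsPlus.even' h)
  have hme := Nat.odd_iff.1 hm
  by_cases hrp : r = p
  · subst hrp
    refine iff_of_false (not_emb_odd h2 hQ h₀ (hn ▸ even_two_mul d) (by omega) (hm' ▸ hm) (by omega)) ?_
    have := three_le (p := r) h2
    simp only [ne_eq, not_true, false_and, or_false]
    omega
  by_cases h : r = 2
  · subst h
    have hq := Nat.odd_iff.1 hodd
    rw [forall_emb_two h2 hQ h₀ (by omega) (by omega), E4, hn, hm']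
    simp only [lt_irrefl, false_and, and_false, or_false, true_and, r2, Nat.even_iff, hP, true_iff,
      ne_eq, hτ, false_iff, Nat.odd_iff]
    constructor
    · intro H
      by_contra x
      obtain ⟨k, hk⟩ := H ⟨d, rfl, by omega⟩
      omega
    · rintro H ⟨k, hk⟩
      omega
  have h3 : 2 < r := by have := hr.two_le; omega
  obtain ⟨a1, a2⟩ := forall_emb_odd hrp h hQ h₀ hn hm' (by omega) (by omega) (by omega)
    (Or.inr (even_two_mul d)) hi hc (dvd_red hU hrΩ)
  rw [a2]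
  have b0 := Nat.zero_le (m / c)
  obtain ⟨b, ⟨b1, rfl, b2⟩ | ⟨b1, b2⟩⟩ := cc_facts (m := m) (n := 2 * d) hrp hi hc (by omega) (by omega) <;>
  · simp only [h, hrp, h3, false_and, false_or, ne_eq, not_false_eq_true, true_and, hP, hτ, b2,
      true_iff, false_iff, iff_true, not_true, and_false, and_true, Nat.even_iff, Nat.odd_iff,
      imp_false, imp_true_iff, forall_const, or_false, not_not] at a1 ⊢
    clear * - a1 b b0 b1 hme
    omega

end Cfsg.Agent.S5989
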