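import Mathlib
import Cfsg.Statements.S5997
import Cfsg.Agent.Max.L2g

set_option autoImplicit false
open scoped MatrixGroups
open Cfsg

namespace Cfsg.Agent.S5997

open scoped Pointwise
open Cfsg.Agent.Max.L2 Cfsg.Agent.Classical.PSL2Basic Cfsg.Agent.Classical.P1Ident
  Cfsg.Agent.Classical.Congr Cfsg.Agent.Classical.P1
open Cfsg.Agent.Classical.SL2Basic hiding mk_eq_one_iff
open Matrix

theorem mk_neg {F : Type*} [Field F] : ProjGenLinGroup.mk (-1 : GL (Fin 2) F) = 1 :=
  mk_eq_one_iff.2 (by simp)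

theorem ex_sl {F : Type*} [Field F] {x : GL (Fin 2) F} (hx : GeneralLinearGroup.det x = 1) :
    ∃ y : SpecialLinearGroup (Fin 2) F, SpecialLinearGroup.toGL y = x :=
  ⟨⟨x, by simpa using congrArg Units.val hx⟩, Units.ext rfl⟩

theorem toGL_neg {F : Type*} [Field F] (y : SpecialLinearGroup (Fin 2) F) :
    SpecialLinearGroup.toGL (-y) = -SpecialLinearGroup.toGL y := Units.ext rfl

theorem det_one {F : Type*} [Field F] {x : GL (Fin 2) F} (h : x * x = -1)
    (h1 : ProjGenLinGroup.mk x ≠ 1) : GeneralLinearGroup.det x = 1 := by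
  have h2 := (mk_sq_iff h1).1 (by rw [← map_mul, h, mk_neg])
  have h3 := congrArg (fun g : GL (Fin 2) F => g 0 0) h
  simp only [Units.val_mul, Matrix.mul_apply, Fin.sum_univ_two] at h3
  ext
  simp [Matrix.det_fin_two] at h3 ⊢
  linear_combination x 0 0 * h2 - h3

theorem struct {F : Type*} [Field F] (h2 : (2 : F) ≠ 0) {R : Subgroup (GL (Fin 2) F)}
    (hR : Nonempty (↥R ≃* QuaternionGroup 2)) : ∃ V : Subgroup (ProjGenLinGroup (Fin 2) F),
      IsKleinFour V ∧ V ≤ LL F ∧ ∀ g, g ∈ Cfsg.Geo.subgroupNormalizer R ↔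
        MulAut.conj (ProjGenLinGroup.mk g) • V = V := by
  obtain ⟨e⟩ := hR
  let f : QuaternionGroup 2 →* GL (Fin 2) F := R.subtype.comp e.symm.toMonoidHom
  have hf : Function.Injective f := R.subtype_injective.comp e.symm.injective
  have hm : ∀ g, g ∈ R ↔ ∃ x, f x = g :=
    fun g => ⟨fun h => ⟨e ⟨g, h⟩, by simp [f]⟩, by rintro ⟨x, rfl⟩; exact (e.symm x).2⟩
  obtain ⟨i, j, z, h1, h3, h4, h5, h6, h7⟩ : ∃ i j z : QuaternionGroup 2, i * i = z ∧ j * j = z ∧
      z * z = 1 ∧ z ≠ 1 ∧ i * j * i⁻¹ * j⁻¹ = z ∧ ∀ x, x = 1 ∨ x = z ∨ x = i ∨ x = z * i ∨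
        x = j ∨ x = z * j ∨ x = i * j ∨ x = z * (i * j) :=
    ⟨.a 1, .xa 0, .a 2, by decide⟩
  have hz : f z = -1 := by
    obtain ⟨y, hy⟩ := ex_sl (x := f z) (by rw [← h6]; simp [mul_assoc])
    rcases eq_of_mul_self_eq_one h2 (g := y) (SpecialLinearGroup.toGL_injective (by
      rw [map_mul, hy, ← map_mul, h4, map_one, map_one])) with rfl | rfl
    · exact absurd (hf (by rw [← hy, map_one, map_one])) h5
    · rw [← hy, toGL_neg, map_one]
  have hn : ∀ g : GL (Fin 2) F, ProjGenLinGroup.mk (-1 * g) = ProjGenLinGroup.mk g := fun g => by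
    rw [map_mul, mk_neg, one_mul]
  have hc : ∀ x y, f x * f y ≠ f y * f x → ProjGenLinGroup.mk (f x) ≠ 1 := fun x y h e => h (by
    obtain ⟨e1, e2, e3⟩ := mk_eq_one_iff.1 e
    ext a b
    fin_cases a <;> fin_cases b <;> simp [Matrix.mul_apply, Fin.sum_univ_two, e1, e2, e3, mul_comm])
  have hij : f i * f j ≠ f j * f i := fun e => h5 (by
    rw [← map_mul, ← map_mul, hf.eq_iff] at e
    rw [← h6, e]; group)
  have hi := hc i j hij
  have hj := hc j i hij.symm
  have di := det_one (by rw [← map_mul, h1, hz]) hi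
  have dj := det_one (by rw [← map_mul, h3, hz]) hj
  have dz : GeneralLinearGroup.det (f z) = 1 := by rw [← h1, map_mul, map_mul, di, one_mul]
  have hK : KP (ProjGenLinGroup.mk (f i)) (ProjGenLinGroup.mk (f j)) :=
    ⟨by rw [← map_mul, ← map_mul, h1, hz, ← mul_one (-1), hn, map_one],
      by rw [← map_mul, ← map_mul, h3, hz, ← mul_one (-1), hn, map_one],
      by rw [← map_mul _ (f i), ← map_mul _ (f j), ← hn (_ * f i), ← hz, ← h6]; simp [mul_assoc], hi, hj,
      fun e => hc (i * j⁻¹) j (fun e => hij (by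
        simp only [map_mul, map_inv, inv_mul_cancel_right] at e
        rw [← mul_assoc, eq_mul_inv_iff_mul_eq] at e
        exact e)) (by rw [map_mul, map_mul, e, map_inv, map_inv, mul_inv_cancel])⟩
  have hV : ∀ g, g ∈ R ↔ GeneralLinearGroup.det g = 1 ∧ ProjGenLinGroup.mk g ∈
      Subgroup.closure {ProjGenLinGroup.mk (f i), ProjGenLinGroup.mk (f j)} := by
    intro g
    rw [hK.mem_iff, hm]
    constructor
    · rintro ⟨x, rfl⟩
      rcases h7 x with rfl | rfl | rfl | rfl | rfl | rfl | rfl | rfl <;>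
        simp only [map_mul, di, dj, dz, map_one, mul_one, true_and, true_or, or_true] <;>
        rw [hz, mk_neg] <;> simp
    · rintro ⟨hd, h⟩
      obtain ⟨x, hx, dx⟩ : ∃ x, ProjGenLinGroup.mk g = ProjGenLinGroup.mk (f x) ∧
          GeneralLinearGroup.det (f x) = 1 := by
        rcases h with h | h | h | h
        exacts [⟨1, by simpa using h, by simp⟩, ⟨i, h, di⟩, ⟨j, h, dj⟩,
          ⟨i * j, by simpa using h, by simp only [map_mul, di, dj, mul_one]⟩]
      obtain ⟨y, rfl⟩ := ex_sl hd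
      obtain ⟨w, hw⟩ := ex_sl dx
      rw [← hw] at hx
      rcases toPGL_eq_iff.1 hx with rfl | rfl
      · exact ⟨x, hw.symm⟩
      · exact ⟨z * x, by rw [map_mul, hz, ← hw, toGL_neg, neg_one_mul]⟩
  have hL : Subgroup.closure {ProjGenLinGroup.mk (f i), ProjGenLinGroup.mk (f j)} ≤ LL F := by
    rw [Subgroup.closure_le]
    rintro _ (rfl | rfl)
    · obtain ⟨y, hy⟩ := ex_sl di; rw [← hy]; exact sP_mem y
    · obtain ⟨y, hy⟩ := ex_sl dj; rw [← hy]; exact sP_mem y
  refine ⟨_, hK.isKleinFour, hL, fun g => ?_⟩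
  rw [Cfsg.Geo.subgroupNormalizer, Subgroup.mem_normalizer_iff'']
  simp only [hV, map_mul, map_inv, Subgroup.ext_iff, mem_conj_iff]
  constructor
  · intro h x
    by_cases hx : x ∈ LL F
    · obtain ⟨y, rfl⟩ := exists_sP hx
      have := h (SpecialLinearGroup.toGL y)
      simp only [SpecialLinearGroup.coeToGL_det, mul_one, inv_mul_cancel, true_and] at this
      exact this.symm
    · refine iff_of_false (fun e => hx ?_) fun e => hx (hL e)
      simpa [mul_assoc] using normal_LL.conj_mem _ (hL e) (ProjGenLinGroup.mk g)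
  · intro h x
    rw [h, mul_comm (GeneralLinearGroup.det g)⁻¹, inv_mul_cancel_right]

/-- Elements of prime order of PSL_2(p) and the normalizer of a quaternion subgroup. Here `T = PSL_2(F)` for the field `F` with `p` elements, `p ≥ 5` prime; `R` is a subgroup of GL_2(F) isomorphic to the quaternion group of order 8 (an absolutely irreducible 2-group of symplectic type), and `H` is the subgroup of matrices of determinant 1 normalizing `R` — a subgroup of type 2^{1+2}.O₂⁻(2), isomorphic modulo scalars to A₄ or S₄ (maximality is not assumed). Ω is the set of cosets of `H` in `T`, so an element of `T` of prime order `r` (a matrix `x` of determinant 1 with `x^r` scalar, `x` not scalar) fixes a point of Ω exactly when some conjugate of `x` by a matrix of determinant 1 normalizes `R`. Let `r` be a prime dividing the index of `H`. Then every element of `T` of order `r` fixes a point of Ω if and only if `r = 2` or `r = 3`. -/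
theorem result {F : Type*} [Field F] [Fintype F] {p : ℕ} [Fact p.Prime] [CharP F p] (hF : Fintype.card F = p) (hp : 5 ≤ p)
    (R : Subgroup (GL (Fin 2) F)) (hR : Nonempty (↥R ≃* QuaternionGroup 2))
    (r : ℕ) [Fact r.Prime]
    (hΩ : r ∣ (Cfsg.Geo.subgroupNormalizer R).relIndex (Cfsg.Geo.specialLinear (Fin 2) F)) :
    (∀ x ∈ Cfsg.Geo.specialLinear (Fin 2) F, (∃ z : F, ((x ^ r : GL (Fin 2) F) : Matrix (Fin 2) (Fin 2) F) = z • (1 : Matrix (Fin 2) (Fin 2) F)) →
      (∀ z : F, (x : Matrix (Fin 2) (Fin 2) F) ≠ z • (1 : Matrix (Fin 2) (Fin 2) F)) →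
      ∃ g ∈ Cfsg.Geo.specialLinear (Fin 2) F, g⁻¹ * x * g ∈ Cfsg.Geo.subgroupNormalizer R) ↔ (r = 2 ∨ r = 3) := by
  rw [← Nat.card_eq_fintype_card] at hF
  have hp' : p.Prime := Fact.out
  have hr : r.Prime := Fact.out
  have h2 : (2 : F) ≠ 0 := two_ne_zero_of_char (p := p) (by omega)
  haveI := NeZero.mk h2
  obtain ⟨V, hV, hL, hN⟩ := struct h2 hR
  obtain ⟨c, hc⟩ := conj_V hV hL
  have h1 : ∀ g, g ∈ Cfsg.Geo.subgroupNormalizer R ↔ c * ProjGenLinGroup.mk g * c⁻¹ ∈ S0 F := by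
    intro g
    rw [hN, ← conj_V0_iff, ← hc, conj_conj, inv_mul_cancel_right, ← conj_conj]
    exact (MulAction.injective _).eq_iff.symm
  have h3 : ∀ x : GL (Fin 2) F, (∃ z : F, (x : Matrix (Fin 2) (Fin 2) F) = z • 1) ↔
      ProjGenLinGroup.mk x = 1 := fun x => by
    rw [eq_comm, ← map_one ProjGenLinGroup.mk, mk_eq_mk_iff_smul]; rfl
  constructor
  · intro h
    obtain ⟨x, hx⟩ := exists_prime_orderOf_dvd_card' (G := Cfsg.Geo.specialLinear (Fin 2) F) r
      (hΩ.trans (Subgroup.relIndex_dvd_card _ _))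
    rw [← Subgroup.orderOf_coe] at hx
    have h4 : (x : GL (Fin 2) F) ^ r = 1 := by rw [← hx, pow_orderOf_eq_one]
    by_cases h5 : ProjGenLinGroup.mk (x : GL (Fin 2) F) = 1
    · obtain ⟨y, hy⟩ := ex_sl x.2
      rw [← hy] at h5 hx
      left
      refine (Nat.prime_dvd_prime_iff_eq hr Nat.prime_two).1 ?_
      rw [← hx, orderOf_dvd_iff_pow_eq_one, ← map_pow]
      rcases toPGL_eq_one_iff.1 h5 with rfl | rfl <;> simp
    obtain ⟨g, -, hg⟩ := h x x.2 ((h3 _).2 (by rw [h4, map_one])) fun z e => h5 ((h3 _).1 ⟨z, e⟩)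
    have h6 := Subgroup.orderOf_dvd_natCard _ ((h1 _).1 hg)
    rw [card_S0, map_mul, map_mul, map_inv, show ∀ a b : ProjGenLinGroup (Fin 2) F,
      c * (a⁻¹ * b * a) * c⁻¹ = MulAut.conj (c * a⁻¹) b from fun a b => by simp [mul_assoc],
      MulEquiv.orderOf_eq, orderOf_eq_prime (by rw [← map_pow, h4, map_one]) h5] at h6
    rcases (Nat.Prime.dvd_mul hr (m := 2 ^ 3) (n := 3)).1 h6 with h | h
    · exact Or.inl ((Nat.prime_dvd_prime_iff_eq hr Nat.prime_two).1 (hr.dvd_of_dvd_pow h))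
    · exact Or.inr ((Nat.prime_dvd_prime_iff_eq hr Nat.prime_three).1 h)
  · intro h x hx h4 h5
    obtain ⟨y, rfl⟩ := ex_sl hx
    rw [h3, map_pow] at h4
    replace h5 : sP y ≠ 1 := fun e => by
      obtain ⟨z, hz⟩ := (h3 _).2 e
      exact h5 z hz
    suffices ∃ g ∈ LL F, c * (g * sP y * g⁻¹) * c⁻¹ ∈ S0 F by
      obtain ⟨g, hg, e⟩ := this
      obtain ⟨w, rfl⟩ := exists_sP hg
      exact ⟨SpecialLinearGroup.toGL w⁻¹, by simp [Cfsg.Geo.specialLinear], by
        rw [h1]; simpa using e⟩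
    rcases h with rfl | rfl
    · have h6 := (KP_std (F := F)).conj c⁻¹
      obtain ⟨g, hg, e⟩ := inv_conj_L h2 (sP_mem y) h5 (by rw [← sq]; exact h4)
        (normal_LL.conj_mem _ (A0_le_LL qi_mem_A0) c⁻¹) h6.u1 h6.uu
      exact ⟨g, hg, by rw [e]; simpa [mul_assoc] using A0_le_S0 qi_mem_A0⟩
    · have h6 : ∀ a : ProjGenLinGroup (Fin 2) F, a ≠ 1 → a ^ 3 = 1 → orderOf a = 3 ∧
          ∃ T D k, Tor T D k ∧ a ∈ T ∧ 3 ∣ k := fun a a1 a3 => by
        have ho := orderOf_eq_prime a3 a1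
        obtain ⟨T, D, k, hT, ha⟩ := exists_tor (p := p) (a := a) fun e => by
          have := (Nat.prime_dvd_prime_iff_eq Nat.prime_three hp').1
            (ho ▸ orderOf_dvd_iff_pow_eq_one.2 e)
          omega
        exact ⟨ho, T, D, k, hT, ha, ho ▸ hT.orderOf_dvd ha⟩
      obtain ⟨o1, T, D, k, hT, ha, hk⟩ := h6 _ h5 h4
      obtain ⟨o2, T', D', k', hT', ha', hk'⟩ := h6 (c⁻¹ * qw F * c⁻¹⁻¹)
        (by rw [Ne, conj_eq_one_iff]; exact qw_ne) (by rw [conj_pow, qw_cube]; simp)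
      obtain rfl : k = k' := by
        rcases hT.k_eq with e | e <;> rcases hT'.k_eq with e' | e' <;> omega
      obtain ⟨g, hg, n, e⟩ := conj_mem_zpowers hT' hT ha' ha (by rw [o1, o2])
      refine ⟨g, hg, ?_⟩
      rw [← e]
      simp only [conj_zpow]
      simpa [mul_assoc] using zpow_mem (A0_le_S0 (qw_mem_A0 (F := F))) n

end Cfsg.Agent.S5997
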