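import Mathlib
import Cfsg.Statements.S5998
import Cfsg.Agent.Elu.Nor3

set_option autoImplicit false
set_option backward.isDefEq.respectTransparency false
open scoped MatrixGroups
open Cfsg

namespace Cfsg.Agent.S5998

open Nor Conj

/-- Elements of prime order of PSL_3(p), p ≡ 1 (mod 3), and the normalizer of an extraspecial subgroup of order 27. Here `T = PSL_3(F)` for the field `F` with `p` elements, `p` a prime with `p ≡ 1 (mod 3)`; `R` is a non-abelian subgroup of GL_3(F) of order 27 and exponent 3 (an extraspecial group 3^{1+2}, acting absolutely irreducibly), and `H` is the subgroup of matrices of determinant 1 normalizing `R` — a subgroup of type 3^{1+2}.Sp₂(3) (maximality is not assumed). Ω is the set of cosets of `H` in `T`, so an element of `T` of prime order `r` (a matrix `x` of determinant 1 with `x^r` scalar, `x` not scalar) fixes a point of Ω exactly when some conjugate of `x` by a matrix of determinant 1 normalizes `R`. Let `r` be a prime dividing the index of `H`.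 Then every element of `T` of order `r` fixes a point of Ω if and only if `r = 2`, or `r = 3` and `p ≡ 1 (mod 9)`. -/
theorem result {F : Type*} [Field F] [Fintype F] {p : ℕ} [Fact p.Prime] [CharP F p] (hF : Fintype.card F = p) (hp3 : p % 3 = 1)
    (R : Subgroup (GL (Fin 3) F)) (hR : Nat.card R = 27) (hRe : Monoid.exponent R = 3) (hRna : ¬ IsMulCommutative R)
    (r : ℕ) [Fact r.Prime]
    (hΩ : r ∣ (Cfsg.Geo.subgroupNormalizer R).relIndex (Cfsg.Geo.specialLinear (Fin 3) F)) :
    (∀ x ∈ Cfsg.Geo.specialLinear (Fin 3) F, (∃ z : F, ((x ^ r : GL (Fin 3) F) : Matrix (Fin 3) (Fin 3) F) = z • (1 : Matrix (Fin 3) (Fin 3) F)) →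
      (∀ z : F, (x : Matrix (Fin 3) (Fin 3) F) ≠ z • (1 : Matrix (Fin 3) (Fin 3) F)) →
      ∃ g ∈ Cfsg.Geo.specialLinear (Fin 3) F, g⁻¹ * x * g ∈ Cfsg.Geo.subgroupNormalizer R) ↔ (r = 2 ∨ (r = 3 ∧ p % 9 = 1)) := by
  have hc : ∀ {a : ℕ}, a.Prime → a ≠ p → (a : F) ≠ 0 := fun a b => natCast_ne_zero_of_ne a b
  have hF' : Nat.card F = p := Nat.card_eq_fintype_card.trans hF
  obtain ⟨θ, hθ⟩ := Spc.exists_prim_of_dvd (F := F) (N := 3) (by omega)
  obtain ⟨P, ω, a, b, z, h⟩ := exists_s3 hR hRe hRna (hc Nat.prime_three (show 3 ≠ p by omega)) (θ := θ) (by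
    have := hθ.geom_sum_eq_zero (by norm_num)
    simp [Finset.sum_range_succ] at this; linear_combination this)
  refine h.iff3 hR (hc Nat.prime_two (show 2 ≠ p by omega)) ct_SL (fun _ => mem_SL.1) (fun _ _ => mem_SL.2) hΩ
    (fun e => by omega) fun e => ?_
  have h1 := (ZMod.intCast_zmod_eq_zero_iff_dvd _ 81).2 (Int.natCast_dvd_natCast.2 e)
  rw [card_SL3, hF'] at h1
  push_cast at h1
  rw [← ZMod.natCast_mod] at h1
  have h2 : ∀ k : ℕ, k < 81 → k % 3 = 1 → (k : ZMod 81) ^ 3 * ((k : ZMod 81) ^ 2 - 1) * ((k : ZMod 81) ^ 3 - 1) = 0 →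
    k % 9 = 1 := by decide +kernel
  have := h2 _ (Nat.mod_lt p (by norm_num)) (by omega) h1
  omega

end Cfsg.Agent.S5998
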