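import Mathlib
import Cfsg.Statements.S5999
import Cfsg.Agent.Elu.Nor3

set_option autoImplicit false
set_option backward.isDefEq.respectTransparency false
open scoped MatrixGroups
open Cfsg

namespace Cfsg.Agent.S5999

open Nor Conj Herm

/-- Elements of prime order of PSU_3(p), p ≡ 2 (mod 3), and the normalizer of an extraspecial subgroup of order 27. Here `T = PSU_3(p)` for a prime `p ≥ 5` with `p ≡ 2 (mod 3)`, realised through `SU_3(p)`, the matrices of determinant 1 over the field `F` with `p²` elements preserving the hermitian form `Σ uᵢvᵢ^p`; `R` is a non-abelian subgroup of order 27 and exponent 3 of the full unitary group of that form (an extraspecial group 3^{1+2}, acting absolutely irreducibly), and `H` is the subgroup of `SU_3(p)` normalizing `R` — a subgroup of type 3^{1+2}.Sp₂(3) (maximality is not assumed). Ω is the set of cosets of `H`, so an element of `T` of prime order `r` (`x ∈ SU_3(p)` with `x^r` scalar, `x` not scalar) fixes a point of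 Ω exactly when some `SU_3(p)`-conjugate of `x` normalizes `R`. Let `r` be a prime dividing the index of `H`. Then every element of `T` of order `r` fixes a point of Ω if and only if `r = 2`, or `r = 3` and `p ≡ 8 (mod 9)`. -/
theorem result {F : Type*} [Field F] [Fintype F] {p : ℕ} [Fact p.Prime] [CharP F p] (hF : Fintype.card F = p ^ 2) (hp : 5 ≤ p) (hp3 : p % 3 = 2)
    (R : Subgroup (GL (Fin 3) F)) (hRU : R ≤ Cfsg.GU 3 F p) (hR : Nat.card R = 27) (hRe : Monoid.exponent R = 3) (hRna : ¬ IsMulCommutative R)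
    (r : ℕ) [Fact r.Prime]
    (hΩ : r ∣ (Cfsg.Geo.subgroupNormalizer R).relIndex (Cfsg.GU 3 F p ⊓ Cfsg.Geo.specialLinear (Fin 3) F)) :
    (∀ x ∈ Cfsg.GU 3 F p ⊓ Cfsg.Geo.specialLinear (Fin 3) F, (∃ z : F, ((x ^ r : GL (Fin 3) F) : Matrix (Fin 3) (Fin 3) F) = z • (1 : Matrix (Fin 3) (Fin 3) F)) →
      (∀ z : F, (x : Matrix (Fin 3) (Fin 3) F) ≠ z • (1 : Matrix (Fin 3) (Fin 3) F)) →
      ∃ g ∈ Cfsg.GU 3 F p ⊓ Cfsg.Geo.specialLinear (Fin 3) F, g⁻¹ * x * g ∈ Cfsg.Geo.subgroupNormalizer R) ↔ (r = 2 ∨ (r = 3 ∧ p % 9 = 8)) := by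
  have hc : ∀ {a : ℕ}, a.Prime → a ≠ p → (a : F) ≠ 0 := fun a b => natCast_ne_zero_of_ne a b
  have hF' := natCard_of_card hF
  have hp2 : ∀ k m, p % k = m → p ^ 2 % k = m ^ 2 % k := fun k m e => by rw [Nat.pow_mod, e]
  obtain ⟨θ, hθ⟩ := Spc.exists_prim_of_dvd (F := F) (N := 3) (by have := hp2 _ _ hp3; omega)
  obtain ⟨P, ω, a, b, z, h⟩ := exists_s3 hR hRe hRna (hc Nat.prime_three (show 3 ≠ p by omega)) (θ := θ) (by
    have := hθ.geom_sum_eq_zero (by norm_num)
    simp [Finset.sum_range_succ] at this; linear_combination this)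
  refine h.iff3 hR (hc Nat.prime_two (show 2 ≠ p by omega)) (ct_SU hF') (fun _ a => mem_SL.1 a.2)
    (fun y a b => ⟨(mem_GU_iff hF' _).2 ?_, mem_SL.2 b⟩) hΩ (fun e => by have := hp2 _ _ e; omega) fun e => ?_
  · obtain ⟨c, e⟩ := (adj_GU hF').scal h.sch hRU a
    have h1 := congrArg Matrix.det e
    have h2 := congrArg (ct (frob hF')) e
    rw [Matrix.det_mul, det_ct, b, Matrix.det_smul] at h1
    rw [ct_mul, (inv_frob hF').ct_ct, e, ct_smul, ct_one] at h2
    have h3 : c ^ 3 = 1 := by simpa using h1.symm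
    have h4 := smul_inj (by simp) h2
    rw [frob_apply, pow_eq_pow_mod _ h3, hp3] at h4
    rw [e, show c = 1 by linear_combination (c + 1) * h4 + h3, one_smul]
  have h1 := (ZMod.intCast_zmod_eq_zero_iff_dvd _ 81).2 (Int.natCast_dvd_natCast.2 e)
  rw [card_SU3 hF'] at h1
  push_cast at h1
  rw [← ZMod.natCast_mod] at h1
  have h2 : ∀ k : ℕ, k < 81 → k % 3 = 2 → (k : ZMod 81) ^ 3 * ((k : ZMod 81) ^ 2 - 1) * ((k : ZMod 81) ^ 3 + 1) = 0 →
    k % 9 = 8 := by decide +kernel
  have := h2 _ (Nat.mod_lt p (by norm_num)) (by omega) h1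
  omega

end Cfsg.Agent.S5999
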