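import Mathlib
import Cfsg.Statements.S6000
import Cfsg.Agent.Elu.Nor5

set_option autoImplicit false
set_option backward.isDefEq.respectTransparency false
open scoped MatrixGroups
open Cfsg

namespace Cfsg.Agent.S6000

open Nor Conj

/-- Elements of prime order of PSL_4(p), p ≡ 1 (mod 4), and the normalizer of a 2-group of symplectic type of order 2⁶. Here `T = PSL_4(F)` for the field `F` with `p` elements, `p` a prime with `p ≡ 1 (mod 4)`; `R` is an absolutely irreducible subgroup of GL_4(F) of order 2⁶ that is a 2-group of symplectic type of exponent 4 with centre of order 4 (the central product of the scalars of order 4 with an extraspecial group 2^{1+4}), and `H` is the subgroup of matrices of determinant 1 normalizing `R` — a subgroup of type 2⁴.Sp₄(2) (maximality is not assumed). Ω is the set of cosets of `H` in `T`, so an element of `T` of prime order `r` (a matrix `x` of determinant 1 with `x^r` scalar, `x` not scalar) fixes a point of Ω exactly when some conjugate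 of `x` by a matrix of determinant 1 normalizes `R`. Let `r` be a prime dividing the index of `H`. Then every element of `T` of order `r` fixes a point of Ω if and only if `r = 2`, or `r = 3` and `p ≡ 2 (mod 3)`, or `r = 5` and `p ≡ ±2 (mod 5)` (`p` has multiplicative order 4 modulo 5). -/
theorem result {F : Type*} [Field F] [Fintype F] {p : ℕ} [Fact p.Prime] [CharP F p] (hF : Fintype.card F = p) (hp4 : p % 4 = 1)
    (R : Subgroup (GL (Fin 4) F)) (hR : Cfsg.Geo.IsLinearSymplecticTypeData 2 R) (hR6 : Nat.card R = 2 ^ 6)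
    (r : ℕ) [Fact r.Prime]
    (hΩ : r ∣ (Cfsg.Geo.subgroupNormalizer R).relIndex (Cfsg.Geo.specialLinear (Fin 4) F)) :
    (∀ x ∈ Cfsg.Geo.specialLinear (Fin 4) F, (∃ z : F, ((x ^ r : GL (Fin 4) F) : Matrix (Fin 4) (Fin 4) F) = z • (1 : Matrix (Fin 4) (Fin 4) F)) →
      (∀ z : F, (x : Matrix (Fin 4) (Fin 4) F) ≠ z • (1 : Matrix (Fin 4) (Fin 4) F)) →
      ∃ g ∈ Cfsg.Geo.specialLinear (Fin 4) F, g⁻¹ * x * g ∈ Cfsg.Geo.subgroupNormalizer R) ↔ (r = 2 ∨ (r = 3 ∧ p % 3 = 2) ∨ (r = 5 ∧ orderOf (p : ZMod 5) = 4)) := by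
  have hc : ∀ {a : ℕ}, a.Prime → a ≠ p → (a : F) ≠ 0 := fun a b => natCast_ne_zero_of_ne a b
  have h2 : (2 : F) ≠ 0 := hc Nat.prime_two (show 2 ≠ p by omega)
  have h4 : Nat.card (Subgroup.center R) = 4 := by
    obtain ⟨_, _, -, -, ⟨a, -⟩ | a | ⟨-, -, a, -⟩⟩ := hR.field
    exacts [absurd a (by decide), a.2.2.1, absurd a (by simp)]
  have h := e2_of hR.symplecticType hR.absIrred h2 (by simp) (by rw [h4, hR6]; rfl) (Or.inr h4)
  obtain ⟨j, i, hj, -, -, jj⟩ := h.exists_i ((card_center' R).symm.trans h4)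
  obtain ⟨u, v, s, t, g⟩ := h.gen_of_i hj jj
  have hT : ∀ x : GL (Fin 4) F, x ∈ Geo.specialLinear (Fin 4) F ↔ x ∈ (⊤ : Subgroup _) ∧ x.1.det = 1 :=
    fun x => by simp [mem_SL]
  obtain ⟨x, hx⟩ := tv_GL (F := F)
  refine h.iff4 (fun _ => mem_SL.1) hΩ (h.pos2' g (Or.inl rfl) le_top hT ct_SL hj jj)
    ⟨fun hE => by_contra fun e => ?_, fun e => ?_⟩ ⟨fun hE => by_contra fun e => ?_, fun e => ?_⟩
  · have h3 : (3 : F) ≠ 0 := hc Nat.prime_three (show 3 ≠ p by omega)
    obtain ⟨ω, hω⟩ := exists_prim_root (F := F) (r := 3) h3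
    have : p % 3 = 1 := by
      have := mt (Nat.prime_dvd_prime_iff_eq Nat.prime_three Fact.out).1 (show 3 ≠ p by omega); omega
    exact h.not3 h3 hω (ex_SL (by norm_num) (by simp [hF, pow_eq_pow_mod p hω.pow_eq_one, this])
      (by simp [hω.pow_eq_one]) (by simp; linear_combination hω.pow_eq_one) (by simp)) hE
  · exact h.pos3 g (Or.inl rfl) le_top hT ct_SL hj jj (hc Nat.prime_three (show 3 ≠ p by omega)) fun x _ a =>
      sq_of a (E_frob _) (j := 1) (by rw [hF, pow_one]; exact e)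
  · rcases eq_or_ne 5 p with rfl | e5
    · exact h.not_tv (mem_SL.2 hx.det) hx hE
    have h5 : (5 : F) ≠ 0 := hc Nat.prime_five e5
    obtain ⟨ζ, hζ⟩ := exists_prim_root (F := F) (r := 5) h5
    have := mt (Nat.prime_dvd_prime_iff_eq Nat.prime_five Fact.out).1 e5
    rw [ord5] at e
    obtain ⟨a, b, c⟩ := M2_spec hζ (by norm_num)
    exact h.not5 h5 hζ (ex_SL (by norm_num) (M2_pow hζ (by norm_num) (by omega)) a b (by simp [c])) hE
  · rw [ord5] at e
    exact h.pos5 g (Or.inl rfl) le_top hT ct_SL (hc Nat.prime_five (show 5 ≠ p by omega)) fun x _ a =>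
      e.elim (fun e => sq_of a (E_frob _) (j := 1) (by rw [hF, pow_one]; exact e)) fun e =>
        sq_of a (E_frob _) (j := 3) (by rw [hF, Nat.ModEq, Nat.pow_mod, e])

end Cfsg.Agent.S6000
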