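import Mathlib
import Cfsg.Statements.S6001
import Cfsg.Agent.Elu.Nor5

set_option autoImplicit false
set_option backward.isDefEq.respectTransparency false
open scoped MatrixGroups
open Cfsg

namespace Cfsg.Agent.S6001

open Nor Conj

/-- Elements of prime order of PSU_4(p), p ≡ 3 (mod 4), and the normalizer of a 2-group of symplectic type of order 2⁶. Here `T = PSU_4(p)` for a prime `p ≡ 3 (mod 4)`, realised through `SU_4(p)`, the matrices of determinant 1 over the field `F` with `p²` elements preserving the hermitian form `f = Σ uᵢvᵢ^p`; `R` is an absolutely irreducible subgroup of the full unitary group of `f` of order 2⁶ that is a 2-group of symplectic type of exponent 4 with centre of order 4, and `H` is the subgroup of `SU_4(p)` normalizing `R` — a subgroup of type 2⁴.Sp₄(2) (maximality is not assumed). Ω is the set of cosets of `H`, so an element of `T` of prime order `r` (`x ∈ SU_4(p)` with `x^r` scalar, `x` not scalar) fixes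 a point of Ω exactly when some `SU_4(p)`-conjugate of `x` normalizes `R`. Let `r` be a prime dividing the index of `H`. Then every element of `T` of order `r` fixes a point of Ω if and only if `r = 2`, or `r = 3` and `p ≡ 1 (mod 3)`, or `r = 5` and `p ≡ ±2 (mod 5)` (`p` has multiplicative order 4 modulo 5). -/
theorem result {F : Type*} [Field F] [Fintype F] {p : ℕ} [Fact p.Prime] [CharP F p] (hF : Fintype.card F = p ^ 2) (hp4 : p % 4 = 3)
    (R : Subgroup (GL (Fin 4) F)) (hRs : Cfsg.Geo.IsSymplecticTypeGroup 2 R) (hRi : Cfsg.Geo.ActsAbsolutelyIrreducibly (Cfsg.Geo.matrixSet R))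
    (hRU : R ≤ Cfsg.GU 4 F p) (hR6 : Nat.card R = 2 ^ 6) (hRZ : Nat.card (Subgroup.center R) = 4)
    (r : ℕ) [Fact r.Prime]
    (hΩ : r ∣ (Cfsg.Geo.subgroupNormalizer R).relIndex (Cfsg.GU 4 F p ⊓ Cfsg.Geo.specialLinear (Fin 4) F)) :
    (∀ x ∈ Cfsg.GU 4 F p ⊓ Cfsg.Geo.specialLinear (Fin 4) F, (∃ z : F, ((x ^ r : GL (Fin 4) F) : Matrix (Fin 4) (Fin 4) F) = z • (1 : Matrix (Fin 4) (Fin 4) F)) →
      (∀ z : F, (x : Matrix (Fin 4) (Fin 4) F) ≠ z • (1 : Matrix (Fin 4) (Fin 4) F)) →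
      ∃ g ∈ Cfsg.GU 4 F p ⊓ Cfsg.Geo.specialLinear (Fin 4) F, g⁻¹ * x * g ∈ Cfsg.Geo.subgroupNormalizer R) ↔ (r = 2 ∨ (r = 3 ∧ p % 3 = 1) ∨ (r = 5 ∧ orderOf (p : ZMod 5) = 4)) := by
  have hc : ∀ {a : ℕ}, a.Prime → a ≠ p → (a : F) ≠ 0 := fun a b => natCast_ne_zero_of_ne a b
  have h2 : (2 : F) ≠ 0 := hc Nat.prime_two (show 2 ≠ p by omega)
  have hF' := Herm.natCard_of_card hF
  have h := e2_of hRs hRi h2 (by simp) (by rw [hRZ, hR6]; rfl) (Or.inr hRZ)
  obtain ⟨j, i, hj, -, -, jj⟩ := h.exists_i ((card_center' R).symm.trans hRZ)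
  obtain ⟨u, v, s, t, g⟩ := h.gen_of_i hj jj
  have hT : ∀ x : GL (Fin 4) F, x ∈ GU 4 F p ⊓ Geo.specialLinear (Fin 4) F ↔ x ∈ GU 4 F p ∧ x.1.det = 1 :=
    fun x => by simp [mem_SL]
  obtain ⟨x, hx', hx⟩ := tv_GU hF'
  have hU : Adm (GU 4 F p) := Or.inr ⟨_, _, adj_GU hF'⟩
  refine h.iff4 (fun _ a => ((hT _).1 a).2) hΩ (h.pos2' g hU hRU hT (ct_SU hF') hj jj)
    ⟨fun hE => by_contra fun e => ?_, fun e => ?_⟩ ⟨fun hE => by_contra fun e => ?_, fun e => ?_⟩
  · rcases eq_or_ne 3 p with rfl | e3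
    · exact h.not_tv ((hT _).2 ⟨hx', hx.det⟩) hx hE
    have h3 : (3 : F) ≠ 0 := hc Nat.prime_three e3
    obtain ⟨ω, hω⟩ := exists_prim_root (F := F) (r := 3) h3
    have : p % 3 = 2 := by
      have := mt (Nat.prime_dvd_prime_iff_eq Nat.prime_three Fact.out).1 e3; omega
    have b : (ω ^ p)⁻¹ = ω := by
      rw [pow_eq_pow_mod p hω.pow_eq_one, this]
      exact inv_eq_of_mul_eq_one_right (by rw [← pow_succ, hω.pow_eq_one])
    exact h.not3 h3 hω (ex_SU hF h3 (by simp [b])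
      (by simp [hω.pow_eq_one]) (by simp; linear_combination hω.pow_eq_one) (by simp)) hE
  · have h3 : (3 : F) ≠ 0 := hc Nat.prime_three (show 3 ≠ p by omega)
    exact h.pos3 g hU hRU hT (ct_SU hF') hj jj h3 fun x b a =>
      sq_of a (E_GU hF b h3 a) (j := 1) (by rw [pow_one, Nat.ModEq, Nat.mul_mod, e])
  · have e5 : 5 ≠ p := by omega
    have h5 : (5 : F) ≠ 0 := hc Nat.prime_five e5
    obtain ⟨ζ, hζ⟩ := exists_prim_root (F := F) (r := 5) h5
    have := mt (Nat.prime_dvd_prime_iff_eq Nat.prime_five Fact.out).1 e5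
    rw [ord5] at e
    obtain ⟨a, b, c⟩ := M2_spec hζ (by norm_num)
    exact h.not5 h5 hζ (ex_SU hF h5 (by
      conv_rhs => rw [← M2_inv, ← M2_pow (k := p) hζ (by norm_num) (by omega), Multiset.map_map]
      rfl) a b c) hE
  · rw [ord5] at e
    have h5 : (5 : F) ≠ 0 := hc Nat.prime_five (show 5 ≠ p by omega)
    exact h.pos5 g hU hRU hT (ct_SU hF') h5 fun x b a =>
      e.elim (fun e => sq_of a (E_GU hF b.1 h5 a) (j := 3) (by rw [Nat.ModEq, Nat.pow_mod, Nat.mul_mod, e]))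
        fun e => sq_of a (E_GU hF b.1 h5 a) (j := 1) (by rw [pow_one, Nat.ModEq, Nat.mul_mod, e])

end Cfsg.Agent.S6001
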