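import Mathlib
import Cfsg.Statements.S6002
import Cfsg.Agent.Elu.Nor5

set_option autoImplicit false
set_option backward.isDefEq.respectTransparency false
open scoped MatrixGroups
open Cfsg

namespace Cfsg.Agent.S6002

open Nor Conj

/-- Elements of prime order of PSp_4(p), p odd, and the normalizer of an extraspecial 2-group of order 2⁵ of minus type. Here `T = PSp_4(F)` for the field `F` with `p` elements, `p` an odd prime, realised through the matrices preserving the standard alternating form `f`; `R` is an absolutely irreducible subgroup of `T` (it preserves `f`) that is a 2-group of symplectic type of exponent 4, order 2⁵ and centre of order 2, of minus type (no elementary abelian subgroup of order 2³), and `H` is the subgroup of `T` normalizing `R` — a subgroup of type 2^{1+4}.O₄⁻(2) (maximality is not assumed). Ω is the set of cosets of `H` in `T`, so an element of `T` of prime order `r` (`x ∈ T` with `x^r` scalar, `x` not scalar) fixes a point of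 Ω exactly when some `T`-conjugate of `x` normalizes `R`. Let `r` be a prime dividing the index of `H`. Then every element of `T` of order `r` fixes a point of Ω if and only if `r = 2`, or `r = 5` and `p` has multiplicative order 4 modulo 5. -/
theorem result {F : Type*} [Field F] [Fintype F] {p : ℕ} [Fact p.Prime] [CharP F p] (hF : Fintype.card F = p) (hodd : Odd p)
    (R : Subgroup (GL (Fin 2 ⊕ Fin 2) F)) (hRs : Cfsg.Geo.IsSymplecticTypeGroup 2 R) (hRi : Cfsg.Geo.ActsAbsolutelyIrreducibly (Cfsg.Geo.matrixSet R))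
    (hRf : R ≤ Cfsg.spGL 2 F) (hR5 : Nat.card R = 2 ^ 5) (hRZ : Nat.card (Subgroup.center R) = 2) (hRm : Cfsg.Geo.IsOfMinusType 2 R)
    (r : ℕ) [Fact r.Prime]
    (hΩ : r ∣ (Cfsg.Geo.subgroupNormalizer R).relIndex (Cfsg.spGL 2 F)) :
    (∀ x ∈ Cfsg.spGL 2 F, (∃ z : F, ((x ^ r : GL (Fin 2 ⊕ Fin 2) F) : Matrix (Fin 2 ⊕ Fin 2) (Fin 2 ⊕ Fin 2) F) = z • (1 : Matrix (Fin 2 ⊕ Fin 2) (Fin 2 ⊕ Fin 2) F)) →
      (∀ z : F, (x : Matrix (Fin 2 ⊕ Fin 2) (Fin 2 ⊕ Fin 2) F) ≠ z • (1 : Matrix (Fin 2 ⊕ Fin 2) (Fin 2 ⊕ Fin 2) F)) →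
      ∃ g ∈ Cfsg.spGL 2 F, g⁻¹ * x * g ∈ Cfsg.Geo.subgroupNormalizer R) ↔ (r = 2 ∨ (r = 5 ∧ orderOf (p : ZMod 5) = 4)) := by
  have hc : ∀ {a : ℕ}, a.Prime → a ≠ p → (a : F) ≠ 0 := fun a b => natCast_ne_zero_of_ne a b
  have h2 : (2 : F) ≠ 0 := hc Nat.prime_two (by rintro rfl; exact absurd hodd (by decide))
  have h := e2_of hRs hRi h2 (by simp) (by rw [hRZ, hR5]; rfl) (Or.inl hRZ)
  have hm := h.mn_of ((card_center' R).symm.trans hRZ) hRm
  obtain ⟨u, v, s, t, g⟩ := h.gen_of_mn hm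
  have hT : ∀ x, x ∈ spGL 2 F ↔ x ∈ spGL 2 F ∧ x.1.det = 1 := fun x => ⟨fun a => ⟨a, det_sp a⟩, And.left⟩
  obtain ⟨x, hx', hx⟩ := tv_Sp (F := F)
  refine (h.iff4 (P := False) (fun _ => det_sp) hΩ (h.pos2 g hRf hT ct_Sp fun x hx c hc a e e' => ?_)
    ⟨fun hE => ?_, False.elim⟩ ⟨fun hE => by_contra fun e => ?_, fun e => ?_⟩).trans (by rw [and_false, false_or])
  · have := adj_Sp.half h2 hx hc a e
    rw [RingHom.id_apply] at this
    field_simp at this
    obtain rfl : c = 1 := mul_left_cancel₀ (mul_ne_zero h2 h2) (by linear_combination this - e)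
    exact absurd (by linear_combination -e') h2
  · rcases eq_or_ne 3 p with rfl | e3
    · exact h.not_tv hx' hx hE
    have h3 : (3 : F) ≠ 0 := hc Nat.prime_three e3
    obtain ⟨ω, hω⟩ := exists_prim_root (F := F) (r := 3) h3
    have := mt (Nat.prime_dvd_prime_iff_eq Nat.prime_three Fact.out).1 e3
    obtain ⟨a, b, c⟩ := M2_spec hω (by norm_num)
    exact h.not3' g hm h3 hω (ex_Sp h3 (M2_pow hω (by norm_num) (by omega)) (M2_inv _) a b c) hE
  · rcases eq_or_ne 5 p with rfl | e5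
    · exact h.not_tv hx' hx hE
    have h5 : (5 : F) ≠ 0 := hc Nat.prime_five e5
    obtain ⟨ζ, hζ⟩ := exists_prim_root (F := F) (r := 5) h5
    have := mt (Nat.prime_dvd_prime_iff_eq Nat.prime_five Fact.out).1 e5
    rw [ord5] at e
    obtain ⟨a, b, c⟩ := M2_spec hζ (by norm_num)
    exact h.not5 h5 hζ (ex_Sp h5 (M2_pow hζ (by norm_num) (by omega)) (M2_inv _) a b c) hE
  · rw [ord5] at e
    exact h.pos5 g (Or.inr ⟨_, _, adj_Sp⟩) hRf hT ct_Sp (hc Nat.prime_five (show 5 ≠ p by omega)) fun x _ a =>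
      e.elim (fun e => sq_of a (E_frob _) (j := 1) (by rw [hF, pow_one]; exact e)) fun e =>
        sq_of a (E_frob _) (j := 3) (by rw [hF, Nat.ModEq, Nat.pow_mod, e])

end Cfsg.Agent.S6002
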